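-- helper63 library: projective representations with a nondegenerate commutator pairing
-- (the "extraspecial" decomposition of `End M`), add-only once landed.
import Mathlib

set_option autoImplicit false

namespace Cfsg.Agent.Helper63.ProjRep

open Module

universe u v w

/-- Operators `τ g` (`g` in a finite group `Γ`), invertible, multiplying projectively and
commuting up to a nondegenerate bicharacter `β`. -/
structure Data (K : Type u) [Field K] (M : Type v) [AddCommGroup M] [Module K M]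
    (Γ : Type w) [Group Γ] [Fintype Γ] where
  τ : Γ → Module.End K M
  τi : Γ → Module.End K M
  β : Γ → Γ → K
  τ_τi : ∀ g, τ g * τi g = 1
  τi_τ : ∀ g, τi g * τ g = 1
  comm : ∀ g w, τ g * τ w = β g w • (τ w * τ g)
  β_mul_left : ∀ g h w, β (g * h) w = β g w * β h w
  β_mul_right : ∀ g w w', β g (w * w') = β g w * β g w'
  β_ne_zero : ∀ g w, β g w ≠ 0
  nondeg_left : ∀ g, g ≠ 1 → ∃ w, β g w ≠ 1
  nondeg_right : ∀ w, w ≠ 1 → ∃ g, β g w ≠ 1
  proj : ∀ g h, ∃ c : K, c ≠ 0 ∧ τ g * τ h = c • τ (g * h)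
  card_ne_zero : (Fintype.card Γ : K) ≠ 0

section Basic

variable {K : Type u} [Field K] {M : Type v} [AddCommGroup M] [Module K M]
  {Γ : Type w} [Group Γ] [Fintype Γ]

/-- A multiplicative function that is not identically one sums to zero. -/
theorem sum_eq_zero_of_mul (f : Γ → K) (hf : ∀ a b, f (a * b) = f a * f b)
    (h : ∃ a, f a ≠ 1) : ∑ a, f a = 0 := by
  obtain ⟨a, ha⟩ := h
  have h1 : ∑ b, f b = f a * ∑ b, f b := by
    rw [Finset.mul_sum]
    refine (Equiv.sum_comp (Equiv.mulLeft a) f).symm.trans ?_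
    apply Finset.sum_congr rfl
    intro b _
    rw [Equiv.coe_mulLeft, hf]
  have h2 : (f a - 1) * ∑ b, f b = 0 := by
    rw [sub_mul, one_mul, ← h1, sub_self]
  rcases mul_eq_zero.mp h2 with h3 | h3
  · exact absurd (sub_eq_zero.mp h3) ha
  · exact h3

variable (D : Data K M Γ)

theorem Data.β_one_left (w : Γ) : D.β 1 w = 1 := by
  have h := D.β_mul_left 1 1 w
  rw [mul_one] at h
  exact mul_left_cancel₀ (D.β_ne_zero 1 w) (h.symm.trans (mul_one _).symm)

theorem Data.β_one_right (g : Γ) : D.β g 1 = 1 := by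
  have h := D.β_mul_right g 1 1
  rw [mul_one] at h
  exact mul_left_cancel₀ (D.β_ne_zero g 1) (h.symm.trans (mul_one _).symm)

theorem Data.β_inv_left (g w : Γ) : D.β g⁻¹ w = (D.β g w)⁻¹ := by
  have h := D.β_mul_left g⁻¹ g w
  rw [inv_mul_cancel, D.β_one_left] at h
  exact eq_inv_of_mul_eq_one_left h.symm

theorem Data.β_inv_right (g w : Γ) : D.β g w⁻¹ = (D.β g w)⁻¹ := by
  have h := D.β_mul_right g w⁻¹ w
  rw [inv_mul_cancel, D.β_one_right] at h
  exact eq_inv_of_mul_eq_one_left h.symm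

/-- Orthogonality in the first variable. -/
theorem Data.sum_left [DecidableEq Γ] (w w' : Γ) :
    ∑ g, D.β g w' * (D.β g w)⁻¹ = if w = w' then (Fintype.card Γ : K) else 0 := by
  split_ifs with h
  · subst h
    have h1 : ∀ g, D.β g w * (D.β g w)⁻¹ = 1 := fun g => mul_inv_cancel₀ (D.β_ne_zero g w)
    simp [h1]
  · apply sum_eq_zero_of_mul
    · intro a b
      rw [D.β_mul_left, D.β_mul_left, mul_inv]
      ring
    · obtain ⟨g, hg⟩ := D.nondeg_right (w' * w⁻¹) (by
        intro h'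
        exact h (mul_inv_eq_one.mp h').symm)
      refine ⟨g, ?_⟩
      rwa [D.β_mul_right, D.β_inv_right] at hg

/-- Orthogonality in the second variable. -/
theorem Data.sum_right [DecidableEq Γ] (g : Γ) :
    ∑ w, (D.β g w)⁻¹ = if g = 1 then (Fintype.card Γ : K) else 0 := by
  split_ifs with h
  · subst h
    simp [D.β_one_left]
  · apply sum_eq_zero_of_mul
    · intro a b
      rw [D.β_mul_right, mul_inv]
    · obtain ⟨w, hw⟩ := D.nondeg_left g h
      exact ⟨w, fun h' => hw (inv_eq_one.mp h')⟩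

/-- Conjugation by `τ g` as a linear map on `End K M`. -/
def Data.cj (g : Γ) : Module.End K M →ₗ[K] Module.End K M :=
  (LinearMap.mulLeft K (D.τ g)) ∘ₗ (LinearMap.mulRight K (D.τi g))

theorem Data.cj_apply (g : Γ) (e : Module.End K M) : D.cj g e = D.τ g * e * D.τi g := by
  simp [Data.cj, mul_assoc]

theorem Data.τi_mul (g h : Γ) : ∃ c : K, c ≠ 0 ∧ D.τ g * D.τ h = c • D.τ (g * h) ∧
    D.τi h * D.τi g = c⁻¹ • D.τi (g * h) := by
  obtain ⟨c, hc, h1⟩ := D.proj g h
  refine ⟨c, hc, h1, ?_⟩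
  have hAX : (D.τ g * D.τ h) * (D.τi h * D.τi g) = 1 := by
    rw [mul_assoc, ← mul_assoc (D.τ h), D.τ_τi, one_mul, D.τ_τi]
  have hYA : (c⁻¹ • D.τi (g * h)) * (D.τ g * D.τ h) = 1 := by
    rw [h1, smul_mul_smul_comm, inv_mul_cancel₀ hc, D.τi_τ, one_smul]
  calc D.τi h * D.τi g
      = ((c⁻¹ • D.τi (g * h)) * (D.τ g * D.τ h)) * (D.τi h * D.τi g) := by rw [hYA, one_mul]
    _ = (c⁻¹ • D.τi (g * h)) * ((D.τ g * D.τ h) * (D.τi h * D.τi g)) := by rw [mul_assoc]
    _ = c⁻¹ • D.τi (g * h) := by rw [hAX, mul_one]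

theorem Data.cj_mul (g h : Γ) (e : Module.End K M) : D.cj g (D.cj h e) = D.cj (g * h) e := by
  obtain ⟨c, hc, h1, h2⟩ := D.τi_mul g h
  rw [D.cj_apply, D.cj_apply, D.cj_apply]
  calc D.τ g * (D.τ h * e * D.τi h) * D.τi g
      = (D.τ g * D.τ h) * e * (D.τi h * D.τi g) := by simp only [mul_assoc]
    _ = (c • D.τ (g * h)) * e * (c⁻¹ • D.τi (g * h)) := by rw [h1, h2]
    _ = D.τ (g * h) * e * D.τi (g * h) := by
        simp only [smul_mul_assoc, mul_smul_comm, smul_smul, inv_mul_cancel₀ hc, one_smul]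

theorem Data.cj_injective (g : Γ) : Function.Injective (D.cj g) := by
  intro e e' h
  rw [D.cj_apply, D.cj_apply] at h
  calc e = D.τi g * (D.τ g * e * D.τi g) * D.τ g := by
        rw [← mul_assoc, ← mul_assoc, D.τi_τ, one_mul, mul_assoc, D.τi_τ, mul_one]
    _ = D.τi g * (D.τ g * e' * D.τi g) * D.τ g := by rw [h]
    _ = e' := by
        rw [← mul_assoc, ← mul_assoc, D.τi_τ, one_mul, mul_assoc, D.τi_τ, mul_one]

theorem Data.cj_one (e : Module.End K M) : D.cj 1 e = e := by
  apply D.cj_injective 1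
  rw [D.cj_mul, mul_one]

/-- The commutant of all the `τ g`. -/
def Data.comm1 : Submodule K (Module.End K M) where
  carrier := {c | ∀ g, D.τ g * c = c * D.τ g}
  add_mem' := by
    intro a b ha hb g
    rw [mul_add, add_mul, ha g, hb g]
  zero_mem' := by
    intro g
    simp
  smul_mem' := by
    intro k a ha g
    rw [mul_smul_comm, smul_mul_assoc, ha g]

theorem Data.mem_comm1 {c : Module.End K M} : c ∈ D.comm1 ↔ ∀ g, D.τ g * c = c * D.τ g :=
  Iff.rfl

theorem Data.comm1_τi {c : Module.End K M} (hc : c ∈ D.comm1) (g : Γ) :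
    D.τi g * c = c * D.τi g := by
  calc D.τi g * c = D.τi g * c * (D.τ g * D.τi g) := by rw [D.τ_τi, mul_one]
    _ = D.τi g * (c * D.τ g) * D.τi g := by simp only [mul_assoc]
    _ = D.τi g * (D.τ g * c) * D.τi g := by rw [hc g]
    _ = c * D.τi g := by rw [← mul_assoc, D.τi_τ, one_mul]

/-- The projection of `End K M` onto `τ w * comm1`. -/
def Data.P (w : Γ) : Module.End K M →ₗ[K] Module.End K M :=
  (Fintype.card Γ : K)⁻¹ • ∑ g, (D.β g w)⁻¹ • D.cj g

theorem Data.P_apply (w : Γ) (e : Module.End K M) :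
    D.P w e = (Fintype.card Γ : K)⁻¹ • ∑ g, (D.β g w)⁻¹ • D.cj g e := by
  simp [Data.P, LinearMap.sum_apply]

theorem Data.cj_P (h w : Γ) (e : Module.End K M) : D.cj h (D.P w e) = D.β h w • D.P w e := by
  calc D.cj h (D.P w e)
      = (Fintype.card Γ : K)⁻¹ • ∑ g, (D.β g w)⁻¹ • D.cj (h * g) e := by
        rw [D.P_apply, map_smul, map_sum]
        congr 1
        apply Finset.sum_congr rfl
        intro g _
        rw [map_smul, D.cj_mul]
    _ = (Fintype.card Γ : K)⁻¹ • ∑ g, (D.β h w * (D.β g w)⁻¹) • D.cj g e := by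
        congr 1
        refine Eq.trans ?_ (Equiv.sum_comp (Equiv.mulLeft h)
          (fun g => (D.β h w * (D.β g w)⁻¹) • D.cj g e))
        apply Finset.sum_congr rfl
        intro g _
        simp only [Equiv.coe_mulLeft]
        rw [D.β_mul_left, mul_inv, ← mul_assoc, mul_inv_cancel₀ (D.β_ne_zero h w), one_mul]
    _ = D.β h w • D.P w e := by
        have h1 : D.β h w • ∑ g, (D.β g w)⁻¹ • D.cj g e =
            ∑ g, (D.β h w * (D.β g w)⁻¹) • D.cj g e := by
          rw [Finset.smul_sum]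
          apply Finset.sum_congr rfl
          intro g _
          rw [smul_smul]
        rw [D.P_apply, smul_comm, h1]

theorem Data.sum_P (e : Module.End K M) : ∑ w, D.P w e = e := by
  classical
  simp only [D.P_apply]
  rw [← Finset.smul_sum, Finset.sum_comm]
  have h1 : ∀ g, ∑ w, (D.β g w)⁻¹ • D.cj g e =
      (if g = 1 then (Fintype.card Γ : K) else 0) • D.cj g e := by
    intro g
    rw [← Finset.sum_smul, D.sum_right]
  simp only [h1]
  rw [Finset.sum_eq_single 1]
  · rw [if_pos rfl, D.cj_one, smul_smul, inv_mul_cancel₀ D.card_ne_zero, one_smul]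
  · intro g _ hg
    rw [if_neg hg, zero_smul]
  · intro h
    exact absurd (Finset.mem_univ 1) h

theorem Data.cj_mul_comm1 (g w' : Γ) {c : Module.End K M} (hc : c ∈ D.comm1) :
    D.cj g (D.τ w' * c) = D.β g w' • (D.τ w' * c) := by
  rw [D.cj_apply]
  calc D.τ g * (D.τ w' * c) * D.τi g = (D.τ g * D.τ w') * c * D.τi g := by simp only [mul_assoc]
    _ = (D.β g w' • (D.τ w' * D.τ g)) * c * D.τi g := by rw [D.comm]
    _ = D.β g w' • (D.τ w' * (D.τ g * c) * D.τi g) := by simp only [smul_mul_assoc, mul_assoc]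
    _ = D.β g w' • (D.τ w' * (c * D.τ g) * D.τi g) := by rw [hc g]
    _ = D.β g w' • (D.τ w' * c) := by rw [mul_assoc, mul_assoc, D.τ_τi, mul_one]

theorem Data.P_mul_comm1 [DecidableEq Γ] (w w' : Γ) {c : Module.End K M} (hc : c ∈ D.comm1) :
    D.P w (D.τ w' * c) = if w = w' then D.τ w' * c else 0 := by
  rw [D.P_apply]
  have h1 : ∑ g, (D.β g w)⁻¹ • D.cj g (D.τ w' * c) =
      (∑ g, D.β g w' * (D.β g w)⁻¹) • (D.τ w' * c) := by
    rw [Finset.sum_smul]
    apply Finset.sum_congr rfl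
    intro g _
    rw [D.cj_mul_comm1 g w' hc, smul_smul, mul_comm]
  rw [h1, D.sum_left]
  split_ifs with h
  · rw [smul_smul, inv_mul_cancel₀ D.card_ne_zero, one_smul]
  · rw [zero_smul, smul_zero]

theorem Data.τi_mul_P_mem (w : Γ) (e : Module.End K M) : D.τi w * D.P w e ∈ D.comm1 := by
  intro h
  have h1 : D.τ h * D.P w e = D.β h w • (D.P w e * D.τ h) := by
    have h0 := D.cj_P h w e
    rw [D.cj_apply] at h0
    calc D.τ h * D.P w e = (D.τ h * D.P w e * D.τi h) * D.τ h := by
          rw [mul_assoc, D.τi_τ, mul_one]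
      _ = (D.β h w • D.P w e) * D.τ h := by rw [h0]
      _ = D.β h w • (D.P w e * D.τ h) := by rw [smul_mul_assoc]
  have h2 : D.τ h * D.τi w = (D.β h w)⁻¹ • (D.τi w * D.τ h) := by
    have h3 : D.τi w * D.τ h = D.β h w • (D.τ h * D.τi w) := by
      calc D.τi w * D.τ h = D.τi w * (D.τ h * D.τ w) * D.τi w := by
            rw [mul_assoc, mul_assoc, D.τ_τi, mul_one]
        _ = D.τi w * (D.β h w • (D.τ w * D.τ h)) * D.τi w := by rw [D.comm]
        _ = D.β h w • (D.τ h * D.τi w) := by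
            rw [mul_smul_comm, smul_mul_assoc, ← mul_assoc, D.τi_τ, one_mul]
    rw [h3, smul_smul, inv_mul_cancel₀ (D.β_ne_zero h w), one_smul]
  calc D.τ h * (D.τi w * D.P w e) = (D.τ h * D.τi w) * D.P w e := by rw [mul_assoc]
    _ = (D.β h w)⁻¹ • (D.τi w * (D.τ h * D.P w e)) := by rw [h2, smul_mul_assoc, mul_assoc]
    _ = (D.β h w)⁻¹ • (D.τi w * (D.β h w • (D.P w e * D.τ h))) := by rw [h1]
    _ = D.τi w * D.P w e * D.τ h := by
        rw [mul_smul_comm, smul_smul, inv_mul_cancel₀ (D.β_ne_zero h w), one_smul, mul_assoc]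

/-- The coordinates of `e` in the decomposition `End K M = ⨁ τ w * comm1`. -/
noncomputable def Data.Φ : Module.End K M →ₗ[K] (Γ → ↥D.comm1) :=
  LinearMap.pi (fun w => ((LinearMap.mulLeft K (D.τi w)) ∘ₗ (D.P w)).codRestrict D.comm1
    (fun e => by simpa using D.τi_mul_P_mem w e))

theorem Data.Φ_apply (e : Module.End K M) (w : Γ) :
    ((D.Φ e w : ↥D.comm1) : Module.End K M) = D.τi w * D.P w e := rfl

/-- The inverse of `Φ`. -/
noncomputable def Data.Ψ : (Γ → ↥D.comm1) →ₗ[K] Module.End K M :=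
  ∑ w, (LinearMap.mulLeft K (D.τ w)) ∘ₗ D.comm1.subtype ∘ₗ (LinearMap.proj w)

theorem Data.Ψ_apply (c : Γ → ↥D.comm1) :
    D.Ψ c = ∑ w, D.τ w * (c w : Module.End K M) := by
  simp [Data.Ψ, LinearMap.sum_apply]

theorem Data.Ψ_Φ (e : Module.End K M) : D.Ψ (D.Φ e) = e := by
  rw [D.Ψ_apply]
  have h1 : ∀ w, D.τ w * ((D.Φ e w : ↥D.comm1) : Module.End K M) = D.P w e := by
    intro w
    rw [D.Φ_apply, ← mul_assoc, D.τ_τi, one_mul]
  simp only [h1]
  exact D.sum_P e

theorem Data.Φ_Ψ (c : Γ → ↥D.comm1) : D.Φ (D.Ψ c) = c := by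
  classical
  funext w
  apply Subtype.ext
  rw [D.Φ_apply, D.Ψ_apply, map_sum]
  have h1 : ∀ w', D.P w (D.τ w' * (c w' : Module.End K M)) =
      if w = w' then D.τ w' * (c w' : Module.End K M) else 0 :=
    fun w' => D.P_mul_comm1 w w' (c w').2
  simp only [h1]
  rw [Finset.sum_ite_eq, if_pos (Finset.mem_univ w), ← mul_assoc, D.τi_τ, one_mul]

theorem Data.finrank_end [FiniteDimensional K M] :
    finrank K (Module.End K M) = Fintype.card Γ * finrank K ↥D.comm1 := by
  have e : Module.End K M ≃ₗ[K] (Γ → ↥D.comm1) :=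
    LinearEquiv.ofLinearMap D.Φ D.Ψ (LinearMap.ext D.Φ_Ψ) (LinearMap.ext D.Ψ_Φ)
  rw [e.finrank_eq, Module.finrank_pi_fintype]
  simp

end Basic

section Restrict

variable {K : Type u} [Field K] {M : Type v} [AddCommGroup M] [Module K M]
  {Γ : Type w} [Group Γ] [Fintype Γ] (D : Data K M Γ)

/-- Restriction of the data to an invariant subspace. -/
def Data.restrict (W : Submodule K M) (h1 : ∀ g, ∀ v ∈ W, D.τ g v ∈ W)
    (h2 : ∀ g, ∀ v ∈ W, D.τi g v ∈ W) : Data K ↥W Γ where
  τ := fun g => (D.τ g).restrict (h1 g)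
  τi := fun g => (D.τi g).restrict (h2 g)
  β := D.β
  τ_τi := by
    intro g
    refine LinearMap.ext fun v => Subtype.ext ?_
    exact LinearMap.congr_fun (D.τ_τi g) (v : M)
  τi_τ := by
    intro g
    refine LinearMap.ext fun v => Subtype.ext ?_
    exact LinearMap.congr_fun (D.τi_τ g) (v : M)
  comm := by
    intro g w
    refine LinearMap.ext fun v => Subtype.ext ?_
    exact LinearMap.congr_fun (D.comm g w) (v : M)
  β_mul_left := D.β_mul_left
  β_mul_right := D.β_mul_right
  β_ne_zero := D.β_ne_zero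
  nondeg_left := D.nondeg_left
  nondeg_right := D.nondeg_right
  proj := by
    intro g h
    obtain ⟨c, hc, h3⟩ := D.proj g h
    refine ⟨c, hc, ?_⟩
    refine LinearMap.ext fun v => Subtype.ext ?_
    exact LinearMap.congr_fun h3 (v : M)
  card_ne_zero := D.card_ne_zero

theorem Data.exists_minimal_invariant [FiniteDimensional K M] [Nontrivial M] :
    ∃ W : Submodule K M, W ≠ ⊥ ∧ (∀ g, ∀ v ∈ W, D.τ g v ∈ W) ∧ (∀ g, ∀ v ∈ W, D.τi g v ∈ W) ∧
      ∀ U : Submodule K M, U ≤ W → U ≠ ⊥ → (∀ g, ∀ v ∈ U, D.τ g v ∈ U) →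
        (∀ g, ∀ v ∈ U, D.τi g v ∈ U) → U = W := by
  classical
  have hex : ∃ n, ∃ W : Submodule K M, W ≠ ⊥ ∧ (∀ g, ∀ v ∈ W, D.τ g v ∈ W) ∧
      (∀ g, ∀ v ∈ W, D.τi g v ∈ W) ∧ finrank K W = n :=
    ⟨finrank K (⊤ : Submodule K M), ⊤, top_ne_bot, fun _ _ _ => trivial, fun _ _ _ => trivial,
      rfl⟩
  obtain ⟨W, hW0, hW1, hW2, hWn⟩ := Nat.find_spec hex
  refine ⟨W, hW0, hW1, hW2, ?_⟩
  intro U hUW hU0 hU1 hU2
  have hle : Nat.find hex ≤ finrank K U := Nat.find_min' hex ⟨U, hU0, hU1, hU2, rfl⟩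
  exact Submodule.eq_of_le_of_finrank_le hUW (by rw [hWn]; exact hle)

/-- Schur's lemma: if there is no proper invariant subspace, the commutant is the scalars. -/
theorem Data.finrank_comm1_of_minimal [IsAlgClosed K] [FiniteDimensional K M] [Nontrivial M]
    (hmin : ∀ U : Submodule K M, U ≠ ⊥ → (∀ g, ∀ v ∈ U, D.τ g v ∈ U) →
      (∀ g, ∀ v ∈ U, D.τi g v ∈ U) → U = ⊤) :
    finrank K ↥D.comm1 = 1 := by
  have hsc : ∀ c ∈ D.comm1, ∃ μ : K, c = μ • (1 : Module.End K M) := by
    intro c hc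
    obtain ⟨μ, hμ⟩ := Module.End.exists_eigenvalue c
    refine ⟨μ, ?_⟩
    have hU : Module.End.eigenspace c μ = ⊤ := by
      apply hmin
      · exact hμ
      · intro g v hv
        rw [Module.End.mem_eigenspace_iff] at hv ⊢
        calc c (D.τ g v) = D.τ g (c v) := (LinearMap.congr_fun (hc g) v).symm
          _ = μ • D.τ g v := by rw [hv, map_smul]
      · intro g v hv
        rw [Module.End.mem_eigenspace_iff] at hv ⊢
        calc c (D.τi g v) = D.τi g (c v) := (LinearMap.congr_fun (D.comm1_τi hc g) v).symm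
          _ = μ • D.τi g v := by rw [hv, map_smul]
    apply LinearMap.ext
    intro v
    have hv : v ∈ Module.End.eigenspace c μ := by rw [hU]; trivial
    rw [Module.End.mem_eigenspace_iff] at hv
    rw [hv]
    rfl
  have h1 : D.comm1 = K ∙ (1 : Module.End K M) := by
    apply le_antisymm
    · intro c hc
      obtain ⟨μ, rfl⟩ := hsc c hc
      exact Submodule.smul_mem _ _ (Submodule.mem_span_singleton_self _)
    · rw [Submodule.span_singleton_le_iff_mem]
      intro g
      rw [mul_one, one_mul]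
  rw [h1]
  exact finrank_span_singleton one_ne_zero

include D in
/-- The number of operators is a perfect square (the square of the dimension of a minimal
invariant subspace). -/
theorem Data.exists_card_eq_sq [IsAlgClosed K] [FiniteDimensional K M] [Nontrivial M] :
    ∃ d : ℕ, Fintype.card Γ = d ^ 2 := by
  obtain ⟨W, hW0, hW1, hW2, hWmin⟩ := D.exists_minimal_invariant
  haveI : Nontrivial ↥W := Submodule.nontrivial_iff_ne_bot.mpr hW0
  have hmin' : ∀ U : Submodule K ↥W, U ≠ ⊥ → (∀ g, ∀ v ∈ U, (D.restrict W hW1 hW2).τ g v ∈ U) →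
      (∀ g, ∀ v ∈ U, (D.restrict W hW1 hW2).τi g v ∈ U) → U = ⊤ := by
    intro U hU0 hU1 hU2
    have h := hWmin (U.map W.subtype) (by
        intro x hx
        obtain ⟨y, _, rfl⟩ := hx
        exact y.2) (by
        intro hbot
        obtain ⟨y, hy, hy0⟩ := Submodule.exists_mem_ne_zero_of_ne_bot hU0
        have h1 : (y : M) ∈ U.map W.subtype := ⟨y, hy, rfl⟩
        rw [hbot, Submodule.mem_bot] at h1
        exact hy0 (Subtype.ext h1)) (by
        intro g v hv
        obtain ⟨y, hy, rfl⟩ := hv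
        exact ⟨(D.restrict W hW1 hW2).τ g y, hU1 g y hy, rfl⟩) (by
        intro g v hv
        obtain ⟨y, hy, rfl⟩ := hv
        exact ⟨(D.restrict W hW1 hW2).τi g y, hU2 g y hy, rfl⟩)
    rw [eq_top_iff]
    intro y _
    have hy : (y : M) ∈ U.map W.subtype := by rw [h]; exact y.2
    obtain ⟨y', hy', hyy⟩ := hy
    have h3 : y' = y := Subtype.ext hyy
    rwa [← h3]
  have h1 := (D.restrict W hW1 hW2).finrank_comm1_of_minimal hmin'
  have h2 := (D.restrict W hW1 hW2).finrank_end
  rw [h1, mul_one, Module.finrank_linearMap] at h2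
  exact ⟨finrank K W, by rw [← h2, sq]⟩

end Restrict

section Perm

/-- Orbit representatives for a permutation of prime-like order acting freely off a fixed
point. -/
theorem exists_reps {Γ : Type w} [Group Γ] [Fintype Γ] (σ : Equiv.Perm Γ) (r : ℕ) (hr : 0 < r)
    (hσr : σ ^ r = 1) (hσ1 : σ 1 = 1)
    (hfree : ∀ w, w ≠ 1 → ∀ i, 0 < i → i < r → (σ ^ i) w ≠ w) :
    ∃ S : Finset Γ, (1 : Γ) ∉ S ∧ (∀ w, w ≠ 1 → ∃ a ∈ S, ∃ i : ℕ, (σ ^ i) a = w) ∧
      S.card * r + 1 = Fintype.card Γ := by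
  classical
  let P : Set (Finset Γ) :=
    {S | (1 : Γ) ∉ S ∧ ∀ a ∈ S, ∀ b ∈ S, ∀ i, 0 < i → i < r → (σ ^ i) a ≠ b}
  have hP : P.Nonempty := ⟨∅, by simp, by simp⟩
  obtain ⟨S, hSP, hSmax⟩ := (Set.toFinite P).exists_maximal hP
  obtain ⟨hS1, hS2⟩ := hSP
  have hpow1 : ∀ i : ℕ, (σ ^ i) 1 = 1 := by
    intro i
    induction i with
    | zero => rfl
    | succ i ih => rw [pow_succ', Equiv.Perm.mul_apply, ih, hσ1]
  have hcov : ∀ w, w ≠ 1 → ∃ a ∈ S, ∃ i : ℕ, (σ ^ i) a = w := by
    intro w hw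
    by_contra hno
    push Not at hno
    have hins : insert w S ∈ P := by
      refine ⟨?_, ?_⟩
      · rw [Finset.mem_insert]
        rintro (h | h)
        · exact hw h.symm
        · exact hS1 h
      · intro a ha b hb i hi0 hir hab
        rw [Finset.mem_insert] at ha hb
        rcases ha with ha | ha <;> rcases hb with hb | hb
        · rw [ha, hb] at hab
          exact hfree w hw i hi0 hir hab
        · rw [ha] at hab
          apply hno b hb (r - i)
          rw [← hab, ← Equiv.Perm.mul_apply, ← pow_add, Nat.sub_add_cancel hir.le, hσr]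
          rfl
        · rw [hb] at hab
          exact hno a ha i hab
        · exact hS2 a ha b hb i hi0 hir hab
    have hle : S ≤ insert w S := Finset.subset_insert w S
    have h1 := hSmax hins hle
    have hwS : w ∈ S := h1 (Finset.mem_insert_self w S)
    exact hno w hwS 0 rfl
  have key : ∀ a ∈ S, ∀ b ∈ S, ∀ i j : ℕ, i < j → j < r → (σ ^ i) a ≠ (σ ^ j) b := by
    intro a ha b hb i j hij hjr h
    have h1 : (σ ^ (j - i)) b = a := by
      apply (σ ^ i).injective
      rw [← Equiv.Perm.mul_apply, ← pow_add, Nat.add_sub_cancel' hij.le]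
      exact h.symm
    exact hS2 b hb a ha (j - i) (by omega) (by omega) h1
  refine ⟨S, hS1, hcov, ?_⟩
  have hcard : (S ×ˢ Finset.range r).card = (Finset.univ.erase (1 : Γ)).card := by
    apply Finset.card_bij (fun p _ => (σ ^ p.2) p.1)
    · intro p hp
      rw [Finset.mem_product] at hp
      rw [Finset.mem_erase]
      refine ⟨?_, Finset.mem_univ _⟩
      intro h
      have h1 := (σ ^ p.2).injective (h.trans (hpow1 p.2).symm)
      exact hS1 (h1 ▸ hp.1)
    · intro p hp p' hp' h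
      rw [Finset.mem_product, Finset.mem_range] at hp hp'
      rcases lt_trichotomy p.2 p'.2 with h1 | h1 | h1
      · exact absurd h (key p.1 hp.1 p'.1 hp'.1 p.2 p'.2 h1 hp'.2)
      · have h2 : p.1 = p'.1 := by
          apply (σ ^ p.2).injective
          rw [h, h1]
        exact Prod.ext h2 h1
      · exact absurd h.symm (key p'.1 hp'.1 p.1 hp.1 p'.2 p.2 h1 hp.2)
    · intro w hw
      rw [Finset.mem_erase] at hw
      obtain ⟨a, ha, i, hi⟩ := hcov w hw.1
      refine ⟨(a, i % r), ?_, ?_⟩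
      · rw [Finset.mem_product, Finset.mem_range]
        exact ⟨ha, Nat.mod_lt _ hr⟩
      · have h1 : σ ^ i = σ ^ (i % r) := by
          conv_lhs => rw [← Nat.div_add_mod i r, pow_add, pow_mul, hσr, one_pow, one_mul]
        show (σ ^ (i % r)) a = w
        rw [← h1, hi]
  rw [Finset.card_product, Finset.card_range, Finset.card_erase_of_mem (Finset.mem_univ _),
    Finset.card_univ] at hcard
  have hpos : 0 < Fintype.card Γ := Fintype.card_pos
  omega

end Perm

section Cent

variable {K : Type u} [Field K] {M : Type v} [AddCommGroup M] [Module K M]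

/-- The centralizer of an endomorphism. -/
def cent (ξ : Module.End K M) : Submodule K (Module.End K M) where
  carrier := {e | ξ * e = e * ξ}
  add_mem' := by
    intro a b ha hb
    have ha' : ξ * a = a * ξ := ha
    have hb' : ξ * b = b * ξ := hb
    show ξ * (a + b) = (a + b) * ξ
    rw [mul_add, add_mul, ha', hb']
  zero_mem' := by
    show ξ * 0 = 0 * ξ
    rw [mul_zero, zero_mul]
  smul_mem' := by
    intro k a ha
    have ha' : ξ * a = a * ξ := ha
    show ξ * (k • a) = (k • a) * ξ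
    rw [mul_smul_comm, smul_mul_assoc, ha']

theorem mem_cent {ξ e : Module.End K M} : e ∈ cent ξ ↔ ξ * e = e * ξ := Iff.rfl

/-- An endomorphism of finite order prime to the characteristic has a basis of eigenvectors. -/
theorem exists_eigenbasis [IsAlgClosed K] [FiniteDimensional K M] (ξ : Module.End K M) (r : ℕ)
    (hξr : ξ ^ r = 1) (hrK : (r : K) ≠ 0) :
    ∃ (ι : Type u) (_ : Fintype ι) (b : Basis ι K M) (ev : ι → K),
      ∀ i, ξ (b i) = ev i • b i := by
  classical
  have hss : ξ.IsSemisimple := by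
    apply Module.End.isSemisimple_of_squarefree_aeval_eq_zero
      (Polynomial.separable_X_pow_sub_C (1 : K) hrK one_ne_zero).squarefree
    simp [hξr]
  have htop := hss.iSup_eigenspace_eq_top
  have hind := Module.End.eigenspaces_iSupIndep ξ
  have hint := DirectSum.isInternal_submodule_of_iSupIndep_of_iSup_eq_top hind htop
  let bμ : ∀ μ : K, Basis (Fin (finrank K (Module.End.eigenspace ξ μ))) K
      (Module.End.eigenspace ξ μ) := fun μ => Module.finBasis K _
  exact ⟨_, FiniteDimensional.fintypeBasisIndex (hint.collectedBasis bμ), hint.collectedBasis bμ,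
    fun a => a.1, fun a => Module.End.mem_eigenspace_iff.mp (hint.collectedBasis_mem bμ a)⟩

/-- Lower bound for the dimension of the centralizer of an endomorphism of order dividing `r`
without eigenvalue one. -/
theorem sq_finrank_le_cent [IsAlgClosed K] [FiniteDimensional K M] (ξ : Module.End K M) (r : ℕ)
    (hr : 0 < r) (hξr : ξ ^ r = 1) (hrK : (r : K) ≠ 0) (hfix : ∀ v, ξ v = v → v = 0) :
    (finrank K M) ^ 2 ≤ (r - 1) * finrank K ↥(cent ξ) := by
  classical
  obtain ⟨ι, _, b, ev, hb⟩ := exists_eigenbasis ξ r hξr hrK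
  have hb0 : ∀ a, b a ≠ 0 := fun a => b.ne_zero a
  have hev1 : ∀ a, ev a ≠ 1 := by
    intro a h1
    apply hb0 a
    apply hfix
    rw [hb, h1, one_smul]
  have hevr : ∀ a, ev a ^ r = 1 := by
    intro a
    have h0 : ∀ n : ℕ, (ξ ^ n) (b a) = ev a ^ n • b a := by
      intro n
      induction n with
      | zero => simp
      | succ n ih => rw [pow_succ', Module.End.mul_apply, ih, map_smul, hb, smul_smul, pow_succ]
    have h1 := h0 r
    rw [hξr, Module.End.one_apply] at h1
    have h2 : (ev a ^ r - 1) • b a = 0 := by rw [sub_smul, one_smul, ← h1, sub_self]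
    rcases smul_eq_zero.mp h2 with h3 | h3
    · exact sub_eq_zero.mp h3
    · exact absurd h3 (hb0 a)
  let T : Finset K := (Polynomial.nthRootsFinset r (1 : K)).erase 1
  have hT : ∀ a : ι, ev a ∈ T := by
    intro a
    rw [Finset.mem_erase, Polynomial.mem_nthRootsFinset hr]
    exact ⟨hev1 a, hevr a⟩
  have hTcard : T.card ≤ r - 1 := by
    have h1 : (1 : K) ∈ Polynomial.nthRootsFinset r (1 : K) := by
      rw [Polynomial.mem_nthRootsFinset hr]
      exact one_pow r
    rw [Finset.card_erase_of_mem h1]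
    have h2 : (Polynomial.nthRootsFinset r (1 : K)).card ≤ r :=
      (Multiset.toFinset_card_le _).trans (Polynomial.card_nthRoots r 1)
    omega
  let d : K → ℕ := fun t => (Finset.univ.filter (fun a : ι => ev a = t)).card
  have hD : finrank K M = ∑ t ∈ T, d t := by
    rw [Module.finrank_eq_card_basis b, ← Finset.card_univ]
    exact Finset.card_eq_sum_card_fiberwise (fun a _ => hT a)
  let S : Finset (ι × ι) := Finset.univ.filter (fun p => ev p.1 = ev p.2)
  have hS : S.card = ∑ t ∈ T, d t ^ 2 := by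
    rw [Finset.card_eq_sum_card_fiberwise (f := fun p : ι × ι => ev p.1) (t := T)
      (fun p _ => hT p.1)]
    apply Finset.sum_congr rfl
    intro t _
    have h1 : S.filter (fun p => ev p.1 = t) = (Finset.univ.filter (fun a : ι => ev a = t)) ×ˢ
        (Finset.univ.filter (fun a : ι => ev a = t)) := by
      ext p
      simp only [S, Finset.mem_filter, Finset.mem_univ, true_and, Finset.mem_product]
      constructor
      · rintro ⟨h1, h2⟩
        exact ⟨h2, h1 ▸ h2⟩
      · rintro ⟨h1, h2⟩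
        exact ⟨h1.trans h2.symm, h1⟩
    rw [h1, Finset.card_product, sq]
  have hmem : ∀ p : ι × ι, p ∈ S → b.linearMap b p ∈ cent ξ := by
    intro p hp
    have hp' : ev p.1 = ev p.2 := (Finset.mem_filter.mp hp).2
    rw [mem_cent]
    apply b.ext
    intro k
    show ξ ((b.linearMap b p) (b k)) = (b.linearMap b p) (ξ (b k))
    rw [hb k, map_smul, Module.Basis.linearMap_apply_apply]
    split_ifs with h
    · rw [hb, hp', h]
    · rw [map_zero, smul_zero]
  have hli : LinearIndependent K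
      (fun p : ↥S => (⟨b.linearMap b p.1, hmem p.1 p.2⟩ : ↥(cent ξ))) := by
    have h1 : LinearIndependent K (fun p : ↥S => b.linearMap b p.1) :=
      (b.linearMap b).linearIndependent.comp (fun p : ↥S => p.1) Subtype.val_injective
    exact LinearIndependent.of_comp (cent ξ).subtype h1
  have hcard := hli.fintype_card_le_finrank
  rw [Fintype.card_coe] at hcard
  calc (finrank K M) ^ 2 = (∑ t ∈ T, d t) ^ 2 := by rw [hD]
    _ ≤ T.card * ∑ t ∈ T, d t ^ 2 := sq_sum_le_card_mul_sum_sq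
    _ ≤ (r - 1) * S.card := by rw [hS]; exact Nat.mul_le_mul_right _ hTcard
    _ ≤ (r - 1) * finrank K ↥(cent ξ) := Nat.mul_le_mul_left _ hcard

end Cent

section Fixed

variable {K : Type u} [Field K] {M : Type v} [AddCommGroup M] [Module K M]
  {Γ : Type w} [Group Γ] [Fintype Γ]

theorem Data.conj_mem_comm1 (D : Data K M Γ) (ξ ξi : Module.End K M)
    (hξ' : ξi * ξ = 1) (σ : Equiv.Perm Γ) (s : Γ → K) (hs0 : ∀ w, s w ≠ 0)
    (hs : ∀ w, ξ * D.τ w * ξi = s w • D.τ (σ w)) {c : Module.End K M} (hc : c ∈ D.comm1) :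
    ξ * c * ξi ∈ D.comm1 := by
  intro h
  have h1 : D.τ h = (s (σ.symm h))⁻¹ • (ξ * D.τ (σ.symm h) * ξi) := by
    rw [hs, Equiv.apply_symm_apply, smul_smul, inv_mul_cancel₀ (hs0 _), one_smul]
  rw [h1]
  have h2 := hc (σ.symm h)
  calc ((s (σ.symm h))⁻¹ • (ξ * D.τ (σ.symm h) * ξi)) * (ξ * c * ξi)
      = (s (σ.symm h))⁻¹ • (ξ * D.τ (σ.symm h) * (ξi * ξ) * c * ξi) := by
        simp only [smul_mul_assoc, mul_assoc]
    _ = (s (σ.symm h))⁻¹ • (ξ * (D.τ (σ.symm h) * c) * ξi) := by
        rw [hξ', mul_one]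
        simp only [mul_assoc]
    _ = (s (σ.symm h))⁻¹ • (ξ * (c * D.τ (σ.symm h)) * ξi) := by rw [h2]
    _ = (s (σ.symm h))⁻¹ • (ξ * c * (ξi * ξ) * D.τ (σ.symm h) * ξi) := by
        rw [hξ', mul_one]
        simp only [mul_assoc]
    _ = (ξ * c * ξi) * ((s (σ.symm h))⁻¹ • (ξ * D.τ (σ.symm h) * ξi)) := by
        simp only [mul_smul_comm, mul_assoc]

theorem Data.Φ_sigma (D : Data K M Γ) (ξ ξi : Module.End K M) (hξ : ξ * ξi = 1)
    (hξ' : ξi * ξ = 1) (σ : Equiv.Perm Γ) (s : Γ → K) (hs0 : ∀ w, s w ≠ 0)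
    (hs : ∀ w, ξ * D.τ w * ξi = s w • D.τ (σ w)) (e : Module.End K M) (he : ξ * e = e * ξ)
    (w : Γ) :
    ((D.Φ e (σ w) : ↥D.comm1) : Module.End K M) =
      s w • (ξ * ((D.Φ e w : ↥D.comm1) : Module.End K M) * ξi) := by
  classical
  let c' : Γ → ↥D.comm1 := fun v =>
    ⟨s (σ.symm v) • (ξ * ((D.Φ e (σ.symm v) : ↥D.comm1) : Module.End K M) * ξi),
      D.comm1.smul_mem _ (D.conj_mem_comm1 ξ ξi hξ' σ s hs0 hs (D.Φ e (σ.symm v)).2)⟩
  have hc' : ∀ v, ((c' v : ↥D.comm1) : Module.End K M) =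
      s (σ.symm v) • (ξ * ((D.Φ e (σ.symm v) : ↥D.comm1) : Module.End K M) * ξi) := fun v => rfl
  have h1 : D.Ψ c' = e := by
    rw [D.Ψ_apply]
    have e1 : ξ * e * ξi = e := by rw [he, mul_assoc, hξ, mul_one]
    have e2 : ∑ w', D.τ w' * ((D.Φ e w' : ↥D.comm1) : Module.End K M) = e := by
      rw [← D.Ψ_apply, D.Ψ_Φ]
    calc ∑ v, D.τ v * ((c' v : ↥D.comm1) : Module.End K M)
        = ∑ w', D.τ (σ w') * ((c' (σ w') : ↥D.comm1) : Module.End K M) :=
          (Equiv.sum_comp σ (fun v => D.τ v * ((c' v : ↥D.comm1) : Module.End K M))).symm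
      _ = ∑ w', ξ * (D.τ w' * ((D.Φ e w' : ↥D.comm1) : Module.End K M)) * ξi := by
          apply Finset.sum_congr rfl
          intro w' _
          rw [hc', Equiv.symm_apply_apply, mul_smul_comm, ← smul_mul_assoc, ← hs]
          calc ξ * D.τ w' * ξi * (ξ * ((D.Φ e w' : ↥D.comm1) : Module.End K M) * ξi)
              = ξ * D.τ w' * (ξi * ξ) * ((D.Φ e w' : ↥D.comm1) : Module.End K M) * ξi := by
                simp only [mul_assoc]
            _ = ξ * (D.τ w' * ((D.Φ e w' : ↥D.comm1) : Module.End K M)) * ξi := by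
                rw [hξ', mul_one]
                simp only [mul_assoc]
      _ = ξ * (∑ w', D.τ w' * ((D.Φ e w' : ↥D.comm1) : Module.End K M)) * ξi := by
          rw [Finset.mul_sum, Finset.sum_mul]
      _ = e := by rw [e2, e1]
  have h2 : D.Φ e = c' := by rw [← h1, D.Φ_Ψ]
  have h3 : ((D.Φ e (σ w) : ↥D.comm1) : Module.End K M) =
      ((c' (σ w) : ↥D.comm1) : Module.End K M) := by rw [h2]
  rw [h3, hc', Equiv.symm_apply_apply]

/-- **Main bound.**  If `ξ` normalizes the projective family `τ`, permuting it freely (off the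
identity) with order `r`, and `ξ` has no nonzero fixed vector, then `|Γ| ≤ (r - 1)²`. -/
theorem Data.card_le_of_fixedPointFree [IsAlgClosed K] [FiniteDimensional K M] [Nontrivial M]
    (D : Data K M Γ) (ξ ξi : Module.End K M) (hξ : ξ * ξi = 1) (hξ' : ξi * ξ = 1)
    (σ : Equiv.Perm Γ) (s : Γ → K) (hs0 : ∀ w, s w ≠ 0)
    (hs : ∀ w, ξ * D.τ w * ξi = s w • D.τ (σ w))
    (r : ℕ) (hr : 0 < r) (hσr : σ ^ r = 1) (hσ1 : σ 1 = 1)
    (hfree : ∀ w, w ≠ 1 → ∀ i, 0 < i → i < r → (σ ^ i) w ≠ w)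
    (hξr : ξ ^ r = 1) (hrK : (r : K) ≠ 0) (hfix : ∀ v, ξ v = v → v = 0) :
    Fintype.card Γ ≤ (r - 1) ^ 2 ∧ r ∣ Fintype.card Γ - 1 := by
  classical
  obtain ⟨S, hS1, hcov, hcard⟩ := exists_reps σ r hr hσr hσ1 hfree
  let L : ↥(cent ξ) →ₗ[K] (↥(insert 1 S : Finset Γ) → ↥D.comm1) :=
    (LinearMap.funLeft K ↥D.comm1 (Subtype.val : ↥(insert 1 S : Finset Γ) → Γ)) ∘ₗ D.Φ ∘ₗ
      (cent ξ).subtype
  have hL : Function.Injective L := by
    rw [← LinearMap.ker_eq_bot, LinearMap.ker_eq_bot']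
    intro e he
    have h0 : ∀ a ∈ insert 1 S, D.Φ (e : Module.End K M) a = 0 := by
      intro a ha
      exact congrFun he ⟨a, ha⟩
    have hstep : ∀ i : ℕ, ∀ a ∈ S, D.Φ (e : Module.End K M) ((σ ^ i) a) = 0 := by
      intro i
      induction i with
      | zero =>
        intro a ha
        exact h0 a (Finset.mem_insert_of_mem ha)
      | succ i ih =>
        intro a ha
        apply Subtype.ext
        rw [pow_succ', Equiv.Perm.mul_apply,
          D.Φ_sigma ξ ξi hξ hξ' σ s hs0 hs (e : Module.End K M) e.2 ((σ ^ i) a), ih a ha]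
        simp
    have hall : D.Φ (e : Module.End K M) = 0 := by
      funext w
      by_cases hw : w = 1
      · rw [hw]
        exact h0 1 (Finset.mem_insert_self 1 S)
      · obtain ⟨a, ha, i, hi⟩ := hcov w hw
        rw [← hi]
        exact hstep i a ha
    apply Subtype.ext
    have h1 := D.Ψ_Φ (e : Module.End K M)
    rw [hall, map_zero] at h1
    exact h1.symm
  have h1 : finrank K ↥(cent ξ) ≤ (S.card + 1) * finrank K ↥D.comm1 := by
    have h2 := LinearMap.finrank_le_finrank_of_injective hL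
    rw [Module.finrank_pi_fintype, Finset.sum_const, Finset.card_univ, Fintype.card_coe,
      Finset.card_insert_of_notMem hS1, smul_eq_mul] at h2
    exact h2
  have h2 := sq_finrank_le_cent ξ r hr hξr hrK hfix
  have h3 := D.finrank_end
  rw [Module.finrank_linearMap] at h3
  have hDpos : 0 < finrank K M := Module.finrank_pos
  have hd₁ : 0 < finrank K ↥D.comm1 := by
    rcases Nat.eq_zero_or_pos (finrank K ↥D.comm1) with h | h
    · rw [h, mul_zero] at h3
      have h4 := Nat.mul_pos hDpos hDpos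
      omega
    · exact h
  have h4 : Fintype.card Γ * finrank K ↥D.comm1 ≤
      ((r - 1) * (S.card + 1)) * finrank K ↥D.comm1 := by
    rw [← h3, ← sq, mul_assoc]
    exact h2.trans (Nat.mul_le_mul_left _ h1)
  have h5 : Fintype.card Γ ≤ (r - 1) * (S.card + 1) := Nat.le_of_mul_le_mul_right h4 hd₁
  constructor
  · obtain ⟨r', rfl⟩ : ∃ r', r = r' + 1 := ⟨r - 1, by omega⟩
    simp only [Nat.add_sub_cancel] at h5 ⊢
    rw [← hcard] at h5 ⊢
    have h6 : S.card + 1 ≤ r' := by nlinarith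
    nlinarith [Nat.mul_le_mul_right r' h6]
  · exact ⟨S.card, by rw [← hcard, Nat.add_sub_cancel, mul_comm]⟩

end Fixed

end Cfsg.Agent.Helper63.ProjRep
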