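-- helper63 library: the projective-representation bound for a class-2 group with scalar centre
-- (group-level form of `ProjRep`), add-only once landed.
import Cfsg.Agent.Helper63.ProjRep

set_option autoImplicit false

namespace Cfsg.Agent.Helper63.ProjRep

open Module

universe u v w

section Comm

variable {Q : Type w} [Group Q]

/-- The commutator `a b a⁻¹ b⁻¹`. -/
def cm (a b : Q) : Q := a * b * a⁻¹ * b⁻¹

theorem cm_def (a b : Q) : cm a b = a * b * a⁻¹ * b⁻¹ := rfl

theorem cm_inv (a b : Q) : cm b a = (cm a b)⁻¹ := by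
  unfold cm
  group

theorem mul_eq_cm_mul (a b : Q) : a * b = cm a b * (b * a) := by
  unfold cm
  group

theorem cm_mul_left (hc : ∀ g h : Q, cm g h ∈ Subgroup.center Q) (a b x : Q) :
    cm (a * b) x = cm a x * cm b x := by
  obtain ⟨d, hd⟩ : ∃ d, d = cm b x := ⟨_, rfl⟩
  have hdc : ∀ y, d * y = y * d := fun y => by
    rw [hd]
    exact (Subgroup.mem_center_iff.mp (hc b x) y).symm
  rw [← hd]
  calc cm (a * b) x = a * d * (x * a⁻¹ * x⁻¹) := by
        rw [hd]
        unfold cm
        group
    _ = d * a * (x * a⁻¹ * x⁻¹) := by rw [hdc a]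
    _ = d * cm a x := by
        unfold cm
        group
    _ = cm a x * d := hdc _

theorem cm_mul_right (hc : ∀ g h : Q, cm g h ∈ Subgroup.center Q) (a x y : Q) :
    cm a (x * y) = cm a x * cm a y := by
  obtain ⟨d, hd⟩ : ∃ d, d = cm a y := ⟨_, rfl⟩
  have hdc : ∀ t, d * t = t * d := fun t => by
    rw [hd]
    exact (Subgroup.mem_center_iff.mp (hc a y) t).symm
  rw [← hd]
  calc cm a (x * y) = a * x * a⁻¹ * (d * x⁻¹) := by
        rw [hd]
        unfold cm
        group
    _ = a * x * a⁻¹ * (x⁻¹ * d) := by rw [hdc]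
    _ = cm a x * d := by
        unfold cm
        group

theorem cm_central_left {z : Q} (hz : z ∈ Subgroup.center Q) (a x : Q) :
    cm (a * z) x = cm a x := by
  have hzc : ∀ y, z * y = y * z := fun y => (Subgroup.mem_center_iff.mp hz y).symm
  calc cm (a * z) x = a * (z * x) * z⁻¹ * a⁻¹ * x⁻¹ := by
        unfold cm
        group
    _ = a * (x * z) * z⁻¹ * a⁻¹ * x⁻¹ := by rw [hzc x]
    _ = cm a x := by
        unfold cm
        group

theorem cm_central_right {z : Q} (hz : z ∈ Subgroup.center Q) (a x : Q) :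
    cm a (x * z) = cm a x := by
  have hzc : ∀ y, z * y = y * z := fun y => (Subgroup.mem_center_iff.mp hz y).symm
  calc cm a (x * z) = a * x * (z * a⁻¹) * z⁻¹ * x⁻¹ := by
        unfold cm
        group
    _ = a * x * (a⁻¹ * z) * z⁻¹ * x⁻¹ := by rw [hzc a⁻¹]
    _ = cm a x := by
        unfold cm
        group

theorem out_mk (g : Q) : ∃ z ∈ Subgroup.center Q,
    Quotient.out (QuotientGroup.mk g : Q ⧸ Subgroup.center Q) = g * z := by
  obtain ⟨h, hh⟩ := QuotientGroup.mk_out_eq_mul (Subgroup.center Q) g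
  exact ⟨h.1, h.2, hh⟩

theorem out_mul (g h : Q ⧸ Subgroup.center Q) : ∃ z ∈ Subgroup.center Q,
    Quotient.out (g * h) = Quotient.out g * Quotient.out h * z := by
  have h1 : g * h = (QuotientGroup.mk (Quotient.out g * Quotient.out h) :
      Q ⧸ Subgroup.center Q) := by
    rw [QuotientGroup.mk_mul, QuotientGroup.out_eq', QuotientGroup.out_eq']
  rw [h1]
  exact out_mk _

theorem out_notMem {g : Q ⧸ Subgroup.center Q} (hg : g ≠ 1) :
    Quotient.out g ∉ Subgroup.center Q := by
  intro h
  apply hg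
  rw [← QuotientGroup.out_eq' g]
  exact (QuotientGroup.eq_one_iff _).mpr h

theorem map_mem_center (φ : MulAut Q) {z : Q} (hz : z ∈ Subgroup.center Q) :
    φ z ∈ Subgroup.center Q := by
  rw [Subgroup.mem_center_iff] at hz ⊢
  intro g
  have h1 := hz (φ.symm g)
  have h2 := congrArg φ h1
  rw [map_mul, map_mul, MulEquiv.apply_symm_apply] at h2
  exact h2

end Comm

section Group

variable {K : Type u} [Field K] {M : Type v} [AddCommGroup M] [Module K M]
  {Q : Type w} [Group Q] [Finite Q]

/-- The hypotheses on a representation `ρ` of a class-2 group `Q` whose centre acts by the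
scalars `lam`, with nondegenerate commutator pairing. -/
structure Hyp (ρ : Q →* Module.End K M) (lam : Q → K) : Prop where
  comm_central : ∀ g h : Q, cm g h ∈ Subgroup.center Q
  scalar : ∀ z ∈ Subgroup.center Q, ρ z = lam z • (1 : Module.End K M)
  nondeg : ∀ g : Q, g ∉ Subgroup.center Q → ∃ h : Q, ρ (cm g h) ≠ 1
  index_ne_zero : ((Subgroup.center Q).index : K) ≠ 0

theorem smul_one_injective [Nontrivial M] {a b : K}
    (h : a • (1 : Module.End K M) = b • (1 : Module.End K M)) : a = b := by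
  obtain ⟨x, hx⟩ := exists_ne (0 : M)
  have h1 := LinearMap.congr_fun h x
  simp only [LinearMap.smul_apply, Module.End.one_apply] at h1
  exact smul_left_injective K hx h1

variable {ρ : Q →* Module.End K M} {lam : Q → K}

omit [Finite Q] in
theorem Hyp.lam_mul [Nontrivial M] (H : Hyp ρ lam) {z z' : Q} (hz : z ∈ Subgroup.center Q)
    (hz' : z' ∈ Subgroup.center Q) : lam (z * z') = lam z * lam z' := by
  apply smul_one_injective (M := M)
  rw [← H.scalar _ (Subgroup.mul_mem _ hz hz'), map_mul, H.scalar z hz, H.scalar z' hz',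
    smul_mul_smul_comm, mul_one]

omit [Finite Q] in
theorem Hyp.lam_one [Nontrivial M] (H : Hyp ρ lam) : lam 1 = 1 := by
  apply smul_one_injective (M := M)
  rw [← H.scalar 1 (Subgroup.one_mem _), map_one, one_smul]

omit [Finite Q] in
theorem Hyp.lam_ne_zero [Nontrivial M] (H : Hyp ρ lam) {z : Q} (hz : z ∈ Subgroup.center Q) :
    lam z ≠ 0 := by
  intro h0
  have h1 := H.lam_mul hz (Subgroup.inv_mem _ hz)
  rw [mul_inv_cancel, H.lam_one, h0, zero_mul] at h1
  exact one_ne_zero h1

omit [Finite Q] in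
theorem Hyp.lam_ne_one (H : Hyp ρ lam) {z : Q} (hz : z ∈ Subgroup.center Q) (h : ρ z ≠ 1) :
    lam z ≠ 1 := by
  intro h1
  apply h
  rw [H.scalar z hz, h1, one_smul]

/-- The projective data on `Q ⧸ Z(Q)` attached to the hypotheses. -/
noncomputable def Hyp.data [Nontrivial M] [Fintype (Q ⧸ Subgroup.center Q)] (H : Hyp ρ lam) :
    Data K M (Q ⧸ Subgroup.center Q) where
  τ := fun g => ρ (Quotient.out g)
  τi := fun g => ρ (Quotient.out g)⁻¹
  β := fun g x => lam (cm (Quotient.out g) (Quotient.out x))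
  τ_τi := by
    intro g
    rw [← map_mul, mul_inv_cancel, map_one]
  τi_τ := by
    intro g
    rw [← map_mul, inv_mul_cancel, map_one]
  comm := by
    intro g x
    rw [← map_mul, mul_eq_cm_mul, map_mul, H.scalar _ (H.comm_central _ _), map_mul,
      smul_mul_assoc, one_mul]
  β_mul_left := by
    intro g h x
    obtain ⟨z, hz, hgh⟩ := out_mul g h
    rw [hgh, cm_central_left hz, cm_mul_left H.comm_central,
      H.lam_mul (H.comm_central _ _) (H.comm_central _ _)]
  β_mul_right := by
    intro g x y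
    obtain ⟨z, hz, hxy⟩ := out_mul x y
    rw [hxy, cm_central_right hz, cm_mul_right H.comm_central,
      H.lam_mul (H.comm_central _ _) (H.comm_central _ _)]
  β_ne_zero := fun g x => H.lam_ne_zero (H.comm_central _ _)
  nondeg_left := by
    intro g hg
    obtain ⟨h, hh⟩ := H.nondeg _ (out_notMem hg)
    obtain ⟨z, hz, hout⟩ := out_mk h
    refine ⟨QuotientGroup.mk h, ?_⟩
    rw [hout, cm_central_right hz]
    exact H.lam_ne_one (H.comm_central _ _) hh
  nondeg_right := by
    intro x hx
    obtain ⟨h, hh⟩ := H.nondeg _ (out_notMem hx)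
    obtain ⟨z, hz, hout⟩ := out_mk h
    refine ⟨QuotientGroup.mk h, ?_⟩
    rw [hout, cm_central_left hz]
    apply H.lam_ne_one (H.comm_central _ _)
    intro h1
    apply hh
    rw [cm_inv h (Quotient.out x)]
    have h2 := map_mul ρ (cm h (Quotient.out x))⁻¹ (cm h (Quotient.out x))
    rw [inv_mul_cancel, map_one, h1, mul_one] at h2
    exact h2.symm
  proj := by
    intro g h
    obtain ⟨z, hz, hgh⟩ := out_mul g h
    refine ⟨lam z⁻¹, H.lam_ne_zero (Subgroup.inv_mem _ hz), ?_⟩
    have h1 : Quotient.out g * Quotient.out h = Quotient.out (g * h) * z⁻¹ := by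
      rw [hgh]
      group
    rw [← map_mul, h1, map_mul, H.scalar _ (Subgroup.inv_mem _ hz), mul_smul_comm, mul_one]
  card_ne_zero := by
    have h1 : Fintype.card (Q ⧸ Subgroup.center Q) = (Subgroup.center Q).index := by
      rw [Subgroup.index, Nat.card_eq_fintype_card]
    rw [h1]
    exact H.index_ne_zero

/-- The index of the centre is a perfect square. -/
theorem Hyp.exists_index_eq_sq [IsAlgClosed K] [FiniteDimensional K M] [Nontrivial M]
    (H : Hyp ρ lam) : ∃ d : ℕ, (Subgroup.center Q).index = d ^ 2 := by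
  letI : Fintype (Q ⧸ Subgroup.center Q) := Fintype.ofFinite _
  obtain ⟨d, hd⟩ := H.data.exists_card_eq_sq
  refine ⟨d, ?_⟩
  rw [← hd, Subgroup.index, Nat.card_eq_fintype_card]

/-- **Shult-type bound, group form.**  If an operator `ξ` of order `r` without fixed vectors
induces on `Q` an automorphism acting freely on `Q / Z(Q)`, then `|Q : Z(Q)| ≤ (r - 1)²`. -/
theorem Hyp.index_le [IsAlgClosed K] [FiniteDimensional K M] [Nontrivial M] (H : Hyp ρ lam)
    (φ : MulAut Q) (ξ ξi : Module.End K M) (hξ : ξ * ξi = 1) (hξ' : ξi * ξ = 1)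
    (hequiv : ∀ g, ξ * ρ g * ξi = ρ (φ g))
    (r : ℕ) (hr : 0 < r) (hφr : φ ^ r = 1)
    (hfree : ∀ g : Q, ∀ i, 0 < i → i < r → (φ ^ i) g * g⁻¹ ∈ Subgroup.center Q →
      g ∈ Subgroup.center Q)
    (hξr : ξ ^ r = 1) (hrK : (r : K) ≠ 0) (hfix : ∀ x, ξ x = x → x = 0) :
    (Subgroup.center Q).index ≤ (r - 1) ^ 2 ∧ r ∣ (Subgroup.center Q).index - 1 := by
  classical
  letI : Fintype (Q ⧸ Subgroup.center Q) := Fintype.ofFinite _
  have hmap : (Subgroup.center Q).map (φ : Q →* Q) = Subgroup.center Q := by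
    apply le_antisymm
    · rintro _ ⟨z, hz, rfl⟩
      exact map_mem_center φ hz
    · intro z hz
      exact ⟨φ.symm z, map_mem_center φ.symm hz, φ.apply_symm_apply z⟩
  let σe : (Q ⧸ Subgroup.center Q) ≃* (Q ⧸ Subgroup.center Q) :=
    QuotientGroup.congr (Subgroup.center Q) (Subgroup.center Q) φ hmap
  let σ : Equiv.Perm (Q ⧸ Subgroup.center Q) := σe.toEquiv
  have hσmk : ∀ a : Q, σ (QuotientGroup.mk a) = QuotientGroup.mk (φ a) :=
    fun a => QuotientGroup.congr_mk (Subgroup.center Q) (Subgroup.center Q) φ hmap a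
  have hσpow : ∀ (i : ℕ) (a : Q), (σ ^ i) (QuotientGroup.mk a) = QuotientGroup.mk ((φ ^ i) a) := by
    intro i
    induction i with
    | zero =>
      intro a
      rfl
    | succ i ih =>
      intro a
      rw [pow_succ', Equiv.Perm.mul_apply, ih, hσmk, pow_succ', MulAut.mul_apply]
  have hzw : ∀ x : Q ⧸ Subgroup.center Q,
      (Quotient.out (σ x))⁻¹ * φ (Quotient.out x) ∈ Subgroup.center Q := by
    intro x
    have h1 : (QuotientGroup.mk (Quotient.out (σ x)) : Q ⧸ Subgroup.center Q) =
        QuotientGroup.mk (φ (Quotient.out x)) := by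
      rw [QuotientGroup.out_eq', ← hσmk, QuotientGroup.out_eq']
    exact QuotientGroup.eq.mp h1
  let s : Q ⧸ Subgroup.center Q → K :=
    fun x => lam ((Quotient.out (σ x))⁻¹ * φ (Quotient.out x))
  have hs : ∀ x, ξ * H.data.τ x * ξi = s x • H.data.τ (σ x) := by
    intro x
    show ξ * ρ (Quotient.out x) * ξi =
      lam ((Quotient.out (σ x))⁻¹ * φ (Quotient.out x)) • ρ (Quotient.out (σ x))
    rw [hequiv]
    have h1 : φ (Quotient.out x) =
        Quotient.out (σ x) * ((Quotient.out (σ x))⁻¹ * φ (Quotient.out x)) := by group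
    conv_lhs => rw [h1]
    rw [map_mul, H.scalar _ (hzw x), mul_smul_comm, mul_one]
  have hs0 : ∀ x, s x ≠ 0 := fun x => H.lam_ne_zero (hzw x)
  have hσr : σ ^ r = 1 := by
    ext x
    rw [← QuotientGroup.out_eq' x, hσpow, hφr]
    rfl
  have hσ1 : σ 1 = 1 := map_one σe
  have hfree' : ∀ x, x ≠ 1 → ∀ i, 0 < i → i < r → (σ ^ i) x ≠ x := by
    intro x hx i hi0 hir hfix'
    apply out_notMem hx
    apply hfree (Quotient.out x) i hi0 hir
    have h0 : (QuotientGroup.mk ((φ ^ i) (Quotient.out x)) : Q ⧸ Subgroup.center Q) =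
        QuotientGroup.mk (Quotient.out x) := by
      rw [← hσpow, QuotientGroup.out_eq']
      exact hfix'
    have h1 := QuotientGroup.eq.mp h0
    have h2 := Subgroup.inv_mem _ h1
    have h3 : (φ ^ i) (Quotient.out x) * (Quotient.out x)⁻¹ =
        (Quotient.out x) * (((φ ^ i) (Quotient.out x))⁻¹ * Quotient.out x)⁻¹ *
          (Quotient.out x)⁻¹ := by group
    rw [h3]
    exact (inferInstance : (Subgroup.center Q).Normal).conj_mem _ h2 _
  have hmain := H.data.card_le_of_fixedPointFree ξ ξi hξ hξ' σ s hs0 hs r hr hσr hσ1 hfree'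
    hξr hrK hfix
  have hcard : Fintype.card (Q ⧸ Subgroup.center Q) = (Subgroup.center Q).index := by
    rw [Subgroup.index, Nat.card_eq_fintype_card]
  rwa [hcard] at hmain

end Group

end Cfsg.Agent.Helper63.ProjRep
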