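-- helper63 library: a Shult-type theorem for a `q`-group of linear maps normalized by a
-- fixed-point-free operator of prime order `r` (coprime characteristic); add-only once landed.
import Cfsg.Agent.Helper63.ProjRepGroup

set_option autoImplicit false

namespace Cfsg.Agent.Helper63.Shult

open Module Cfsg.Agent.Helper63.ProjRep

open scoped commutatorElement

universe u v w

section Arith

/-- In a group, an element of prime order `r` is a power of each of its nontrivial powers. -/
theorem exists_pow_pow_eq_self {G : Type*} [Group G] (φ : G) {r k : ℕ} (hr : r.Prime)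
    (hφr : φ ^ r = 1) (hk0 : 0 < k) (hkr : k < r) : ∃ m : ℕ, (φ ^ k) ^ m = φ := by
  have hcop : Nat.Coprime k r := by
    apply Nat.Coprime.symm
    exact (Nat.Prime.coprime_iff_not_dvd hr).mpr (Nat.not_dvd_of_pos_of_lt hk0 hkr)
  obtain ⟨m, -, hm⟩ := Nat.exists_mul_mod_eq_one_of_coprime hcop hr.one_lt
  refine ⟨m, ?_⟩
  rw [← pow_mul]
  have h1 : k * m = k * m % r + r * (k * m / r) := (Nat.mod_add_div (k * m) r).symm
  rw [h1, pow_add, pow_mul, hφr, one_pow, mul_one, hm, pow_one]

/-- The arithmetic at the end of Shult's argument. -/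
theorem fermat_of_bounds {q r d m : ℕ} (hq : q.Prime) (hr : r.Prime) (hd : d = q ^ m)
    (hm : 0 < m) (hle : d ^ 2 ≤ (r - 1) ^ 2) (hdvd : r ∣ d ^ 2 - 1) :
    q = 2 ∧ r = 2 ^ m + 1 := by
  have hd2 : 2 ≤ d := by
    rw [hd]
    calc 2 ≤ q := hq.two_le
      _ = q ^ 1 := (pow_one q).symm
      _ ≤ q ^ m := Nat.pow_le_pow_right hq.pos hm
  have hle' : d ≤ r - 1 := by
    by_contra hcon
    push Not at hcon
    have := Nat.pow_lt_pow_left hcon (n := 2) (by norm_num)
    omega
  obtain ⟨e, rfl⟩ : ∃ e, d = e + 1 := ⟨d - 1, by omega⟩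
  have he : (e + 1) ^ 2 - 1 = e * (e + 2) := by
    have : (e + 1) ^ 2 = e * (e + 2) + 1 := by ring
    omega
  rw [he] at hdvd
  have hr2 := hr.two_le
  rcases (Nat.Prime.dvd_mul hr).mp hdvd with h | h
  · exfalso
    have := Nat.le_of_dvd (by omega) h
    omega
  · have h1 := Nat.le_of_dvd (by omega) h
    have hrq : r = q ^ m + 1 := by omega
    by_cases hq2 : q = 2
    · exact ⟨hq2, by rw [hrq, hq2]⟩
    · exfalso
      have hqodd : Odd q := hq.odd_of_ne_two hq2
      have hqm : Odd (q ^ m) := hqodd.pow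
      have hreven : Even r := by
        rw [hrq]
        exact hqm.add_one
      have : r = 2 := (Nat.Prime.even_iff hr).mp hreven
      omega

end Arith

section Abelian

variable {K : Type u} [Field K] [IsAlgClosed K] {M : Type v} [AddCommGroup M] [Module K M]
  [FiniteDimensional K M]

omit [IsAlgClosed K] [FiniteDimensional K M] in
theorem isSemisimple_of_pow_eq_one (f : Module.End K M) (n : ℕ) (hn : f ^ n = 1)
    (hnK : (n : K) ≠ 0) : f.IsSemisimple := by
  apply Module.End.isSemisimple_of_squarefree_aeval_eq_zero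
    (Polynomial.separable_X_pow_sub_C (1 : K) hnK one_ne_zero).squarefree
  simp [hn]

omit [IsAlgClosed K] [FiniteDimensional K M] in
theorem sum_pow_fixed (ξ : Module.End K M) (r : ℕ) (hξr : ξ ^ r = 1) (v : M) :
    ξ (∑ i ∈ Finset.range r, (ξ ^ i) v) = ∑ i ∈ Finset.range r, (ξ ^ i) v := by
  rw [map_sum]
  have h1 : ∀ i, ξ ((ξ ^ i) v) = (ξ ^ (i + 1)) v := by
    intro i
    rw [pow_succ', Module.End.mul_apply]
  simp_rw [h1]
  have h2 := Finset.sum_range_succ' (fun i => (ξ ^ i) v) r
  have h3 := Finset.sum_range_succ (fun i => (ξ ^ i) v) r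
  rw [h3] at h2
  simp only [hξr, pow_zero, Module.End.one_apply] at h2
  exact (add_right_cancel h2).symm

/-- **Abelian case.**  If the operators `ρ a` commute and are permuted by conjugation with a
fixed-point-free operator `ξ` of prime order, then `ξ` centralizes them. -/
theorem rho_aut_eq_of_commute {A : Type w} [Group A] [Finite A] (ρ : A →* Module.End K M)
    (hcomm : ∀ a b, ρ a * ρ b = ρ b * ρ a) (φ : MulAut A) (ξ ξi : Module.End K M)
    (hξ : ξ * ξi = 1) (hξ' : ξi * ξ = 1) (hequiv : ∀ g, ξ * ρ g * ξi = ρ (φ g))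
    {r : ℕ} (hr : r.Prime) (hφr : φ ^ r = 1) (hξr : ξ ^ r = 1)
    (hAK : ((Nat.card A : ℕ) : K) ≠ 0) (hfix : ∀ v, ξ v = v → v = 0) (a : A) :
    ρ (φ a) = ρ a := by
  classical
  have hss : ∀ a, (ρ a).IsSemisimple := by
    intro a
    apply isSemisimple_of_pow_eq_one (ρ a) (Nat.card A) _ hAK
    rw [← map_pow, pow_card_eq_one', map_one]
  have hint : ∀ g, ξ * ρ g = ρ (φ g) * ξ := by
    intro g
    have h := hequiv g
    calc ξ * ρ g = ξ * ρ g * (ξi * ξ) := by rw [hξ', mul_one]
      _ = (ξ * ρ g * ξi) * ξ := by simp only [mul_assoc]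
      _ = ρ (φ g) * ξ := by rw [h]
  let Mχ : (A → K) → Submodule K M := fun χ => ⨅ a, (ρ a).maxGenEigenspace (χ a)
  have hmem : ∀ χ v, v ∈ Mχ χ ↔ ∀ a, ρ a v = χ a • v := by
    intro χ v
    simp only [Mχ, Submodule.mem_iInf]
    constructor
    · intro h a
      have := h a
      rw [(hss a).isFinitelySemisimple.maxGenEigenspace_eq_eigenspace] at this
      exact Module.End.mem_eigenspace_iff.mp this
    · intro h a
      rw [(hss a).isFinitelySemisimple.maxGenEigenspace_eq_eigenspace]
      exact Module.End.mem_eigenspace_iff.mpr (h a)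
  have htop : ⨆ χ, Mχ χ = ⊤ := by
    apply Module.End.iSup_iInf_maxGenEigenspace_eq_top_of_iSup_maxGenEigenspace_eq_top_of_commute
    · intro a b _
      exact hcomm a b
    · intro a
      exact Module.End.iSup_maxGenEigenspace_eq_top (ρ a)
  have hind : iSupIndep Mχ := by
    apply Module.End.independent_iInf_maxGenEigenspace_of_forall_mapsTo
    intro a b μ
    exact Module.End.mapsTo_maxGenEigenspace_of_comm (hcomm b a) μ
  have hmove : ∀ χ v, v ∈ Mχ χ → ξ v ∈ Mχ (fun a => χ (φ⁻¹ a)) := by
    intro χ v hv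
    rw [hmem] at hv ⊢
    intro a
    have h1 := hint (φ⁻¹ a)
    have h2 : φ (φ⁻¹ a) = a := by simp
    rw [h2] at h1
    have h3 := LinearMap.congr_fun h1 v
    simp only [Module.End.mul_apply] at h3
    rw [← h3, hv, map_smul]
  have hmovei : ∀ χ v (i : ℕ), v ∈ Mχ χ → (ξ ^ i) v ∈ Mχ (fun a => χ ((φ⁻¹ ^ i) a)) := by
    intro χ v i hv
    induction i with
    | zero => simpa using hv
    | succ i ih =>
      have h1 := hmove _ _ ih
      rw [pow_succ' ξ, Module.End.mul_apply]
      have h2 : (fun a => χ ((φ⁻¹ ^ (i + 1)) a)) = (fun a => χ ((φ⁻¹ ^ i) (φ⁻¹ a))) := by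
        funext a
        rw [pow_succ, MulAut.mul_apply]
      rw [h2]
      exact h1
  have hφi : φ⁻¹ ^ r = 1 := by rw [inv_pow, hφr, inv_one]
  have hkey : ∀ χ, Mχ χ ≠ ⊥ → ∀ b, χ (φ⁻¹ b) = χ b := by
    intro χ hχ
    by_contra hcon
    push Not at hcon
    obtain ⟨b₀, hb₀⟩ := hcon
    obtain ⟨v, hv, hv0⟩ := (Submodule.ne_bot_iff _).mp hχ
    let c : Fin r → (A → K) := fun i => fun a => χ ((φ⁻¹ ^ (i : ℕ)) a)
    have key : ∀ i j : Fin r, (i : ℕ) < (j : ℕ) → c i = c j → False := by
      intro i j hlt hij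
      have h1 : ∀ a, χ ((φ⁻¹ ^ ((j : ℕ) - (i : ℕ))) a) = χ a := by
        intro a
        have h2 := congrFun hij ((φ⁻¹ ^ (i : ℕ))⁻¹ a)
        simp only [c] at h2
        have h3 : (φ⁻¹ ^ (i : ℕ)) ((φ⁻¹ ^ (i : ℕ))⁻¹ a) = a := by simp
        have h4 : (φ⁻¹ ^ (j : ℕ)) ((φ⁻¹ ^ (i : ℕ))⁻¹ a) = (φ⁻¹ ^ ((j : ℕ) - (i : ℕ))) a := by
          have h5 : φ⁻¹ ^ (j : ℕ) = φ⁻¹ ^ ((j : ℕ) - (i : ℕ)) * φ⁻¹ ^ (i : ℕ) := by
            rw [← pow_add]
            congr 1
            omega
          rw [h5, MulAut.mul_apply, h3]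
        rw [h3, h4] at h2
        exact h2.symm
      obtain ⟨m, hm⟩ := exists_pow_pow_eq_self φ⁻¹ hr hφi (Nat.sub_pos_of_lt hlt)
        (by have := j.2; omega)
      have h5 : ∀ m : ℕ, ∀ a, χ (((φ⁻¹ ^ ((j : ℕ) - (i : ℕ))) ^ m) a) = χ a := by
        intro m
        induction m with
        | zero =>
          intro a
          simp
        | succ m ih =>
          intro a
          rw [pow_succ, MulAut.mul_apply, ih, h1]
      have h6 := h5 m b₀
      rw [hm] at h6
      exact hb₀ h6
    have hcinj : Function.Injective c := by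
      intro i j hij
      rcases lt_trichotomy (i : ℕ) (j : ℕ) with h | h | h
      · exact (key i j h hij).elim
      · exact Fin.ext h
      · exact (key j i h hij.symm).elim
    have hind' : iSupIndep (fun i : Fin r => Mχ (c i)) := hind.comp hcinj
    have hvi : ∀ i : Fin r, (ξ ^ (i : ℕ)) v ∈ Mχ (c i) := fun i => hmovei χ v i hv
    have hvi0 : ∀ i : Fin r, (ξ ^ (i : ℕ)) v ≠ 0 := by
      intro i h0
      apply hv0
      have hc : Commute ξi ξ := by
        show ξi * ξ = ξ * ξi
        rw [hξ, hξ']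
      have h1 : ξi ^ (i : ℕ) * ξ ^ (i : ℕ) = 1 := by
        rw [← hc.mul_pow, hξ', one_pow]
      have h2 := LinearMap.congr_fun h1 v
      rw [Module.End.mul_apply, h0, map_zero, Module.End.one_apply] at h2
      exact h2.symm
    have hli := hind'.linearIndependent (fun i : Fin r => Mχ (c i)) hvi hvi0
    have hsum : ∑ i : Fin r, (ξ ^ (i : ℕ)) v = 0 := by
      rw [Fin.sum_univ_eq_sum_range (fun i => (ξ ^ i) v) r]
      exact hfix _ (sum_pow_fixed ξ r hξr v)
    have h7 := Fintype.linearIndependent_iff.mp hli (fun _ => 1) (by simpa using hsum)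
      ⟨0, hr.pos⟩
    exact one_ne_zero h7
  have hle : ∀ χ, Mχ χ ≤ LinearMap.eqLocus (ρ (φ a)) (ρ a) := by
    intro χ v hv
    by_cases hχ : Mχ χ = ⊥
    · rw [hχ, Submodule.mem_bot] at hv
      rw [hv]
      exact Submodule.zero_mem _
    · have h1 := hkey χ hχ (φ a)
      have h2 : φ⁻¹ (φ a) = a := by simp
      rw [h2] at h1
      rw [hmem] at hv
      show ρ (φ a) v = ρ a v
      rw [hv, hv, h1]
  have h8 : LinearMap.eqLocus (ρ (φ a)) (ρ a) = ⊤ := by
    rw [eq_top_iff, ← htop]
    exact iSup_le hle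
  exact LinearMap.eqLocus_eq_top.mp h8

end Abelian

section Critical

variable {P : Type w} [Group P]

theorem aut_pow_apply_of (ψ : MulAut P) (g c : P) (hg : ψ g = g * c) (hc : ψ c = c) (k : ℕ) :
    (ψ ^ k) g = g * c ^ k := by
  induction k with
  | zero => simp
  | succ k ih =>
    rw [pow_succ', MulAut.mul_apply, ih, map_mul, map_pow, hg, hc, pow_succ', mul_assoc]

/-- Coprime action: an automorphism of order dividing `r` of a `q`-group which moves `g` by a
fixed element fixes `g`. -/
theorem eq_one_of_aut {q r : ℕ} (hq : q.Prime) (hr : r.Prime) (hqr : q ≠ r)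
    (hP : IsPGroup q P) (ψ : MulAut P) (hψr : ψ ^ r = 1) (g c : P) (hg : ψ g = g * c)
    (hc : ψ c = c) : c = 1 := by
  have h1 := aut_pow_apply_of ψ g c hg hc r
  rw [hψr, MulAut.one_apply] at h1
  have h2 : c ^ r = 1 := left_eq_mul.mp h1
  obtain ⟨j, hj⟩ := hP c
  have h3 : orderOf c ∣ r := orderOf_dvd_of_pow_eq_one h2
  have h4 : orderOf c ∣ q ^ j := orderOf_dvd_of_pow_eq_one hj
  have h5 : Nat.Coprime r (q ^ j) :=
    Nat.Coprime.pow_right j ((Nat.coprime_primes hr hq).mpr (Ne.symm hqr))
  have h6 := Nat.dvd_gcd h3 h4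
  rw [Nat.Coprime.gcd_eq_one h5] at h6
  exact orderOf_eq_one_iff.mp (Nat.dvd_one.mp h6)

variable [Finite P]

/-- **Critical structure.**  A nonabelian `q`-group with an automorphism `φ` of prime order
`r ≠ q` acting nontrivially, all of whose proper `φ`-invariant subgroups are centralized by `φ`,
has class two, `φ` centralizes its centre, and `φ` acts freely modulo the centre. -/
theorem critical_of_minimal {q r : ℕ} [hqF : Fact q.Prime] (hr : r.Prime) (hqr : q ≠ r)
    (hP : IsPGroup q P) (φ : MulAut P) (hφr : φ ^ r = 1)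
    (hmin : ∀ P₀ : Subgroup P, P₀ ≠ ⊤ → (∀ g ∈ P₀, φ g ∈ P₀) → ∀ g ∈ P₀, φ g = g)
    (hne : ∃ g, φ g ≠ g) (hnonab : ∃ a b : P, a * b ≠ b * a) :
    (∀ g h : P, cm g h ∈ Subgroup.center P) ∧ (∀ z ∈ Subgroup.center P, φ z = z) ∧
    (∀ g : P, ∀ i, 0 < i → i < r → (φ ^ i) g * g⁻¹ ∈ Subgroup.center P →
      g ∈ Subgroup.center P) := by
  have hq : q.Prime := hqF.out
  have hb : ∀ N₀ : Subgroup P, N₀.Normal → N₀ ≠ ⊤ → (∀ g ∈ N₀, φ g ∈ N₀) →
      N₀ ≤ Subgroup.center P := by
    intro N₀ hN hNtop hNφ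
    have hfixN := hmin N₀ hNtop hNφ
    by_cases hC : Subgroup.centralizer (N₀ : Set P) = ⊤
    · intro n hn
      rw [Subgroup.mem_center_iff]
      intro g
      have hg : g ∈ Subgroup.centralizer (N₀ : Set P) := by
        rw [hC]
        exact Subgroup.mem_top g
      exact (Subgroup.mem_centralizer_iff.mp hg n hn).symm
    · exfalso
      have hCφ : ∀ g ∈ Subgroup.centralizer (N₀ : Set P),
          φ g ∈ Subgroup.centralizer (N₀ : Set P) := by
        intro g hg
        rw [Subgroup.mem_centralizer_iff] at hg ⊢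
        intro n hn
        have h1 := hg n hn
        have h2 := congrArg φ h1
        rw [map_mul, map_mul, hfixN n hn] at h2
        exact h2
      have hfixC := hmin _ hC hCφ
      obtain ⟨g, hg⟩ := hne
      apply hg
      have hcC : g⁻¹ * φ g ∈ Subgroup.centralizer (N₀ : Set P) := by
        rw [Subgroup.mem_centralizer_iff]
        intro n hn
        have hm : g * n * g⁻¹ ∈ N₀ := hN.conj_mem n hn g
        have h1 := hfixN _ hm
        rw [map_mul, map_mul, map_inv, hfixN n hn] at h1
        calc n * (g⁻¹ * φ g) = g⁻¹ * (g * n * g⁻¹) * φ g := by group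
          _ = g⁻¹ * (φ g * n * (φ g)⁻¹) * φ g := by rw [h1]
          _ = g⁻¹ * φ g * n := by group
      have h3 : φ g = g * (g⁻¹ * φ g) := by group
      have h4 := eq_one_of_aut hq hr hqr hP φ hφr g (g⁻¹ * φ g) h3 (hfixC _ hcC)
      exact (inv_mul_eq_one.mp h4).symm
  have hcent_ne : Subgroup.center P ≠ ⊤ := by
    intro h
    obtain ⟨a, b, hab⟩ := hnonab
    apply hab
    have ha : a ∈ Subgroup.center P := by
      rw [h]
      exact Subgroup.mem_top a
    exact (Subgroup.mem_center_iff.mp ha b).symm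
  have hcentφ : ∀ z ∈ Subgroup.center P, φ z ∈ Subgroup.center P :=
    fun z hz => map_mem_center φ hz
  have hfixZ := hmin _ hcent_ne hcentφ
  have hcomm_le : commutator P ≤ Subgroup.center P := by
    apply hb _ inferInstance
    · haveI : Nontrivial P := by
        obtain ⟨a, b, hab⟩ := hnonab
        exact ⟨a * b, b * a, hab⟩
      haveI : Group.IsNilpotent P := hP.isNilpotent
      exact (Group.IsSolvable.commutator_lt_top_of_nontrivial P).ne
    · intro g hg
      have hchar : (commutator P).Characteristic := inferInstance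
      have h1 := Subgroup.characteristic_iff_map_eq.mp hchar φ
      rw [← h1]
      exact Subgroup.mem_map_of_mem _ hg
  have hcc : ∀ g h : P, cm g h ∈ Subgroup.center P := by
    intro g h
    apply hcomm_le
    have h1 : cm g h = ⁅g, h⁆ := by rw [cm_def, commutatorElement_def]
    rw [h1, commutator_def]
    exact Subgroup.commutator_mem_commutator (Subgroup.mem_top g) (Subgroup.mem_top h)
  refine ⟨hcc, hfixZ, ?_⟩
  intro g₀ i hi0 hir hg₀
  obtain ⟨ψ, hψ⟩ : ∃ ψ : MulAut P, ψ = φ ^ i := ⟨_, rfl⟩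
  rw [← hψ] at hg₀
  have hψr : ψ ^ r = 1 := by rw [hψ, ← pow_mul, mul_comm, pow_mul, hφr, one_pow]
  have hψZ : ∀ z ∈ Subgroup.center P, ψ z = z := by
    intro z hz
    rw [hψ]
    have h1 : ∀ k : ℕ, (φ ^ k) z = z := by
      intro k
      induction k with
      | zero => simp
      | succ k ih => rw [pow_succ, MulAut.mul_apply, hfixZ z hz, ih]
    exact h1 i
  have hψφ : ∀ g, ψ (φ g) = φ (ψ g) := by
    intro g
    rw [hψ, ← MulAut.mul_apply, ← MulAut.mul_apply, ← pow_succ, ← pow_succ']
  let D : Subgroup P :=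
    { carrier := {g | ψ g * g⁻¹ ∈ Subgroup.center P}
      one_mem' := by
        show ψ 1 * 1⁻¹ ∈ Subgroup.center P
        rw [map_one, inv_one, mul_one]
        exact Subgroup.one_mem _
      mul_mem' := by
        intro a b ha hb
        have ha' : ψ a * a⁻¹ ∈ Subgroup.center P := ha
        have hb' : ψ b * b⁻¹ ∈ Subgroup.center P := hb
        show ψ (a * b) * (a * b)⁻¹ ∈ Subgroup.center P
        have h1 : ψ (a * b) * (a * b)⁻¹ = ψ a * (ψ b * b⁻¹) * a⁻¹ := by
          rw [map_mul]
          group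
        have h2 : ψ a * (ψ b * b⁻¹) = (ψ b * b⁻¹) * ψ a :=
          Subgroup.mem_center_iff.mp hb' (ψ a)
        rw [h1, h2, mul_assoc]
        exact Subgroup.mul_mem _ hb' ha'
      inv_mem' := by
        intro a ha
        have ha' : ψ a * a⁻¹ ∈ Subgroup.center P := ha
        show ψ a⁻¹ * a⁻¹⁻¹ ∈ Subgroup.center P
        have h1 : ψ a⁻¹ * a⁻¹⁻¹ = a⁻¹ * (ψ a * a⁻¹)⁻¹ * a := by
          rw [map_inv]
          group
        have h2 : a⁻¹ * (ψ a * a⁻¹)⁻¹ = (ψ a * a⁻¹)⁻¹ * a⁻¹ :=
          Subgroup.mem_center_iff.mp (Subgroup.inv_mem _ ha') a⁻¹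
        rw [h1, h2, mul_assoc, inv_mul_cancel, mul_one]
        exact Subgroup.inv_mem _ ha' }
  have hDmem : ∀ g, g ∈ D ↔ ψ g * g⁻¹ ∈ Subgroup.center P := fun g => Iff.rfl
  have hZD : Subgroup.center P ≤ D := by
    intro z hz
    rw [hDmem, hψZ z hz, mul_inv_cancel]
    exact Subgroup.one_mem _
  have hDnormal : D.Normal := by
    constructor
    intro n hn g
    have h1 : g * n * g⁻¹ = cm g n * n := by
      rw [cm_def]
      group
    rw [h1]
    exact Subgroup.mul_mem _ (hZD (hcc g n)) hn
  have hDφ : ∀ g ∈ D, φ g ∈ D := by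
    intro g hg
    rw [hDmem] at hg ⊢
    rw [hψφ, ← map_inv, ← map_mul]
    exact map_mem_center φ hg
  have hDtop : D ≠ ⊤ := by
    intro hD
    obtain ⟨g, hg⟩ := hne
    apply hg
    have h1 : ∀ g, ψ g = g := by
      intro g
      have hgD : g ∈ D := by
        rw [hD]
        exact Subgroup.mem_top g
      rw [hDmem] at hgD
      have h2 : ψ g = g * (ψ g * g⁻¹) := by
        have h2' := Subgroup.mem_center_iff.mp hgD g
        rw [h2']
        group
      have h3 := eq_one_of_aut hq hr hqr hP ψ hψr g (ψ g * g⁻¹) h2 (hψZ _ hgD)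
      exact mul_inv_eq_one.mp h3
    obtain ⟨m, hm⟩ := exists_pow_pow_eq_self φ hr hφr hi0 hir
    rw [← hm, ← hψ]
    have h4 : ∀ m : ℕ, (ψ ^ m) g = g := by
      intro m
      induction m with
      | zero => simp
      | succ m ih => rw [pow_succ, MulAut.mul_apply, h1, ih]
    exact h4 m
  exact hb D hDnormal hDtop hDφ hg₀

end Critical

section ConjAut

variable {Γ : Type w} [Group Γ]

/-- An element of finite order mapping a subgroup into itself normalizes it. -/
theorem mem_normalizer_of_pow (Q : Subgroup Γ) (x : Γ) {r : ℕ} (hr : 0 < r) (hxr : x ^ r = 1)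
    (h : ∀ g ∈ Q, x * g * x⁻¹ ∈ Q) : x ∈ Subgroup.normalizer (Q : Set Γ) := by
  have hk : ∀ k : ℕ, ∀ g ∈ Q, x ^ k * g * (x ^ k)⁻¹ ∈ Q := by
    intro k
    induction k with
    | zero =>
      intro g hg
      simpa using hg
    | succ k ih =>
      intro g hg
      have h1 := h _ (ih g hg)
      have h2 : x ^ (k + 1) * g * (x ^ (k + 1))⁻¹ = x * (x ^ k * g * (x ^ k)⁻¹) * x⁻¹ := by
        rw [pow_succ']
        group
      rw [h2]
      exact h1
  have hinv : x⁻¹ = x ^ (r - 1) := by
    apply inv_eq_of_mul_eq_one_right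
    rw [← pow_succ']
    have : r - 1 + 1 = r := by omega
    rw [this, hxr]
  rw [Subgroup.mem_normalizer_iff]
  intro g
  constructor
  · intro hg
    exact h g hg
  · intro hg
    have h1 := hk (r - 1) _ hg
    rw [← hinv] at h1
    have h2 : x⁻¹ * (x * g * x⁻¹) * x⁻¹⁻¹ = g := by group
    rw [h2] at h1
    exact h1

/-- Conjugation by a normalizing element, as an automorphism of the subgroup. -/
def conjAut (Q : Subgroup Γ) (x : Γ) (hx : x ∈ Subgroup.normalizer (Q : Set Γ)) : MulAut ↥Q where
  toFun g := ⟨x * g * x⁻¹, (Subgroup.mem_normalizer_iff.mp hx g).mp g.2⟩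
  invFun g := ⟨x⁻¹ * g * x, (Subgroup.mem_normalizer_iff''.mp hx g).mp g.2⟩
  left_inv g := by
    apply Subtype.ext
    show x⁻¹ * (x * (g : Γ) * x⁻¹) * x = g
    group
  right_inv g := by
    apply Subtype.ext
    show x * (x⁻¹ * (g : Γ) * x) * x⁻¹ = g
    group
  map_mul' a b := by
    apply Subtype.ext
    show x * ((a : Γ) * b) * x⁻¹ = x * a * x⁻¹ * (x * b * x⁻¹)
    group

theorem conjAut_apply (Q : Subgroup Γ) (x : Γ) (hx : x ∈ Subgroup.normalizer (Q : Set Γ))
    (g : ↥Q) : ((conjAut Q x hx g : ↥Q) : Γ) = x * g * x⁻¹ := rfl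

theorem conjAut_pow_apply (Q : Subgroup Γ) (x : Γ) (hx : x ∈ Subgroup.normalizer (Q : Set Γ))
    (k : ℕ) (g : ↥Q) : (((conjAut Q x hx ^ k) g : ↥Q) : Γ) = x ^ k * g * (x ^ k)⁻¹ := by
  induction k with
  | zero => simp
  | succ k ih =>
    rw [pow_succ' (conjAut Q x hx), MulAut.mul_apply, conjAut_apply, ih, pow_succ' x]
    group

theorem conjAut_pow_eq_one (Q : Subgroup Γ) (x : Γ) (hx : x ∈ Subgroup.normalizer (Q : Set Γ))
    {r : ℕ} (hxr : x ^ r = 1) : conjAut Q x hx ^ r = 1 := by
  apply MulEquiv.ext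
  intro g
  apply Subtype.ext
  rw [conjAut_pow_apply, hxr]
  simp

end ConjAut

section Restrict

variable {K : Type u} [Field K] {M : Type v} [AddCommGroup M] [Module K M]

theorem mem_eigenspace_of_comm {ζ e : Module.End K M} (hc : e * ζ = ζ * e) {μ : K} {w : M}
    (hw : w ∈ Module.End.eigenspace ζ μ) : e w ∈ Module.End.eigenspace ζ μ := by
  rw [Module.End.mem_eigenspace_iff] at hw ⊢
  have h1 := LinearMap.congr_fun hc w
  simp only [Module.End.mul_apply] at h1
  rw [← h1, hw, map_smul]

/-- Restriction of a representation to an eigenspace of a commuting operator. -/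
def eigRes {H : Type w} [Monoid H] (σ : H →* Module.End K M) (ζ : Module.End K M) (μ : K)
    (hc : ∀ h, σ h * ζ = ζ * σ h) : H →* Module.End K ↥(Module.End.eigenspace ζ μ) where
  toFun h := (σ h).restrict (p := Module.End.eigenspace ζ μ) (q := Module.End.eigenspace ζ μ)
    (fun _ hw => mem_eigenspace_of_comm (hc h) hw)
  map_one' := by
    apply LinearMap.ext
    intro w
    apply Subtype.ext
    rw [LinearMap.coe_restrict_apply, map_one]
    rfl
  map_mul' a b := by
    apply LinearMap.ext
    intro w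
    apply Subtype.ext
    rw [LinearMap.coe_restrict_apply, map_mul]
    rfl

theorem eigRes_apply {H : Type w} [Monoid H] (σ : H →* Module.End K M) (ζ : Module.End K M)
    (μ : K) (hc : ∀ h, σ h * ζ = ζ * σ h) (h : H) (w : ↥(Module.End.eigenspace ζ μ)) :
    ((eigRes σ ζ μ hc h w : ↥(Module.End.eigenspace ζ μ)) : M) = σ h w := rfl

theorem restrict_pow_coe (ξ : Module.End K M) (W : Submodule K M) (hW : ∀ w ∈ W, ξ w ∈ W)
    (k : ℕ) (w : ↥W) : ((((ξ.restrict hW : Module.End K ↥W) ^ k) w : ↥W) : M) = (ξ ^ k) w := by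
  induction k generalizing w with
  | zero => simp
  | succ k ih =>
    rw [pow_succ, Module.End.mul_apply, ih, pow_succ, Module.End.mul_apply,
      LinearMap.coe_restrict_apply]

/-- The tautological representation of a group of invertible linear maps. -/
def unitsRep (Q : Subgroup (Module.End K M)ˣ) : ↥Q →* Module.End K M :=
  (Units.coeHom (Module.End K M)).comp Q.subtype

theorem unitsRep_apply (Q : Subgroup (Module.End K M)ˣ) (g : ↥Q) :
    unitsRep Q g = ((g : (Module.End K M)ˣ) : Module.End K M) := rfl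

theorem unitsRep_injective (Q : Subgroup (Module.End K M)ˣ) :
    Function.Injective (unitsRep Q) := by
  intro a b hab
  apply Subtype.ext
  apply Units.ext
  exact hab

theorem unitsRep_equiv (Q : Subgroup (Module.End K M)ˣ) (x : (Module.End K M)ˣ)
    (hx : x ∈ Subgroup.normalizer (Q : Set (Module.End K M)ˣ)) (g : ↥Q) :
    (x : Module.End K M) * unitsRep Q g * ((x⁻¹ : (Module.End K M)ˣ) : Module.End K M) =
      unitsRep Q (conjAut Q x hx g) := by
  rw [unitsRep_apply, unitsRep_apply, conjAut_apply]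
  simp only [Units.val_mul]

end Restrict

section Core

variable {K : Type u} [Field K] [IsAlgClosed K] {M : Type v} [AddCommGroup M] [Module K M]
  [FiniteDimensional K M]

/-- Shult's bound with the arithmetic conclusion: under `Hyp`, the index of the centre of a
`q`-group is `q ^ (2 m)`, and if `m > 0` then `q = 2` and `r = 2 ^ m + 1`. -/
theorem hyp_fermat [Nontrivial M] {Q : Type w} [Group Q] [Finite Q] {ρ : Q →* Module.End K M}
    {lam : Q → K} (H : Hyp ρ lam) {q r : ℕ} [hqF : Fact q.Prime] (hr : r.Prime)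
    (hQ : IsPGroup q Q) (φ : MulAut Q) (ξ ξi : Module.End K M) (hξ : ξ * ξi = 1)
    (hξ' : ξi * ξ = 1) (hequiv : ∀ g, ξ * ρ g * ξi = ρ (φ g)) (hφr : φ ^ r = 1)
    (hfree : ∀ g : Q, ∀ i, 0 < i → i < r → (φ ^ i) g * g⁻¹ ∈ Subgroup.center Q →
      g ∈ Subgroup.center Q)
    (hξr : ξ ^ r = 1) (hrK : (r : K) ≠ 0) (hfix : ∀ x, ξ x = x → x = 0) :
    ∃ m, (Subgroup.center Q).index = q ^ (2 * m) ∧ (0 < m → q = 2 ∧ r = 2 ^ m + 1) := by
  have hq : q.Prime := hqF.out
  obtain ⟨d, hd⟩ := H.exists_index_eq_sq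
  obtain ⟨hle, hdvd⟩ := H.index_le φ ξ ξi hξ hξ' hequiv r hr.pos hφr hfree hξr hrK hfix
  obtain ⟨k, hk⟩ := IsPGroup.iff_card.mp hQ
  have h1 : (Subgroup.center Q).index ∣ q ^ k := by
    rw [← hk]
    exact Subgroup.index_dvd_card _
  have h2 : d ∣ q ^ k := by
    refine dvd_trans ?_ h1
    rw [hd]
    exact dvd_pow_self d two_ne_zero
  obtain ⟨m, -, hm⟩ := (Nat.dvd_prime_pow hq).mp h2
  refine ⟨m, ?_, ?_⟩
  · rw [hd, hm, ← pow_mul, mul_comm]
  · intro hm0
    rw [hd] at hle hdvd
    exact fermat_of_bounds hq hr hm hm0 hle hdvd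

/-- Abelian case, for groups of invertible linear maps. -/
theorem units_commute_of_abelian (Q : Subgroup (Module.End K M)ˣ) [Finite Q]
    (hab : ∀ a ∈ Q, ∀ b ∈ Q, a * b = b * a) (x : (Module.End K M)ˣ) {r : ℕ} (hr : r.Prime)
    (hxr : x ^ r = 1) (hxQ : ∀ g ∈ Q, x * g * x⁻¹ ∈ Q) (hcard : ((Nat.card Q : ℕ) : K) ≠ 0)
    (hfix : ∀ v : M, (x : Module.End K M) v = v → v = 0) : ∀ g ∈ Q, x * g * x⁻¹ = g := by
  intro g hg
  have hxN := mem_normalizer_of_pow Q x hr.pos hxr hxQ
  have h1 := rho_aut_eq_of_commute (unitsRep Q)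
    (fun a b => by
      rw [← map_mul, ← map_mul]
      congr 1
      apply Subtype.ext
      exact hab a a.2 b b.2)
    (conjAut Q x hxN) (x : Module.End K M) ((x⁻¹ : (Module.End K M)ˣ) : Module.End K M)
    (by rw [← Units.val_mul, mul_inv_cancel, Units.val_one])
    (by rw [← Units.val_mul, inv_mul_cancel, Units.val_one])
    (unitsRep_equiv Q x hxN) hr (conjAut_pow_eq_one Q x hxN hxr)
    (by rw [← Units.val_pow_eq_pow_val, hxr, Units.val_one]) hcard hfix ⟨g, hg⟩
  have h2 := unitsRep_injective Q h1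
  exact congrArg Subtype.val h2

/-- **Shult-type theorem, linear form.**  Let `Q` be a finite `q`-group of invertible linear
maps of a finite-dimensional space over an algebraically closed field in which `q r ≠ 0`,
normalized but not centralized by an invertible map `x` of prime order `r ≠ q` without nonzero
fixed vectors.  Then `q = 2` and `r` is a Fermat prime. -/
theorem shult_core {q r : ℕ} [hqF : Fact q.Prime] (hr : r.Prime) (hqr : q ≠ r)
    (hqK : (q : K) ≠ 0) (hrK : (r : K) ≠ 0) (n : ℕ) :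
    ∀ (M : Type v) [AddCommGroup M] [Module K M] [FiniteDimensional K M]
      (Q : Subgroup (Module.End K M)ˣ) [Finite Q], finrank K M + Nat.card Q = n →
      IsPGroup q Q → ∀ x : (Module.End K M)ˣ, x ^ r = 1 → (∀ g ∈ Q, x * g * x⁻¹ ∈ Q) →
      (∀ v : M, (x : Module.End K M) v = v → v = 0) → (∃ g ∈ Q, x * g * x⁻¹ ≠ g) →
      q = 2 ∧ ∃ k : ℕ, r = 2 ^ k + 1 := by
  induction n using Nat.strong_induction_on with
  | _ n ih =>
    intro M _ _ _ Q _ hn hQ x hxr hxQ hfix hne
    classical
    have hq : q.Prime := hqF.out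
    obtain ⟨g₀, hg₀Q, hg₀⟩ := hne
    have hxN := mem_normalizer_of_pow Q x hr.pos hxr hxQ
    obtain ⟨ρ, hρdef⟩ : ∃ ρ : ↥Q →* Module.End K M, ρ = unitsRep Q := ⟨_, rfl⟩
    have hρinj : Function.Injective ρ := by
      rw [hρdef]
      exact unitsRep_injective Q
    obtain ⟨φ, hφdef⟩ : ∃ φ : MulAut ↥Q, φ = conjAut Q x hxN := ⟨_, rfl⟩
    have hφval : ∀ g : ↥Q, ((φ g : ↥Q) : (Module.End K M)ˣ) = x * g * x⁻¹ := by
      intro g
      rw [hφdef]
      rfl
    have hφne : φ ⟨g₀, hg₀Q⟩ ≠ ⟨g₀, hg₀Q⟩ := by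
      intro h
      apply hg₀
      have h1 := congrArg Subtype.val h
      rw [hφval] at h1
      exact h1
    have hφr : φ ^ r = 1 := by
      rw [hφdef]
      exact conjAut_pow_eq_one Q x hxN hxr
    obtain ⟨ξ, hξdef⟩ : ∃ ξ : Module.End K M, ξ = (x : Module.End K M) := ⟨_, rfl⟩
    obtain ⟨ξi, hξidef⟩ :
        ∃ ξi : Module.End K M, ξi = ((x⁻¹ : (Module.End K M)ˣ) : Module.End K M) := ⟨_, rfl⟩
    have hξ : ξ * ξi = 1 := by
      rw [hξdef, hξidef, ← Units.val_mul, mul_inv_cancel, Units.val_one]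
    have hξ' : ξi * ξ = 1 := by
      rw [hξdef, hξidef, ← Units.val_mul, inv_mul_cancel, Units.val_one]
    have hequiv : ∀ g, ξ * ρ g * ξi = ρ (φ g) := by
      intro g
      rw [hξdef, hξidef, hρdef, hφdef]
      exact unitsRep_equiv Q x hxN g
    have hξr : ξ ^ r = 1 := by
      rw [hξdef, ← Units.val_pow_eq_pow_val, hxr, Units.val_one]
    have hfix' : ∀ v, ξ v = v → v = 0 := by
      rw [hξdef]
      exact hfix
    obtain ⟨kQ, hkQ⟩ := IsPGroup.iff_card.mp hQ
    have hcardK : ((Nat.card ↥Q : ℕ) : K) ≠ 0 := by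
      rw [hkQ, Nat.cast_pow]
      exact pow_ne_zero _ hqK
    haveI : Nontrivial M := by
      by_contra hM
      rw [not_nontrivial_iff_subsingleton] at hM
      apply hg₀
      apply Units.ext
      apply LinearMap.ext
      intro v
      exact Subsingleton.elim _ _
    by_cases hstep : ∃ P₀ : Subgroup ↥Q, P₀ ≠ ⊤ ∧ (∀ g ∈ P₀, φ g ∈ P₀) ∧ ∃ g ∈ P₀, φ g ≠ g
    · -- a proper invariant subgroup on which `x` acts nontrivially: induction
      obtain ⟨P₀, hP₀top, hP₀φ, g₁, hg₁P, hg₁⟩ := hstep
      have hle : P₀.map Q.subtype ≤ Q := by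
        rintro _ ⟨a, _, rfl⟩
        exact a.2
      haveI : Finite ↥(P₀.map Q.subtype) := Finite.of_injective _
        (Subgroup.inclusion_injective hle)
      have hcard : Nat.card ↥(P₀.map Q.subtype) < Nat.card ↥Q := by
        rw [Subgroup.card_map_of_injective Q.subtype_injective]
        apply lt_of_le_of_ne (Subgroup.card_le_card_group P₀)
        intro h
        exact hP₀top ((Subgroup.card_eq_iff_eq_top P₀).mp h)
      refine ih (finrank K M + Nat.card ↥(P₀.map Q.subtype)) (by omega) M (P₀.map Q.subtype) rfl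
        (hQ.to_le hle) x hxr ?_ hfix ?_
      · rintro _ ⟨a, ha, rfl⟩
        refine ⟨φ a, hP₀φ a ha, ?_⟩
        exact hφval a
      · refine ⟨g₁, ⟨g₁, hg₁P, rfl⟩, ?_⟩
        intro h
        apply hg₁
        apply Subtype.ext
        rw [hφval]
        exact h
    · -- minimal situation
      have hmin : ∀ P₀ : Subgroup ↥Q, P₀ ≠ ⊤ → (∀ g ∈ P₀, φ g ∈ P₀) → ∀ g ∈ P₀, φ g = g := by
        intro P₀ h1 h2 g hg
        by_contra h3
        exact hstep ⟨P₀, h1, h2, g, hg, h3⟩
      have hnonab : ∃ a b : ↥Q, a * b ≠ b * a := by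
        by_contra hcon
        push Not at hcon
        apply hg₀
        apply units_commute_of_abelian Q _ x hr hxr hxQ hcardK hfix g₀ hg₀Q
        intro a ha b hb
        exact congrArg Subtype.val (hcon ⟨a, ha⟩ ⟨b, hb⟩)
      obtain ⟨hcc, hfixZ, hfree⟩ := critical_of_minimal hr hqr hQ φ hφr hmin
        ⟨_, hφne⟩ hnonab
      by_cases hsc : ∀ z ∈ Subgroup.center ↥Q, ∃ c : K, ρ z = c • (1 : Module.End K M)
      · -- the centre acts by scalars: Shult's bound
        let lam : ↥Q → K := fun z =>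
          if h : ∃ c : K, ρ z = c • (1 : Module.End K M) then h.choose else 0
        have H : Hyp ρ lam := by
          refine ⟨hcc, ?_, ?_, ?_⟩
          · intro z hz
            have h := hsc z hz
            have h1 : lam z = h.choose := dif_pos h
            rw [h1]
            exact h.choose_spec
          · intro g hg
            by_contra hcon
            push Not at hcon
            apply hg
            rw [Subgroup.mem_center_iff]
            intro h
            have h1 := hcon h
            rw [← map_one ρ] at h1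
            have h2 := hρinj h1
            rw [cm_def] at h2
            have h3 : g * h = h * g := by
              calc g * h = (g * h * g⁻¹ * h⁻¹) * (h * g) := by group
                _ = h * g := by rw [h2, one_mul]
            exact h3.symm
          · have h1 : (Subgroup.center ↥Q).index ∣ q ^ kQ := by
              rw [← hkQ]
              exact Subgroup.index_dvd_card _
            obtain ⟨j, -, hj⟩ := (Nat.dvd_prime_pow hq).mp h1
            rw [hj, Nat.cast_pow]
            exact pow_ne_zero _ hqK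
        obtain ⟨m, hidx, hm⟩ := hyp_fermat H hr hQ φ ξ ξi hξ hξ' hequiv hφr hfree hξr hrK hfix'
        have hm0 : 0 < m := by
          rcases Nat.eq_zero_or_pos m with h0 | h0
          · exfalso
            rw [h0] at hidx
            have h1 : Subgroup.center ↥Q = ⊤ := Subgroup.index_eq_one.mp (by simpa using hidx)
            obtain ⟨a, b, hab⟩ := hnonab
            apply hab
            have ha : a ∈ Subgroup.center ↥Q := by
              rw [h1]
              exact Subgroup.mem_top a
            exact (Subgroup.mem_center_iff.mp ha b).symm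
          · exact h0
        obtain ⟨hq2, hrm⟩ := hm hm0
        exact ⟨hq2, m, hrm⟩
      · -- a central element is not a scalar: restrict to an eigenspace and induct
        push Not at hsc
        obtain ⟨z, hz, hzsc⟩ := hsc
        obtain ⟨ζ, hζdef⟩ : ∃ ζ : Module.End K M, ζ = ρ z := ⟨_, rfl⟩
        have hζss : ζ.IsSemisimple := by
          apply isSemisimple_of_pow_eq_one ζ (Nat.card ↥Q) _ hcardK
          rw [hζdef, ← map_pow, pow_card_eq_one', map_one]
        have htop := hζss.iSup_eigenspace_eq_top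
        obtain ⟨μ, w, hw, hwne⟩ : ∃ μ : K, ∃ w ∈ Module.End.eigenspace ζ μ,
            ρ (φ ⟨g₀, hg₀Q⟩) w ≠ ρ ⟨g₀, hg₀Q⟩ w := by
          by_contra hcon
          push Not at hcon
          apply hφne
          apply hρinj
          have h1 : LinearMap.eqLocus (ρ (φ ⟨g₀, hg₀Q⟩)) (ρ ⟨g₀, hg₀Q⟩) = ⊤ := by
            rw [eq_top_iff, ← htop]
            apply iSup_le
            intro μ w hw
            exact hcon μ w hw
          exact LinearMap.eqLocus_eq_top.mp h1
        have hWtop : Module.End.eigenspace ζ μ ≠ ⊤ := by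
          intro h
          apply hzsc μ
          rw [← hζdef]
          apply LinearMap.ext
          intro v
          have hv : v ∈ Module.End.eigenspace ζ μ := by
            rw [h]
            exact Submodule.mem_top
          rw [Module.End.mem_eigenspace_iff] at hv
          rw [hv]
          simp
        have hfin := Submodule.finrank_lt hWtop
        have hcommζ : ∀ g, ρ g * ζ = ζ * ρ g := by
          intro g
          rw [hζdef, ← map_mul, ← map_mul, Subgroup.mem_center_iff.mp hz g]
        have hξζ : ξ * ζ = ζ * ξ := by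
          have h1 := hequiv z
          rw [hfixZ z hz, ← hζdef] at h1
          calc ξ * ζ = ξ * ζ * (ξi * ξ) := by rw [hξ', mul_one]
            _ = (ξ * ζ * ξi) * ξ := by simp only [mul_assoc]
            _ = ζ * ξ := by rw [h1]
        have hξiζ : ξi * ζ = ζ * ξi := by
          calc ξi * ζ = ξi * ζ * (ξ * ξi) := by rw [hξ, mul_one]
            _ = ξi * (ζ * ξ) * ξi := by simp only [mul_assoc]
            _ = ξi * (ξ * ζ) * ξi := by rw [hξζ]
            _ = (ξi * ξ) * ζ * ξi := by simp only [mul_assoc]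
            _ = ζ * ξi := by rw [hξ', one_mul]
        have hξW : ∀ w ∈ Module.End.eigenspace ζ μ, ξ w ∈ Module.End.eigenspace ζ μ :=
          fun _ hw => mem_eigenspace_of_comm hξζ hw
        have hξiW : ∀ w ∈ Module.End.eigenspace ζ μ, ξi w ∈ Module.End.eigenspace ζ μ :=
          fun _ hw => mem_eigenspace_of_comm hξiζ hw
        let x' : (Module.End K ↥(Module.End.eigenspace ζ μ))ˣ :=
          { val := ξ.restrict hξW
            inv := ξi.restrict hξiW
            val_inv := by
              apply LinearMap.ext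
              intro w
              apply Subtype.ext
              show ξ (ξi w) = w
              have h1 := LinearMap.congr_fun hξ (w : M)
              exact h1
            inv_val := by
              apply LinearMap.ext
              intro w
              apply Subtype.ext
              show ξi (ξ w) = w
              have h1 := LinearMap.congr_fun hξ' (w : M)
              exact h1 }
        have hx'val : ∀ w : ↥(Module.End.eigenspace ζ μ),
            (((x' : Module.End K ↥(Module.End.eigenspace ζ μ)) w :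
              ↥(Module.End.eigenspace ζ μ)) : M) = ξ w := fun w => rfl
        have hx'inv : ∀ w : ↥(Module.End.eigenspace ζ μ),
            ((((x'⁻¹ : (Module.End K ↥(Module.End.eigenspace ζ μ))ˣ) :
              Module.End K ↥(Module.End.eigenspace ζ μ)) w :
              ↥(Module.End.eigenspace ζ μ)) : M) = ξi w := fun w => rfl
        obtain ⟨ρW, hρWdef⟩ : ∃ ρW : ↥Q →* (Module.End K ↥(Module.End.eigenspace ζ μ))ˣ,
            ρW = (eigRes ρ ζ μ hcommζ).toHomUnits := ⟨_, rfl⟩
        have hρWval : ∀ (g : ↥Q) (w : ↥(Module.End.eigenspace ζ μ)),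
            ((((ρW g : (Module.End K ↥(Module.End.eigenspace ζ μ))ˣ) :
              Module.End K ↥(Module.End.eigenspace ζ μ)) w :
              ↥(Module.End.eigenspace ζ μ)) : M) = ρ g w := by
          intro g w
          rw [hρWdef]
          rfl
        have hconj : ∀ g : ↥Q, x' * ρW g * x'⁻¹ = ρW (φ g) := by
          intro g
          apply Units.ext
          apply LinearMap.ext
          intro w
          apply Subtype.ext
          rw [Units.val_mul, Units.val_mul, Module.End.mul_apply, Module.End.mul_apply,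
            hx'val, hρWval, hx'inv, hρWval]
          have h1 := LinearMap.congr_fun (hequiv g) (w : M)
          exact h1
        haveI : Finite ↥ρW.range :=
          Finite.of_surjective ρW.rangeRestrict ρW.rangeRestrict_surjective
        have hcard' : Nat.card ↥ρW.range ≤ Nat.card ↥Q :=
          Nat.card_le_card_of_surjective ρW.rangeRestrict ρW.rangeRestrict_surjective
        refine ih (finrank K ↥(Module.End.eigenspace ζ μ) + Nat.card ↥ρW.range) (by omega)
          ↥(Module.End.eigenspace ζ μ) ρW.range rfl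
          (hQ.of_surjective ρW.rangeRestrict ρW.rangeRestrict_surjective) x' ?_ ?_ ?_ ?_
        · apply Units.ext
          apply LinearMap.ext
          intro w
          apply Subtype.ext
          rw [Units.val_pow_eq_pow_val]
          show ((((ξ.restrict hξW : Module.End K ↥(Module.End.eigenspace ζ μ)) ^ r) w :
            ↥(Module.End.eigenspace ζ μ)) : M) = w
          rw [restrict_pow_coe, hξr]
          rfl
        · rintro _ ⟨g, rfl⟩
          rw [hconj]
          exact ⟨φ g, rfl⟩
        · intro w hw'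
          apply Subtype.ext
          have h1 := congrArg Subtype.val hw'
          rw [hx'val] at h1
          exact hfix' _ h1
        · refine ⟨ρW ⟨g₀, hg₀Q⟩, ⟨_, rfl⟩, ?_⟩
          rw [hconj]
          intro h
          apply hwne
          have h1 := congrArg (fun u : (Module.End K ↥(Module.End.eigenspace ζ μ))ˣ =>
            (((u : Module.End K ↥(Module.End.eigenspace ζ μ)) ⟨w, hw⟩ :
              ↥(Module.End.eigenspace ζ μ)) : M)) h
          simp only [hρWval] at h1
          exact h1

/-- **Shult-type theorem, linear form** (see `shult_core`), with the additional conclusion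
that the `q`-group is not abelian. -/
theorem shult_linear {q r : ℕ} [hqF : Fact q.Prime] (hr : r.Prime) (hqr : q ≠ r)
    (hqK : (q : K) ≠ 0) (hrK : (r : K) ≠ 0)
    (Q : Subgroup (Module.End K M)ˣ) [Finite Q] (hQ : IsPGroup q Q) (x : (Module.End K M)ˣ)
    (hxr : x ^ r = 1) (hxQ : ∀ g ∈ Q, x * g * x⁻¹ ∈ Q)
    (hfix : ∀ v : M, (x : Module.End K M) v = v → v = 0) (hne : ∃ g ∈ Q, x * g * x⁻¹ ≠ g) :
    q = 2 ∧ (∃ k : ℕ, r = 2 ^ k + 1) ∧ ∃ a ∈ Q, ∃ b ∈ Q, a * b ≠ b * a := by
  obtain ⟨h1, h2⟩ := shult_core hr hqr hqK hrK _ M Q rfl hQ x hxr hxQ hfix hne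
  refine ⟨h1, h2, ?_⟩
  by_contra hcon
  push Not at hcon
  obtain ⟨g, hg, hgne⟩ := hne
  apply hgne
  obtain ⟨kQ, hkQ⟩ := IsPGroup.iff_card.mp hQ
  have hcardK : ((Nat.card ↥Q : ℕ) : K) ≠ 0 := by
    rw [hkQ, Nat.cast_pow]
    exact pow_ne_zero _ hqK
  exact units_commute_of_abelian Q hcon x hr hxr hxQ hcardK hfix g hg

end Core

end Cfsg.Agent.Helper63.Shult
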