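-- helper63 library: a Clifford-type reduction step for a commuting family of semisimple
-- operators permuted by a fixed-point-free operator of finite order; add-only once landed.
import Cfsg.Agent.Helper63.ShultCore

set_option autoImplicit false

namespace Cfsg.Agent.Helper63.Gross

open Module Cfsg.Agent.Helper63.ProjRep Cfsg.Agent.Helper63.Shult

universe u v w

section SimEig

variable {K : Type u} [Field K] {M : Type v} [AddCommGroup M] [Module K M]

/-- The simultaneous eigenspace of a family of operators. -/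
def simEig {ι : Type w} (f : ι → Module.End K M) (χ : ι → K) : Submodule K M where
  carrier := {v | ∀ i, f i v = χ i • v}
  add_mem' := by
    intro a b ha hb i
    have ha' := ha i
    have hb' := hb i
    rw [map_add, ha', hb', smul_add]
  zero_mem' := by
    intro i
    simp
  smul_mem' := by
    intro c v hv i
    have hv' := hv i
    rw [map_smul, hv', smul_comm]

theorem mem_simEig {ι : Type w} (f : ι → Module.End K M) (χ : ι → K) (v : M) :
    v ∈ simEig f χ ↔ ∀ i, f i v = χ i • v := Iff.rfl

theorem sum_pow_fixed' (ξ : Module.End K M) (s : ℕ) (w : M) (hw : (ξ ^ s) w = w) :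
    ξ (∑ i ∈ Finset.range s, (ξ ^ i) w) = ∑ i ∈ Finset.range s, (ξ ^ i) w := by
  rw [map_sum]
  have h1 : ∀ i, ξ ((ξ ^ i) w) = (ξ ^ (i + 1)) w := by
    intro i
    rw [pow_succ' ξ, Module.End.mul_apply]
  simp_rw [h1]
  have h2 := Finset.sum_range_succ' (fun i => (ξ ^ i) w) s
  have h3 := Finset.sum_range_succ (fun i => (ξ ^ i) w) s
  rw [h3] at h2
  simp only [hw, pow_zero, Module.End.one_apply] at h2
  exact (add_right_cancel h2).symm

/-- Restriction of a representation to an invariant submodule. -/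
def resHom {H : Type w} [Monoid H] (ρ : H →* Module.End K M) (W : Submodule K M)
    (hW : ∀ h, ∀ w ∈ W, ρ h w ∈ W) : H →* Module.End K ↥W where
  toFun h := (ρ h).restrict (p := W) (q := W) (hW h)
  map_one' := by
    apply LinearMap.ext
    intro w
    apply Subtype.ext
    rw [LinearMap.coe_restrict_apply, map_one]
    rfl
  map_mul' a b := by
    apply LinearMap.ext
    intro w
    apply Subtype.ext
    rw [LinearMap.coe_restrict_apply, map_mul]
    rfl

theorem resHom_apply {H : Type w} [Monoid H] (ρ : H →* Module.End K M) (W : Submodule K M)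
    (hW : ∀ h, ∀ w ∈ W, ρ h w ∈ W) (h : H) (w : ↥W) :
    ((resHom ρ W hW h w : ↥W) : M) = ρ h w := rfl

end SimEig

section Clifford

variable {K : Type u} [Field K] [IsAlgClosed K] {M : Type v} [AddCommGroup M] [Module K M]
  [FiniteDimensional K M]

/-- **Clifford step.**  Let `f i` be pairwise commuting semisimple operators permuted (via
`π`) by an operator `ξ` with `ξ ^ N = 1` and without nonzero fixed vectors, and let `a ≠ b`
be operators.  Then there are a simultaneous eigenspace `W` of the `f i` and `s ∣ N` such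
that `ξ ^ s` maps `W` to itself without nonzero fixed vectors, and `a`, `b` differ on `W`. -/
theorem clifford_step {ι : Type w} (f : ι → Module.End K M)
    (hcomm : ∀ i j, f i * f j = f j * f i) (hss : ∀ i, (f i).IsSemisimple)
    (ξ : Module.End K M) (π : ι → ι) (hπ : ∀ i, f i * ξ = ξ * f (π i))
    {N : ℕ} (hN : 0 < N) (hξN : ξ ^ N = 1) (hfix : ∀ v, ξ v = v → v = 0)
    (a b : Module.End K M) (hab : a ≠ b) :
    ∃ (χ : ι → K) (s : ℕ), 0 < s ∧ s ∣ N ∧
      (∀ w ∈ simEig f χ, (ξ ^ s) w ∈ simEig f χ) ∧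
      (∀ w ∈ simEig f χ, (ξ ^ s) w = w → w = 0) ∧
      (∃ w ∈ simEig f χ, a w ≠ b w) := by
  classical
  let Mχ : (ι → K) → Submodule K M := fun χ => ⨅ i, (f i).maxGenEigenspace (χ i)
  have hmem : ∀ χ v, v ∈ Mχ χ ↔ v ∈ simEig f χ := by
    intro χ v
    simp only [Mχ, Submodule.mem_iInf, mem_simEig]
    constructor
    · intro h i
      have := h i
      rw [(hss i).isFinitelySemisimple.maxGenEigenspace_eq_eigenspace] at this
      exact Module.End.mem_eigenspace_iff.mp this
    · intro h i
      rw [(hss i).isFinitelySemisimple.maxGenEigenspace_eq_eigenspace]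
      exact Module.End.mem_eigenspace_iff.mpr (h i)
  have htop : ⨆ χ, Mχ χ = ⊤ := by
    apply Module.End.iSup_iInf_maxGenEigenspace_eq_top_of_iSup_maxGenEigenspace_eq_top_of_commute
    · intro i j _
      exact hcomm i j
    · intro i
      exact Module.End.iSup_maxGenEigenspace_eq_top (f i)
  have hind : iSupIndep Mχ := by
    apply Module.End.independent_iInf_maxGenEigenspace_of_forall_mapsTo
    intro i j μ
    exact Module.End.mapsTo_maxGenEigenspace_of_comm (hcomm j i) μ
  -- choose the eigenspace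
  obtain ⟨χ, w₀, hw₀, hw₀ne⟩ : ∃ χ : ι → K, ∃ w ∈ Mχ χ, a w ≠ b w := by
    by_contra hcon
    push Not at hcon
    apply hab
    have h1 : LinearMap.eqLocus a b = ⊤ := by
      rw [eq_top_iff, ← htop]
      apply iSup_le
      intro χ w hw
      exact hcon χ w hw
    exact LinearMap.eqLocus_eq_top.mp h1
  rw [hmem] at hw₀
  have hw₀0 : w₀ ≠ 0 := by
    intro h
    apply hw₀ne
    rw [h, map_zero, map_zero]
  -- moving eigenspaces
  have hmove : ∀ (χ' : ι → K) v, v ∈ simEig f χ' → ξ v ∈ simEig f (χ' ∘ π) := by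
    intro χ' v hv
    rw [mem_simEig] at hv ⊢
    intro i
    have h1 := LinearMap.congr_fun (hπ i) v
    simp only [Module.End.mul_apply] at h1
    rw [h1, hv (π i), map_smul]
    rfl
  have hmovek : ∀ (k : ℕ) (χ' : ι → K) v, v ∈ simEig f χ' →
      (ξ ^ k) v ∈ simEig f (χ' ∘ π^[k]) := by
    intro k
    induction k with
    | zero =>
      intro χ' v hv
      simpa using hv
    | succ k ih =>
      intro χ' v hv
      have h1 := hmove _ _ (ih χ' v hv)
      rw [pow_succ' ξ, Module.End.mul_apply, Function.iterate_succ]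
      exact h1
  -- the period
  have hSN : χ ∘ π^[N] = χ := by
    have h1 := hmovek N χ w₀ hw₀
    rw [hξN, Module.End.one_apply] at h1
    funext i
    have h2 := (mem_simEig f _ w₀).mp h1 i
    have h3 := (mem_simEig f _ w₀).mp hw₀ i
    rw [h3] at h2
    exact (smul_left_injective K hw₀0 h2).symm
  have hex : ∃ k, 0 < k ∧ χ ∘ π^[k] = χ := ⟨N, hN, hSN⟩
  obtain ⟨s, hsdef⟩ : ∃ s, s = Nat.find hex := ⟨_, rfl⟩
  have hs0 : 0 < s := by
    rw [hsdef]
    exact (Nat.find_spec hex).1
  have hsS : χ ∘ π^[s] = χ := by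
    rw [hsdef]
    exact (Nat.find_spec hex).2
  have hsmin : ∀ k, 0 < k → k < s → χ ∘ π^[k] ≠ χ := by
    intro k hk0 hks hk
    rw [hsdef] at hks
    exact Nat.find_min hex hks ⟨hk0, hk⟩
  have hmul : ∀ c : ℕ, χ ∘ π^[s * c] = χ := by
    intro c
    induction c with
    | zero => simp
    | succ c ih =>
      have h1 : s * (c + 1) = s * c + s := by ring
      rw [h1, Function.iterate_add, ← Function.comp_assoc, ih, hsS]
  have hsN : s ∣ N := by
    apply Nat.dvd_of_mod_eq_zero
    by_contra hb0
    have hb1 : 0 < N % s := Nat.pos_of_ne_zero hb0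
    have hb2 : N % s < s := Nat.mod_lt _ hs0
    apply hsmin (N % s) hb1 hb2
    have h1 : N = s * (N / s) + N % s := (Nat.div_add_mod N s).symm
    have h2 : χ ∘ π^[s * (N / s) + N % s] = χ := by
      rw [← h1]
      exact hSN
    rw [Function.iterate_add, ← Function.comp_assoc, hmul] at h2
    exact h2
  refine ⟨χ, s, hs0, hsN, ?_, ?_, ⟨w₀, hw₀, hw₀ne⟩⟩
  · intro w hw
    have h1 := hmovek s χ w hw
    rw [hsS] at h1
    exact h1
  · intro w hw hws
    by_contra hw0
    let c : Fin s → (ι → K) := fun i => χ ∘ π^[(i : ℕ)]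
    have key : ∀ i j : Fin s, (i : ℕ) < (j : ℕ) → c i = c j → False := by
      intro i j hlt hij
      have hj := j.2
      apply hsmin ((i : ℕ) + (s - (j : ℕ))) (by omega) (by omega)
      have h1 : (χ ∘ π^[(i : ℕ)]) ∘ π^[s - (j : ℕ)] = (χ ∘ π^[(j : ℕ)]) ∘ π^[s - (j : ℕ)] := by
        have h2 : χ ∘ π^[(i : ℕ)] = χ ∘ π^[(j : ℕ)] := hij
        rw [h2]
      rw [Function.comp_assoc, Function.comp_assoc, ← Function.iterate_add,
        ← Function.iterate_add] at h1
      rw [h1]
      have h3 : (j : ℕ) + (s - (j : ℕ)) = s := by omega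
      rw [h3]
      exact hsS
    have hcinj : Function.Injective c := by
      intro i j hij
      rcases lt_trichotomy (i : ℕ) (j : ℕ) with h | h | h
      · exact (key i j h hij).elim
      · exact Fin.ext h
      · exact (key j i h hij.symm).elim
    have hind' : iSupIndep (fun i : Fin s => Mχ (c i)) := hind.comp hcinj
    have hvi : ∀ i : Fin s, (ξ ^ (i : ℕ)) w ∈ Mχ (c i) := by
      intro i
      rw [hmem]
      exact hmovek i χ w hw
    have hvi0 : ∀ i : Fin s, (ξ ^ (i : ℕ)) w ≠ 0 := by
      intro i h0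
      apply hw0
      have h1 : ξ ^ ((i : ℕ) * (N - 1)) * ξ ^ (i : ℕ) = 1 := by
        rw [← pow_add]
        have h2 : (i : ℕ) * (N - 1) + (i : ℕ) = N * (i : ℕ) := by
          obtain ⟨N', rfl⟩ : ∃ N', N = N' + 1 := ⟨N - 1, by omega⟩
          simp only [Nat.add_sub_cancel]
          ring
        rw [h2, pow_mul, hξN, one_pow]
      have h2 := LinearMap.congr_fun h1 w
      rw [Module.End.mul_apply, h0, map_zero, Module.End.one_apply] at h2
      exact h2.symm
    have hli := hind'.linearIndependent (fun i : Fin s => Mχ (c i)) hvi hvi0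
    have hsum : ∑ i : Fin s, (ξ ^ (i : ℕ)) w = 0 := by
      rw [Fin.sum_univ_eq_sum_range (fun i => (ξ ^ i) w) s]
      exact hfix _ (sum_pow_fixed' ξ s w hws)
    have h7 := Fintype.linearIndependent_iff.mp hli (fun _ => 1) (by simpa using hsum)
      ⟨0, hs0⟩
    exact one_ne_zero h7

end Clifford

end Cfsg.Agent.Helper63.Gross
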