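-- helper63 library: the module of additive functions `V → K` on an elementary abelian
-- `p`-subgroup `V`, with the action of its normalizer (a linearisation of the conjugation
-- action on `V` over any field of characteristic `p`); add-only once landed.
import Mathlib

set_option autoImplicit false

namespace Cfsg.Agent.Helper63.AddCharRep

universe u v

section Defs

variable {G : Type u} [Group G] (V : Subgroup G) (K : Type v) [Field K]

/-- The additive functions `V → K`. -/
def addChar : Submodule K (↥V → K) where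
  carrier := {f | ∀ a b : ↥V, f (a * b) = f a + f b}
  add_mem' := by
    intro f g hf hg a b
    have hf' := hf a b
    have hg' := hg a b
    simp only [Pi.add_apply]
    rw [hf', hg']
    ring
  zero_mem' := by
    intro a b
    simp
  smul_mem' := by
    intro c f hf a b
    have hf' := hf a b
    simp only [Pi.smul_apply, smul_eq_mul]
    rw [hf']
    ring

variable {V K}

theorem mem_addChar {f : ↥V → K} : f ∈ addChar V K ↔ ∀ a b : ↥V, f (a * b) = f a + f b :=
  Iff.rfl

theorem addChar_one (f : ↥(addChar V K)) : (f : ↥V → K) 1 = 0 := by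
  have h := f.2 1 1
  rw [mul_one] at h
  exact left_eq_add.mp h

theorem addChar_inv (f : ↥(addChar V K)) (a : ↥V) : (f : ↥V → K) a⁻¹ = - (f : ↥V → K) a := by
  have h := f.2 a a⁻¹
  rw [mul_inv_cancel, addChar_one] at h
  exact eq_neg_of_add_eq_zero_right h.symm

/-- Conjugation `v ↦ g⁻¹ v g` on `V` by an element of its normalizer. -/
def conjV (g : ↥(Subgroup.normalizer (V : Set G))) (a : ↥V) : ↥V :=
  ⟨(g : G)⁻¹ * a * g, (Subgroup.mem_normalizer_iff''.mp g.2 (a : G)).mp a.2⟩

theorem conjV_coe (g : ↥(Subgroup.normalizer (V : Set G))) (a : ↥V) :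
    ((conjV g a : ↥V) : G) = (g : G)⁻¹ * a * g := rfl

theorem conjV_mul (g : ↥(Subgroup.normalizer (V : Set G))) (a b : ↥V) :
    conjV g (a * b) = conjV g a * conjV g b := by
  apply Subtype.ext
  simp only [conjV_coe, Subgroup.coe_mul]
  group

theorem conjV_one (a : ↥V) : conjV (1 : ↥(Subgroup.normalizer (V : Set G))) a = a := by
  apply Subtype.ext
  simp [conjV_coe]

theorem conjV_comp (g h : ↥(Subgroup.normalizer (V : Set G))) (a : ↥V) :
    conjV h (conjV g a) = conjV (g * h) a := by
  apply Subtype.ext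
  simp only [conjV_coe, Subgroup.coe_mul]
  group

variable (V K)

/-- The representation of the normalizer of `V` on the additive functions `V → K`:
`(g • f) v = f (g⁻¹ v g)`. -/
def rho : ↥(Subgroup.normalizer (V : Set G)) →* Module.End K ↥(addChar V K) where
  toFun g :=
    { toFun := fun f => ⟨fun a => (f : ↥V → K) (conjV g a), by
        intro a b
        show (f : ↥V → K) (conjV g (a * b)) = (f : ↥V → K) (conjV g a) + (f : ↥V → K) (conjV g b)
        rw [conjV_mul]
        exact f.2 _ _⟩
      map_add' := by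
        intro f f'
        rfl
      map_smul' := by
        intro c f
        rfl }
  map_one' := by
    apply LinearMap.ext
    intro f
    apply Subtype.ext
    funext a
    show (f : ↥V → K) (conjV 1 a) = (f : ↥V → K) a
    rw [conjV_one]
  map_mul' := by
    intro g h
    apply LinearMap.ext
    intro f
    apply Subtype.ext
    funext a
    show (f : ↥V → K) (conjV (g * h) a) = (f : ↥V → K) (conjV h (conjV g a))
    rw [conjV_comp]

variable {V K}

theorem rho_apply (g : ↥(Subgroup.normalizer (V : Set G))) (f : ↥(addChar V K)) (a : ↥V) :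
    ((rho V K g f : ↥(addChar V K)) : ↥V → K) a = (f : ↥V → K) (conjV g a) := rfl

end Defs

section Facts

variable {G : Type u} [Group G] {V : Subgroup G} {K : Type v} [Field K]

/-- If `g` has no nontrivial fixed point on the finite abelian group `V`, it has no nonzero
fixed additive function. -/
theorem eq_zero_of_rho_fixed [Finite V] (_hcomm : ∀ a b : ↥V, a * b = b * a)
    (g : ↥(Subgroup.normalizer (V : Set G)))
    (hfix : ∀ a : ↥V, conjV g a = a → a = 1) (f : ↥(addChar V K))
    (hf : rho V K g f = f) : f = 0 := by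
  have hinj : Function.Injective (fun a : ↥V => a⁻¹ * conjV g a) := by
    intro a b hab
    have hab' : a⁻¹ * conjV g a = b⁻¹ * conjV g b := hab
    have h1 : conjV g (a * b⁻¹) = a * b⁻¹ := by
      have h2 : conjV g b⁻¹ = (conjV g b)⁻¹ := by
        have h3 := conjV_mul g b b⁻¹
        rw [mul_inv_cancel] at h3
        have h4 : conjV g (1 : ↥V) = 1 := by
          apply Subtype.ext
          simp [conjV_coe]
        rw [h4] at h3
        exact eq_inv_of_mul_eq_one_right h3.symm
      rw [conjV_mul, h2]
      have h5 : conjV g a = a * (b⁻¹ * conjV g b) := by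
        rw [← hab', mul_inv_cancel_left]
      rw [h5, mul_assoc, mul_assoc, mul_inv_cancel, mul_one]
    have h6 := hfix _ h1
    exact mul_inv_eq_one.mp h6
  have hsurj : Function.Surjective (fun a : ↥V => a⁻¹ * conjV g a) :=
    Finite.injective_iff_surjective.mp hinj
  apply Subtype.ext
  funext a
  obtain ⟨b, hb⟩ := hsurj a
  have hb' : b⁻¹ * conjV g b = a := hb
  have h1 : (f : ↥V → K) (conjV g b) = (f : ↥V → K) b := by
    have h2 := congrArg (fun f' : ↥(addChar V K) => (f' : ↥V → K) b) hf
    exact h2
  show (f : ↥V → K) a = 0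
  rw [← hb', f.2, addChar_inv, h1, neg_add_cancel]

theorem exists_dual_ne_zero_aux {p : ℕ} [Fact p.Prime] {A : Type u} [AddCommGroup A]
    [Module (ZMod p) A] (x : A) (hx : x ≠ 0) : ∃ φ : A →ₗ[ZMod p] ZMod p, φ x ≠ 0 :=
  Module.Projective.exists_dual_ne_zero (ZMod p) hx

theorem exists_addMonoidHom_ne_zero {p : ℕ} [Fact p.Prime] {A : Type u} [AddCommGroup A]
    (hA : ∀ x : A, p • x = 0) (x : A) (hx : x ≠ 0) : ∃ φ : A →+ ZMod p, φ x ≠ 0 := by
  letI : Module (ZMod p) A := AddCommGroup.zmodModule (n := p) hA
  obtain ⟨φ, hφ⟩ := exists_dual_ne_zero_aux (p := p) x hx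
  exact ⟨φ.toAddMonoidHom, hφ⟩

/-- Additive functions separate the points of an elementary abelian `p`-group, when `K` has
characteristic `p`. -/
theorem exists_addChar_ne_zero [Finite V] {p : ℕ} [Fact p.Prime] [CharP K p]
    (hcomm : ∀ a b : ↥V, a * b = b * a) (hexp : ∀ a : ↥V, a ^ p = 1) (a : ↥V) (ha : a ≠ 1) :
    ∃ f : ↥(addChar V K), (f : ↥V → K) a ≠ 0 := by
  letI : CommGroup ↥V := { (inferInstance : Group ↥V) with mul_comm := hcomm }
  have hne : Additive.ofMul a ≠ 0 := fun h => ha (congrArg Additive.toMul h)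
  obtain ⟨φ, hφ⟩ := exists_addMonoidHom_ne_zero (p := p) (A := Additive ↥V) (fun x => by
    have h := hexp (Additive.toMul x)
    exact congrArg Additive.ofMul h) (Additive.ofMul a) hne
  refine ⟨⟨fun b => ZMod.castHom (dvd_refl p) K (φ (Additive.ofMul b)), ?_⟩, ?_⟩
  · intro b c
    have h2 : φ (Additive.ofMul (b * c)) = φ (Additive.ofMul b) + φ (Additive.ofMul c) :=
      map_add φ (Additive.ofMul b) (Additive.ofMul c)
    show ZMod.castHom (dvd_refl p) K (φ (Additive.ofMul (b * c))) = _
    rw [h2, map_add]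
  · show ZMod.castHom (dvd_refl p) K (φ (Additive.ofMul a)) ≠ 0
    intro h0
    apply hφ
    exact (map_eq_zero (ZMod.castHom (dvd_refl p) K)).mp h0

/-- An element of the normalizer acting trivially on the additive functions centralizes `V`. -/
theorem commute_of_rho_eq_one [Finite V] {p : ℕ} [Fact p.Prime] [CharP K p]
    (hcomm : ∀ a b : ↥V, a * b = b * a) (hexp : ∀ a : ↥V, a ^ p = 1)
    (g : ↥(Subgroup.normalizer (V : Set G))) (hg : rho V K g = 1) (a : ↥V) :
    (a : G) * g = g * a := by
  by_contra hne
  have h1 : conjV g a * a⁻¹ ≠ 1 := by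
    intro h
    apply hne
    have h2 : conjV g a = a := mul_inv_eq_one.mp h
    have h3 := congrArg Subtype.val h2
    rw [conjV_coe] at h3
    calc (a : G) * g = g * ((g : G)⁻¹ * a * g) := by group
      _ = g * a := by rw [h3]
  obtain ⟨f, hf⟩ := exists_addChar_ne_zero (K := K) hcomm hexp _ h1
  apply hf
  have h4 : (f : ↥V → K) (conjV g a) = (f : ↥V → K) a := by
    have h5 := congrArg (fun T : Module.End K ↥(addChar V K) => ((T f : ↥(addChar V K)) : ↥V → K) a) hg
    exact h5
  rw [f.2, addChar_inv, h4, add_neg_cancel]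

theorem nontrivial_addChar [Finite V] {p : ℕ} [Fact p.Prime] [CharP K p]
    (hcomm : ∀ a b : ↥V, a * b = b * a) (hexp : ∀ a : ↥V, a ^ p = 1) (hV : V ≠ ⊥) :
    Nontrivial ↥(addChar V K) := by
  obtain ⟨a, ha1⟩ := (Subgroup.ne_bot_iff_exists_ne_one).mp hV
  obtain ⟨f, hf⟩ := exists_addChar_ne_zero (K := K) hcomm hexp a ha1
  refine ⟨f, 0, ?_⟩
  intro h
  apply hf
  rw [h]
  rfl

end Facts

end Cfsg.Agent.Helper63.AddCharRep
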