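import Mathlib

/-!
# Ring identities replacing character theory for fixed-point-free automorphisms of order 4

`R` is any ring (in applications: the endomorphism ring of an elementary abelian `p`-group `V`),
`s : R` with `1 + s + s^2 + s^3 = 0` (the automorphism has no fixed point on `V`).

* `Fpf4.L1`: commuting units `a`, `b` of odd order `n` with `s a = b s`, `s b = a⁻¹ s` force `a = 1`
  (if `R` has no `n`-torsion and no `2`-torsion).
* `Fpf4.L2`: units `X`, `Y` inverted by `s^2`, whose commutator `ζ` is central for them, fixed by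
  `s^2` and inverted by `s`: then `ζ = 1`.
-/

namespace Cfsg.Agent.Helper63
namespace Fpf4

section Ring
variable {R : Type*} [Ring R]

theorem semi_aux (g y : R) (n : ℕ) (hg : g ^ n = 1) (htn : ∀ x : R, n • x = 0 → x = 0)
    (h : (g - 1) * ((g - 1) * y) = 0) : (g - 1) * y = 0 := by
  have hgy : g * ((g - 1) * y) = (g - 1) * y := by
    linear_combination (norm := noncomm_ring) h
  have key : ∀ i : ℕ, g ^ i * y = y + i • ((g - 1) * y) := by
    intro i
    induction i with
    | zero => simp
    | succ i ih =>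
      rw [pow_succ', mul_assoc, ih, mul_add, mul_smul_comm, hgy, succ_nsmul]
      have : g * y = y + (g - 1) * y := by noncomm_ring
      rw [this]; abel
  have h1 := key n
  rw [hg, one_mul] at h1
  apply htn
  simpa using h1

theorem odd_aux (b y : R) (n : ℕ) (hodd : Odd n) (hbn : b ^ n = 1) (h : b * (b * y) = y) :
    b * y = y := by
  obtain ⟨m, rfl⟩ := hodd
  have key : ∀ k : ℕ, b ^ (2 * k) * y = y := by
    intro k
    induction k with
    | zero => simp
    | succ k ih =>
      rw [show 2 * (k + 1) = 2 * k + 2 by ring, pow_add, mul_assoc, pow_two, mul_assoc, h, ih]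
  have h1 := key (m + 1)
  rw [show 2 * (m + 1) = (2 * m + 1) + 1 by ring, pow_succ, hbn, one_mul] at h1
  exact h1

theorem neg_aux (a w : R) (n : ℕ) (hodd : Odd n) (han : a ^ n = 1) (h : a * w = -w)
    (ht2 : ∀ x : R, 2 • x = 0 → x = 0) : w = 0 := by
  have key : ∀ k : ℕ, a ^ k * w = (-1) ^ k * w := by
    intro k
    induction k with
    | zero => simp
    | succ k ih =>
      rw [pow_succ, mul_assoc, h, mul_neg, ih, pow_succ]
      noncomm_ring
  have h1 := key n
  rw [han, one_mul, hodd.neg_one_pow] at h1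
  apply ht2
  rw [two_nsmul]
  have : w + w = w + (-1) * w := by rw [← h1]
  rw [this]; noncomm_ring

theorem pair_aux (s x x' y y' : R) (hN : 1 + s + s ^ 2 + s ^ 3 = 0)
    (hsx : s * x = y * s) (hsx' : s * x' = y' * s) (hsy : s * y = x' * s) (hsy' : s * y' = x * s) :
    (x + x') * (1 + s * s) = (y + y') * (1 + s * s) := by
  linear_combination (norm := noncomm_ring)
    -(1 + s) * (s * hsx + hsy * s + s * hsx' + hsy' * s) + hN * (x + x')
      - (hsx + hsx') * (1 + s * s) - (y + y') * hN

theorem step_pow4 (g W D Pp : R) (e1 : g * W = D * D) (e2 : W * g = D * D)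
    (h : W * (W * Pp) = 0) : D * (D * (D * (D * Pp))) = 0 := by
  linear_combination (norm := noncomm_ring)
    -(e1 * (D * D * Pp)) - g * W * e1 * Pp + g * (e2 - e1) * (W * Pp) + g * g * h

theorem core_aux (s a a' b b' : R) (n : ℕ) (hN : 1 + s + s ^ 2 + s ^ 3 = 0)
    (haa' : a * a' = 1) (ha'a : a' * a = 1) (hbb' : b * b' = 1) (hb'b : b' * b = 1)
    (hab : a * b = b * a) (hsa : s * a = b * s) (hsb : s * b = a' * s)
    (han : a ^ n = 1) (hbn : b ^ n = 1) (htn : ∀ x : R, n • x = 0 → x = 0) :
    a * b * (1 + s * s) = 1 + s * s := by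
  have hsa' : s * a' = b' * s := by
    linear_combination (norm := noncomm_ring) (-(b' * hsa * a')) - hb'b * s * a' + b' * s * haa'
  have hsb' : s * b' = a * s := by
    linear_combination (norm := noncomm_ring) (-(a * hsb * b')) - haa' * s * b' + a * s * hbb'
  have hab' : a * b' = b' * a := by
    linear_combination (norm := noncomm_ring) (-(b' * hab * b')) - hb'b * (a * b') + b' * a * hbb'
  have ha'b : a' * b = b * a' := by
    linear_combination (norm := noncomm_ring) (-(a' * hab * a')) - a' * b * haa' + ha'a * (b * a')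
  have ha'b' : a' * b' = b' * a' := by
    linear_combination (norm := noncomm_ring)
      (-(a' * hab' * a')) - a' * b' * haa' + ha'a * (b' * a')
  have F1 : (a + a') * (1 + s * s) = (b + b') * (1 + s * s) :=
    pair_aux s a a' b b' hN hsa hsa' hsb hsb'
  have k1 : s * (a * b) = (b * a') * s := by
    linear_combination (norm := noncomm_ring) hsa * b + b * hsb
  have k1' : s * (a' * b') = (b' * a) * s := by
    linear_combination (norm := noncomm_ring) hsa' * b' + b' * hsb'
  have k2 : s * (b * a') = (a' * b') * s := by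
    linear_combination (norm := noncomm_ring) hsb * a' + a' * hsa'
  have k2' : s * (b' * a) = (a * b) * s := by
    linear_combination (norm := noncomm_ring) hsb' * a + a * hsa
  have F2 : (a * b + a' * b') * (1 + s * s) = (b * a' + b' * a) * (1 + s * s) :=
    pair_aux s (a * b) (a' * b') (b * a') (b' * a) hN k1 k1' k2 k2'
  have j1 : s * (a * a) = (b * b) * s := by
    linear_combination (norm := noncomm_ring) hsa * a + b * hsa
  have j1' : s * (a' * a') = (b' * b') * s := by
    linear_combination (norm := noncomm_ring) hsa' * a' + b' * hsa'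
  have j2 : s * (b * b) = (a' * a') * s := by
    linear_combination (norm := noncomm_ring) hsb * b + a' * hsb
  have j2' : s * (b' * b') = (a * a) * s := by
    linear_combination (norm := noncomm_ring) hsb' * b' + a * hsb'
  have F3 : (a * a + a' * a') * (1 + s * s) = (b * b + b' * b') * (1 + s * s) :=
    pair_aux s (a * a) (a' * a') (b * b) (b' * b') hN j1 j1' j2 j2'
  have hI : (a * b + a' * b') * (1 + s * s) + (a * b + a' * b') * (1 + s * s)
      = (a * a + a' * a' + 1 + 1) * (1 + s * s) := by
    linear_combination (norm := noncomm_ring)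
      F2 - (hab' + ha'b) * (1 + s * s) + (haa' + ha'a) * (1 + s * s) - (a + a') * F1
  have hWW : (a * b + a' * b' - 1 - 1) * ((a * b + a' * b' - 1 - 1) * (1 + s * s)) = 0 := by
    linear_combination (norm := noncomm_ring)
      (a * b + a' * b') * F2 - F3 - 2 * hI
        + (hab * b * a' + b * hab * a' + b * b * haa' + a * hbb' * a + a' * hb'b * a'
            + ha'b' * b' * a + b' * ha'b' * a + b' * b' * ha'a) * (1 + s * s)
  have hgg' : a * b * (a' * b') = 1 := by
    linear_combination (norm := noncomm_ring) -(a * ha'b * b') + haa' * b * b' + hbb'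
  have hg'g : a' * b' * (a * b) = 1 := by
    linear_combination (norm := noncomm_ring) -(a' * hab' * b) + ha'a * b' * b + hb'b
  have e1 : (a * b) * (a * b + a' * b' - 1 - 1) = (a * b - 1) * (a * b - 1) := by
    linear_combination (norm := noncomm_ring) hgg'
  have e2 : (a * b + a' * b' - 1 - 1) * (a * b) = (a * b - 1) * (a * b - 1) := by
    linear_combination (norm := noncomm_ring) hg'g
  have h4 := step_pow4 (a * b) (a * b + a' * b' - 1 - 1) (a * b - 1) (1 + s * s) e1 e2 hWW
  have hgn : (a * b) ^ n = 1 := by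
    rw [(show Commute a b from hab).mul_pow, han, hbn, one_mul]
  have h3 := semi_aux (a * b) ((a * b - 1) * ((a * b - 1) * (1 + s * s))) n hgn htn h4
  have h2 := semi_aux (a * b) ((a * b - 1) * (1 + s * s)) n hgn htn h3
  have h1 := semi_aux (a * b) (1 + s * s) n hgn htn h2
  linear_combination (norm := noncomm_ring) h1

/-- **Ring lemma L1.** -/
theorem L1 (s a a' b b' : R) (n : ℕ) (hodd : Odd n) (hN : 1 + s + s ^ 2 + s ^ 3 = 0)
    (haa' : a * a' = 1) (ha'a : a' * a = 1) (hbb' : b * b' = 1) (hb'b : b' * b = 1)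
    (hab : a * b = b * a) (hsa : s * a = b * s) (hsb : s * b = a' * s)
    (han : a ^ n = 1) (htn : ∀ x : R, n • x = 0 → x = 0) (ht2 : ∀ x : R, 2 • x = 0 → x = 0) :
    a = 1 := by
  have hsa' : s * a' = b' * s := by
    linear_combination (norm := noncomm_ring) (-(b' * hsa * a')) - hb'b * s * a' + b' * s * haa'
  have hsb' : s * b' = a * s := by
    linear_combination (norm := noncomm_ring) (-(a * hsb * b')) - haa' * s * b' + a * s * hbb'
  have ha'b : a' * b = b * a' := by
    linear_combination (norm := noncomm_ring) (-(a' * hab * a')) - a' * b * haa' + ha'a * (b * a')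
  -- `b ^ n = 1`
  have hs4 : s * (s * (s * s)) = 1 := by
    linear_combination (norm := noncomm_ring) (s - 1) * hN
  have hbn : b ^ n = 1 := by
    have h1 : s * a ^ n = b ^ n * s := (show SemiconjBy s a b from hsa).pow_right n
    rw [han, mul_one] at h1
    calc b ^ n = b ^ n * (s * (s * (s * s))) := by rw [hs4, mul_one]
      _ = (b ^ n * s) * (s * (s * s)) := by rw [mul_assoc]
      _ = 1 := by rw [← h1, hs4]
  have ha'n : a' ^ n = 1 := by
    have h1 : (a' * a) ^ n = a' ^ n * a ^ n := (show Commute a' a from by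
      rw [Commute, SemiconjBy, ha'a, haa']).mul_pow n
    rw [ha'a, one_pow, han, mul_one] at h1
    exact h1.symm
  have E1 : a * b * (1 + s * s) = 1 + s * s :=
    core_aux s a a' b b' n hN haa' ha'a hbb' hb'b hab hsa hsb han hbn htn
  have E2 : b * a' * (1 + s * s) = 1 + s * s :=
    core_aux s b b' a' a n hN hbb' hb'b ha'a haa' ha'b.symm hsb hsa' hbn ha'n htn
  have hbb : b * (b * (1 + s * s)) = 1 + s * s := by
    linear_combination (norm := noncomm_ring)
      -(hab * b * a' + b * hab * a' + b * b * haa') * (1 + s * s) + a * b * E2 + E1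
  have hbP : b * (1 + s * s) = 1 + s * s := odd_aux b (1 + s * s) n hodd hbn hbb
  have E3 : a * (1 + s * s) = 1 + s * s := by
    linear_combination (norm := noncomm_ring) -(a * hbP) + E1
  have hPD : (1 + s * s) * (a - a') = (a - a') * (1 - s * s) := by
    linear_combination (norm := noncomm_ring) (s * hsa + hsb * s) - (s * hsa' + hsb' * s)
  have hw : a * ((a - 1) * ((a - 1) * (1 - s * s))) = -((a - 1) * ((a - 1) * (1 - s * s))) := by
    linear_combination (norm := noncomm_ring)
      a * E3 * (a - a') - a * (a - 1) * hPD + (a - 1) * haa' * (1 - s * s)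
  have hw0 : (a - 1) * ((a - 1) * (1 - s * s)) = 0 := neg_aux a _ n hodd han hw ht2
  have E4 : (a - 1) * (1 - s * s) = 0 := semi_aux a (1 - s * s) n han htn hw0
  have h2 : (a - 1) + (a - 1) = 0 := by
    linear_combination (norm := noncomm_ring) E3 + E4
  have h3 : a - 1 = 0 := ht2 _ (by rw [two_nsmul]; exact h2)
  exact sub_eq_zero.mp h3

/-- **Ring lemma L2.** -/
theorem L2 (s X X' Y Y' ζ ζ' : R) (n : ℕ) (hodd : Odd n) (hN : 1 + s + s ^ 2 + s ^ 3 = 0)
    (hXX' : X * X' = 1) (hYY' : Y * Y' = 1)
    (hζ : ζ = X * Y * X' * Y') (hζζ' : ζ * ζ' = 1)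
    (hζX : ζ * X = X * ζ) (hζY : ζ * Y = Y * ζ)
    (hΨX : s * s * X = X' * (s * s)) (hΨY : s * s * Y = Y' * (s * s))
    (hΨζ : s * s * ζ = ζ * (s * s)) (hsζ : s * ζ = ζ' * s)
    (hXn : X ^ n = 1) (hYn : Y ^ n = 1) (hζn : ζ ^ n = 1)
    (htn : ∀ x : R, n • x = 0 → x = 0) : ζ = 1 := by
  have ha : ζ * (1 + s * s) = ζ' * (1 + s * s) := by
    linear_combination (norm := noncomm_ring)
      -(1 + s) * hΨζ + hN * ζ - hsζ * (1 + s * s) - ζ' * hN
  have hb : ζ * (ζ * (1 + s * s)) = 1 + s * s := by
    linear_combination (norm := noncomm_ring) hζζ' * (1 + s * s) + ζ * ha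
  have hc : ζ * (1 + s * s) = 1 + s * s := odd_aux ζ _ n hodd hζn hb
  have hd : (1 + s * s) * (ζ - 1) = 0 := by
    linear_combination (norm := noncomm_ring) hc + hΨζ
  have heX : X * (ζ - 1) = X' * (ζ - 1) := by
    linear_combination (norm := noncomm_ring)
      hd * X - hζX - s * s * hζX - hΨX * (ζ - 1) - X' * hd
  have heY : Y * (ζ - 1) = Y' * (ζ - 1) := by
    linear_combination (norm := noncomm_ring)
      hd * Y - hζY - s * s * hζY - hΨY * (ζ - 1) - Y' * hd
  have hfX : X * (X * (ζ - 1)) = ζ - 1 := by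
    linear_combination (norm := noncomm_ring) hXX' * (ζ - 1) + X * heX
  have hfY : Y * (Y * (ζ - 1)) = ζ - 1 := by
    linear_combination (norm := noncomm_ring) hYY' * (ζ - 1) + Y * heY
  have hX1 : X * (ζ - 1) = ζ - 1 := odd_aux X _ n hodd hXn hfX
  have hY1 : Y * (ζ - 1) = ζ - 1 := odd_aux Y _ n hodd hYn hfY
  have hX'1 : X' * (ζ - 1) = ζ - 1 := by rw [← heX, hX1]
  have hY'1 : Y' * (ζ - 1) = ζ - 1 := by rw [← heY, hY1]
  have hg : ζ * (ζ - 1) = ζ - 1 := by
    have h0 : ζ * (ζ - 1) = (X * Y * X' * Y') * (ζ - 1) := by rw [← hζ]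
    calc ζ * (ζ - 1) = X * (Y * (X' * (Y' * (ζ - 1)))) := by
          rw [h0]; simp only [mul_assoc]
      _ = ζ - 1 := by rw [hY'1, hX'1, hY1, hX1]
  have hh : (ζ - 1) * ((ζ - 1) * 1) = 0 := by
    linear_combination (norm := noncomm_ring) hg
  have := semi_aux ζ 1 n hζn htn hh
  rw [mul_one] at this
  exact sub_eq_zero.mp this

end Ring

end Fpf4
end Cfsg.Agent.Helper63
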