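import Mathlib
import Cfsg.Agent.Helper63.FpfRing

/-!
# Fixed-point-free automorphisms `φ` with `φ^4 = 1`: group-level lemmas

Everything is phrased for a finite group `K`, an automorphism `φ`, a ring `R`, a monoid hom
`ρ : K →* R` (a "representation") and `s : R` with `s * ρ k = ρ (φ k) * s` and
`1 + s + s^2 + s^3 = 0`.
-/

namespace Cfsg.Agent.Helper63
namespace Fpf4

section Basic
variable {G : Type*} [Group G]

/-- The map `g ↦ g⁻¹ σ(g)` is injective for a fixed-point-free endomorphism. -/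
theorem fpf_inj (σ : G →* G) (hfpf : ∀ g, σ g = g → g = 1) :
    ∀ g h : G, g⁻¹ * σ g = h⁻¹ * σ h → g = h := by
  intro g h e
  have h1 : σ (h * g⁻¹) = h * g⁻¹ := by
    rw [map_mul, map_inv]
    have : σ g = g * (h⁻¹ * σ h) := by rw [← e]; group
    rw [this]; group
  have := hfpf _ h1
  exact (mul_inv_eq_one.mp this).symm

/-- On a finite `σ`-invariant subgroup `X`, every element is of the form `y⁻¹ σ(y)`. -/
theorem fpf_surj_on [Finite G] (σ : G →* G) (hfpf : ∀ g, σ g = g → g = 1) (X : Subgroup G)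
    (hX : ∀ x ∈ X, σ x ∈ X) : ∀ c ∈ X, ∃ y ∈ X, c = y⁻¹ * σ y := by
  intro c hc
  let f : X → X := fun y => ⟨(y : G)⁻¹ * σ y, X.mul_mem (X.inv_mem y.2) (hX y y.2)⟩
  have hinj : Function.Injective f := by
    intro y y' e
    have := congrArg Subtype.val e
    exact Subtype.ext (fpf_inj σ hfpf _ _ this)
  have hsurj := Finite.injective_iff_surjective.mp hinj
  obtain ⟨y, hy⟩ := hsurj ⟨c, hc⟩
  exact ⟨y, y.2, (congrArg Subtype.val hy).symm⟩

/-- If `σ² c = c` then `σ c = c⁻¹`. -/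
theorem fpf_fix_sq [Finite G] (σ : G →* G) (hfpf : ∀ g, σ g = g → g = 1) (c : G)
    (hc : σ (σ c) = c) : σ c = c⁻¹ := by
  let X : Subgroup G :=
    { carrier := {x | σ (σ x) = x}
      one_mem' := by simp
      mul_mem' := by
        intro a b ha hb
        simp only [Set.mem_ofPred_eq] at ha hb ⊢
        rw [map_mul, map_mul, ha, hb]
      inv_mem' := by
        intro a ha
        simp only [Set.mem_ofPred_eq] at ha ⊢
        rw [map_inv, map_inv, ha] }
  have hX : ∀ x ∈ X, σ x ∈ X := by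
    intro x hx
    change σ (σ (σ x)) = σ x
    rw [show σ (σ x) = x from hx]
  obtain ⟨y, hy, rfl⟩ := fpf_surj_on σ hfpf X hX c hc
  have hy' : σ (σ y) = y := hy
  rw [map_mul, map_inv, hy']
  group

/-- The quotient by an invariant normal subgroup is again fixed-point-free. -/
theorem fpf_quotient [Finite G] (σ : G ≃* G) (hfpf : ∀ g, σ g = g → g = 1) (N : Subgroup G)
    [N.Normal] (hN : ∀ x ∈ N, σ x ∈ N) (g : G) (hg : g⁻¹ * σ g ∈ N) : g ∈ N := by
  obtain ⟨y, hy, e⟩ := fpf_surj_on σ.toMonoidHom hfpf N hN _ hg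
  have := fpf_inj σ.toMonoidHom hfpf g y e
  rw [this]; exact hy

/-- A finite group with a fixed-point-free automorphism of order dividing 4 has odd order. -/
theorem fpf_odd_card [Finite G] (σ : G ≃* G) (hfpf : ∀ g, σ g = g → g = 1)
    (h4 : ∀ g, σ (σ (σ (σ g))) = g) : Odd (Nat.card G) := by
  classical
  haveI : Fintype G := Fintype.ofFinite G
  haveI : Fact (Nat.Prime 2) := ⟨Nat.prime_two⟩
  let f : Function.End G := (σ : G → G)
  have hf : f ^ 2 ^ 2 = 1 := by
    funext g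
    change (f * f * f * f) g = g
    exact h4 g
  have h1 := Equiv.Perm.card_fixedPoints_modEq (p := 2) (n := 2) hf
  have h2 : Function.fixedPoints f = {1} := by
    ext g
    simp only [Set.mem_singleton_iff]
    constructor
    · exact hfpf g
    · rintro rfl; exact map_one σ
  have h3 : Fintype.card (Function.fixedPoints f) = 1 := by
    rw [Fintype.card_eq_one_iff]
    refine ⟨⟨1, by rw [h2]; rfl⟩, ?_⟩
    rintro ⟨x, hx⟩
    rw [h2] at hx
    exact Subtype.ext hx
  rw [h3, ← Nat.card_eq_fintype_card] at h1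
  rw [Nat.odd_iff]
  exact h1

/-- Restriction of an automorphism `φ` with `φ^4 = 1` to an invariant subgroup. -/
def restrictAut (φ : G ≃* G) (Q : Subgroup G) (hQ : ∀ x ∈ Q, φ x ∈ Q)
    (h4 : ∀ g, φ (φ (φ (φ g))) = g) : Q ≃* Q where
  toFun x := ⟨φ x, hQ x x.2⟩
  invFun x := ⟨φ (φ (φ x)), hQ _ (hQ _ (hQ x x.2))⟩
  left_inv x := Subtype.ext (by
    change φ (φ (φ (φ (x : G)))) = x
    exact h4 x)
  right_inv x := Subtype.ext (by
    change φ (φ (φ (φ (x : G)))) = x
    exact h4 x)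
  map_mul' x y := Subtype.ext (map_mul φ (x : G) (y : G))

@[simp] theorem restrictAut_coe (φ : G ≃* G) (Q : Subgroup G) (hQ : ∀ x ∈ Q, φ x ∈ Q)
    (h4 : ∀ g, φ (φ (φ (φ g))) = g) (x : Q) : (restrictAut φ Q hQ h4 x : G) = φ x := rfl

/-- An invariant subgroup is mapped onto itself. -/
theorem map_eq_of_inv (σ : G ≃* G) (N : Subgroup G) (hN : ∀ x ∈ N, σ x ∈ N)
    (h4 : ∀ g, σ (σ (σ (σ g))) = g) : N.map σ.toMonoidHom = N := by
  apply le_antisymm
  · rintro _ ⟨x, hx, rfl⟩
    exact hN x hx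
  · intro x hx
    exact ⟨σ (σ (σ x)), hN _ (hN _ (hN _ hx)), h4 x⟩

theorem congr_mk' (σ : G ≃* G) (N : Subgroup G) [N.Normal] (hmap : N.map σ.toMonoidHom = N)
    (g : G) : QuotientGroup.congr N N σ hmap (g : G ⧸ N) = ((σ g : G) : G ⧸ N) :=
  QuotientGroup.congr_mk N N σ hmap g

theorem congr_h4 (σ : G ≃* G) (N : Subgroup G) [N.Normal] (hmap : N.map σ.toMonoidHom = N)
    (h4 : ∀ g, σ (σ (σ (σ g))) = g) (q : G ⧸ N) :
    QuotientGroup.congr N N σ hmap (QuotientGroup.congr N N σ hmap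
      (QuotientGroup.congr N N σ hmap (QuotientGroup.congr N N σ hmap q))) = q := by
  induction q using QuotientGroup.induction_on with
  | _ g => rw [congr_mk', congr_mk', congr_mk', congr_mk', h4]

theorem congr_fpf [Finite G] (σ : G ≃* G) (hfpf : ∀ g, σ g = g → g = 1) (N : Subgroup G)
    [N.Normal] (hN : ∀ x ∈ N, σ x ∈ N) (hmap : N.map σ.toMonoidHom = N) (q : G ⧸ N)
    (hq : QuotientGroup.congr N N σ hmap q = q) : q = 1 := by
  induction q using QuotientGroup.induction_on with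
  | _ g =>
    rw [congr_mk'] at hq
    have h1 : g⁻¹ * σ g ∈ N := QuotientGroup.eq.mp hq.symm
    exact (QuotientGroup.eq_one_iff g).mpr (fpf_quotient σ hfpf N hN g h1)

theorem card_quot_lt [Finite G] (N : Subgroup G) (hN : N ≠ ⊥) :
    Nat.card (G ⧸ N) < Nat.card G := by
  rw [Subgroup.card_eq_card_quotient_mul_card_subgroup N]
  exact lt_mul_of_one_lt_right Nat.card_pos (N.one_lt_card_iff_ne_bot.mpr hN)

theorem commute_of_sq [Finite G] (hodd : Odd (Nat.card G)) (x d : G) (h : Commute (x * x) d) :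
    Commute x d := by
  obtain ⟨m, hm⟩ := hodd
  have hx : x = (x * x) ^ (m + 1) := by
    rw [← pow_two, ← pow_mul, show 2 * (m + 1) = (2 * m + 1) + 1 by ring, ← hm, pow_succ,
      pow_card_eq_one', one_mul]
  rw [hx]; exact h.pow_left _

theorem closure_subtype_top (S : Set G) (T : Set ↥(Subgroup.closure S))
    (hT : ∀ k : ↥(Subgroup.closure S), (k : G) ∈ S → k ∈ T) : Subgroup.closure T = ⊤ := by
  rw [eq_top_iff, ← Subgroup.closure_closure_coe_preimage (k := S)]
  exact Subgroup.closure_mono (fun k hk => hT k hk)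

end Basic

section Rep
variable {K : Type*} [Group K] [Finite K] {R : Type*} [Ring R]

theorem L1_group (ρ : K →* R) (φ : K ≃* K) (s : R) (hN : 1 + s + s ^ 2 + s ^ 3 = 0)
    (hsρ : ∀ k, s * ρ k = ρ (φ k) * s) (hodd : Odd (Nat.card K))
    (htn : ∀ x : R, Nat.card K • x = 0 → x = 0) (ht2 : ∀ x : R, 2 • x = 0 → x = 0)
    (e : K) (he : φ (φ e) = e⁻¹) (hc : Commute e (φ e)) : ρ e = 1 := by
  refine L1 s (ρ e) (ρ e⁻¹) (ρ (φ e)) (ρ (φ e)⁻¹) (Nat.card K) hodd hN ?_ ?_ ?_ ?_ ?_ (hsρ e) ?_ ?_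
    htn ht2
  · rw [← map_mul, mul_inv_cancel, map_one]
  · rw [← map_mul, inv_mul_cancel, map_one]
  · rw [← map_mul, mul_inv_cancel, map_one]
  · rw [← map_mul, inv_mul_cancel, map_one]
  · rw [← map_mul, ← map_mul, hc.eq]
  · rw [hsρ (φ e), he]
  · rw [← map_pow, pow_card_eq_one', map_one]

theorem L2_group (ρ : K →* R) (φ : K ≃* K) (s : R) (hN : 1 + s + s ^ 2 + s ^ 3 = 0)
    (hsρ : ∀ k, s * ρ k = ρ (φ k) * s) (hodd : Odd (Nat.card K))
    (htn : ∀ x : R, Nat.card K • x = 0 → x = 0)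
    (x y : K) (hx : φ (φ x) = x⁻¹) (hy : φ (φ y) = y⁻¹)
    (hzx : Commute (x * y * x⁻¹ * y⁻¹) x) (hzy : Commute (x * y * x⁻¹ * y⁻¹) y)
    (hψz : φ (φ (x * y * x⁻¹ * y⁻¹)) = x * y * x⁻¹ * y⁻¹)
    (hφz : φ (x * y * x⁻¹ * y⁻¹) = (x * y * x⁻¹ * y⁻¹)⁻¹) : ρ (x * y * x⁻¹ * y⁻¹) = 1 := by
  have hΨ : ∀ k, s * s * ρ k = ρ (φ (φ k)) * (s * s) := by
    intro k
    rw [mul_assoc, hsρ, ← mul_assoc, hsρ, mul_assoc]
  refine L2 s (ρ x) (ρ x⁻¹) (ρ y) (ρ y⁻¹) (ρ (x * y * x⁻¹ * y⁻¹)) (ρ (x * y * x⁻¹ * y⁻¹)⁻¹)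
    (Nat.card K) hodd hN ?_ ?_ ?_ ?_ ?_ ?_ ?_ ?_ ?_ ?_ ?_ ?_ ?_ htn
  · rw [← map_mul, mul_inv_cancel, map_one]
  · rw [← map_mul, mul_inv_cancel, map_one]
  · simp only [map_mul]
  · rw [← map_mul, mul_inv_cancel, map_one]
  · rw [← map_mul, ← map_mul, hzx.eq]
  · rw [← map_mul, ← map_mul, hzy.eq]
  · rw [hΨ x, hx]
  · rw [hΨ y, hy]
  · rw [hΨ, hψz]
  · rw [hsρ, hφz]
  · rw [← map_pow, pow_card_eq_one', map_one]
  · rw [← map_pow, pow_card_eq_one', map_one]
  · rw [← map_pow, pow_card_eq_one', map_one]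

/-- **L3.** A nilpotent group `K` of odd order generated by elements inverted by `φ²`,
with a faithful "representation" on which `φ` has no fixed points, is trivial. -/
theorem L3 [hnil : Group.IsNilpotent K] (ρ : K →* R) (hρ : ∀ k, ρ k = 1 → k = 1) (φ : K ≃* K)
    (s : R) (hN : 1 + s + s ^ 2 + s ^ 3 = 0) (hsρ : ∀ k, s * ρ k = ρ (φ k) * s)
    (hodd : Odd (Nat.card K)) (htn : ∀ x : R, Nat.card K • x = 0 → x = 0)
    (ht2 : ∀ x : R, 2 • x = 0 → x = 0)
    (h4 : ∀ k, φ (φ (φ (φ k))) = k)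
    (hfix : ∀ k, φ (φ k) = k → φ k = k⁻¹)
    (hgen : Subgroup.closure {k : K | φ (φ k) = k⁻¹} = ⊤) : ∀ k : K, k = 1 := by
  have hb : ∀ e : K, φ (φ e) = e⁻¹ → Commute e (φ e) → e = 1 := fun e he hc =>
    hρ e (L1_group ρ φ s hN hsρ hodd htn ht2 e he hc)
  have hsq : ∀ x d : K, Commute (x * x) d → Commute x d := by
    intro x d h
    obtain ⟨m, hm⟩ := hodd
    have hx : x = (x * x) ^ (m + 1) := by
      rw [← pow_two, ← pow_mul, show 2 * (m + 1) = (2 * m + 1) + 1 by ring, ← hm, pow_succ,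
        pow_card_eq_one', one_mul]
    rw [hx]; exact h.pow_left _
  -- elements commuting with all generators are central
  have hcen_of : ∀ d : K, (∀ x : K, φ (φ x) = x⁻¹ → Commute x d) → d ∈ Subgroup.center K := by
    intro d hd
    have h1 : (⊤ : Subgroup K) ≤ Subgroup.centralizer {d} := by
      rw [← hgen, Subgroup.closure_le]
      intro x hx
      rw [SetLike.mem_coe, Subgroup.mem_centralizer_iff]
      intro h hh
      rw [Set.mem_singleton_iff] at hh
      subst hh
      exact (hd x hx).eq.symm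
    rw [Subgroup.mem_center_iff]
    intro g
    have := Subgroup.mem_centralizer_iff.mp (h1 (Subgroup.mem_top g)) d rfl
    exact this.symm
  have hcen : ∀ j, Subgroup.upperCentralSeries K j ≤ Subgroup.center K := by
    intro j
    induction j with
    | zero => simp
    | succ j ih =>
      have h1 : ∀ e ∈ Subgroup.upperCentralSeries K (j + 1), φ (φ e) = e⁻¹ → e = 1 := by
        intro e heU heI
        have hcomm : ∀ x : K, φ (φ x) = x⁻¹ → Commute x e := by
          intro x hx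
          have hz : e * x * e⁻¹ * x⁻¹ ∈ Subgroup.center K := by
            have := ih (Subgroup.mem_upperCentralSeries_succ_iff.mp heU x)
            rwa [commutatorElement_def] at this
          have hzc := Subgroup.mem_center_iff.mp hz
          have hψ : φ (φ (e * x * e⁻¹ * x⁻¹)) = e * x * e⁻¹ * x⁻¹ := by
            simp only [map_mul, map_inv, heI, hx, inv_inv]
            have h1 : e⁻¹ * (e * x * e⁻¹ * x⁻¹) * e = e * x * e⁻¹ * x⁻¹ := by
              rw [mul_assoc, ← hzc e, ← mul_assoc, inv_mul_cancel, one_mul]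
            have h2 : x⁻¹ * (e * x * e⁻¹ * x⁻¹) * x = e * x * e⁻¹ * x⁻¹ := by
              rw [mul_assoc, ← hzc x, ← mul_assoc, inv_mul_cancel, one_mul]
            calc e⁻¹ * x⁻¹ * e * x = x⁻¹ * (e⁻¹ * (e * x * e⁻¹ * x⁻¹) * e) * x := by group
              _ = e * x * e⁻¹ * x⁻¹ := by rw [h1, h2]
          have hz1 : e * x * e⁻¹ * x⁻¹ = 1 := by
            apply hρ
            exact L2_group ρ φ s hN hsρ hodd htn e x heI hx (hzc e).symm (hzc x).symm hψ
              (hfix _ hψ)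
          have : e * x = x * e := by
            calc e * x = (e * x * e⁻¹ * x⁻¹) * (x * e) := by group
              _ = x * e := by rw [hz1, one_mul]
          exact this.symm
        have hecen : e ∈ Subgroup.center K := hcen_of e hcomm
        exact hb e heI ((Subgroup.mem_center_iff.mp hecen (φ e)).symm)
      have hchar : ∀ a ∈ Subgroup.upperCentralSeries K (j + 1),
          φ a ∈ Subgroup.upperCentralSeries K (j + 1) := fun a ha =>
        Subgroup.characteristic_iff_map_le.mp inferInstance φ (Subgroup.mem_map_of_mem _ ha)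
      have h2 : ∀ a ∈ Subgroup.upperCentralSeries K (j + 1), φ (φ a) = a := by
        intro a ha
        have hm : a⁻¹ * φ (φ a) ∈ Subgroup.upperCentralSeries K (j + 1) :=
          mul_mem (inv_mem ha) (hchar _ (hchar _ ha))
        have hI : φ (φ (a⁻¹ * φ (φ a))) = (a⁻¹ * φ (φ a))⁻¹ := by
          rw [map_mul, map_mul, map_inv, map_inv, h4 a]; group
        have := h1 _ hm hI
        exact (inv_mul_eq_one.mp this).symm
      intro d hd
      apply hcen_of
      intro x hx
      apply hsq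
      have hconj : x * d * x⁻¹ ∈ Subgroup.upperCentralSeries K (j + 1) :=
        (inferInstance : (Subgroup.upperCentralSeries K (j + 1)).Normal).conj_mem d hd x
      have e1 := h2 _ hconj
      simp only [map_mul, map_inv, hx, inv_inv, h2 d hd] at e1
      -- e1 : x⁻¹ * d * x = x * d * x⁻¹
      show x * x * d = d * (x * x)
      calc x * x * d = x * (x * d * x⁻¹) * x := by group
        _ = x * (x⁻¹ * d * x) * x := by rw [e1]
        _ = d * (x * x) := by group
  obtain ⟨n, hn⟩ := hnil.nilpotent'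
  have hcomm : ∀ a b : K, Commute a b := by
    intro a b
    have : b ∈ Subgroup.center K := hcen n (hn ▸ Subgroup.mem_top b)
    exact (Subgroup.mem_center_iff.mp this a)
  have hI : ∀ e : K, φ (φ e) = e⁻¹ → e = 1 := fun e he => hb e he (hcomm _ _)
  have hbot : (⊤ : Subgroup K) ≤ ⊥ := by
    rw [← hgen, Subgroup.closure_le]
    intro x hx
    rw [SetLike.mem_coe, Subgroup.mem_bot]
    exact hI x hx
  intro k
  exact Subgroup.mem_bot.mp (hbot (Subgroup.mem_top k))

end Rep

section HAb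
variable {H : Type*} [Group H] [Finite H] {R : Type*} [Ring R]

/-- Nilpotent normal invariant subgroups are `p'`-groups when there is no nontrivial normal
invariant `p`-subgroup. -/
theorem coprime_of_nilpotent (p : ℕ) [Fact p.Prime] (φ : H ≃* H)
    (h4 : ∀ k, φ (φ (φ (φ k))) = k)
    (hOp : ∀ P : Subgroup H, P.Normal → IsPGroup p P → (∀ x ∈ P, φ x ∈ P) → P = ⊥)
    (Q : Subgroup H) (hQn : Q.Normal) (hQφ : ∀ x ∈ Q, φ x ∈ Q) (hQnil : Group.IsNilpotent Q) :
    (Nat.card Q).Coprime p := by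
  by_contra hcop
  have hdvd : p ∣ Nat.card Q := by
    by_contra hnd
    exact hcop ((Nat.Prime.coprime_iff_not_dvd Fact.out).mpr hnd).symm
  obtain ⟨P₀⟩ : Nonempty (Sylow p Q) := inferInstance
  haveI hP₀n : (P₀ : Subgroup Q).Normal := inferInstance
  haveI hchar : (P₀ : Subgroup Q).Characteristic := Sylow.characteristic_of_normal P₀ hP₀n
  have hPn : ((P₀ : Subgroup Q).map Q.subtype).Normal := by
    constructor
    intro x hx h
    obtain ⟨y, hy, rfl⟩ := hx
    have := Subgroup.characteristic_iff_map_le.mp hchar (MulAut.conjNormal h)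
      (Subgroup.mem_map_of_mem _ hy)
    refine ⟨_, this, ?_⟩
    simp [MulAut.conjNormal_apply]
  have hPφ : ∀ x ∈ (P₀ : Subgroup Q).map Q.subtype, φ x ∈ (P₀ : Subgroup Q).map Q.subtype := by
    intro x hx
    obtain ⟨y, hy, rfl⟩ := hx
    have := Subgroup.characteristic_iff_map_le.mp hchar (restrictAut φ Q hQφ h4)
      (Subgroup.mem_map_of_mem _ hy)
    exact ⟨_, this, rfl⟩
  have hPp : IsPGroup p ((P₀ : Subgroup Q).map Q.subtype) := P₀.isPGroup'.map Q.subtype
  have hbot := hOp _ hPn hPp hPφ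
  have : (P₀ : Subgroup Q) = ⊥ :=
    (Subgroup.map_eq_bot_iff_of_injective _ Q.subtype_injective).mp hbot
  exact P₀.ne_bot_of_dvd_card hdvd this

/-- In a nilpotent normal invariant subgroup no nontrivial element is inverted by `φ²`. -/
theorem no_inverted_in_nilpotent (p : ℕ) [Fact p.Prime] (ρ : H →* R) (hρ : ∀ k, ρ k = 1 → k = 1)
    (φ : H ≃* H) (s : R) (hN : 1 + s + s ^ 2 + s ^ 3 = 0) (hsρ : ∀ k, s * ρ k = ρ (φ k) * s)
    (hfpf : ∀ h, φ h = h → h = 1) (h4 : ∀ k, φ (φ (φ (φ k))) = k)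
    (htn : ∀ n : ℕ, n.Coprime p → ∀ x : R, n • x = 0 → x = 0)
    (ht2 : ∀ x : R, 2 • x = 0 → x = 0)
    (hOp : ∀ P : Subgroup H, P.Normal → IsPGroup p P → (∀ x ∈ P, φ x ∈ P) → P = ⊥)
    (Q : Subgroup H) (hQn : Q.Normal) (hQφ : ∀ x ∈ Q, φ x ∈ Q) (hQnil : Group.IsNilpotent Q)
    (x : H) (hxQ : x ∈ Q) (hxI : φ (φ x) = x⁻¹) : x = 1 := by
  have hodd : Odd (Nat.card H) := fpf_odd_card φ hfpf h4
  have hfix : ∀ k, φ (φ k) = k → φ k = k⁻¹ := fun k hk => fpf_fix_sq φ.toMonoidHom hfpf k hk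
  have hKQ : Subgroup.closure {h : H | h ∈ Q ∧ φ (φ h) = h⁻¹} ≤ Q :=
    (Subgroup.closure_le _).mpr (fun h hh => hh.1)
  have hKφ : ∀ k ∈ Subgroup.closure {h : H | h ∈ Q ∧ φ (φ h) = h⁻¹},
      φ k ∈ Subgroup.closure {h : H | h ∈ Q ∧ φ (φ h) = h⁻¹} := by
    intro k hk
    induction hk using Subgroup.closure_induction with
    | mem y hy =>
      refine Subgroup.subset_closure ⟨hQφ y hy.1, ?_⟩
      rw [hy.2, map_inv]
    | one => rw [map_one]; exact Subgroup.one_mem _
    | mul a b _ _ iha ihb => rw [map_mul]; exact Subgroup.mul_mem _ iha ihb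
    | inv a _ iha => rw [map_inv]; exact Subgroup.inv_mem _ iha
  haveI : Group.IsNilpotent (Subgroup.closure {h : H | h ∈ Q ∧ φ (φ h) = h⁻¹}) := by
    haveI := hQnil
    exact Group.nilpotent_of_mulEquiv (Subgroup.subgroupOfEquivOfLe hKQ)
  have hcop : (Nat.card (Subgroup.closure {h : H | h ∈ Q ∧ φ (φ h) = h⁻¹})).Coprime p :=
    Nat.Coprime.coprime_dvd_left (Subgroup.card_dvd_of_le hKQ)
      (coprime_of_nilpotent p φ h4 hOp Q hQn hQφ hQnil)
  have hoddK : Odd (Nat.card (Subgroup.closure {h : H | h ∈ Q ∧ φ (φ h) = h⁻¹})) :=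
    hodd.of_dvd_nat (Subgroup.card_subgroup_dvd_card _)
  have hall := L3 (K := Subgroup.closure {h : H | h ∈ Q ∧ φ (φ h) = h⁻¹})
    (ρ.comp (Subgroup.subtype _)) (fun k hk => Subtype.ext (hρ _ hk))
    (restrictAut φ _ hKφ h4) s hN (fun k => hsρ k) hoddK (htn _ hcop) ht2
    (fun k => Subtype.ext (h4 k))
    (fun k hk => Subtype.ext (hfix k (congrArg Subtype.val hk)))
    (closure_subtype_top _ _ (fun k hk => Subtype.ext hk.2))
  have := hall ⟨x, Subgroup.subset_closure ⟨hxQ, hxI⟩⟩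
  exact congrArg Subtype.val this

/-- **Key lemma.** A finite group `H` with a fixed-point-free automorphism `φ`, `φ^4 = 1`,
acting faithfully on a "module" (ring `R`, `ρ`, `s`) on which `φ` has no fixed points,
with no normal invariant `p`-subgroup and nilpotent derived subgroup, is abelian. -/
theorem abelian_of_rep (p : ℕ) [Fact p.Prime] (ρ : H →* R) (hρ : ∀ k, ρ k = 1 → k = 1)
    (φ : H ≃* H) (s : R) (hN : 1 + s + s ^ 2 + s ^ 3 = 0) (hsρ : ∀ k, s * ρ k = ρ (φ k) * s)
    (hfpf : ∀ h, φ h = h → h = 1) (h4 : ∀ k, φ (φ (φ (φ k))) = k)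
    (htn : ∀ n : ℕ, n.Coprime p → ∀ x : R, n • x = 0 → x = 0)
    (ht2 : ∀ x : R, 2 • x = 0 → x = 0)
    (hOp : ∀ P : Subgroup H, P.Normal → IsPGroup p P → (∀ x ∈ P, φ x ∈ P) → P = ⊥)
    (hnil : Group.IsNilpotent (commutator H)) : ∀ x y : H, x * y = y * x := by
  have hodd : Odd (Nat.card H) := fpf_odd_card φ hfpf h4
  have hfix : ∀ k, φ (φ k) = k → φ k = k⁻¹ := fun k hk => fpf_fix_sq φ.toMonoidHom hfpf k hk
  have hK := no_inverted_in_nilpotent p ρ hρ φ s hN hsρ hfpf h4 htn ht2 hOp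
  have hinv : ∀ h : H, φ (φ (h⁻¹ * φ (φ h))) = (h⁻¹ * φ (φ h))⁻¹ := by
    intro h
    rw [map_mul, map_mul, map_inv, map_inv, h4 h]; group
  -- Step A
  have hcn : (commutator H).Normal := inferInstance
  have hcφ : ∀ x ∈ commutator H, φ x ∈ commutator H := fun x hx =>
    Subgroup.characteristic_iff_map_le.mp inferInstance φ (Subgroup.mem_map_of_mem _ hx)
  have hA : ∀ d ∈ commutator H, φ (φ d) = d := by
    intro d hd
    have hm : d⁻¹ * φ (φ d) ∈ commutator H := mul_mem (inv_mem hd) (hcφ _ (hcφ _ hd))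
    have := hK _ hcn hcφ hnil _ hm (hinv d)
    exact (inv_mul_eq_one.mp this).symm
  -- Step B
  have hB : ∀ x : H, φ (φ x) = x⁻¹ → x ∈ Subgroup.centralizer (commutator H : Set H) := by
    intro x hx
    rw [Subgroup.mem_centralizer_iff]
    intro d hd
    have hconj : x * d * x⁻¹ ∈ commutator H := hcn.conj_mem d hd x
    have e1 := hA _ hconj
    simp only [map_mul, map_inv, hx, inv_inv, hA d hd] at e1
    have hc : Commute x d := by
      apply commute_of_sq hodd
      show x * x * d = d * (x * x)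
      calc x * x * d = x * (x * d * x⁻¹) * x := by group
        _ = x * (x⁻¹ * d * x) * x := by rw [e1]
        _ = d * (x * x) := by group
    exact hc.eq.symm
  -- Step C
  have hQ₂n : (Subgroup.centralizer (commutator H : Set H)).Normal := inferInstance
  have hQ₂φ : ∀ c ∈ Subgroup.centralizer (commutator H : Set H),
      φ c ∈ Subgroup.centralizer (commutator H : Set H) := by
    intro c hc
    rw [Subgroup.mem_centralizer_iff] at hc ⊢
    intro d hd
    have hd' : φ (φ (φ d)) ∈ commutator H := hcφ _ (hcφ _ (hcφ _ hd))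
    have := congrArg φ (hc _ hd')
    rwa [map_mul, map_mul, h4 d] at this
  have hQ₂nil : Group.IsNilpotent (Subgroup.centralizer (commutator H : Set H)) := by
    apply Subgroup.isNilpotent_of_ker_le_center
      (Abelianization.of : (Subgroup.centralizer (commutator H : Set H)) →* _)
    rw [Abelianization.ker_of]
    intro w hw
    rw [Subgroup.mem_center_iff]
    intro g
    have hwH : (w : H) ∈ commutator H := by
      have hle : (commutator (Subgroup.centralizer (commutator H : Set H))).map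
          (Subgroup.subtype _) ≤ commutator H := by
        rw [Subgroup.map_subtype_commutator, commutator_def]
        exact Subgroup.commutator_mono le_top le_top
      exact hle (Subgroup.mem_map_of_mem _ hw)
    have := Subgroup.mem_centralizer_iff.mp g.2 _ hwH
    exact Subtype.ext this.symm
  have hC : ∀ x : H, φ (φ x) = x⁻¹ → x = 1 := fun x hx =>
    hK _ hQ₂n hQ₂φ hQ₂nil x (hB x hx) hx
  -- Step D
  have hD : ∀ h : H, φ (φ h) = h := fun h => (inv_mul_eq_one.mp (hC _ (hinv h))).symm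
  intro x y
  have hx := hfix x (hD x)
  have hy := hfix y (hD y)
  have hxy := hfix (x * y) (hD _)
  rw [map_mul, hx, hy] at hxy
  have : (y * x)⁻¹ = (x * y)⁻¹ := by rw [mul_inv_rev]; exact hxy
  exact (inv_injective this).symm

end HAb

end Fpf4
end Cfsg.Agent.Helper63
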