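-- helper63 library: arithmetic used for the Shult–Gross theorem (fixed-point-free
-- automorphisms of odd prime power order); add-only once landed.
import Mathlib

set_option autoImplicit false

namespace Cfsg.Agent.Helper63.Gross

/-- In a group, if `φ ^ p ^ (n + 1) = 1` then `φ ^ p ^ n` is a power of every `φ ^ k` with
`0 < k < p ^ (n + 1)`. -/
theorem cyc_p {G : Type*} [Group G] (φ : G) {p n k : ℕ} (hp : p.Prime)
    (hφ : φ ^ p ^ (n + 1) = 1) (hk0 : 0 < k) (hk : k < p ^ (n + 1)) :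
    ∃ m : ℕ, (φ ^ k) ^ m = φ ^ p ^ n := by
  obtain ⟨a, u, hu, hku⟩ := Nat.exists_eq_pow_mul_and_not_dvd (Nat.pos_iff_ne_zero.mp hk0) p
    hp.one_lt.ne'
  have hu0 : 0 < u := by
    rcases Nat.eq_zero_or_pos u with h | h
    · exfalso
      rw [h, mul_zero] at hku
      omega
    · exact h
  have han : a ≤ n := by
    by_contra hcon
    push Not at hcon
    have h1 : p ^ (n + 1) ≤ p ^ a := Nat.pow_le_pow_right hp.pos hcon
    have h2 : p ^ a ≤ k := by
      rw [hku]
      exact Nat.le_mul_of_pos_right _ hu0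
    omega
  have hcop : Nat.Coprime u p := by
    apply Nat.Coprime.symm
    exact (Nat.Prime.coprime_iff_not_dvd hp).mpr hu
  obtain ⟨u', -, hu'⟩ := Nat.exists_mul_mod_eq_one_of_coprime hcop hp.one_lt
  refine ⟨u' * p ^ (n - a), ?_⟩
  rw [← pow_mul]
  have h1 : u * u' = 1 + p * (u * u' / p) := by
    have := (Nat.mod_add_div (u * u') p).symm
    rw [hu'] at this
    exact this
  have h2 : k * (u' * p ^ (n - a)) = p ^ n + p ^ (n + 1) * (u * u' / p) := by
    have h3 : p ^ a * p ^ (n - a) = p ^ n := by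
      rw [← pow_add]
      congr 1
      omega
    calc k * (u' * p ^ (n - a)) = (p ^ a * p ^ (n - a)) * (u * u') := by
          rw [hku]
          ring
      _ = p ^ n * (1 + p * (u * u' / p)) := by rw [h3, ← h1]
      _ = p ^ n + p ^ (n + 1) * (u * u' / p) := by ring
  rw [h2, pow_add, pow_mul, hφ, one_pow, mul_one]

/-- The arithmetic at the end of the Shult bound, for a prime power `N = p ^ j`. -/
theorem prime_pow_arith {q p d m N j : ℕ} (hq : q.Prime) (hp : p.Prime) (hp2 : p ≠ 2)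
    (hd : d = q ^ m) (hm : 0 < m) (hN : N = p ^ j) (hle : d ^ 2 ≤ (N - 1) ^ 2)
    (hdvd : N ∣ d ^ 2 - 1) : q = 2 ∧ N = d + 1 := by
  have hd2 : 2 ≤ d := by
    rw [hd]
    calc 2 ≤ q := hq.two_le
      _ = q ^ 1 := (pow_one q).symm
      _ ≤ q ^ m := Nat.pow_le_pow_right hq.pos hm
  have hle' : d ≤ N - 1 := by
    by_contra hcon
    push Not at hcon
    have := Nat.pow_lt_pow_left hcon (n := 2) (by norm_num)
    omega
  obtain ⟨e, rfl⟩ : ∃ e, d = e + 1 := ⟨d - 1, by omega⟩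
  have he : (e + 1) ^ 2 - 1 = e * (e + 2) := by
    have : (e + 1) ^ 2 = e * (e + 2) + 1 := by ring
    omega
  rw [he] at hdvd
  have hp3 : 3 ≤ p := by
    have := hp.two_le
    omega
  have hNe : N = e + 2 := by
    by_cases hpe : p ∣ e
    · exfalso
      have h1 : ¬ p ∣ e + 2 := by
        intro h
        have h2 : p ∣ 2 := (Nat.dvd_add_right hpe).mp h
        have := Nat.le_of_dvd (by norm_num) h2
        omega
      have hcop : Nat.Coprime N (e + 2) := by
        rw [hN]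
        apply Nat.Coprime.pow_left
        exact (Nat.Prime.coprime_iff_not_dvd hp).mpr h1
      have h3 : N ∣ e := hcop.dvd_of_dvd_mul_right hdvd
      have := Nat.le_of_dvd (by omega) h3
      omega
    · have hcop : Nat.Coprime N e := by
        rw [hN]
        apply Nat.Coprime.pow_left
        exact (Nat.Prime.coprime_iff_not_dvd hp).mpr hpe
      have h3 : N ∣ e + 2 := hcop.dvd_of_dvd_mul_left hdvd
      have := Nat.le_of_dvd (by omega) h3
      omega
  refine ⟨?_, by omega⟩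
  by_contra hq2
  have hqodd : Odd q := hq.odd_of_ne_two hq2
  have hqm : Odd (q ^ m) := hqodd.pow
  rw [← hd] at hqm
  have hNeven : Even N := by
    rw [hNe]
    have : e + 2 = (e + 1) + 1 := by ring
    rw [this]
    exact hqm.add_one
  have hNodd : Odd N := by
    rw [hN]
    exact (hp.odd_of_ne_two hp2).pow
  exact (Nat.not_even_iff_odd.mpr hNodd) hNeven

/-- If `p ^ j = 2 ^ m + 1` with `p` odd and `p ^ n ∣ 2 ^ f - 1`, then `f` is at least
`2 m p ^ (n - j)`. -/
theorem nt_lower {p j m n f s : ℕ} (hp : p.Prime) (hp2 : p ≠ 2) (hm : 0 < m)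
    (hpj : p ^ j = 2 ^ m + 1) (hs : s * p ^ j = p ^ n) (hf : 0 < f)
    (hdvd : p ^ n ∣ 2 ^ f - 1) : 2 * m * s ≤ f := by
  haveI : Fact p.Prime := ⟨hp⟩
  have hp3 : 3 ≤ p := by
    have := hp.two_le
    omega
  have hpodd : Odd p := hp.odd_of_ne_two hp2
  have hj0 : 0 < j := by
    rcases Nat.eq_zero_or_pos j with h | h
    · exfalso
      rw [h, pow_zero] at hpj
      have : 0 < 2 ^ m := Nat.pow_pos (by norm_num)
      omega
    · exact h
  have hpow_m : 2 ≤ 2 ^ m := by
    calc 2 = 2 ^ 1 := (pow_one 2).symm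
      _ ≤ 2 ^ m := Nat.pow_le_pow_right (by norm_num) hm
  have hx : (2 : ℕ) ^ (2 * m) - 1 = (2 ^ m - 1) * (2 ^ m + 1) := by
    have h1 : (2 : ℕ) ^ (2 * m) = (2 ^ m) ^ 2 := by
      rw [← pow_mul, mul_comm]
    rw [h1]
    obtain ⟨t, ht⟩ : ∃ t, 2 ^ m = t + 1 := ⟨2 ^ m - 1, by omega⟩
    rw [ht]
    have : (t + 1) ^ 2 = t * (t + 1 + 1) + 1 := by ring
    rw [this]
    simp
  have hpjdvd : p ^ j ∣ p ^ n := ⟨s, by rw [← hs, mul_comm]⟩
  have hd1 : p ^ j ∣ 2 ^ (2 * m) - 1 := by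
    rw [hx, hpj]
    exact dvd_mul_left _ _
  have hd2 : p ^ j ∣ 2 ^ f - 1 := dvd_trans hpjdvd hdvd
  have hd3 : p ^ j ∣ 2 ^ (Nat.gcd (2 * m) f) - 1 := by
    rw [← Nat.pow_sub_one_gcd_pow_sub_one]
    exact Nat.dvd_gcd hd1 hd2
  have hg : Nat.gcd (2 * m) f = 2 * m := by
    by_contra hne
    have hgd : Nat.gcd (2 * m) f ∣ 2 * m := Nat.gcd_dvd_left _ _
    have hgpos : 0 < Nat.gcd (2 * m) f := Nat.gcd_pos_of_pos_right _ hf
    have hgle : Nat.gcd (2 * m) f ≤ m := by
      obtain ⟨c, hc⟩ := hgd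
      have hc2 : 2 ≤ c := by
        rcases c with _ | _ | c
        · omega
        · exfalso
          apply hne
          omega
        · omega
      have : Nat.gcd (2 * m) f * 2 ≤ Nat.gcd (2 * m) f * c := Nat.mul_le_mul_left _ hc2
      omega
    have h1 : (2 : ℕ) ^ Nat.gcd (2 * m) f ≤ 2 ^ m := Nat.pow_le_pow_right (by norm_num) hgle
    have h2 : 2 ≤ (2 : ℕ) ^ Nat.gcd (2 * m) f := by
      calc 2 = 2 ^ 1 := (pow_one 2).symm
        _ ≤ 2 ^ Nat.gcd (2 * m) f := Nat.pow_le_pow_right (by norm_num) hgpos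
    have h3 := Nat.le_of_dvd (by omega) hd3
    omega
  have h2mf : 2 * m ∣ f := by
    rw [← hg]
    exact Nat.gcd_dvd_right _ _
  obtain ⟨e, he⟩ := h2mf
  have he0 : e ≠ 0 := by
    intro h
    rw [h, mul_zero] at he
    omega
  have hpx : p ∣ 2 ^ (2 * m) - 1 := dvd_trans (dvd_pow_self p (by omega)) hd1
  have hpx' : ¬ p ∣ 2 ^ (2 * m) := by
    intro h
    have h1 : p ∣ 2 := hp.dvd_of_dvd_pow h
    have := Nat.le_of_dvd (by norm_num) h1
    omega
  have hlt : 1 < 2 ^ (2 * m) := by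
    have : (2 : ℕ) ^ (2 * m) = 2 ^ m * 2 ^ m := by
      rw [← pow_add]
      congr 1
      omega
    rw [this]
    nlinarith
  have hlte := padicValNat.pow_sub_pow (p := p) hpodd hlt hpx hpx' he0
  rw [one_pow, ← pow_mul, ← he] at hlte
  have hv1 : padicValNat p (2 ^ (2 * m) - 1) = j := by
    rw [hx, ← hpj]
    have hnd : ¬ p ∣ 2 ^ m - 1 := by
      intro h
      have h1 : p ∣ 2 ^ m + 1 := by
        rw [← hpj]
        exact dvd_pow_self p (by omega)
      have h2 : 2 ^ m + 1 = (2 ^ m - 1) + 2 := by omega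
      rw [h2] at h1
      have h3 : p ∣ 2 := (Nat.dvd_add_right h).mp h1
      have := Nat.le_of_dvd (by norm_num) h3
      omega
    rw [padicValNat.mul (by omega) (by positivity), padicValNat.eq_zero_of_not_dvd hnd,
      padicValNat.prime_pow, zero_add]
  have hf1 : 2 ^ f - 1 ≠ 0 := by
    have : 2 ≤ (2 : ℕ) ^ f := by
      calc 2 = 2 ^ 1 := (pow_one 2).symm
        _ ≤ 2 ^ f := Nat.pow_le_pow_right (by norm_num) hf
    omega
  have hn := (padicValNat_dvd_iff_le hf1).mp hdvd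
  rw [hlte, hv1] at hn
  have hjn : j ≤ n := by
    by_contra hcon
    push Not at hcon
    have h1 : p ^ n < p ^ j := Nat.pow_lt_pow_right hp.one_lt hcon
    have h2 := Nat.le_of_dvd (Nat.pow_pos hp.pos) hpjdvd
    omega
  have hs' : s = p ^ (n - j) := by
    have h1 : p ^ (n - j) * p ^ j = p ^ n := by
      rw [← pow_add]
      congr 1
      omega
    have h2 : s * p ^ j = p ^ (n - j) * p ^ j := by rw [hs, h1]
    exact Nat.eq_of_mul_eq_mul_right (Nat.pow_pos hp.pos) h2
  have hse : s ∣ e := by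
    rw [hs']
    apply (padicValNat_dvd_iff_le he0).mpr
    omega
  have hsle : s ≤ e := Nat.le_of_dvd (Nat.pos_of_ne_zero he0) hse
  rw [he]
  exact Nat.mul_le_mul_left _ hsle

end Cfsg.Agent.Helper63.Gross
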