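-- helper63 library: the linear core of the Shult–Gross theorem.  A `q`-group of invertible
-- linear maps normalized by an operator `x` of odd prime power order `p ^ (n + 1)` acting
-- without fixed vectors and fixed-point-freely on the group is centralized by `x ^ p ^ n`;
-- add-only once landed.
import Cfsg.Agent.Helper63.GrossArith
import Cfsg.Agent.Helper63.GrossClifford
import Cfsg.Agent.Helper63.FpfGroup

set_option autoImplicit false

namespace Cfsg.Agent.Helper63.Gross

open Module Cfsg.Agent.Helper63.ProjRep Cfsg.Agent.Helper63.Shult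

open scoped commutatorElement

universe u v w

section GroupLemmas

variable {P : Type w} [Group P] [Finite P]

/-- If all nontrivial powers `φ ^ i`, `0 < i < r`, act freely modulo the centre, then `r`
divides `|P : Z(P)| - 1`. -/
theorem dvd_index_center_sub_one (φ : MulAut P) (r : ℕ) (hr : 0 < r) (hφr : φ ^ r = 1)
    (hfree : ∀ g : P, ∀ i, 0 < i → i < r → (φ ^ i) g * g⁻¹ ∈ Subgroup.center P →
      g ∈ Subgroup.center P) :
    r ∣ (Subgroup.center P).index - 1 := by
  classical
  letI : Fintype (P ⧸ Subgroup.center P) := Fintype.ofFinite _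
  have hmap : (Subgroup.center P).map (φ : P →* P) = Subgroup.center P := by
    apply le_antisymm
    · rintro _ ⟨z, hz, rfl⟩
      exact map_mem_center φ hz
    · intro z hz
      exact ⟨φ.symm z, map_mem_center φ.symm hz, φ.apply_symm_apply z⟩
  let σe : (P ⧸ Subgroup.center P) ≃* (P ⧸ Subgroup.center P) :=
    QuotientGroup.congr (Subgroup.center P) (Subgroup.center P) φ hmap
  let σ : Equiv.Perm (P ⧸ Subgroup.center P) := σe.toEquiv
  have hσmk : ∀ a : P, σ (QuotientGroup.mk a) = QuotientGroup.mk (φ a) :=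
    fun a => QuotientGroup.congr_mk (Subgroup.center P) (Subgroup.center P) φ hmap a
  have hσpow : ∀ (i : ℕ) (a : P), (σ ^ i) (QuotientGroup.mk a) = QuotientGroup.mk ((φ ^ i) a) := by
    intro i
    induction i with
    | zero =>
      intro a
      rfl
    | succ i ih =>
      intro a
      rw [pow_succ', Equiv.Perm.mul_apply, ih, hσmk, pow_succ', MulAut.mul_apply]
  have hσr : σ ^ r = 1 := by
    ext x
    rw [← QuotientGroup.out_eq' x, hσpow, hφr]
    rfl
  have hσ1 : σ 1 = 1 := map_one σe
  have hfree' : ∀ x, x ≠ 1 → ∀ i, 0 < i → i < r → (σ ^ i) x ≠ x := by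
    intro x hx i hi0 hir hfix'
    apply out_notMem hx
    apply hfree (Quotient.out x) i hi0 hir
    have h0 : (QuotientGroup.mk ((φ ^ i) (Quotient.out x)) : P ⧸ Subgroup.center P) =
        QuotientGroup.mk (Quotient.out x) := by
      rw [← hσpow, QuotientGroup.out_eq']
      exact hfix'
    have h1 := QuotientGroup.eq.mp h0
    have h2 := Subgroup.inv_mem _ h1
    have h3 : (φ ^ i) (Quotient.out x) * (Quotient.out x)⁻¹ =
        (Quotient.out x) * (((φ ^ i) (Quotient.out x))⁻¹ * Quotient.out x)⁻¹ *
          (Quotient.out x)⁻¹ := by group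
    rw [h3]
    exact (inferInstance : (Subgroup.center P).Normal).conj_mem _ h2 _
  obtain ⟨S, -, -, hS⟩ := exists_reps σ r hr hσr hσ1 hfree'
  have hcard : Fintype.card (P ⧸ Subgroup.center P) = (Subgroup.center P).index := by
    rw [Subgroup.index, Nat.card_eq_fintype_card]
  rw [← hcard, ← hS, Nat.add_sub_cancel]
  exact dvd_mul_left r _

/-- If `τ` acts freely modulo the centre, every element is of the form `y⁻¹ τ(y)` modulo the
centre. -/
theorem surj_mod_center (τ : MulAut P)
    (hτ : ∀ g : P, τ g * g⁻¹ ∈ Subgroup.center P → g ∈ Subgroup.center P) (h' : P) :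
    ∃ y : P, ∃ z ∈ Subgroup.center P, h' = y⁻¹ * τ y * z := by
  have hmap : (Subgroup.center P).map (τ : P →* P) = Subgroup.center P := by
    apply le_antisymm
    · rintro _ ⟨z, hz, rfl⟩
      exact map_mem_center τ hz
    · intro z hz
      exact ⟨τ.symm z, map_mem_center τ.symm hz, τ.apply_symm_apply z⟩
  let τe : (P ⧸ Subgroup.center P) ≃* (P ⧸ Subgroup.center P) :=
    QuotientGroup.congr (Subgroup.center P) (Subgroup.center P) τ hmap
  have hτmk : ∀ a : P, τe (QuotientGroup.mk a) = QuotientGroup.mk (τ a) :=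
    fun a => QuotientGroup.congr_mk (Subgroup.center P) (Subgroup.center P) τ hmap a
  have hfpf : ∀ x : P ⧸ Subgroup.center P, τe.toMonoidHom x = x → x = 1 := by
    intro x
    induction x using QuotientGroup.induction_on with
    | _ g =>
      intro hx
      have hx' : τe (QuotientGroup.mk g) = QuotientGroup.mk g := hx
      rw [hτmk] at hx'
      have h1 := QuotientGroup.eq.mp hx'
      have h2 := Subgroup.inv_mem _ h1
      have h3 : τ g * g⁻¹ = g * ((τ g)⁻¹ * g)⁻¹ * g⁻¹ := by group
      have h4 : τ g * g⁻¹ ∈ Subgroup.center P := by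
        rw [h3]
        exact (inferInstance : (Subgroup.center P).Normal).conj_mem _ h2 _
      exact (QuotientGroup.eq_one_iff g).mpr (hτ g h4)
  obtain ⟨y, -, hy⟩ := Fpf4.fpf_surj_on τe.toMonoidHom hfpf ⊤ (fun _ _ => Subgroup.mem_top _)
    (QuotientGroup.mk h') (Subgroup.mem_top _)
  induction y using QuotientGroup.induction_on with
  | _ y₀ =>
    have hy' : (QuotientGroup.mk h' : P ⧸ Subgroup.center P) =
        (QuotientGroup.mk y₀)⁻¹ * τe (QuotientGroup.mk y₀) := hy
    rw [hτmk, ← QuotientGroup.mk_inv, ← QuotientGroup.mk_mul] at hy'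
    have h1 := QuotientGroup.eq.mp hy'.symm
    refine ⟨y₀, (y₀⁻¹ * τ y₀)⁻¹ * h', h1, ?_⟩
    group

end GroupLemmas

section Main

variable {K : Type u} [Field K] [IsAlgClosed K]

/-- The critical configuration is impossible (by induction on the dimension, reducing to the
case where operators centralizing the image act by scalars). -/
theorem main_false {P : Type w} [Group P] [Finite P] {q p : ℕ} [hqF : Fact q.Prime]
    (hp : p.Prime) (hp2 : p ≠ 2) (hqK : (q : K) ≠ 0) (hpK : (p : K) ≠ 0)
    (hP : IsPGroup q P) (φ : MulAut P) (n : ℕ) (hφ : φ ^ p ^ (n + 1) = 1)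
    (hfpf : ∀ g : P, φ g = g → g = 1)
    (hcc : ∀ g h : P, cm g h ∈ Subgroup.center P)
    (hfree : ∀ g : P, ∀ i, 0 < i → i < p ^ (n + 1) → (φ ^ i) g * g⁻¹ ∈ Subgroup.center P →
      g ∈ Subgroup.center P)
    (hb : ∀ N₀ : Subgroup P, N₀.Normal → N₀ ≠ ⊤ → (∀ g ∈ N₀, φ g ∈ N₀) →
      N₀ ≤ Subgroup.center P)
    (g₀ : P) (d : ℕ) :
    ∀ (M : Type v) [AddCommGroup M] [Module K M] [FiniteDimensional K M]
      (ρ : P →* Module.End K M) (ξ : Module.End K M) (s N : ℕ), finrank K M = d →
      s * N = p ^ (n + 1) → (∀ g, ξ * ρ g = ρ ((φ ^ s) g) * ξ) → ξ ^ N = 1 →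
      (∀ v, ξ v = v → v = 0) → ρ ((φ ^ p ^ n) g₀) ≠ ρ g₀ → False := by
  induction d using Nat.strong_induction_on with
  | _ d ih =>
    intro M _ _ _ ρ ξ s N hd hsN hint hξN hfix hne
    classical
    have hq : q.Prime := hqF.out
    have hpp : 0 < p ^ (n + 1) := Nat.pow_pos hp.pos
    have hN0 : 0 < N := by
      rcases Nat.eq_zero_or_pos N with h | h
      · exfalso
        rw [h, mul_zero] at hsN
        omega
      · exact h
    have hs0 : 0 < s := by
      rcases Nat.eq_zero_or_pos s with h | h
      · exfalso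
        rw [h, zero_mul] at hsN
        omega
      · exact h
    obtain ⟨ξi, hξidef⟩ : ∃ ξi : Module.End K M, ξi = ξ ^ (N - 1) := ⟨_, rfl⟩
    have hN1e : N - 1 + 1 = N := by omega
    have hξ' : ξi * ξ = 1 := by
      rw [hξidef, ← pow_succ, hN1e, hξN]
    have hξ : ξ * ξi = 1 := by
      rw [hξidef, ← pow_succ', hN1e, hξN]
    have hcancel : ∀ A B : Module.End K M, ξ * A = ξ * B → A = B := by
      intro A B h
      calc A = ξi * (ξ * A) := by rw [← mul_assoc, hξ', one_mul]
        _ = ξi * (ξ * B) := by rw [h]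
        _ = B := by rw [← mul_assoc, hξ', one_mul]
    have hcancel' : ∀ A B : Module.End K M, A * ξ = B * ξ → A = B := by
      intro A B h
      calc A = (A * ξ) * ξi := by rw [mul_assoc, hξ, mul_one]
        _ = (B * ξ) * ξi := by rw [h]
        _ = B := by rw [mul_assoc, hξ, mul_one]
    obtain ⟨ψ, hψdef⟩ : ∃ ψ : MulAut P, ψ = φ ^ s := ⟨_, rfl⟩
    rw [← hψdef] at hint
    have hintk : ∀ (k : ℕ) g, ξ ^ k * ρ g = ρ ((ψ ^ k) g) * ξ ^ k := by
      intro k
      induction k with
      | zero =>
        intro g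
        simp
      | succ k ih' =>
        intro g
        calc ξ ^ (k + 1) * ρ g = ξ * (ξ ^ k * ρ g) := by rw [pow_succ' ξ, mul_assoc]
          _ = ξ * (ρ ((ψ ^ k) g) * ξ ^ k) := by rw [ih']
          _ = (ξ * ρ ((ψ ^ k) g)) * ξ ^ k := by rw [mul_assoc]
          _ = (ρ (ψ ((ψ ^ k) g)) * ξ) * ξ ^ k := by rw [hint]
          _ = ρ ((ψ ^ (k + 1)) g) * ξ ^ (k + 1) := by
            rw [mul_assoc, ← pow_succ' ξ, pow_succ' ψ, MulAut.mul_apply]
    obtain ⟨kP, hkP⟩ := IsPGroup.iff_card.mp hP
    have hcardK : ((Nat.card P : ℕ) : K) ≠ 0 := by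
      rw [hkP, Nat.cast_pow]
      exact pow_ne_zero _ hqK
    have hssρ : ∀ g, (ρ g).IsSemisimple := by
      intro g
      apply isSemisimple_of_pow_eq_one (ρ g) (Nat.card P) _ hcardK
      rw [← map_pow, pow_card_eq_one', map_one]
    by_cases hsc : ∀ g, (∀ h, ρ g * ρ h = ρ h * ρ g) → ∃ μ : K, ρ g = μ • (1 : Module.End K M)
    · -- base case: operators centralizing the image act by scalars
      haveI : Nontrivial M := by
        by_contra hM
        rw [not_nontrivial_iff_subsingleton] at hM
        apply hne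
        apply LinearMap.ext
        intro v
        exact Subsingleton.elim _ _
      have hN1 : 1 < N := by
        by_contra hcon
        have hN1' : N = 1 := by omega
        rw [hN1', pow_one] at hξN
        obtain ⟨v, hv⟩ := exists_ne (0 : M)
        apply hv
        apply hfix
        rw [hξN, Module.End.one_apply]
      obtain ⟨j, hjle, hNj⟩ : ∃ j ≤ n + 1, N = p ^ j :=
        (Nat.dvd_prime_pow hp).mp ⟨s, by rw [← hsN, mul_comm]⟩
      have hj0 : 0 < j := by
        rcases Nat.eq_zero_or_pos j with h | h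
        · exfalso
          rw [h, pow_zero] at hNj
          omega
        · exact h
      have hsj : s * p ^ j = p ^ (n + 1) := by
        rw [← hNj]
        exact hsN
      have hs_eq : s * p ^ (j - 1) = p ^ n := by
        have h1 : p ^ j = p ^ (j - 1) * p := by
          rw [← pow_succ]
          congr 1
          omega
        rw [h1, ← mul_assoc, pow_succ] at hsj
        exact Nat.eq_of_mul_eq_mul_right hp.pos hsj
      have hφ₁ : φ ^ p ^ n = ψ ^ p ^ (j - 1) := by
        rw [hψdef, ← pow_mul, hs_eq]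
      have hNK : (N : K) ≠ 0 := by
        rw [hNj, Nat.cast_pow]
        exact pow_ne_zero _ hpK
      -- scalars
      have hcentral_act : ∀ z ∈ Subgroup.center P, ∀ h, ρ z * ρ h = ρ h * ρ z := by
        intro z hz h
        rw [← map_mul, ← map_mul, Subgroup.mem_center_iff.mp hz h]
      let lam : P → K := fun z =>
        if h : ∃ c : K, ρ z = c • (1 : Module.End K M) then h.choose else 0
      have hlam : ∀ z, (∀ h, ρ z * ρ h = ρ h * ρ z) → ρ z = lam z • (1 : Module.End K M) := by
        intro z hz
        have h := hsc z hz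
        have h1 : lam z = h.choose := dif_pos h
        rw [h1]
        exact h.choose_spec
      have hlamZ : ∀ z ∈ Subgroup.center P, ρ z = lam z • (1 : Module.End K M) :=
        fun z hz => hlam z (hcentral_act z hz)
      have hlam_mul : ∀ z ∈ Subgroup.center P, ∀ z' ∈ Subgroup.center P,
          lam (z * z') = lam z * lam z' := by
        intro z hz z' hz'
        apply smul_one_injective (M := M)
        rw [← hlamZ _ (Subgroup.mul_mem _ hz hz'), map_mul, hlamZ z hz, hlamZ z' hz',
          smul_mul_smul_comm, mul_one]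
      have hlam_one : lam 1 = 1 := by
        apply smul_one_injective (M := M)
        rw [← hlamZ 1 (Subgroup.one_mem _), map_one, one_smul]
      have hlam_ne : ∀ z ∈ Subgroup.center P, lam z ≠ 0 := by
        intro z hz h0
        have h1 := hlam_mul z hz z⁻¹ (Subgroup.inv_mem _ hz)
        rw [mul_inv_cancel, hlam_one, h0, zero_mul] at h1
        exact one_ne_zero h1
      have hlam_eq_one : ∀ z ∈ Subgroup.center P, ρ z = 1 ↔ lam z = 1 := by
        intro z hz
        constructor
        · intro h
          apply smul_one_injective (M := M)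
          rw [← hlamZ z hz, h, one_smul]
        · intro h
          rw [hlamZ z hz, h, one_smul]
      have hψsc : ∀ g, (∀ h, ρ g * ρ h = ρ h * ρ g) → ρ (ψ g) = ρ g := by
        intro g hg
        apply hcancel'
        rw [← hint, hlam g hg, mul_smul_comm, smul_mul_assoc, mul_one, one_mul]
      have hψk_center : ∀ (k : ℕ), ∀ z ∈ Subgroup.center P, ρ ((ψ ^ k) z) = ρ z := by
        intro k
        induction k with
        | zero =>
          intro z hz
          simp
        | succ k ih' =>
          intro z hz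
          rw [pow_succ' ψ, MulAut.mul_apply]
          have h1 : (ψ ^ k) z ∈ Subgroup.center P := map_mem_center (ψ ^ k) hz
          rw [hψsc _ (hcentral_act _ h1), ih' z hz]
      -- the image is not abelian
      have hnonab : ∃ a b : P, ρ a * ρ b ≠ ρ b * ρ a := by
        by_contra hcon
        push Not at hcon
        apply hne
        rw [hφ₁]
        have h1 : ∀ (k : ℕ) g, ρ ((ψ ^ k) g) = ρ g := by
          intro k
          induction k with
          | zero =>
            intro g
            simp
          | succ k ih' =>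
            intro g
            rw [pow_succ' ψ, MulAut.mul_apply, hψsc _ (fun h => hcon _ h), ih']
        exact h1 _ g₀
      -- the image group
      obtain ⟨xu, hxuval, hxuinv⟩ : ∃ xu : (Module.End K M)ˣ, (xu : Module.End K M) = ξ ∧
          ((xu⁻¹ : (Module.End K M)ˣ) : Module.End K M) = ξi := ⟨⟨ξ, ξi, hξ, hξ'⟩, rfl, rfl⟩
      obtain ⟨ρu, hρudef⟩ : ∃ ρu : P →* (Module.End K M)ˣ, ρu = ρ.toHomUnits := ⟨_, rfl⟩
      have hρuval : ∀ g, ((ρu g : (Module.End K M)ˣ) : Module.End K M) = ρ g := by
        intro g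
        rw [hρudef]
        rfl
      obtain ⟨Q', ρr, hQ'def, hρrval⟩ : ∃ (Q' : Subgroup (Module.End K M)ˣ) (ρr : P →* ↥Q'),
          Q' = ρu.range ∧ ∀ g, ((ρr g : ↥Q') : (Module.End K M)ˣ) = ρu g :=
        ⟨ρu.range, ρu.rangeRestrict, rfl, fun g => rfl⟩
      have hρrsurj : Function.Surjective ρr := by
        intro y
        have hy : (y : (Module.End K M)ˣ) ∈ ρu.range := by
          rw [← hQ'def]
          exact y.2
        obtain ⟨g, hg⟩ := hy
        refine ⟨g, Subtype.ext ?_⟩
        rw [hρrval, hg]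
      haveI : Finite ↥Q' := Finite.of_surjective ρr hρrsurj
      have hQ'p : IsPGroup q ↥Q' := hP.of_surjective ρr hρrsurj
      have hrep : ∀ g, unitsRep Q' (ρr g) = ρ g := by
        intro g
        rw [unitsRep_apply, hρrval, hρuval]
      have hconj : ∀ g, xu * ρu g * xu⁻¹ = ρu (ψ g) := by
        intro g
        apply Units.ext
        rw [Units.val_mul, Units.val_mul, hxuval, hxuinv, hρuval, hρuval, hint, mul_assoc, hξ,
          mul_one]
      have hxuN : xu ^ N = 1 := by
        apply Units.ext
        rw [Units.val_pow_eq_pow_val, hxuval, hξN, Units.val_one]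
      have hxQ' : ∀ g ∈ Q', xu * g * xu⁻¹ ∈ Q' := by
        intro g hg
        rw [hQ'def] at hg ⊢
        obtain ⟨a, rfl⟩ := hg
        rw [hconj]
        exact ⟨ψ a, rfl⟩
      have hxN := mem_normalizer_of_pow Q' xu hN0 hxuN hxQ'
      obtain ⟨φ', hφ'def⟩ : ∃ φ' : MulAut ↥Q', φ' = conjAut Q' xu hxN := ⟨_, rfl⟩
      have hφ'ρ : ∀ g, φ' (ρr g) = ρr (ψ g) := by
        intro g
        apply Subtype.ext
        rw [hφ'def, conjAut_apply, hρrval, hρrval, hconj]
      have hφ'k : ∀ (k : ℕ) g, (φ' ^ k) (ρr g) = ρr ((ψ ^ k) g) := by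
        intro k
        induction k with
        | zero =>
          intro g
          simp
        | succ k ih' =>
          intro g
          rw [pow_succ' φ', MulAut.mul_apply, ih', hφ'ρ, pow_succ' ψ, MulAut.mul_apply]
      have hφ'N : φ' ^ N = 1 := by
        rw [hφ'def]
        exact conjAut_pow_eq_one Q' xu hxN hxuN
      have hequiv' : ∀ g : ↥Q', ξ * unitsRep Q' g * ξi = unitsRep Q' (φ' g) := by
        intro g
        rw [hφ'def, ← hxuval, ← hxuinv]
        exact unitsRep_equiv Q' xu hxN g
      have hcenter_iff : ∀ g, ρr g ∈ Subgroup.center ↥Q' ↔ ∀ h, ρ g * ρ h = ρ h * ρ g := by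
        intro g
        rw [Subgroup.mem_center_iff]
        constructor
        · intro hg h
          have h1 := hg (ρr h)
          have h2 := congrArg (unitsRep Q') h1
          rw [map_mul, map_mul, hrep, hrep] at h2
          exact h2.symm
        · intro hg y
          obtain ⟨h, rfl⟩ := hρrsurj y
          apply unitsRep_injective Q'
          rw [map_mul, map_mul, hrep, hrep]
          exact (hg h).symm
      have hρ_cm : ∀ a b, ρr (cm a b) = cm (ρr a) (ρr b) := by
        intro a b
        rw [cm_def, cm_def, map_mul, map_mul, map_mul, map_inv, map_inv]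
      have hcenter_map : ∀ z ∈ Subgroup.center P, ρr z ∈ Subgroup.center ↥Q' := by
        intro z hz
        rw [hcenter_iff]
        exact hcentral_act z hz
      have hcm_one : ∀ g, (∀ h, ρ g * ρ h = ρ h * ρ g) ↔ ∀ h, ρ (cm g h) = 1 := by
        intro g
        constructor
        · intro hg h
          have h1 : ρ (cm g h) = ρ g * ρ h * ρ g⁻¹ * ρ h⁻¹ := by
            rw [cm_def, map_mul, map_mul, map_mul]
          have e1 : ρ g * ρ g⁻¹ = 1 := by rw [← map_mul, mul_inv_cancel, map_one]
          have e2 : ρ h * ρ h⁻¹ = 1 := by rw [← map_mul, mul_inv_cancel, map_one]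
          rw [h1, hg h, mul_assoc (ρ h) (ρ g), e1, mul_one, e2]
        · intro hg h
          have h1 : g * h = cm g h * (h * g) := mul_eq_cm_mul g h
          rw [← map_mul, h1, map_mul, hg h, one_mul, map_mul]
      let lam' : ↥Q' → K := fun z =>
        if h : ∃ c : K, unitsRep Q' z = c • (1 : Module.End K M) then h.choose else 0
      have H : Hyp (unitsRep Q') lam' := by
        refine ⟨?_, ?_, ?_, ?_⟩
        · intro g h
          obtain ⟨a, rfl⟩ := hρrsurj g
          obtain ⟨b, rfl⟩ := hρrsurj h
          rw [← hρ_cm]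
          exact hcenter_map _ (hcc a b)
        · intro z hz
          obtain ⟨a, rfl⟩ := hρrsurj z
          have h : ∃ c : K, unitsRep Q' (ρr a) = c • (1 : Module.End K M) := by
            rw [hrep]
            exact hsc a ((hcenter_iff a).mp hz)
          have h1 : lam' (ρr a) = h.choose := dif_pos h
          rw [h1]
          exact h.choose_spec
        · intro g hg
          by_contra hcon
          push Not at hcon
          apply hg
          rw [Subgroup.mem_center_iff]
          intro h
          have h1 := hcon h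
          rw [← map_one (unitsRep Q')] at h1
          have h2 := unitsRep_injective Q' h1
          rw [cm_def] at h2
          have h3 : g * h = h * g := by
            calc g * h = (g * h * g⁻¹ * h⁻¹) * (h * g) := by group
              _ = h * g := by rw [h2, one_mul]
          exact h3.symm
        · obtain ⟨kQ, hkQ⟩ := IsPGroup.iff_card.mp hQ'p
          have h1 : (Subgroup.center ↥Q').index ∣ q ^ kQ := by
            rw [← hkQ]
            exact Subgroup.index_dvd_card _
          obtain ⟨j', -, hj'⟩ := (Nat.dvd_prime_pow hq).mp h1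
          rw [hj', Nat.cast_pow]
          exact pow_ne_zero _ hqK
      have hfree' : ∀ g : ↥Q', ∀ i, 0 < i → i < N →
          (φ' ^ i) g * g⁻¹ ∈ Subgroup.center ↥Q' → g ∈ Subgroup.center ↥Q' := by
        intro g i hi0 hiN hg
        obtain ⟨a, rfl⟩ := hρrsurj g
        rw [hφ'k, ← map_inv ρr, ← map_mul ρr] at hg
        obtain ⟨τ, hτdef⟩ : ∃ τ : MulAut P, τ = ψ ^ i := ⟨_, rfl⟩
        rw [← hτdef] at hg
        have hτφ : τ = φ ^ (s * i) := by rw [hτdef, hψdef, pow_mul]
        have hτfree : ∀ g : P, τ g * g⁻¹ ∈ Subgroup.center P → g ∈ Subgroup.center P := by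
          intro g hg'
          rw [hτφ] at hg'
          apply hfree g (s * i) (Nat.mul_pos hs0 hi0) _ hg'
          rw [← hsN]
          exact (Nat.mul_lt_mul_left hs0).mpr hiN
        have hτZ : ∀ z ∈ Subgroup.center P, ρ (τ z) = ρ z := by
          intro z hz
          rw [hτdef]
          exact hψk_center i z hz
        have hr1 : ∀ h, ρ (cm (τ a * a⁻¹) h) = 1 := (hcm_one _).mp ((hcenter_iff _).mp hg)
        have hstar : ∀ h, ρ (cm a (τ h)) = ρ (cm a h) := by
          intro h
          have h1 : cm (τ a) (τ h) = τ (cm a h) := by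
            rw [cm_def, cm_def, map_mul, map_mul, map_mul, map_inv, map_inv]
          have h2 : τ a = (τ a * a⁻¹) * a := by group
          have h3 : cm (τ a) (τ h) = cm (τ a * a⁻¹) (τ h) * cm a (τ h) := by
            conv_lhs => rw [h2]
            exact cm_mul_left hcc _ _ _
          rw [← one_mul (ρ (cm a (τ h))), ← hr1 (τ h), ← map_mul, ← h3, h1]
          exact hτZ _ (hcc a h)
        rw [hcenter_iff, hcm_one]
        intro h'
        obtain ⟨y, z, hz, hyz⟩ := surj_mod_center τ hτfree h'
        rw [hyz, cm_central_right hz, cm_mul_right hcc, map_mul, hstar]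
        have h4 : cm a y⁻¹ * cm a y = 1 := by
          rw [← cm_mul_right hcc, inv_mul_cancel, cm_def]
          group
        rw [← map_mul, h4, map_one]
      obtain ⟨d0, hd0⟩ := H.exists_index_eq_sq
      obtain ⟨hle, hdvd⟩ := H.index_le φ' ξ ξi hξ hξ' hequiv' N hN0 hφ'N hfree' hξN hNK hfix
      obtain ⟨kQ, hkQ⟩ := IsPGroup.iff_card.mp hQ'p
      have hd1 : (Subgroup.center ↥Q').index ∣ q ^ kQ := by
        rw [← hkQ]
        exact Subgroup.index_dvd_card _
      have hd2 : d0 ∣ q ^ kQ := by
        refine dvd_trans ?_ hd1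
        rw [hd0]
        exact dvd_pow_self d0 two_ne_zero
      obtain ⟨m, -, hm⟩ := (Nat.dvd_prime_pow hq).mp hd2
      have hcenter_ne : Subgroup.center ↥Q' ≠ ⊤ := by
        intro h
        obtain ⟨a, b, hab⟩ := hnonab
        apply hab
        have ha : ρr a ∈ Subgroup.center ↥Q' := by
          rw [h]
          exact Subgroup.mem_top _
        exact (hcenter_iff a).mp ha b
      have hm0 : 0 < m := by
        rcases Nat.eq_zero_or_pos m with h0 | h0
        · exfalso
          rw [h0, pow_zero] at hm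
          rw [hm, one_pow] at hd0
          exact hcenter_ne (Subgroup.index_eq_one.mp hd0)
        · exact h0
      rw [hd0] at hle hdvd
      obtain ⟨hq2, hNd⟩ := prime_pow_arith hq hp hp2 hm hm0 hNj hle hdvd
      have hd0two : 2 ≤ d0 := by
        rw [hm]
        calc 2 ≤ q := hq.two_le
          _ = q ^ 1 := (pow_one q).symm
          _ ≤ q ^ m := Nat.pow_le_pow_right hq.pos hm0
      -- the radical
      obtain ⟨R, hRdef⟩ : ∃ R : Subgroup P, R = (Subgroup.center ↥Q').comap ρr := ⟨_, rfl⟩
      have hRmem : ∀ g, g ∈ R ↔ ∀ h, ρ (cm g h) = 1 := by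
        intro g
        rw [hRdef, Subgroup.mem_comap, hcenter_iff, hcm_one]
      have hRidx : R.index = d0 ^ 2 := by
        rw [hRdef, Subgroup.index_comap_of_surjective _ hρrsurj, hd0]
      have hRnormal : R.Normal := by
        rw [hRdef]
        exact Subgroup.Normal.comap inferInstance ρr
      have hRψ : ∀ g ∈ R, ψ g ∈ R := by
        intro g hg
        rw [hRdef, Subgroup.mem_comap] at hg ⊢
        rw [← hφ'ρ]
        exact map_mem_center φ' hg
      have hRtop : R ≠ ⊤ := by
        intro h
        rw [h, Subgroup.index_top] at hRidx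
        nlinarith
      let Ri : ℕ → Subgroup P := fun i => R.comap (φ ^ i : MulAut P).toMonoidHom
      have hRi_mem : ∀ i g, g ∈ Ri i ↔ (φ ^ i) g ∈ R := fun i g => Iff.rfl
      have hRi_idx : ∀ i, (Ri i).index = d0 ^ 2 := by
        intro i
        show (R.comap (φ ^ i : MulAut P).toMonoidHom).index = d0 ^ 2
        rw [Subgroup.index_comap_of_surjective _ (φ ^ i : MulAut P).surjective, hRidx]
      have hRi_normal : ∀ i, (Ri i).Normal := fun i => Subgroup.Normal.comap hRnormal _
      obtain ⟨I, hIdef⟩ : ∃ I : Subgroup P, I = ⨅ i : Fin (s - 1), Ri ((i : ℕ) + 1) :=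
        ⟨_, rfl⟩
      have hImem : ∀ g, g ∈ I ↔ ∀ i : ℕ, 0 < i → i < s → (φ ^ i) g ∈ R := by
        intro g
        rw [hIdef, Subgroup.mem_iInf]
        constructor
        · intro h i hi0 his
          have h1 := h ⟨i - 1, by omega⟩
          rw [hRi_mem] at h1
          have e : (i - 1) + 1 = i := by omega
          simp only [e] at h1
          exact h1
        · intro h i
          rw [hRi_mem]
          exact h _ (by omega) (by have := i.2; omega)
      -- the product of the translated characters
      have hφkZ : ∀ (k : ℕ), ∀ z ∈ Subgroup.center P, (φ ^ k) z ∈ Subgroup.center P :=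
        fun k z hz => map_mem_center (φ ^ k) hz
      obtain ⟨Pi, hPidef⟩ : ∃ Pi : P → K,
          Pi = fun z => ∏ i ∈ Finset.range s, lam ((φ ^ i) z) := ⟨_, rfl⟩
      have hPi_mul : ∀ z ∈ Subgroup.center P, ∀ z' ∈ Subgroup.center P,
          Pi (z * z') = Pi z * Pi z' := by
        intro z hz z' hz'
        rw [hPidef]
        simp only
        rw [← Finset.prod_mul_distrib]
        apply Finset.prod_congr rfl
        intro i _
        rw [map_mul, hlam_mul _ (hφkZ i z hz) _ (hφkZ i z' hz')]
      have hlamψ : ∀ z ∈ Subgroup.center P, lam ((φ ^ s) z) = lam z := by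
        intro z hz
        apply smul_one_injective (M := M)
        rw [← hlamZ _ (hφkZ s z hz), ← hlamZ z hz, ← hψdef]
        exact hψsc z (hcentral_act z hz)
      have hPi_φ : ∀ z ∈ Subgroup.center P, Pi (φ z) = Pi z := by
        intro z hz
        rw [hPidef]
        simp only
        have h1 : ∀ i, lam ((φ ^ i) (φ z)) = lam ((φ ^ (i + 1)) z) := by
          intro i
          rw [pow_succ, MulAut.mul_apply]
        simp_rw [h1]
        have h2 := Finset.prod_range_succ' (fun i => lam ((φ ^ i) z)) s
        have h3 := Finset.prod_range_succ (fun i => lam ((φ ^ i) z)) s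
        rw [h3] at h2
        simp only [pow_zero, MulAut.one_apply] at h2
        rw [hlamψ z hz] at h2
        exact (mul_right_cancel₀ (hlam_ne z hz) h2).symm
      have hPi_one' : Pi 1 = 1 := by
        rw [hPidef]
        simp only [map_one]
        apply Finset.prod_eq_one
        intro i _
        exact hlam_one
      have hPi_one : ∀ z ∈ Subgroup.center P, Pi z = 1 := by
        intro z hz
        obtain ⟨y, hy, hzy⟩ := Fpf4.fpf_surj_on φ.toMonoidHom hfpf (Subgroup.center P)
          (fun x hx => map_mem_center φ hx) z hz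
        have hy' : y⁻¹ ∈ Subgroup.center P := Subgroup.inv_mem _ hy
        have hφy : φ y ∈ Subgroup.center P := map_mem_center φ hy
        have h1 : Pi (y⁻¹) * Pi y = 1 := by
          rw [← hPi_mul _ hy' _ hy, inv_mul_cancel, hPi_one']
        have h2 : Pi (y⁻¹ * φ y) = Pi y⁻¹ * Pi (φ y) := hPi_mul _ hy' _ hφy
        have h3 : z = y⁻¹ * φ y := hzy
        rw [h3, h2, hPi_φ y hy, h1]
      have hIR : I ≤ R := by
        intro g hg
        rw [hImem] at hg
        rw [hRmem]
        intro h'
        have hz : cm g h' ∈ Subgroup.center P := hcc g h'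
        rw [hlam_eq_one _ hz]
        have h1 : Pi (cm g h') = 1 := hPi_one _ hz
        rw [hPidef] at h1
        simp only at h1
        obtain ⟨s', hs'⟩ : ∃ s', s = s' + 1 := ⟨s - 1, by omega⟩
        rw [hs', Finset.prod_range_succ'] at h1
        simp only [pow_zero, MulAut.one_apply] at h1
        have h2 : ∏ k ∈ Finset.range s', lam ((φ ^ (k + 1)) (cm g h')) = 1 := by
          apply Finset.prod_eq_one
          intro k hk
          rw [Finset.mem_range] at hk
          have h3 := hg (k + 1) (by omega) (by omega)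
          rw [hRmem] at h3
          have h4 := h3 ((φ ^ (k + 1)) h')
          have h5 : cm ((φ ^ (k + 1)) g) ((φ ^ (k + 1)) h') = (φ ^ (k + 1)) (cm g h') := by
            rw [cm_def, cm_def, map_mul, map_mul, map_mul, map_inv, map_inv]
          rw [h5] at h4
          exact (hlam_eq_one _ (hφkZ _ _ hz)).mp h4
        rw [h2, one_mul] at h1
        exact h1
      have hIφ : ∀ g ∈ I, φ g ∈ I := by
        intro g hg
        have hgR : g ∈ R := hIR hg
        rw [hImem] at hg ⊢
        intro i hi0 his
        have h1 : (φ ^ i) (φ g) = (φ ^ (i + 1)) g := by rw [pow_succ, MulAut.mul_apply]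
        rw [h1]
        by_cases hi : i + 1 < s
        · exact hg (i + 1) (by omega) hi
        · have h2 : i + 1 = s := by omega
          rw [h2, ← hψdef]
          exact hRψ g hgR
      have hInormal : I.Normal := by
        rw [hIdef]
        exact Subgroup.normal_iInf_normal (fun i => hRi_normal _)
      have hItop : I ≠ ⊤ := by
        intro h
        apply hRtop
        rw [eq_top_iff, ← h]
        exact hIR
      have hIZ : I ≤ Subgroup.center P := hb I hInormal hItop hIφ
      have hidx_le : (Subgroup.center P).index ≤ (d0 ^ 2) ^ (s - 1) := by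
        have h1 : (Subgroup.center P).index ∣ I.index := Subgroup.index_dvd_of_le hIZ
        have h2 : I.index ≤ ∏ i : Fin (s - 1), (Ri ((i : ℕ) + 1)).index := by
          rw [hIdef]
          exact Subgroup.index_iInf_le _
        have h3 : ∏ i : Fin (s - 1), (Ri ((i : ℕ) + 1)).index = (d0 ^ 2) ^ (s - 1) := by
          simp only [hRi_idx]
          rw [Finset.prod_const, Finset.card_univ, Fintype.card_fin]
        have h4 : I.index ≠ 0 := Subgroup.index_ne_zero_of_finite
        rw [h3] at h2
        exact le_trans (Nat.le_of_dvd (Nat.pos_of_ne_zero h4) h1) h2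
      -- the lower bound
      have hdvdZ := dvd_index_center_sub_one φ (p ^ (n + 1)) hpp hφ hfree
      have h5 : (Subgroup.center P).index ∣ q ^ kP := by
        rw [← hkP]
        exact Subgroup.index_dvd_card _
      obtain ⟨fz, -, hfz⟩ := (Nat.dvd_prime_pow hq).mp h5
      have hZP_ne : Subgroup.center P ≠ ⊤ := by
        intro h
        obtain ⟨a, b, hab⟩ := hnonab
        apply hab
        have ha : a ∈ Subgroup.center P := by
          rw [h]
          exact Subgroup.mem_top a
        exact hcentral_act a ha b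
      have hfz0 : 0 < fz := by
        rcases Nat.eq_zero_or_pos fz with h0 | h0
        · exfalso
          rw [h0, pow_zero] at hfz
          exact hZP_ne (Subgroup.index_eq_one.mp hfz)
        · exact h0
      rw [hfz, hq2] at hdvdZ
      have hpj : p ^ j = 2 ^ m + 1 := by
        rw [← hNj, hNd, hm, hq2]
      have hlow := nt_lower hp hp2 hm0 hpj hsj hfz0 hdvdZ
      rw [hfz, hm, hq2] at hidx_le
      have h6 : ((2 ^ m) ^ 2) ^ (s - 1) < 2 ^ fz := by
        have h7 : ((2 ^ m) ^ 2) ^ (s - 1) = 2 ^ (2 * m * (s - 1)) := by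
          rw [← pow_mul, ← pow_mul]
          congr 1
          ring
        rw [h7]
        apply Nat.pow_lt_pow_right (by norm_num)
        have h8 : 2 * m * (s - 1) < 2 * m * s := (Nat.mul_lt_mul_left (by omega)).mpr (by omega)
        omega
      omega
    · -- reduction: restrict to a simultaneous eigenspace
      push Not at hsc
      obtain ⟨g₁, hg₁c, hg₁ns⟩ := hsc
      let f : {g : P // ∀ h, ρ g * ρ h = ρ h * ρ g} → Module.End K M := fun i => ρ i.1
      have hπmem : ∀ g : P, (∀ h, ρ g * ρ h = ρ h * ρ g) →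
          ∀ h, ρ (ψ.symm g) * ρ h = ρ h * ρ (ψ.symm g) := by
        intro g hg h
        apply hcancel
        have h1 : ξ * ρ (ψ.symm g) = ρ g * ξ := by
          have := hint (ψ.symm g)
          rw [MulEquiv.apply_symm_apply] at this
          exact this
        calc ξ * (ρ (ψ.symm g) * ρ h) = (ξ * ρ (ψ.symm g)) * ρ h := by rw [mul_assoc]
          _ = ρ g * (ξ * ρ h) := by rw [h1, mul_assoc]
          _ = ρ g * (ρ (ψ h) * ξ) := by rw [hint]
          _ = (ρ g * ρ (ψ h)) * ξ := by rw [mul_assoc]
          _ = (ρ (ψ h) * ρ g) * ξ := by rw [hg]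
          _ = ρ (ψ h) * (ρ g * ξ) := by rw [mul_assoc]
          _ = ρ (ψ h) * (ξ * ρ (ψ.symm g)) := by rw [h1]
          _ = (ρ (ψ h) * ξ) * ρ (ψ.symm g) := by rw [mul_assoc]
          _ = (ξ * ρ h) * ρ (ψ.symm g) := by rw [hint]
          _ = ξ * (ρ h * ρ (ψ.symm g)) := by rw [mul_assoc]
      let π : {g : P // ∀ h, ρ g * ρ h = ρ h * ρ g} → {g : P // ∀ h, ρ g * ρ h = ρ h * ρ g} :=
        fun i => ⟨ψ.symm i.1, hπmem i.1 i.2⟩
      have hπ : ∀ i, f i * ξ = ξ * f (π i) := by
        intro i
        show ρ i.1 * ξ = ξ * ρ (ψ.symm i.1)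
        have := hint (ψ.symm i.1)
        rw [MulEquiv.apply_symm_apply] at this
        exact this.symm
      obtain ⟨χ, t, ht0, htN, hW1, hW2, w₀, hw₀, hw₀ne⟩ := clifford_step f
        (fun i j => i.2 j.1) (fun i => hssρ i.1) ξ π hπ hN0 hξN hfix (ρ ((φ ^ p ^ n) g₀)) (ρ g₀)
        hne
      obtain ⟨W, hWdef⟩ : ∃ W : Submodule K M, W = simEig f χ := ⟨_, rfl⟩
      rw [← hWdef] at hW1 hW2 hw₀
      have hWρ : ∀ g, ∀ w ∈ W, ρ g w ∈ W := by
        intro g w hw
        rw [hWdef, mem_simEig] at hw ⊢
        intro i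
        have h1 := LinearMap.congr_fun (i.2 g) w
        simp only [Module.End.mul_apply] at h1
        show ρ i.1 (ρ g w) = χ i • ρ g w
        have h2 : ρ i.1 w = χ i • w := hw i
        rw [h1, h2, map_smul]
      have hWtop : W ≠ ⊤ := by
        intro h
        apply hg₁ns (χ ⟨g₁, hg₁c⟩)
        apply LinearMap.ext
        intro v
        have hv : v ∈ W := by
          rw [h]
          exact Submodule.mem_top
        rw [hWdef, mem_simEig] at hv
        have h1 : ρ g₁ v = χ ⟨g₁, hg₁c⟩ • v := hv ⟨g₁, hg₁c⟩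
        rw [h1]
        simp
      have hfin := Submodule.finrank_lt hWtop
      refine ih (finrank K ↥W) (by omega) ↥W (resHom ρ W hWρ) ((ξ ^ t).restrict hW1) (s * t)
        (N / t) rfl ?_ ?_ ?_ ?_ ?_
      · rw [mul_assoc, Nat.mul_div_cancel' htN, hsN]
      · intro g
        apply LinearMap.ext
        intro w
        apply Subtype.ext
        show (ξ ^ t) (ρ g (w : M)) = ρ ((φ ^ (s * t)) g) ((ξ ^ t) (w : M))
        have h1 := LinearMap.congr_fun (hintk t g) (w : M)
        simp only [Module.End.mul_apply] at h1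
        rw [h1, hψdef, ← pow_mul]
      · apply LinearMap.ext
        intro w
        apply Subtype.ext
        rw [restrict_pow_coe, ← pow_mul, Nat.mul_div_cancel' htN, hξN]
        rfl
      · intro w hw
        apply Subtype.ext
        have h1 := congrArg Subtype.val hw
        exact hW2 _ w.2 h1
      · intro h
        apply hw₀ne
        have h1 := congrArg (fun T : Module.End K ↥W => ((T ⟨w₀, hw₀⟩ : ↥W) : M)) h
        exact h1

end Main

section Critical

variable {P : Type w} [Group P] [Finite P]

/-- **Critical structure** for an automorphism `φ` with `φ ^ p ^ (n + 1) = 1` of a `q`-group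
all of whose proper `φ`-invariant subgroups are centralized by `φ ^ p ^ n`. -/
theorem critical' {q p : ℕ} [hqF : Fact q.Prime] (hp : p.Prime) (hqp : q ≠ p)
    (hP : IsPGroup q P) (φ : MulAut P) (n : ℕ) (hφ : φ ^ p ^ (n + 1) = 1)
    (hmin : ∀ P₀ : Subgroup P, P₀ ≠ ⊤ → (∀ g ∈ P₀, φ g ∈ P₀) →
      ∀ g ∈ P₀, (φ ^ p ^ n) g = g)
    (hne : ∃ g, (φ ^ p ^ n) g ≠ g) :
    (∀ g h : P, cm g h ∈ Subgroup.center P) ∧
    (∀ g : P, ∀ i, 0 < i → i < p ^ (n + 1) → (φ ^ i) g * g⁻¹ ∈ Subgroup.center P →
      g ∈ Subgroup.center P) ∧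
    (∀ N₀ : Subgroup P, N₀.Normal → N₀ ≠ ⊤ → (∀ g ∈ N₀, φ g ∈ N₀) →
      N₀ ≤ Subgroup.center P) := by
  have hq : q.Prime := hqF.out
  have hpp : 0 < p ^ (n + 1) := Nat.pow_pos hp.pos
  obtain ⟨φ₁, hφ₁def⟩ : ∃ φ₁ : MulAut P, φ₁ = φ ^ p ^ n := ⟨_, rfl⟩
  rw [← hφ₁def] at hmin hne
  have hφ₁p : φ₁ ^ p = 1 := by rw [hφ₁def, ← pow_mul, ← pow_succ, hφ]
  have hsymm : ∀ N₀ : Subgroup P, (∀ g ∈ N₀, φ g ∈ N₀) → ∀ g ∈ N₀, φ.symm g ∈ N₀ := by
    intro N₀ hN g hg
    have hk : ∀ k : ℕ, (φ ^ k) g ∈ N₀ := by
      intro k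
      induction k with
      | zero => simpa using hg
      | succ k ih =>
        rw [pow_succ', MulAut.mul_apply]
        exact hN _ ih
    have h1 : φ.symm g = (φ ^ (p ^ (n + 1) - 1)) g := by
      apply φ.injective
      rw [MulEquiv.apply_symm_apply, ← MulAut.mul_apply, ← pow_succ']
      have h2 : p ^ (n + 1) - 1 + 1 = p ^ (n + 1) := by omega
      rw [h2, hφ, MulAut.one_apply]
    rw [h1]
    exact hk _
  have hb : ∀ N₀ : Subgroup P, N₀.Normal → N₀ ≠ ⊤ → (∀ g ∈ N₀, φ g ∈ N₀) →
      N₀ ≤ Subgroup.center P := by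
    intro N₀ hN hNtop hNφ
    have hfixN := hmin N₀ hNtop hNφ
    by_cases hC : Subgroup.centralizer (N₀ : Set P) = ⊤
    · intro n' hn'
      rw [Subgroup.mem_center_iff]
      intro g
      have hg : g ∈ Subgroup.centralizer (N₀ : Set P) := by
        rw [hC]
        exact Subgroup.mem_top g
      exact (Subgroup.mem_centralizer_iff.mp hg n' hn').symm
    · exfalso
      have hCφ : ∀ g ∈ Subgroup.centralizer (N₀ : Set P),
          φ g ∈ Subgroup.centralizer (N₀ : Set P) := by
        intro g hg
        rw [Subgroup.mem_centralizer_iff] at hg ⊢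
        intro n' hn'
        have h1 := hg (φ.symm n') (hsymm N₀ hNφ n' hn')
        have h2 := congrArg φ h1
        rw [map_mul, map_mul, MulEquiv.apply_symm_apply] at h2
        exact h2
      have hfixC := hmin _ hC hCφ
      obtain ⟨g, hg⟩ := hne
      apply hg
      have hcC : g⁻¹ * φ₁ g ∈ Subgroup.centralizer (N₀ : Set P) := by
        rw [Subgroup.mem_centralizer_iff]
        intro n' hn'
        have hm : g * n' * g⁻¹ ∈ N₀ := hN.conj_mem n' hn' g
        have h1 := hfixN _ hm
        rw [map_mul, map_mul, map_inv, hfixN n' hn'] at h1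
        calc n' * (g⁻¹ * φ₁ g) = g⁻¹ * (g * n' * g⁻¹) * φ₁ g := by group
          _ = g⁻¹ * (φ₁ g * n' * (φ₁ g)⁻¹) * φ₁ g := by rw [h1]
          _ = g⁻¹ * φ₁ g * n' := by group
      have h3 : φ₁ g = g * (g⁻¹ * φ₁ g) := by group
      have h4 := eq_one_of_aut hq hp hqp hP φ₁ hφ₁p g (g⁻¹ * φ₁ g) h3 (hfixC _ hcC)
      exact (inv_mul_eq_one.mp h4).symm
  by_cases hZtop : Subgroup.center P = ⊤
  · refine ⟨?_, ?_, hb⟩
    · intro g h
      rw [hZtop]
      exact Subgroup.mem_top _
    · intro g i _ _ _
      rw [hZtop]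
      exact Subgroup.mem_top _
  · have hcentφ : ∀ z ∈ Subgroup.center P, φ z ∈ Subgroup.center P :=
      fun z hz => map_mem_center φ hz
    have hfixZ := hmin _ hZtop hcentφ
    have hcomm_le : commutator P ≤ Subgroup.center P := by
      apply hb _ inferInstance
      · haveI : Nontrivial P := by
          by_contra hnt
          rw [not_nontrivial_iff_subsingleton] at hnt
          apply hZtop
          exact Subsingleton.elim _ _
        haveI : Group.IsNilpotent P := hP.isNilpotent
        exact (Group.IsSolvable.commutator_lt_top_of_nontrivial P).ne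
      · intro g hg
        have hchar : (commutator P).Characteristic := inferInstance
        have h1 := Subgroup.characteristic_iff_map_eq.mp hchar φ
        rw [← h1]
        exact Subgroup.mem_map_of_mem _ hg
    have hcc : ∀ g h : P, cm g h ∈ Subgroup.center P := by
      intro g h
      apply hcomm_le
      have h1 : cm g h = ⁅g, h⁆ := by rw [cm_def, commutatorElement_def]
      rw [h1, commutator_def]
      exact Subgroup.commutator_mem_commutator (Subgroup.mem_top g) (Subgroup.mem_top h)
    refine ⟨hcc, ?_, hb⟩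
    intro g₀ i hi0 hir hg₀
    obtain ⟨ψ, hψ⟩ : ∃ ψ : MulAut P, ψ = φ ^ i := ⟨_, rfl⟩
    rw [← hψ] at hg₀
    have hψφ : ∀ g, ψ (φ g) = φ (ψ g) := by
      intro g
      rw [hψ, ← MulAut.mul_apply, ← MulAut.mul_apply, ← pow_succ, ← pow_succ']
    let D : Subgroup P :=
      { carrier := {g | ψ g * g⁻¹ ∈ Subgroup.center P}
        one_mem' := by
          show ψ 1 * 1⁻¹ ∈ Subgroup.center P
          rw [map_one, inv_one, mul_one]
          exact Subgroup.one_mem _
        mul_mem' := by
          intro a b ha hb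
          have ha' : ψ a * a⁻¹ ∈ Subgroup.center P := ha
          have hb' : ψ b * b⁻¹ ∈ Subgroup.center P := hb
          show ψ (a * b) * (a * b)⁻¹ ∈ Subgroup.center P
          have h1 : ψ (a * b) * (a * b)⁻¹ = ψ a * (ψ b * b⁻¹) * a⁻¹ := by
            rw [map_mul]
            group
          have h2 : ψ a * (ψ b * b⁻¹) = (ψ b * b⁻¹) * ψ a :=
            Subgroup.mem_center_iff.mp hb' (ψ a)
          rw [h1, h2, mul_assoc]
          exact Subgroup.mul_mem _ hb' ha'
        inv_mem' := by
          intro a ha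
          have ha' : ψ a * a⁻¹ ∈ Subgroup.center P := ha
          show ψ a⁻¹ * a⁻¹⁻¹ ∈ Subgroup.center P
          have h1 : ψ a⁻¹ * a⁻¹⁻¹ = a⁻¹ * (ψ a * a⁻¹)⁻¹ * a := by
            rw [map_inv]
            group
          have h2 : a⁻¹ * (ψ a * a⁻¹)⁻¹ = (ψ a * a⁻¹)⁻¹ * a⁻¹ :=
            Subgroup.mem_center_iff.mp (Subgroup.inv_mem _ ha') a⁻¹
          rw [h1, h2, mul_assoc, inv_mul_cancel, mul_one]
          exact Subgroup.inv_mem _ ha' }
    have hDmem : ∀ g, g ∈ D ↔ ψ g * g⁻¹ ∈ Subgroup.center P := fun g => Iff.rfl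
    have hZD : Subgroup.center P ≤ D := by
      intro z hz
      rw [hDmem]
      exact Subgroup.mul_mem _ (map_mem_center ψ hz) (Subgroup.inv_mem _ hz)
    have hDnormal : D.Normal := by
      constructor
      intro n' hn' g
      have h1 : g * n' * g⁻¹ = cm g n' * n' := by
        rw [cm_def]
        group
      rw [h1]
      exact Subgroup.mul_mem _ (hZD (hcc g n')) hn'
    have hDφ : ∀ g ∈ D, φ g ∈ D := by
      intro g hg
      rw [hDmem] at hg ⊢
      rw [hψφ, ← map_inv, ← map_mul]
      exact map_mem_center φ hg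
    have hDtop : D ≠ ⊤ := by
      intro hD
      obtain ⟨g, hg⟩ := hne
      apply hg
      obtain ⟨m, hm⟩ := cyc_p φ hp hφ hi0 hir
      rw [← hψ, ← hφ₁def] at hm
      have hall : ∀ g, ψ g * g⁻¹ ∈ Subgroup.center P := by
        intro g
        have hgD : g ∈ D := by
          rw [hD]
          exact Subgroup.mem_top g
        exact hgD
      have hpow : ∀ (k : ℕ) g, (ψ ^ k) g * g⁻¹ ∈ Subgroup.center P := by
        intro k
        induction k with
        | zero =>
          intro g
          rw [pow_zero, MulAut.one_apply, mul_inv_cancel]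
          exact Subgroup.one_mem _
        | succ k ih =>
          intro g
          have h1 : (ψ ^ (k + 1)) g * g⁻¹ =
              (ψ ((ψ ^ k) g) * ((ψ ^ k) g)⁻¹) * ((ψ ^ k) g * g⁻¹) := by
            rw [pow_succ' ψ, MulAut.mul_apply]
            group
          rw [h1]
          exact Subgroup.mul_mem _ (hall _) (ih g)
      have h5 : φ₁ g * g⁻¹ ∈ Subgroup.center P := by
        rw [← hm]
        exact hpow m g
      have h2 : φ₁ g = g * (φ₁ g * g⁻¹) := by
        have h2' := Subgroup.mem_center_iff.mp h5 g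
        rw [h2']
        group
      have h3 := eq_one_of_aut hq hp hqp hP φ₁ hφ₁p g (φ₁ g * g⁻¹) h2 (hfixZ _ h5)
      exact mul_inv_eq_one.mp h3
    exact hb D hDnormal hDtop hDφ hg₀

end Critical

section Linear

variable {K : Type u} [Field K] [IsAlgClosed K] {M : Type v} [AddCommGroup M] [Module K M]
  [FiniteDimensional K M]

/-- **Shult–Gross, linear form.**  Let `Q` be a finite `q`-group of invertible linear maps of
a finite-dimensional space over an algebraically closed field in which `q p ≠ 0`, `p` an odd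
prime, and let `x` be an invertible map with `x ^ p ^ (n + 1) = 1` normalizing `Q`, without
nonzero fixed vectors and centralizing no nontrivial element of `Q`.  Then `x ^ p ^ n`
centralizes `Q`. -/
theorem gross_linear {q p : ℕ} [hqF : Fact q.Prime] (hp : p.Prime) (hp2 : p ≠ 2)
    (hqp : q ≠ p) (hqK : (q : K) ≠ 0) (hpK : (p : K) ≠ 0) (n : ℕ) (x : (Module.End K M)ˣ)
    (hxp : x ^ p ^ (n + 1) = 1) (hfix : ∀ v : M, (x : Module.End K M) v = v → v = 0) (m : ℕ) :
    ∀ (Q : Subgroup (Module.End K M)ˣ) [Finite Q], Nat.card Q = m → IsPGroup q Q →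
      (∀ g ∈ Q, x * g * x⁻¹ ∈ Q) → (∀ g ∈ Q, x * g * x⁻¹ = g → g = 1) →
      ∀ g ∈ Q, x ^ p ^ n * g * (x ^ p ^ n)⁻¹ = g := by
  induction m using Nat.strong_induction_on with
  | _ m ih =>
    intro Q _ hm hQ hxQ hfpfQ
    by_contra hcon
    push Not at hcon
    obtain ⟨g₀, hg₀Q, hg₀⟩ := hcon
    have hN0 : 0 < p ^ (n + 1) := Nat.pow_pos hp.pos
    have hxN := mem_normalizer_of_pow Q x hN0 hxp hxQ
    obtain ⟨φ, hφdef⟩ : ∃ φ : MulAut ↥Q, φ = conjAut Q x hxN := ⟨_, rfl⟩
    have hφval : ∀ g : ↥Q, ((φ g : ↥Q) : (Module.End K M)ˣ) = x * g * x⁻¹ := by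
      intro g
      rw [hφdef]
      rfl
    have hφkval : ∀ (k : ℕ) (g : ↥Q),
        (((φ ^ k) g : ↥Q) : (Module.End K M)ˣ) = x ^ k * g * (x ^ k)⁻¹ := by
      intro k g
      rw [hφdef]
      exact conjAut_pow_apply Q x hxN k g
    have hφ : φ ^ p ^ (n + 1) = 1 := by
      rw [hφdef]
      exact conjAut_pow_eq_one Q x hxN hxp
    have hφne : (φ ^ p ^ n) ⟨g₀, hg₀Q⟩ ≠ ⟨g₀, hg₀Q⟩ := by
      intro h
      apply hg₀
      have h1 := congrArg Subtype.val h
      rw [hφkval] at h1
      exact h1
    have hfpfφ : ∀ g : ↥Q, φ g = g → g = 1 := by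
      intro g hg
      apply Subtype.ext
      apply hfpfQ g g.2
      have h1 := congrArg Subtype.val hg
      rw [hφval] at h1
      exact h1
    by_cases hstep : ∃ P₀ : Subgroup ↥Q, P₀ ≠ ⊤ ∧ (∀ g ∈ P₀, φ g ∈ P₀) ∧
        ∃ g ∈ P₀, (φ ^ p ^ n) g ≠ g
    · obtain ⟨P₀, hP₀top, hP₀φ, g₁, hg₁P, hg₁⟩ := hstep
      have hle : P₀.map Q.subtype ≤ Q := by
        rintro _ ⟨a, _, rfl⟩
        exact a.2
      haveI : Finite ↥(P₀.map Q.subtype) := Finite.of_injective _
        (Subgroup.inclusion_injective hle)
      have hcard : Nat.card ↥(P₀.map Q.subtype) < Nat.card ↥Q := by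
        rw [Subgroup.card_map_of_injective Q.subtype_injective]
        apply lt_of_le_of_ne (Subgroup.card_le_card_group P₀)
        intro h
        exact hP₀top ((Subgroup.card_eq_iff_eq_top P₀).mp h)
      have hinv : ∀ g ∈ P₀.map Q.subtype, x * g * x⁻¹ ∈ P₀.map Q.subtype := by
        rintro _ ⟨a, ha, rfl⟩
        exact ⟨φ a, hP₀φ a ha, hφval a⟩
      have hfpf' : ∀ g ∈ P₀.map Q.subtype, x * g * x⁻¹ = g → g = 1 :=
        fun g hg => hfpfQ g (hle hg)
      have h1 := ih (Nat.card ↥(P₀.map Q.subtype)) (by omega) (P₀.map Q.subtype) rfl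
        (hQ.to_le hle) hinv hfpf' (g₁ : (Module.End K M)ˣ) ⟨g₁, hg₁P, rfl⟩
      apply hg₁
      apply Subtype.ext
      rw [hφkval]
      exact h1
    · have hmin : ∀ P₀ : Subgroup ↥Q, P₀ ≠ ⊤ → (∀ g ∈ P₀, φ g ∈ P₀) →
          ∀ g ∈ P₀, (φ ^ p ^ n) g = g := by
        intro P₀ h1 h2 g hg
        by_contra h3
        exact hstep ⟨P₀, h1, h2, g, hg, h3⟩
      obtain ⟨hcc, hfree, hb⟩ := critical' hp hqp hQ φ n hφ hmin ⟨_, hφne⟩
      refine main_false (K := K) hp hp2 hqK hpK hQ φ n hφ hfpfφ hcc hfree hb ⟨g₀, hg₀Q⟩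
        (finrank K M) M (unitsRep Q) (x : Module.End K M) 1 (p ^ (n + 1)) rfl (one_mul _)
        ?_ ?_ hfix ?_
      · intro g
        rw [pow_one, unitsRep_apply, unitsRep_apply, hφval, ← Units.val_mul, ← Units.val_mul]
        congr 1
        group
      · rw [← Units.val_pow_eq_pow_val, hxp, Units.val_one]
      · intro h
        exact hφne (unitsRep_injective Q h)

end Linear

end Cfsg.Agent.Helper63.Gross
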