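-- helper63 library: the Shult–Gross step for a fixed-point-free automorphism `σ` of odd prime
-- power order of a finite group, acting on a `q`-subgroup `Q` normalizing an elementary
-- abelian `ℓ`-subgroup `V`: `[Q, σ ^ p ^ n]` centralizes `V`; add-only once landed.
import Cfsg.Agent.Helper63.GrossLinear
import Cfsg.Agent.Helper63.AddCharRep

set_option autoImplicit false

namespace Cfsg.Agent.Helper63.Gross

open Module Cfsg.Agent.Helper63.ProjRep Cfsg.Agent.Helper63.Shult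
  Cfsg.Agent.Helper63.AddCharRep

universe u v

/-- In a finite group, a subgroup mapped into itself by an automorphism is also mapped into
itself by the inverse automorphism. -/
theorem symm_mem_of_finite {G : Type u} [Group G] [Finite G] (σ : MulAut G) (N : Subgroup G)
    (hN : ∀ x ∈ N, σ x ∈ N) : ∀ x ∈ N, σ.symm x ∈ N := by
  intro x hx
  let f : ↥N → ↥N := fun y => ⟨σ y, hN y y.2⟩
  have hinj : Function.Injective f := by
    intro a b hab
    have h1 : σ (a : G) = σ (b : G) := congrArg Subtype.val hab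
    exact Subtype.ext (σ.injective h1)
  obtain ⟨y, hy⟩ := (Finite.injective_iff_surjective.mp hinj) ⟨x, hx⟩
  have h1 : σ (y : G) = x := congrArg Subtype.val hy
  rw [← h1, MulEquiv.symm_apply_apply]
  exact y.2

/-- The operator `f ↦ f ∘ τ` on the additive functions on `V`. -/
def pullOp {G : Type u} [Group G] (V : Subgroup G) (K : Type v) [Field K] (τ : ↥V →* ↥V) :
    Module.End K ↥(addChar V K) where
  toFun f := ⟨fun a => (f : ↥V → K) (τ a), by
    intro a b
    show (f : ↥V → K) (τ (a * b)) = (f : ↥V → K) (τ a) + (f : ↥V → K) (τ b)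
    rw [map_mul]
    exact f.2 _ _⟩
  map_add' := by
    intro f f'
    rfl
  map_smul' := by
    intro c f
    rfl

theorem pullOp_apply {G : Type u} [Group G] (V : Subgroup G) (K : Type v) [Field K]
    (τ : ↥V →* ↥V) (f : ↥(addChar V K)) (a : ↥V) :
    ((pullOp V K τ f : ↥(addChar V K)) : ↥V → K) a = (f : ↥V → K) (τ a) := rfl

/-- **Shult–Gross step, group form.** -/
theorem gross_group_aut {G : Type u} [Group G] [Finite G] {ℓ q p : ℕ} (hℓ : ℓ.Prime)
    (hq : q.Prime) (hp : p.Prime) (hp2 : p ≠ 2) (hℓq : ℓ ≠ q) (hℓp : ℓ ≠ p) (hqp : q ≠ p)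
    (σ : MulAut G) (n : ℕ) (hσ : σ ^ p ^ (n + 1) = 1) (hfpf : ∀ g, σ g = g → g = 1)
    (Q V : Subgroup G) (hQ : IsPGroup q Q) (hVc : ∀ a ∈ V, ∀ b ∈ V, a * b = b * a)
    (hVe : ∀ a ∈ V, a ^ ℓ = 1) (hQV : Q ≤ Subgroup.normalizer (V : Set G))
    (hσQ : ∀ g ∈ Q, σ g ∈ Q) (hσV : ∀ a ∈ V, σ a ∈ V) :
    ∀ s ∈ Q, s⁻¹ * (σ ^ p ^ n) s ∈ Subgroup.centralizer (V : Set G) := by
  haveI : Fact ℓ.Prime := ⟨hℓ⟩
  haveI : Fact q.Prime := ⟨hq⟩
  have hcomm : ∀ a b : ↥V, a * b = b * a := fun a b => Subtype.ext (hVc a a.2 b b.2)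
  have hexp : ∀ a : ↥V, a ^ ℓ = 1 := by
    intro a
    apply Subtype.ext
    rw [Subgroup.coe_pow]
    exact hVe a a.2
  obtain ⟨K, _, _, _, hK⟩ : ∃ (K : Type) (_ : Field K) (_ : IsAlgClosed K) (_ : CharP K ℓ),
      True := ⟨AlgebraicClosure (ZMod ℓ), inferInstance, inferInstance, inferInstance, trivial⟩
  have hqK : (q : K) ≠ 0 := by
    intro h
    have h1 := (CharP.cast_eq_zero_iff K ℓ q).mp h
    exact hℓq ((Nat.prime_dvd_prime_iff_eq hℓ hq).mp h1)
  have hpK : (p : K) ≠ 0 := by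
    intro h
    have h1 := (CharP.cast_eq_zero_iff K ℓ p).mp h
    exact hℓp ((Nat.prime_dvd_prime_iff_eq hℓ hp).mp h1)
  have hσVs := symm_mem_of_finite σ V hσV
  -- the operator induced by `σ`
  obtain ⟨τm, hτm⟩ : ∃ τm : ↥V →* ↥V, ∀ a, ((τm a : ↥V) : G) = σ.symm a :=
    ⟨(σ.symm.toMonoidHom.comp V.subtype).codRestrict V (fun a => hσVs a a.2), fun a => rfl⟩
  obtain ⟨τp, hτp⟩ : ∃ τp : ↥V →* ↥V, ∀ a, ((τp a : ↥V) : G) = σ a :=
    ⟨(σ.toMonoidHom.comp V.subtype).codRestrict V (fun a => hσV a a.2), fun a => rfl⟩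
  have hτpm : ∀ a, τp (τm a) = a := by
    intro a
    apply Subtype.ext
    rw [hτp, hτm, MulEquiv.apply_symm_apply]
  have hτmp : ∀ a, τm (τp a) = a := by
    intro a
    apply Subtype.ext
    rw [hτm, hτp, MulEquiv.symm_apply_apply]
  obtain ⟨ξ, hξdef⟩ : ∃ ξ : Module.End K ↥(addChar V K), ξ = pullOp V K τm := ⟨_, rfl⟩
  obtain ⟨ξi, hξidef⟩ : ∃ ξi : Module.End K ↥(addChar V K), ξi = pullOp V K τp := ⟨_, rfl⟩
  have hξval : ∀ (f : ↥(addChar V K)) (a : ↥V),
      ((ξ f : ↥(addChar V K)) : ↥V → K) a = (f : ↥V → K) (τm a) := by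
    intro f a
    rw [hξdef]
    rfl
  have hξival : ∀ (f : ↥(addChar V K)) (a : ↥V),
      ((ξi f : ↥(addChar V K)) : ↥V → K) a = (f : ↥V → K) (τp a) := by
    intro f a
    rw [hξidef]
    rfl
  have hξ : ξ * ξi = 1 := by
    apply LinearMap.ext
    intro f
    apply Subtype.ext
    funext a
    rw [Module.End.mul_apply, hξval, hξival, hτpm]
    rfl
  have hξ' : ξi * ξ = 1 := by
    apply LinearMap.ext
    intro f
    apply Subtype.ext
    funext a
    rw [Module.End.mul_apply, hξival, hξval, hτmp]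
    rfl
  have hξk : ∀ (k : ℕ) (f : ↥(addChar V K)) (a b : ↥V), (b : G) = ((σ⁻¹) ^ k) (a : G) →
      (((ξ ^ k) f : ↥(addChar V K)) : ↥V → K) a = (f : ↥V → K) b := by
    intro k
    induction k with
    | zero =>
      intro f a b hb
      have hab : b = a := by
        apply Subtype.ext
        rw [hb, pow_zero, MulAut.one_apply]
      rw [hab, pow_zero, Module.End.one_apply]
    | succ k ih =>
      intro f a b hb
      rw [pow_succ' ξ, Module.End.mul_apply, hξval]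
      apply ih
      rw [hb, hτm, pow_succ, MulAut.mul_apply]
      rfl
  have hξN : ξ ^ p ^ (n + 1) = 1 := by
    apply LinearMap.ext
    intro f
    apply Subtype.ext
    funext a
    rw [hξk (p ^ (n + 1)) f a a (by rw [inv_pow, hσ, inv_one, MulAut.one_apply])]
    rfl
  have hfixξ : ∀ f : ↥(addChar V K), ξ f = f → f = 0 := by
    intro f hf
    have hf' : ∀ a : ↥V, (f : ↥V → K) (τm a) = (f : ↥V → K) a := by
      intro a
      rw [← hξval, hf]
    apply Subtype.ext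
    funext c
    obtain ⟨y, hy, hcy⟩ := Fpf4.fpf_surj_on σ.toMonoidHom hfpf V hσV c c.2
    have h1 : c = (⟨y, hy⟩ : ↥V)⁻¹ * τp ⟨y, hy⟩ := by
      apply Subtype.ext
      rw [Subgroup.coe_mul, Subgroup.coe_inv, hτp]
      exact hcy
    have h2 := hf' (τp ⟨y, hy⟩)
    rw [hτmp] at h2
    show (f : ↥V → K) c = 0
    rw [h1, f.2, addChar_inv, ← h2, neg_add_cancel]
  -- the linear group
  obtain ⟨xu, hxuval, hxuinv⟩ : ∃ xu : (Module.End K ↥(addChar V K))ˣ,
      (xu : Module.End K ↥(addChar V K)) = ξ ∧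
      ((xu⁻¹ : (Module.End K ↥(addChar V K))ˣ) : Module.End K ↥(addChar V K)) = ξi :=
    ⟨⟨ξ, ξi, hξ, hξ'⟩, rfl, rfl⟩
  have hxuN : xu ^ p ^ (n + 1) = 1 := by
    apply Units.ext
    rw [Units.val_pow_eq_pow_val, hxuval, hξN, Units.val_one]
  obtain ⟨ρ, hρdef⟩ : ∃ ρ : ↥(Subgroup.normalizer (V : Set G)) →*
      (Module.End K ↥(addChar V K))ˣ, ρ = (rho V K).toHomUnits := ⟨_, rfl⟩
  have hρval : ∀ g, ((ρ g : (Module.End K ↥(addChar V K))ˣ) : Module.End K ↥(addChar V K)) =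
      rho V K g := by
    intro g
    rw [hρdef]
    rfl
  obtain ⟨ρQ, hρQdef⟩ : ∃ ρQ : ↥Q →* (Module.End K ↥(addChar V K))ˣ,
      ρQ = ρ.comp (Subgroup.inclusion hQV) := ⟨_, rfl⟩
  haveI : Finite ↥ρQ.range := Finite.of_surjective ρQ.rangeRestrict ρQ.rangeRestrict_surjective
  have hρQval : ∀ (s : ↥Q) (f : ↥(addChar V K)) (a : ↥V),
      ((((ρQ s : (Module.End K ↥(addChar V K))ˣ) : Module.End K ↥(addChar V K)) f :
        ↥(addChar V K)) : ↥V → K) a =
      (f : ↥V → K) (conjV (Subgroup.inclusion hQV s) a) := by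
    intro s f a
    rw [hρQdef, MonoidHom.comp_apply, hρval]
    rfl
  let sQ : ↥Q → ↥Q := fun s => ⟨σ s, hσQ s s.2⟩
  have hconj : ∀ s : ↥Q, xu * ρQ s * xu⁻¹ = ρQ (sQ s) := by
    intro s
    apply Units.ext
    apply LinearMap.ext
    intro f
    apply Subtype.ext
    funext a
    rw [Units.val_mul, Units.val_mul, hxuval, hxuinv, Module.End.mul_apply,
      Module.End.mul_apply, hξval, hρQval, hξival, hρQval]
    refine congrArg (f : ↥V → K) ?_
    apply Subtype.ext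
    rw [hτp, conjV_coe, conjV_coe, hτm]
    show σ (((s : G))⁻¹ * σ.symm (a : G) * (s : G)) = (σ (s : G))⁻¹ * (a : G) * σ (s : G)
    rw [map_mul, map_mul, map_inv, MulEquiv.apply_symm_apply]
  have hconjk : ∀ (k : ℕ) (s : ↥Q), xu ^ k * ρQ s * (xu ^ k)⁻¹ = ρQ (sQ^[k] s) := by
    intro k
    induction k with
    | zero =>
      intro s
      simp
    | succ k ih =>
      intro s
      have h1 : xu ^ (k + 1) * ρQ s * (xu ^ (k + 1))⁻¹ =
          xu * (xu ^ k * ρQ s * (xu ^ k)⁻¹) * xu⁻¹ := by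
        rw [pow_succ' xu]
        group
      rw [h1, ih, hconj, Function.iterate_succ_apply']
  have hsQk : ∀ (k : ℕ) (s : ↥Q), ((sQ^[k] s : ↥Q) : G) = (σ ^ k) (s : G) := by
    intro k
    induction k with
    | zero =>
      intro s
      simp
    | succ k ih =>
      intro s
      rw [Function.iterate_succ_apply', pow_succ' σ, MulAut.mul_apply, ← ih]
  have hker : ∀ s : ↥Q, ρQ s = 1 ↔ (s : G) ∈ Subgroup.centralizer (V : Set G) := by
    intro s
    constructor
    · intro h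
      have h1 : rho V K (Subgroup.inclusion hQV s) = 1 := by
        rw [← hρval]
        rw [hρQdef, MonoidHom.comp_apply] at h
        rw [h]
        rfl
      rw [Subgroup.mem_centralizer_iff]
      intro a ha
      exact commute_of_rho_eq_one hcomm hexp _ h1 ⟨a, ha⟩
    · intro h
      rw [Subgroup.mem_centralizer_iff] at h
      apply Units.ext
      apply LinearMap.ext
      intro f
      apply Subtype.ext
      funext a
      rw [hρQval]
      have h1 : conjV (Subgroup.inclusion hQV s) a = a := by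
        apply Subtype.ext
        rw [conjV_coe]
        show ((s : G))⁻¹ * (a : G) * (s : G) = a
        rw [mul_assoc, h a a.2, ← mul_assoc, inv_mul_cancel, one_mul]
      rw [h1]
      rfl
  have hnorm : ∀ g ∈ ρQ.range, xu * g * xu⁻¹ ∈ ρQ.range := by
    rintro _ ⟨s, rfl⟩
    rw [hconj]
    exact ⟨_, rfl⟩
  have hCσ : ∀ x ∈ Subgroup.centralizer (V : Set G), σ x ∈ Subgroup.centralizer (V : Set G) := by
    intro x hx
    rw [Subgroup.mem_centralizer_iff] at hx ⊢
    intro a ha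
    have h1 := hx (σ.symm a) (hσVs a ha)
    have h2 := congrArg σ h1
    rw [map_mul, map_mul, MulEquiv.apply_symm_apply] at h2
    exact h2
  have hfpfQ : ∀ g ∈ ρQ.range, xu * g * xu⁻¹ = g → g = 1 := by
    rintro _ ⟨s, rfl⟩ hs
    rw [hconj] at hs
    have h1 : ρQ (s⁻¹ * sQ s) = 1 := by
      rw [map_mul, map_inv, hs, inv_mul_cancel]
    have h2 := (hker _).mp h1
    have h3 : ((s⁻¹ * sQ s : ↥Q) : G) = (s : G)⁻¹ * σ (s : G) := rfl
    rw [h3] at h2
    have hNσ : ∀ x ∈ Q ⊓ Subgroup.centralizer (V : Set G),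
        σ.toMonoidHom x ∈ Q ⊓ Subgroup.centralizer (V : Set G) :=
      fun x hx => ⟨hσQ x hx.1, hCσ x hx.2⟩
    have h4 : (s : G)⁻¹ * σ (s : G) ∈ Q ⊓ Subgroup.centralizer (V : Set G) :=
      ⟨Subgroup.mul_mem _ (Subgroup.inv_mem _ s.2) (hσQ s s.2), h2⟩
    obtain ⟨y, hy, hsy⟩ := Fpf4.fpf_surj_on σ.toMonoidHom hfpf _ hNσ _ h4
    have h5 : (s : G) = y := Fpf4.fpf_inj σ.toMonoidHom hfpf _ _ hsy
    apply (hker s).mpr
    rw [h5]
    exact hy.2
  have hmain := gross_linear (K := K) (M := ↥(addChar V K)) hp hp2 hqp hqK hpK n xu hxuN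
    (by
      intro f hf
      rw [hxuval] at hf
      exact hfixξ f hf)
    (Nat.card ↥ρQ.range) ρQ.range rfl
    (hQ.of_surjective ρQ.rangeRestrict ρQ.rangeRestrict_surjective) hnorm hfpfQ
  intro s hs
  have h1 := hmain (ρQ ⟨s, hs⟩) ⟨_, rfl⟩
  rw [hconjk] at h1
  have h2 : ρQ ((⟨s, hs⟩ : ↥Q)⁻¹ * sQ^[p ^ n] ⟨s, hs⟩) = 1 := by
    rw [map_mul, map_inv, h1, inv_mul_cancel]
  have h3 := (hker _).mp h2
  rw [Subgroup.coe_mul, Subgroup.coe_inv, hsQk] at h3
  exact h3

end Cfsg.Agent.Helper63.Gross
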