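-- helper63 library: the Shult–Gross theorem.  A finite solvable group with a fixed-point-free
-- automorphism `σ`, `σ ^ p ^ n = 1`, `p` an odd prime, has a normal series of length `n` with
-- nilpotent factors; add-only once landed.
import Cfsg.Agent.Helper63.GrossGroup

set_option autoImplicit false
set_option maxHeartbeats 1000000

namespace Cfsg.Agent.Helper63.Gross

open Cfsg.Agent.Helper63.Fpf4 Cfsg.Agent.Helper63.Shult

open scoped commutatorElement Pointwise

universe u

section Aux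

variable {G : Type u} [Group G]

/-- In a finite group, a subgroup mapped into itself by an automorphism is mapped onto
itself. -/
theorem map_eq_of_finite [Finite G] (σ : MulAut G) (N : Subgroup G) (hN : ∀ x ∈ N, σ x ∈ N) :
    N.map σ.toMonoidHom = N := by
  apply le_antisymm
  · rintro _ ⟨x, hx, rfl⟩
    exact hN x hx
  · intro x hx
    exact ⟨σ.symm x, symm_mem_of_finite σ N hN x hx, σ.apply_symm_apply x⟩

/-- Restriction of an automorphism to an invariant subgroup. -/
def resAut (σ : MulAut G) (N : Subgroup G) (h1 : ∀ x ∈ N, σ x ∈ N)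
    (h2 : ∀ x ∈ N, σ.symm x ∈ N) : MulAut ↥N where
  toFun x := ⟨σ x, h1 x x.2⟩
  invFun x := ⟨σ.symm x, h2 x x.2⟩
  left_inv x := Subtype.ext (σ.symm_apply_apply x)
  right_inv x := Subtype.ext (σ.apply_symm_apply x)
  map_mul' x y := Subtype.ext (map_mul σ (x : G) (y : G))

theorem resAut_coe (σ : MulAut G) (N : Subgroup G) (h1 : ∀ x ∈ N, σ x ∈ N)
    (h2 : ∀ x ∈ N, σ.symm x ∈ N) (x : ↥N) : ((resAut σ N h1 h2 x : ↥N) : G) = σ x := rfl

theorem resAut_pow_coe (σ : MulAut G) (N : Subgroup G) (h1 : ∀ x ∈ N, σ x ∈ N)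
    (h2 : ∀ x ∈ N, σ.symm x ∈ N) (k : ℕ) (x : ↥N) :
    (((resAut σ N h1 h2 ^ k) x : ↥N) : G) = (σ ^ k) x := by
  induction k with
  | zero => simp
  | succ k ih =>
    rw [pow_succ' (resAut σ N h1 h2), MulAut.mul_apply, resAut_coe, ih, pow_succ' σ,
      MulAut.mul_apply]

/-- Powers of the automorphism induced on a quotient. -/
theorem congr_pow_mk (σ : MulAut G) (N : Subgroup G) [N.Normal]
    (hmap : N.map σ.toMonoidHom = N) (k : ℕ) (g : G) :
    ((QuotientGroup.congr N N σ hmap : MulAut (G ⧸ N)) ^ k) (g : G ⧸ N) =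
      (((σ ^ k) g : G) : G ⧸ N) := by
  induction k with
  | zero => simp
  | succ k ih =>
    rw [pow_succ' (QuotientGroup.congr N N σ hmap : MulAut (G ⧸ N)), MulAut.mul_apply, ih,
      pow_succ' σ, MulAut.mul_apply]
    exact congr_mk' σ N hmap _

theorem congr_pow_eq_one (σ : MulAut G) (N : Subgroup G) [N.Normal]
    (hmap : N.map σ.toMonoidHom = N) (k : ℕ) (hk : ∀ g, g⁻¹ * (σ ^ k) g ∈ N) :
    (QuotientGroup.congr N N σ hmap : MulAut (G ⧸ N)) ^ k = 1 := by
  apply MulEquiv.ext
  intro q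
  induction q using QuotientGroup.induction_on with
  | _ g =>
    rw [congr_pow_mk, MulAut.one_apply]
    exact (QuotientGroup.eq.mpr (hk g)).symm

/-- A fixed-point-free automorphism of `p`-power order acts on a group of order prime to
`p`. -/
theorem not_dvd_card_of_fpf [Finite G] {p : ℕ} (hp : p.Prime) (σ : MulAut G) (k : ℕ)
    (hσ : σ ^ p ^ k = 1) (hfpf : ∀ g, σ g = g → g = 1) : ¬ p ∣ Nat.card G := by
  haveI : Fact p.Prime := ⟨hp⟩
  have hZ : IsPGroup p ↥(Subgroup.zpowers σ) := by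
    rintro ⟨g, hg⟩
    obtain ⟨j, rfl⟩ := Subgroup.mem_zpowers_iff.mp hg
    refine ⟨k, ?_⟩
    apply Subtype.ext
    show (σ ^ j) ^ p ^ k = 1
    rw [← zpow_natCast, ← zpow_mul, mul_comm, zpow_mul, zpow_natCast, hσ, one_zpow]
  intro hdvd
  have h1 := hZ.card_modEq_card_fixedPoints G
  have h2 : MulAction.fixedPoints ↥(Subgroup.zpowers σ) G = {1} := by
    ext g
    simp only [MulAction.mem_fixedPoints, Set.mem_singleton_iff]
    constructor
    · intro h
      exact hfpf g (h ⟨σ, Subgroup.mem_zpowers σ⟩)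
    · rintro rfl τ
      exact map_one (τ : MulAut G)
  rw [h2] at h1
  have h3 : Nat.card ({1} : Set G) = 1 := by simp
  rw [h3] at h1
  have h4 : Nat.card G % p = 1 % p := h1
  rw [Nat.mod_eq_zero_of_dvd hdvd, Nat.mod_eq_of_lt hp.one_lt] at h4
  exact zero_ne_one h4

end Aux

/-- **Key step.**  If `σ ^ p ^ (n + 1) = 1` acts fixed-point-freely on the finite solvable
group `G` (`p` odd), then `σ ^ p ^ n` acts trivially modulo a nilpotent normal `σ`-invariant
subgroup. -/
theorem claimK {p : ℕ} (hp : p.Prime) (hp2 : p ≠ 2) (n : ℕ) :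
    ∀ m : ℕ, ∀ (G : Type u) [Group G] [Finite G], Nat.card G = m → Group.IsSolvable G →
    ∀ σ : MulAut G, σ ^ p ^ (n + 1) = 1 → (∀ g, σ g = g → g = 1) →
    ∃ N : Subgroup G, N.Normal ∧ Group.IsNilpotent ↥N ∧ (∀ x ∈ N, σ x ∈ N) ∧
      ∀ g, g⁻¹ * (σ ^ p ^ n) g ∈ N := by
  intro m
  induction m using Nat.strong_induction_on with
  | _ m ih =>
  intro G _ _ hm hsol σ hσ hfpf
  by_cases htriv : Subsingleton G
  · refine ⟨⊥, inferInstance, inferInstance, ?_, ?_⟩
    · intro x hx
      rw [Subgroup.mem_bot] at hx ⊢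
      rw [hx, map_one]
    · intro g
      rw [Subgroup.mem_bot]
      exact Subsingleton.elim _ _
  haveI : Nontrivial G := not_subsingleton_iff_nontrivial.mp htriv
  obtain ⟨σ₁, hσ₁def⟩ : ∃ σ₁ : MulAut G, σ₁ = σ ^ p ^ n := ⟨_, rfl⟩
  rw [← hσ₁def]
  have hσ₁p : σ₁ ^ p = 1 := by rw [hσ₁def, ← pow_mul, ← pow_succ, hσ]
  have hpG : ¬ p ∣ Nat.card G := not_dvd_card_of_fpf hp σ (n + 1) hσ hfpf
  -- a minimal invariant normal subgroup
  obtain ⟨M, ⟨hMn, hMne, hMσ⟩, hmin⟩ := wellFounded_lt.has_min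
    {N : Subgroup G | N.Normal ∧ N ≠ ⊥ ∧ ∀ x ∈ N, σ x ∈ N}
    ⟨⊤, inferInstance, top_ne_bot, fun _ _ => Subgroup.mem_top _⟩
  have hMmin : ∀ N : Subgroup G, N.Normal → N ≠ ⊥ → (∀ x ∈ N, σ x ∈ N) → N ≤ M → N = M :=
    fun N h1 h2 h3 h4 => (lt_or_eq_of_le h4).resolve_left (hmin N ⟨h1, h2, h3⟩)
  haveI := hMn
  have hMab : ∀ x ∈ M, ∀ y ∈ M, x * y = y * x := by
    have hcomm_ne : ⁅M, M⁆ ≠ M := by
      intro heq
      haveI : Nontrivial M := (Subgroup.nontrivial_iff_ne_bot M).mpr hMne
      have h1 := Group.IsSolvable.commutator_lt_top_of_nontrivial M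
      have h2 : (commutator M).map M.subtype = M := by
        rw [Subgroup.map_subtype_commutator, heq]
      have h3 : commutator M = ⊤ := by
        apply Subgroup.map_injective M.subtype_injective
        rw [h2, ← MonoidHom.range_eq_map, Subgroup.range_subtype]
      exact h1.ne h3
    have hbot : ⁅M, M⁆ = ⊥ := by
      by_contra hne
      refine hcomm_ne (hMmin ⁅M, M⁆ inferInstance hne ?_ (Subgroup.commutator_le_right M M))
      intro x hx
      have h1 : σ x ∈ (⁅M, M⁆).map σ.toMonoidHom := Subgroup.mem_map_of_mem _ hx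
      rw [Subgroup.map_commutator] at h1
      have h2 : M.map σ.toMonoidHom ≤ M := by
        rintro _ ⟨y, hy, rfl⟩
        exact hMσ y hy
      exact Subgroup.commutator_mono h2 h2 h1
    intro x hx y hy
    have : ⁅x, y⁆ ∈ ⁅M, M⁆ := Subgroup.commutator_mem_commutator hx hy
    rw [hbot, Subgroup.mem_bot, commutatorElement_eq_one_iff_commute] at this
    exact this.eq
  have hcard1 : Nat.card M ≠ 1 := fun h => hMne (Subgroup.card_eq_one.mp h)
  obtain ⟨ℓ, hℓ, hℓM⟩ : ∃ ℓ, ℓ.Prime ∧ ℓ ∣ Nat.card M :=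
    ⟨(Nat.card M).minFac, Nat.minFac_prime hcard1, Nat.minFac_dvd _⟩
  haveI : Fact ℓ.Prime := ⟨hℓ⟩
  have hMp : ∀ x ∈ M, x ^ ℓ = 1 := by
    let Ω : Subgroup G :=
      { carrier := {x | x ∈ M ∧ x ^ ℓ = 1}
        one_mem' := ⟨M.one_mem, one_pow _⟩
        mul_mem' := by
          rintro a b ⟨ha, ha'⟩ ⟨hb, hb'⟩
          refine ⟨M.mul_mem ha hb, ?_⟩
          rw [(show Commute a b from hMab a ha b hb).mul_pow, ha', hb', one_mul]
        inv_mem' := by
          rintro a ⟨ha, ha'⟩
          exact ⟨M.inv_mem ha, by rw [inv_pow, ha', inv_one]⟩ }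
    have hΩM : Ω ≤ M := fun x hx => hx.1
    have hΩn : Ω.Normal :=
      ⟨fun x hx g => ⟨hMn.conj_mem x hx.1 g, by rw [conj_pow, hx.2, mul_one, mul_inv_cancel]⟩⟩
    have hΩne : Ω ≠ ⊥ := by
      obtain ⟨x, hx⟩ := exists_prime_orderOf_dvd_card' (G := M) ℓ hℓM
      intro hbot
      have hxΩ : (x : G) ∈ Ω := by
        refine ⟨x.2, ?_⟩
        rw [← Subgroup.coe_pow, ← hx, pow_orderOf_eq_one]
        rfl
      rw [hbot, Subgroup.mem_bot] at hxΩ
      have hx1 : x = 1 := Subtype.ext hxΩ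
      rw [hx1, orderOf_one] at hx
      exact hℓ.one_lt.ne hx
    have hΩσ : ∀ x ∈ Ω, σ x ∈ Ω := fun x hx =>
      ⟨hMσ x hx.1, by rw [← map_pow, hx.2, map_one]⟩
    have hΩeq := hMmin Ω hΩn hΩne hΩσ hΩM
    intro x hx
    have : x ∈ Ω := by
      rw [hΩeq]
      exact hx
    exact this.2
  have hℓp : ℓ ≠ p := by
    intro h
    apply hpG
    rw [← h]
    exact hℓM.trans (Subgroup.card_subgroup_dvd_card M)
  -- the centralizer of `M`
  have hMσs := symm_mem_of_finite σ M hMσ
  obtain ⟨C, hCdef⟩ : ∃ C : Subgroup G, C = Subgroup.centralizer (M : Set G) := ⟨_, rfl⟩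
  have hCmem : ∀ c, c ∈ C ↔ ∀ x ∈ M, x * c = c * x := by
    intro c
    rw [hCdef, Subgroup.mem_centralizer_iff]
    rfl
  have hCn : C.Normal := by
    rw [hCdef]
    infer_instance
  haveI := hCn
  have hMC : M ≤ C := by
    intro x hx
    rw [hCmem]
    intro y hy
    exact hMab y hy x hx
  have hCσ : ∀ x ∈ C, σ x ∈ C := by
    intro c hc
    rw [hCmem] at hc ⊢
    intro x hx
    have h1 := congrArg σ (hc _ (hMσs x hx))
    rwa [map_mul, map_mul, MulEquiv.apply_symm_apply] at h1
  have hCσk : ∀ (k : ℕ), ∀ x ∈ C, (σ ^ k) x ∈ C := by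
    intro k
    induction k with
    | zero =>
      intro x hx
      simpa using hx
    | succ k ih =>
      intro x hx
      rw [pow_succ' σ, MulAut.mul_apply]
      exact hCσ _ (ih x hx)
  have hCmap := map_eq_of_finite σ C hCσ
  have hMmap := map_eq_of_finite σ M hMσ
  have hCne : C ≠ ⊥ := ne_bot_of_le_ne_bot hMne hMC
  -- induction hypothesis for `G ⧸ M`
  obtain ⟨N₁, hN₁n, hN₁nil, hN₁σ, hN₁c⟩ := ih (Nat.card (G ⧸ M)) (hm ▸ card_quot_lt M hMne)
    (G ⧸ M) rfl inferInstance (QuotientGroup.congr M M σ hMmap : MulAut (G ⧸ M))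
    (congr_pow_eq_one σ M hMmap _ (fun g => by rw [hσ, MulAut.one_apply, inv_mul_cancel]; exact M.one_mem))
    (congr_fpf σ hfpf M hMσ hMmap)
  -- key claim: `σ₁` acts trivially on `G ⧸ C`
  have hKC : ∀ g, g⁻¹ * σ₁ g ∈ C := by
    by_cases hCtop : C = ⊤
    · intro g
      rw [hCtop]
      exact Subgroup.mem_top _
    obtain ⟨σC, hσCdef⟩ : ∃ σC : MulAut (G ⧸ C), σC = QuotientGroup.congr C C σ hCmap :=
      ⟨_, rfl⟩
    have hσCmk : ∀ g : G, σC (g : G ⧸ C) = ((σ g : G) : G ⧸ C) := by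
      intro g
      rw [hσCdef]
      exact congr_mk' σ C hCmap g
    have hσCk : ∀ (k : ℕ) (g : G), (σC ^ k) (g : G ⧸ C) = (((σ ^ k) g : G) : G ⧸ C) := by
      intro k g
      rw [hσCdef]
      exact congr_pow_mk σ C hCmap k g
    have hσCp : σC ^ p ^ (n + 1) = 1 := by
      rw [hσCdef]
      exact congr_pow_eq_one σ C hCmap _
        (fun g => by rw [hσ, MulAut.one_apply, inv_mul_cancel]; exact C.one_mem)
    have hσCfpf : ∀ x : G ⧸ C, σC x = x → x = 1 := by
      rw [hσCdef]
      exact congr_fpf σ hfpf C hCσ hCmap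
    obtain ⟨Mb, hMbn, hMbnil, hMbσ, hMbc⟩ := ih (Nat.card (G ⧸ C)) (hm ▸ card_quot_lt C hCne)
      (G ⧸ C) rfl inferInstance σC hσCp hσCfpf
    haveI := hMbn
    haveI := hMbnil
    -- no normal invariant `ℓ`-subgroup in `G ⧸ C`
    have hOp : ∀ P : Subgroup (G ⧸ C), P.Normal → IsPGroup ℓ P → (∀ x ∈ P, σC x ∈ P) →
        P = ⊥ := by
      intro P hPn hPp hPφ
      have hPφs := symm_mem_of_finite σC P hPφ
      let D : Subgroup G :=
        { carrier := {x | x ∈ M ∧ ∀ g : G, (g : G ⧸ C) ∈ P → g * x * g⁻¹ = x}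
          one_mem' := ⟨M.one_mem, fun g _ => by group⟩
          mul_mem' := by
            rintro a b ⟨ha, ha'⟩ ⟨hb, hb'⟩
            refine ⟨M.mul_mem ha hb, fun g hg => ?_⟩
            calc g * (a * b) * g⁻¹ = (g * a * g⁻¹) * (g * b * g⁻¹) := by group
              _ = a * b := by rw [ha' g hg, hb' g hg]
          inv_mem' := by
            rintro a ⟨ha, ha'⟩
            refine ⟨M.inv_mem ha, fun g hg => ?_⟩
            calc g * a⁻¹ * g⁻¹ = (g * a * g⁻¹)⁻¹ := by group
              _ = a⁻¹ := by rw [ha' g hg] }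
      have hDM : D ≤ M := fun x hx => hx.1
      have hDn : D.Normal := by
        constructor
        intro x hx y
        refine ⟨hMn.conj_mem x hx.1 y, fun g hg => ?_⟩
        have hg' : ((y⁻¹ * g * y : G) : G ⧸ C) ∈ P := by
          have := hPn.conj_mem _ hg ((y⁻¹ : G) : G ⧸ C)
          simpa using this
        have := hx.2 _ hg'
        calc g * (y * x * y⁻¹) * g⁻¹
            = y * ((y⁻¹ * g * y) * x * (y⁻¹ * g * y)⁻¹) * y⁻¹ := by group
          _ = y * x * y⁻¹ := by rw [this]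
      have hDσ : ∀ x ∈ D, σ x ∈ D := by
        intro x hx
        refine ⟨hMσ x hx.1, fun g hg => ?_⟩
        have hg' : ((σ.symm g : G) : G ⧸ C) ∈ P := by
          have h1 := hPφs _ hg
          have h2 : σC.symm (g : G ⧸ C) = ((σ.symm g : G) : G ⧸ C) := by
            apply σC.injective
            rw [MulEquiv.apply_symm_apply, hσCmk, MulEquiv.apply_symm_apply]
          rw [h2] at h1
          exact h1
        have h3 := congrArg σ (hx.2 _ hg')
        rwa [map_mul, map_mul, map_inv, MulEquiv.apply_symm_apply] at h3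
      have hDne : D ≠ ⊥ := by
        let ρM : (G ⧸ C) →* MulAut M :=
          QuotientGroup.lift _ (MulAut.conjNormal (H := M)) (by
            intro g hg
            rw [MonoidHom.mem_ker]
            ext x
            rw [MulAut.conjNormal_apply]
            have := (hCmem g).mp hg x x.2
            rw [← this]
            simp)
        letI : MulAction P M := MulAction.compHom M (ρM.comp P.subtype)
        have hfix1 : (1 : M) ∈ MulAction.fixedPoints P M := by
          intro x
          show (ρM.comp P.subtype) x • (1 : M) = 1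
          rw [MulAut.smul_def, map_one]
        obtain ⟨b, hb, hb1⟩ :=
          hPp.exists_fixed_point_of_prime_dvd_card_of_fixed_point (α := M) hℓM hfix1
        intro hbot
        have hbD : (b : G) ∈ D := by
          refine ⟨b.2, fun g hg => ?_⟩
          have h1 : (⟨(g : G ⧸ C), hg⟩ : P) • b = b := hb ⟨_, hg⟩
          have h2 : ((ρM (g : G ⧸ C)) b : G) = g * b * g⁻¹ := by
            rw [show ρM (g : G ⧸ C) = MulAut.conjNormal g from rfl, MulAut.conjNormal_apply]
          rw [← h2]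
          exact congrArg Subtype.val h1
        rw [hbot, Subgroup.mem_bot] at hbD
        exact hb1 (Subtype.ext hbD.symm)
      have hDeq : D = M := hMmin D hDn hDne hDσ hDM
      rw [Subgroup.eq_bot_iff_forall]
      intro q hq
      induction q using QuotientGroup.induction_on with
      | _ g =>
        rw [QuotientGroup.eq_one_iff, hCmem]
        intro x hx
        have hxD : x ∈ D := hDeq ▸ hx
        have := hxD.2 g hq
        exact (mul_inv_eq_iff_eq_mul.mp this).symm
    -- `ℓ` does not divide the order of `Mb`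
    have hℓMb : ¬ ℓ ∣ Nat.card ↥Mb := by
      obtain ⟨S⟩ : Nonempty (Sylow ℓ ↥Mb) := inferInstance
      have hSn : (S : Subgroup ↥Mb).Normal :=
        Sylow.normal_of_normalizerCondition Group.normalizerCondition_of_isNilpotent S
      haveI hSchar : (S : Subgroup ↥Mb).Characteristic := Sylow.characteristic_of_normal S hSn
      have hPn : ((S : Subgroup ↥Mb).map Mb.subtype).Normal :=
        ConjAct.normal_of_characteristic_of_normal
      have hPp : IsPGroup ℓ ↥((S : Subgroup ↥Mb).map Mb.subtype) := S.isPGroup'.map _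
      have hMbσs := symm_mem_of_finite σC Mb hMbσ
      have hPσ : ∀ x ∈ (S : Subgroup ↥Mb).map Mb.subtype,
          σC x ∈ (S : Subgroup ↥Mb).map Mb.subtype := by
        rintro _ ⟨y, hy, rfl⟩
        have h1 := Subgroup.characteristic_iff_map_eq.mp hSchar (resAut σC Mb hMbσ hMbσs)
        refine ⟨resAut σC Mb hMbσ hMbσs y, ?_, rfl⟩
        rw [← h1]
        exact Subgroup.mem_map_of_mem _ hy
      have hbot := hOp _ hPn hPp hPσ
      have hSbot : (S : Subgroup ↥Mb) = ⊥ := by
        apply Subgroup.map_injective Mb.subtype_injective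
        rw [hbot, Subgroup.map_bot]
      intro hdvd
      have h1 := S.not_dvd_index
      rw [hSbot, Subgroup.index_bot] at h1
      exact h1 hdvd
    -- the preimage of `Mb`
    obtain ⟨M₂, hM₂def⟩ : ∃ M₂ : Subgroup G, M₂ = Mb.comap (QuotientGroup.mk' C) := ⟨_, rfl⟩
    have hM₂mem : ∀ g, g ∈ M₂ ↔ (g : G ⧸ C) ∈ Mb := by
      intro g
      rw [hM₂def]
      rfl
    have hM₂σ : ∀ x ∈ M₂, σ x ∈ M₂ := by
      intro x hx
      rw [hM₂mem] at hx ⊢
      rw [← hσCmk]
      exact hMbσ _ hx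
    have hM₂σs := symm_mem_of_finite σ M₂ hM₂σ
    have hCM₂ : C ≤ M₂ := by
      intro c hc
      rw [hM₂mem, (QuotientGroup.eq_one_iff c).mpr hc]
      exact Subgroup.one_mem _
    have hrel : C.relIndex M₂ = Nat.card ↥Mb := by
      have h1 : (QuotientGroup.mk' C).ker = C := QuotientGroup.ker_mk' C
      have h2 := Subgroup.relIndex_ker (QuotientGroup.mk' C) (K := M₂)
      rw [h1] at h2
      rw [h2, hM₂def, Subgroup.map_comap_eq_self_of_surjective (QuotientGroup.mk'_surjective C)]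
    let D : Subgroup G :=
      { carrier := {g | g ∈ M₂ ∧ g⁻¹ * σ₁ g ∈ C}
        one_mem' := by
          refine ⟨Subgroup.one_mem _, ?_⟩
          rw [map_one, inv_one, one_mul]
          exact Subgroup.one_mem _
        mul_mem' := by
          rintro a b ⟨ha, ha'⟩ ⟨hb, hb'⟩
          refine ⟨Subgroup.mul_mem _ ha hb, ?_⟩
          have h1 : (a * b)⁻¹ * σ₁ (a * b) =
              (b⁻¹ * (a⁻¹ * σ₁ a) * b⁻¹⁻¹) * (b⁻¹ * σ₁ b) := by
            rw [map_mul]
            group
          rw [h1]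
          exact Subgroup.mul_mem _ (hCn.conj_mem _ ha' _) hb'
        inv_mem' := by
          rintro a ⟨ha, ha'⟩
          refine ⟨Subgroup.inv_mem _ ha, ?_⟩
          have h1 : a⁻¹⁻¹ * σ₁ a⁻¹ = a * (a⁻¹ * σ₁ a)⁻¹ * a⁻¹ := by
            rw [map_inv]
            group
          rw [h1]
          exact hCn.conj_mem _ (Subgroup.inv_mem _ ha') _ }
    have hDmem : ∀ g, g ∈ D ↔ g ∈ M₂ ∧ g⁻¹ * σ₁ g ∈ C := fun g => Iff.rfl
    have hCD : C ≤ D := by
      intro c hc
      rw [hDmem]
      refine ⟨hCM₂ hc, Subgroup.mul_mem _ (Subgroup.inv_mem _ hc) ?_⟩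
      rw [hσ₁def]
      exact hCσk _ c hc
    have hidx : (D.subgroupOf M₂).index = 1 := by
      by_contra hne1
      obtain ⟨r, hr, hrdvd⟩ := Nat.exists_prime_and_dvd hne1
      haveI : Fact r.Prime := ⟨hr⟩
      have hrMb : r ∣ Nat.card ↥Mb := by
        rw [← hrel]
        refine dvd_trans hrdvd (Subgroup.index_dvd_of_le ?_)
        intro x hx
        rw [Subgroup.mem_subgroupOf] at hx ⊢
        exact hCD hx
      have hrℓ : ℓ ≠ r := by
        intro h
        rw [← h] at hrMb
        exact hℓMb hrMb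
      have hrM₂ : r ∣ Nat.card ↥M₂ := dvd_trans hrdvd (Subgroup.index_dvd_card _)
      have hrG : r ∣ Nat.card G := dvd_trans hrM₂ (Subgroup.card_subgroup_dvd_card M₂)
      have hrp : r ≠ p := by
        intro h
        rw [h] at hrG
        exact hpG hrG
      obtain ⟨φ, hφdef⟩ : ∃ φ : MulAut ↥M₂, φ = resAut σ M₂ hM₂σ hM₂σs := ⟨_, rfl⟩
      have hφval : ∀ x : ↥M₂, ((φ x : ↥M₂) : G) = σ x := by
        intro x
        rw [hφdef]
        rfl
      have hφp : φ ^ p ^ (n + 1) = 1 := by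
        apply MulEquiv.ext
        intro x
        apply Subtype.ext
        rw [hφdef, resAut_pow_coe, hσ]
        rfl
      have hZ : IsPGroup p ↥(Subgroup.zpowers φ) := by
        rintro ⟨g, hg⟩
        obtain ⟨k, rfl⟩ := Subgroup.mem_zpowers_iff.mp hg
        refine ⟨n + 1, ?_⟩
        apply Subtype.ext
        show (φ ^ k) ^ p ^ (n + 1) = 1
        rw [← zpow_natCast, ← zpow_mul, mul_comm, zpow_mul, zpow_natCast, hφp, one_zpow]
      obtain ⟨P₀⟩ : Nonempty (Sylow r ↥M₂) := inferInstance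
      have hnd : ¬ p ∣ Nat.card (Sylow r ↥M₂) := by
        intro h
        apply hpG
        exact dvd_trans h (dvd_trans (Sylow.card_dvd_index P₀)
          (dvd_trans (Subgroup.index_dvd_card _) (Subgroup.card_subgroup_dvd_card M₂)))
      haveI : Fact p.Prime := ⟨hp⟩
      obtain ⟨S, hS⟩ := hZ.nonempty_fixed_point_of_prime_not_dvd_card (Sylow r ↥M₂) hnd
      have hSφ : ∀ s ∈ (S : Subgroup ↥M₂), φ s ∈ (S : Subgroup ↥M₂) := by
        intro s hs
        have h1 : (⟨φ, Subgroup.mem_zpowers φ⟩ : ↥(Subgroup.zpowers φ)) • S = S := hS _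
        have h2 : φ • S = S := h1
        have h3 : φ • s ∈ φ • (S : Subgroup ↥M₂) := Subgroup.smul_mem_pointwise_smul s φ _ hs
        rw [← Sylow.pointwise_smul_def, h2] at h3
        exact h3
      have hSD : (S : Subgroup ↥M₂) ≤ D.subgroupOf M₂ := by
        intro s hs
        rw [Subgroup.mem_subgroupOf, hDmem]
        refine ⟨s.2, ?_⟩
        have hQ : IsPGroup r ↥((S : Subgroup ↥M₂).map M₂.subtype) := S.isPGroup'.map _
        have hQV : (S : Subgroup ↥M₂).map M₂.subtype ≤ Subgroup.normalizer (M : Set G) := by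
          intro x _
          rw [Subgroup.mem_normalizer_iff]
          intro g
          constructor
          · intro h
            exact hMn.conj_mem g h x
          · intro h
            have h1 := hMn.conj_mem _ h x⁻¹
            have e : x⁻¹ * (x * g * x⁻¹) * x⁻¹⁻¹ = g := by group
            rw [e] at h1
            exact h1
        have h1 := gross_group_aut hℓ hr hp hp2 hrℓ hℓp hrp σ n hσ hfpf
          ((S : Subgroup ↥M₂).map M₂.subtype) M hQ hMab hMp hQV
          (by
            rintro _ ⟨a, ha, rfl⟩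
            exact ⟨φ a, hSφ a ha, hφval a⟩)
          hMσ (s : G) ⟨s, hs, rfl⟩
        rw [hσ₁def, hCdef]
        exact h1
      have h6 : (D.subgroupOf M₂).index ∣ (S : Subgroup ↥M₂).index := Subgroup.index_dvd_of_le hSD
      exact S.not_dvd_index (dvd_trans hrdvd h6)
    have hM₂D : ∀ g ∈ M₂, g⁻¹ * σ₁ g ∈ C := by
      intro g hg
      have h7 : D.subgroupOf M₂ = ⊤ := Subgroup.index_eq_one.mp hidx
      have h8 : (⟨g, hg⟩ : ↥M₂) ∈ D.subgroupOf M₂ := by
        rw [h7]
        exact Subgroup.mem_top _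
      rw [Subgroup.mem_subgroupOf, hDmem] at h8
      exact h8.2
    -- conclusion of the key claim
    intro g
    obtain ⟨k, hkdef⟩ : ∃ k : G, k = g⁻¹ * σ₁ g := ⟨_, rfl⟩
    rw [← hkdef]
    have hkM₂ : k ∈ M₂ := by
      rw [hM₂mem, hkdef, hσ₁def, QuotientGroup.mk_mul, QuotientGroup.mk_inv, ← hσCk]
      exact hMbc _
    have hk2 := hM₂D k hkM₂
    obtain ⟨τ, hτdef⟩ : ∃ τ : MulAut (G ⧸ C), τ = σC ^ p ^ n := ⟨_, rfl⟩
    have hτmk : ∀ x : G, τ (x : G ⧸ C) = ((σ₁ x : G) : G ⧸ C) := by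
      intro x
      rw [hτdef, hσ₁def]
      exact hσCk _ x
    have hτp : τ ^ p = 1 := by rw [hτdef, ← pow_mul, ← pow_succ, hσCp]
    have h9 : τ (g : G ⧸ C) = (g : G ⧸ C) * (k : G ⧸ C) := by
      rw [hτmk, ← QuotientGroup.mk_mul, hkdef]
      congr 1
      group
    have h10 : τ (k : G ⧸ C) = (k : G ⧸ C) := by
      rw [hτmk]
      exact (QuotientGroup.eq.mpr hk2).symm
    have h11 := aut_pow_apply_of τ _ _ h9 h10 p
    rw [hτp, MulAut.one_apply] at h11
    have h12 : ((k : G ⧸ C)) ^ p = 1 := left_eq_mul.mp h11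
    have h13 : orderOf (k : G ⧸ C) ∣ p := orderOf_dvd_of_pow_eq_one h12
    have h14 : orderOf (k : G ⧸ C) ∣ Nat.card G :=
      dvd_trans (orderOf_dvd_natCard _) (Subgroup.card_quotient_dvd_card C)
    have h15 : orderOf (k : G ⧸ C) = 1 := by
      rcases (Nat.dvd_prime hp).mp h13 with h | h
      · exact h
      · exfalso
        rw [h] at h14
        exact hpG h14
    exact (QuotientGroup.eq_one_iff k).mp (orderOf_eq_one_iff.mp h15)
  -- the subgroup
  obtain ⟨N, hNdef⟩ : ∃ N : Subgroup G, N = N₁.comap (QuotientGroup.mk' M) ⊓ C := ⟨_, rfl⟩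
  have hNmem : ∀ g, g ∈ N ↔ (g : G ⧸ M) ∈ N₁ ∧ g ∈ C := by
    intro g
    rw [hNdef]
    rfl
  haveI := hN₁n
  haveI := hN₁nil
  refine ⟨N, ?_, ?_, ?_, ?_⟩
  · rw [hNdef]
    infer_instance
  · let f : ↥N →* ↥N₁ :=
      ((QuotientGroup.mk' M).comp N.subtype).codRestrict N₁ (fun x => ((hNmem x).mp x.2).1)
    apply Subgroup.isNilpotent_of_ker_le_center f
    intro x hx
    rw [MonoidHom.mem_ker] at hx
    have hxM : (x : G) ∈ M := by
      have h1 := congrArg Subtype.val hx
      exact (QuotientGroup.eq_one_iff _).mp h1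
    rw [Subgroup.mem_center_iff]
    intro y
    have hyC : (y : G) ∈ C := ((hNmem y).mp y.2).2
    have h2 := (hCmem _).mp hyC _ hxM
    exact Subtype.ext h2.symm
  · intro x hx
    rw [hNmem] at hx ⊢
    refine ⟨?_, hCσ x hx.2⟩
    rw [← congr_mk' σ M hMmap]
    exact hN₁σ _ hx.1
  · intro g
    rw [hNmem]
    refine ⟨?_, hKC g⟩
    rw [hσ₁def, QuotientGroup.mk_mul, QuotientGroup.mk_inv, ← congr_pow_mk σ M hMmap]
    exact hN₁c _

/-- **Shult–Gross theorem.** -/
theorem fitting_chain {p : ℕ} (hp : p.Prime) (hp2 : p ≠ 2) :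
    ∀ n : ℕ, ∀ (G : Type u) [Group G] [Finite G], Group.IsSolvable G →
    ∀ σ : MulAut G, σ ^ p ^ n = 1 → (∀ g, σ g = g → g = 1) →
    ∃ F : Fin (n + 1) → Subgroup G, F 0 = ⊥ ∧ F (Fin.last n) = ⊤ ∧ Monotone F ∧
      (∀ i, (F i).Normal) ∧
      ∀ i : Fin n, ∃ k : ℕ, (F i.succ).lowerCentralSeries k ≤ F i.castSucc := by
  intro n
  induction n with
  | zero =>
    intro G _ _ hsol σ hσ hfpf
    have hsub : ∀ g : G, g = 1 := by
      intro g
      apply hfpf
      rw [pow_zero, pow_one] at hσ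
      rw [hσ, MulAut.one_apply]
    refine ⟨fun _ => ⊥, rfl, ?_, ?_, ?_, ?_⟩
    · show (⊥ : Subgroup G) = ⊤
      exact ((Subgroup.eq_bot_iff_forall _).mpr (fun g _ => hsub g)).symm
    · intro i j _
      exact le_refl _
    · intro i
      show (⊥ : Subgroup G).Normal
      infer_instance
    · intro i
      exact i.elim0
  | succ n ih =>
    intro G _ _ hsol σ hσ hfpf
    obtain ⟨N, hNn, hNnil, hNσ, hNc⟩ := claimK hp hp2 n _ G rfl hsol σ hσ hfpf
    haveI := hNn
    have hNmap := map_eq_of_finite σ N hNσ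
    obtain ⟨F', hF0, hFlast, hFmono, hFnormal, hFlcs⟩ := ih (G ⧸ N) inferInstance
      (QuotientGroup.congr N N σ hNmap : MulAut (G ⧸ N)) (congr_pow_eq_one σ N hNmap _ hNc)
      (congr_fpf σ hfpf N hNσ hNmap)
    refine ⟨Fin.cons ⊥ (fun i => (F' i).comap (QuotientGroup.mk' N)), ?_, ?_, ?_, ?_, ?_⟩
    · rfl
    · rw [← Fin.succ_last, Fin.cons_succ, hFlast, Subgroup.comap_top]
    · intro i j hij
      induction i using Fin.cases with
      | zero =>
        rw [Fin.cons_zero]
        exact bot_le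
      | succ i =>
        induction j using Fin.cases with
        | zero =>
          exfalso
          exact absurd hij (by simp)
        | succ j =>
          rw [Fin.cons_succ, Fin.cons_succ]
          exact Subgroup.comap_mono (hFmono (Fin.succ_le_succ_iff.mp hij))
    · intro i
      induction i using Fin.cases with
      | zero =>
        rw [Fin.cons_zero]
        infer_instance
      | succ i =>
        rw [Fin.cons_succ]
        exact Subgroup.Normal.comap (hFnormal i) _
    · intro i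
      induction i using Fin.cases with
      | zero =>
        obtain ⟨k, hk⟩ := (Subgroup.isNilpotent_iff_lowerCentralSeries N).mp hNnil
        refine ⟨k, ?_⟩
        have h1 : (Fin.cons ⊥ (fun i => (F' i).comap (QuotientGroup.mk' N)) :
            Fin (n + 2) → Subgroup G) (Fin.succ 0) = N := by
          rw [Fin.cons_succ, hF0, MonoidHom.comap_bot, QuotientGroup.ker_mk']
        rw [h1, hk]
        exact bot_le
      | succ j =>
        obtain ⟨k, hk⟩ := hFlcs j
        refine ⟨k, ?_⟩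
        have h1 : (Fin.cons ⊥ (fun i => (F' i).comap (QuotientGroup.mk' N)) :
            Fin (n + 2) → Subgroup G) j.succ.succ = (F' j.succ).comap (QuotientGroup.mk' N) := by
          rw [Fin.cons_succ]
        have h2 : (Fin.cons ⊥ (fun i => (F' i).comap (QuotientGroup.mk' N)) :
            Fin (n + 2) → Subgroup G) j.succ.castSucc =
            (F' j.castSucc).comap (QuotientGroup.mk' N) := by
          rw [← Fin.succ_castSucc, Fin.cons_succ]
        rw [h1, h2, ← Subgroup.map_le_iff_le_comap, Subgroup.map_lowerCentralSeries,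
          Subgroup.map_comap_eq_self_of_surjective (QuotientGroup.mk'_surjective N)]
        exact hk

end Cfsg.Agent.Helper63.Gross
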