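-- helper63 library: statements (as `Prop`-valued definitions) of the intermediate results
-- for the fixed-point-free `2`-automorphism theorem (S3795); add-only once landed.
import Cfsg.Agent.Helper63.GrossFitting
import Cfsg.Agent.Helper22.Fitting

set_option autoImplicit false

namespace Cfsg.Agent.Helper63.Gross2

open Module Cfsg.Agent.Helper63.ProjRep

universe u

/-- **Representation core.**  `P` a finite `q`-group of class at most two with central `q`-th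
powers, represented on `W` so that elements central in the image act by scalars; `ξ` an
operator with `ξ ^ 2 ^ j = 1` without nonzero fixed vectors inducing the automorphism `ψ`; `S`
an `r`-group of automorphisms of `P`, normalized by `ψ`, fixing (modulo the kernel) the elements
central in the image.  Then the commutators `[α, ψ ^ 2 ^ (j - 1)]`, `α ∈ S`, act trivially modulo
the kernel. -/
def RepCoreStmt : Prop :=
  ∀ (K : Type) [Field K] [IsAlgClosed K] (W : Type u) [AddCommGroup W] [Module K W]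
    [FiniteDimensional K W] (P : Type u) [Group P] [Finite P] (q r : ℕ),
    q.Prime → r.Prime → q ≠ 2 → r ≠ 2 → q ≠ r → (q : K) ≠ 0 → (2 : K) ≠ 0 → IsPGroup q P →
    ∀ (ρ : P →* Module.End K W),
    (∀ g h : P, cm g h ∈ Subgroup.center P) →
    (∀ g : P, (∀ h, ρ g * ρ h = ρ h * ρ g) → ∃ μ : K, ρ g = μ • (1 : Module.End K W)) →
    (∀ g : P, g ^ q ∈ Subgroup.center P) →
    ∀ (j : ℕ), 1 ≤ j → ∀ (ξ ξi : Module.End K W), ξ * ξi = 1 → ξi * ξ = 1 → ξ ^ 2 ^ j = 1 →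
    (∀ v : W, ξ v = v → v = 0) →
    ∀ (ψ : MulAut P), (∀ g, ξ * ρ g = ρ (ψ g) * ξ) →
    ∀ (S : Subgroup (MulAut P)), IsPGroup r S → (∀ α ∈ S, ψ * α * ψ⁻¹ ∈ S) →
    (∀ α ∈ S, ∀ g : P, (∀ h, ρ g * ρ h = ρ h * ρ g) → ρ (α g) = ρ g) →
    ∀ α ∈ S, ∀ g : P,
      ρ ((α⁻¹ * (ψ ^ 2 ^ (j - 1) * α * (ψ ^ 2 ^ (j - 1))⁻¹)) g) = ρ g

/-- **A minimal invariant subgroup.**  If the `r`-group `R` and the element `x` normalize the
finite `q`-group `Q` (`q ≠ r`) and `R₁ ≤ R` does not centralize `Q`, there is a subgroup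
`Q₁ ≤ Q`, normalized by `R` and `x` and not centralized by `R₁`, of class at most two and with
central `q`-th powers. -/
def MinSubStmt : Prop :=
  ∀ (G : Type u) [Group G] (q r : ℕ), q.Prime → r.Prime → q ≠ r →
    ∀ (x : G) (Q R R₁ : Subgroup G), Finite Q → IsPGroup q Q → IsPGroup r R → R₁ ≤ R →
    (∀ g ∈ Q, x * g * x⁻¹ ∈ Q) → (∀ g ∈ R, ∀ s ∈ Q, g * s * g⁻¹ ∈ Q) →
    (∃ k ∈ R₁, ∃ s ∈ Q, k * s ≠ s * k) →
    ∃ Q₁ : Subgroup G, Q₁ ≤ Q ∧ (∀ g ∈ Q₁, x * g * x⁻¹ ∈ Q₁) ∧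
      (∀ g ∈ R, ∀ s ∈ Q₁, g * s * g⁻¹ ∈ Q₁) ∧ (∃ k ∈ R₁, ∃ s ∈ Q₁, k * s ≠ s * k) ∧
      (∀ a ∈ Q₁, ∀ b ∈ Q₁, ∀ c ∈ Q₁, (a * b * a⁻¹ * b⁻¹) * c = c * (a * b * a⁻¹ * b⁻¹)) ∧
      (∀ a ∈ Q₁, ∀ c ∈ Q₁, a ^ q * c = c * a ^ q)

/-- **Three layers, linear form.**  `x` an invertible operator with `x ^ 2 ^ (n + 1) = 1`
without nonzero fixed vectors, normalizing a `q`-group `Q` and an `r`-group `R` of invertible
operators (`q ≠ r` odd, `q` prime to the characteristic), `R` normalizing `Q`.  Then the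
commutators `[g, x ^ 2 ^ n]`, `g ∈ R`, centralize `Q`. -/
def LinStmt : Prop :=
  ∀ (K : Type) [Field K] [IsAlgClosed K] (M : Type u) [AddCommGroup M] [Module K M]
    [FiniteDimensional K M] (q r : ℕ),
    q.Prime → r.Prime → q ≠ 2 → r ≠ 2 → q ≠ r → (q : K) ≠ 0 → (2 : K) ≠ 0 →
    ∀ (n : ℕ) (x : (Module.End K M)ˣ), x ^ 2 ^ (n + 1) = 1 →
    (∀ v : M, (x : Module.End K M) v = v → v = 0) →
    ∀ (Q R : Subgroup (Module.End K M)ˣ), Finite Q → Finite R → IsPGroup q Q → IsPGroup r R →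
    (∀ g ∈ Q, x * g * x⁻¹ ∈ Q) → (∀ g ∈ R, x * g * x⁻¹ ∈ R) →
    (∀ g ∈ R, ∀ s ∈ Q, g * s * g⁻¹ ∈ Q) →
    ∀ g ∈ R, ∀ s ∈ Q,
      (g⁻¹ * (x ^ 2 ^ n * g * (x ^ 2 ^ n)⁻¹)) * s = s * (g⁻¹ * (x ^ 2 ^ n * g * (x ^ 2 ^ n)⁻¹))

/-- **Three layers, group form.**  `σ` a fixed-point-free automorphism with
`σ ^ 2 ^ (n + 1) = 1` of a finite group; `V` a `σ`-invariant elementary abelian `ℓ`-subgroup,
`Q`, `R` `σ`-invariant subgroups normalizing `V` which are a `q`-group, resp. an `r`-group,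
modulo the centralizer of `V`; `R` normalizes `Q`.  Then for `g ∈ R`, `k = g⁻¹ σ^(2^n)(g)`
and `s ∈ Q`, the commutator `k s k⁻¹ s⁻¹` centralizes `V`. -/
def GroupStmt : Prop :=
  ∀ (G : Type u) [Group G] [Finite G] (ℓ q r : ℕ), ℓ.Prime → q.Prime → r.Prime →
    ℓ ≠ 2 → q ≠ 2 → r ≠ 2 → ℓ ≠ q → q ≠ r →
    ∀ (σ : MulAut G) (n : ℕ), σ ^ 2 ^ (n + 1) = 1 → (∀ g, σ g = g → g = 1) →
    ∀ (Q R V : Subgroup G), (∀ a ∈ V, ∀ b ∈ V, a * b = b * a) → (∀ a ∈ V, a ^ ℓ = 1) →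
    Q ≤ Subgroup.normalizer (V : Set G) → R ≤ Subgroup.normalizer (V : Set G) →
    (∀ s ∈ Q, ∃ k : ℕ, s ^ q ^ k ∈ Subgroup.centralizer (V : Set G)) →
    (∀ g ∈ R, ∃ k : ℕ, g ^ r ^ k ∈ Subgroup.centralizer (V : Set G)) →
    (∀ g ∈ R, ∀ s ∈ Q, g * s * g⁻¹ ∈ Q) →
    (∀ s ∈ Q, σ s ∈ Q) → (∀ g ∈ R, σ g ∈ R) → (∀ a ∈ V, σ a ∈ V) →
    ∀ g ∈ R, ∀ s ∈ Q, ∀ a ∈ V,
      ((g⁻¹ * (σ ^ 2 ^ n) g) * s * (g⁻¹ * (σ ^ 2 ^ n) g)⁻¹ * s⁻¹) * a =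
        a * ((g⁻¹ * (σ ^ 2 ^ n) g) * s * (g⁻¹ * (σ ^ 2 ^ n) g)⁻¹ * s⁻¹)

/-- **A criterion for membership in the Fitting subgroup.**  If `W` is a normal subgroup of
the finite group `H` which is an `r`-group modulo `F(H)`, and `k ∈ W` centralizes `O_q(H)` for
every prime `q ≠ r`, then `k ∈ F(H)`. -/
def FitStmt : Prop :=
  ∀ (H : Type u) [Group H] [Finite H] (r : ℕ), r.Prime → ∀ (W : Subgroup H), W.Normal →
    (∀ w ∈ W, ∃ a : ℕ, w ^ r ^ a ∈ Cfsg.fittingSubgroup H) →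
    ∀ k ∈ W, (∀ q : ℕ, q.Prime → q ≠ r → ∀ t ∈ Cfsg.pCore q H, k * t = t * k) →
    k ∈ Cfsg.fittingSubgroup H

/-- **Key step.**  If `σ ^ 2 ^ (n + 1) = 1` acts fixed-point-freely on the finite solvable
group `G`, then `σ ^ 2 ^ n` acts trivially modulo a normal `σ`-invariant subgroup `N` having a
nilpotent normal subgroup `N₁` with `N / N₁` nilpotent. -/
def ClaimStmt (n : ℕ) : Prop :=
  ∀ (G : Type u) [Group G] [Finite G], Group.IsSolvable G →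
    ∀ σ : MulAut G, σ ^ 2 ^ (n + 1) = 1 → (∀ g, σ g = g → g = 1) →
    ∃ N₁ N : Subgroup G, N₁.Normal ∧ N.Normal ∧ N₁ ≤ N ∧
      (∃ k : ℕ, N₁.lowerCentralSeries k = ⊥) ∧ (∃ k : ℕ, N.lowerCentralSeries k ≤ N₁) ∧
      (∀ x ∈ N, σ x ∈ N) ∧ ∀ g, g⁻¹ * (σ ^ 2 ^ n) g ∈ N

end Cfsg.Agent.Helper63.Gross2
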