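-- helper63 library: the Shult-type theorem for subgroups `X`, `Q`, `V` of a finite group
-- (`V` elementary abelian, acted on by the `q`-group `Q` and an element `x` of prime order
-- without fixed points on `V`); add-only once landed.
import Cfsg.Agent.Helper63.ShultCore
import Cfsg.Agent.Helper63.AddCharRep
import Cfsg.Prelude.Def_Transfer

set_option autoImplicit false

namespace Cfsg.Agent.Helper63.Shult

open Module Cfsg.Agent.Helper63.ProjRep Cfsg.Agent.Helper63.AddCharRep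

universe u

/-- A subgroup of prime order is generated by each of its nontrivial elements (natural
powers). -/
theorem exists_pow_of_card_prime {G : Type u} [Group G] [Finite G] (X : Subgroup G) {r : ℕ}
    (hr : r.Prime) (hX : Nat.card X = r) {x : G} (hx : x ∈ X) (hx1 : x ≠ 1) :
    ∀ y ∈ X, ∃ k : ℕ, y = x ^ k := by
  haveI : Fact r.Prime := ⟨hr⟩
  intro y hy
  have h1 : Subgroup.zpowers (⟨x, hx⟩ : ↥X) = ⊤ := by
    apply zpowers_eq_top_of_prime_card hX
    intro h
    exact hx1 (congrArg Subtype.val h)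
  have h2 : (⟨y, hy⟩ : ↥X) ∈ Subgroup.zpowers (⟨x, hx⟩ : ↥X) := by
    rw [h1]
    exact Subgroup.mem_top _
  rw [← mem_powers_iff_mem_zpowers] at h2
  obtain ⟨k, hk⟩ := h2
  refine ⟨k, ?_⟩
  have h3 := congrArg Subtype.val hk
  simpa using h3.symm

/-- **Shult-type theorem, group form.**  Let `V` be an elementary abelian `p`-subgroup of a
finite group, `Q` a `q`-subgroup and `x` an element of prime order `r` (`p`, `q`, `r` distinct),
both normalizing `V`, with `x` normalizing `Q` and fixing no nontrivial element of `V`.  If some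
commutator `[x, g]`, `g ∈ Q`, acts nontrivially on `V`, then `q = 2`, `r` is a Fermat prime and
`Q` is not abelian. -/
theorem shult_group {G : Type u} [Group G] [Finite G] {p q r : ℕ} (hp : p.Prime) (hq : q.Prime)
    (hr : r.Prime) (hpq : p ≠ q) (hpr : p ≠ r) (hqr : q ≠ r) (Q V : Subgroup G)
    (hQ : IsPGroup q Q) (hV : Cfsg.IsElementaryAbelian p V)
    (hQV : Q ≤ Subgroup.normalizer (V : Set G)) (x : G)
    (hxV : x ∈ Subgroup.normalizer (V : Set G)) (hxr : x ^ r = 1)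
    (hxQ : ∀ g ∈ Q, x * g * x⁻¹ ∈ Q) (hfixV : ∀ a ∈ V, x * a = a * x → a = 1)
    (hne : ∃ g ∈ Q, x * g * x⁻¹ * g⁻¹ ∉ Subgroup.centralizer (V : Set G)) :
    q = 2 ∧ (∃ k : ℕ, r = 2 ^ k + 1) ∧ ∃ a ∈ Q, ∃ b ∈ Q, a * b ≠ b * a := by
  haveI : Fact p.Prime := ⟨hp⟩
  haveI : Fact q.Prime := ⟨hq⟩
  obtain ⟨hVc, hVe⟩ := hV
  have hcomm : ∀ a b : ↥V, a * b = b * a := fun a b => hVc.is_comm.comm a b
  have hexp : ∀ a : ↥V, a ^ p = 1 := by
    intro a
    apply Subtype.ext
    rw [Subgroup.coe_pow]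
    exact hVe a a.2
  obtain ⟨K, _, _, _, hK⟩ : ∃ (K : Type) (_ : Field K) (_ : IsAlgClosed K) (_ : CharP K p),
      True := ⟨AlgebraicClosure (ZMod p), inferInstance, inferInstance, inferInstance, trivial⟩
  have hqK : (q : K) ≠ 0 := by
    intro h
    have h1 := (CharP.cast_eq_zero_iff K p q).mp h
    exact hpq ((Nat.prime_dvd_prime_iff_eq hp hq).mp h1)
  have hrK : (r : K) ≠ 0 := by
    intro h
    have h1 := (CharP.cast_eq_zero_iff K p r).mp h
    exact hpr ((Nat.prime_dvd_prime_iff_eq hp hr).mp h1)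
  obtain ⟨ρ, hρdef⟩ : ∃ ρ : ↥(Subgroup.normalizer (V : Set G)) →*
      (Module.End K ↥(addChar V K))ˣ, ρ = (rho V K).toHomUnits := ⟨_, rfl⟩
  have hρval : ∀ g, ((ρ g : (Module.End K ↥(addChar V K))ˣ) : Module.End K ↥(addChar V K)) =
      rho V K g := by
    intro g
    rw [hρdef]
    rfl
  obtain ⟨ρQ, hρQdef⟩ : ∃ ρQ : ↥Q →* (Module.End K ↥(addChar V K))ˣ,
      ρQ = ρ.comp (Subgroup.inclusion hQV) := ⟨_, rfl⟩
  haveI : Finite ↥ρQ.range := Finite.of_surjective ρQ.rangeRestrict ρQ.rangeRestrict_surjective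
  have hconj : ∀ s : ↥Q, ρ ⟨x, hxV⟩ * ρQ s * (ρ ⟨x, hxV⟩)⁻¹ =
      ρQ ⟨x * s * x⁻¹, hxQ s s.2⟩ := by
    intro s
    rw [hρQdef, MonoidHom.comp_apply, MonoidHom.comp_apply, ← map_inv, ← map_mul, ← map_mul]
    congr 1
  obtain ⟨h1, h2, a, ha, b, hb, hab⟩ := shult_linear (K := K) (M := ↥(addChar V K)) hr hqr hqK
    hrK ρQ.range (hQ.of_surjective ρQ.rangeRestrict ρQ.rangeRestrict_surjective) (ρ ⟨x, hxV⟩)
    (by
      rw [← map_pow]
      have h : (⟨x, hxV⟩ : ↥(Subgroup.normalizer (V : Set G))) ^ r = 1 := by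
        apply Subtype.ext
        rw [Subgroup.coe_pow]
        exact hxr
      rw [h, map_one])
    (by
      rintro _ ⟨s, rfl⟩
      rw [hconj]
      exact ⟨_, rfl⟩)
    (by
      intro f hf
      rw [hρval] at hf
      apply eq_zero_of_rho_fixed hcomm ⟨x, hxV⟩ _ f hf
      intro a ha
      apply Subtype.ext
      apply hfixV a a.2
      have h3 := congrArg Subtype.val ha
      rw [conjV_coe] at h3
      have h4 : x * (a : G) = x * (x⁻¹ * a * x) := by rw [h3]
      rw [h4]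
      group)
    (by
      obtain ⟨g, hg, hgne⟩ := hne
      refine ⟨ρQ ⟨g, hg⟩, ⟨_, rfl⟩, ?_⟩
      rw [hconj]
      intro h
      apply hgne
      have hmem : x * g * x⁻¹ * g⁻¹ ∈ Subgroup.normalizer (V : Set G) :=
        Subgroup.mul_mem _ (hQV (hxQ g hg)) (Subgroup.inv_mem _ (hQV hg))
      have h3 : ρ ⟨x * g * x⁻¹ * g⁻¹, hmem⟩ = 1 := by
        have h4 : (⟨x * g * x⁻¹ * g⁻¹, hmem⟩ : ↥(Subgroup.normalizer (V : Set G))) =
            Subgroup.inclusion hQV ⟨x * g * x⁻¹, hxQ g hg⟩ *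
              (Subgroup.inclusion hQV ⟨g, hg⟩)⁻¹ := by
          apply Subtype.ext
          rfl
        rw [h4, map_mul, map_inv]
        rw [hρQdef, MonoidHom.comp_apply, MonoidHom.comp_apply] at h
        rw [h, mul_inv_cancel]
      have h5 : rho V K ⟨x * g * x⁻¹ * g⁻¹, hmem⟩ = 1 := by
        rw [← hρval, h3]
        rfl
      rw [Subgroup.mem_centralizer_iff]
      intro a ha
      exact commute_of_rho_eq_one hcomm hexp _ h5 ⟨a, ha⟩)
  refine ⟨h1, h2, ?_⟩
  obtain ⟨s, rfl⟩ := ha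
  obtain ⟨t, rfl⟩ := hb
  refine ⟨s, s.2, t, t.2, ?_⟩
  intro h
  apply hab
  rw [← map_mul, ← map_mul]
  congr 1
  apply Subtype.ext
  exact h

end Cfsg.Agent.Helper63.Shult
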