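-- helper63 library: statements (as `Prop`-valued definitions) of the intermediate results
-- for the representation core of S3795; add-only once landed.
import Cfsg.Agent.Helper63.Gross2Defs

set_option autoImplicit false

namespace Cfsg.Agent.Helper63.Gross2

open Module

universe u

/-- **Small support.**  Over an algebraically closed field whose characteristic divides
`2 ^ j - 1` (`j ≥ 2`), let `y` be an invertible operator with `y ^ 2 ^ j = 1` annihilated by a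
cubic polynomial, normalizing a finite `r`-group `R` of invertible operators (`r` an odd prime,
invertible in the field).  Then `y ^ 2 ^ (j - 1)` centralizes `R`. -/
def SmallSupportStmt : Prop :=
  ∀ (K : Type) [Field K] [IsAlgClosed K] (A : Type u) [AddCommGroup A] [Module K A]
    [FiniteDimensional K A] (r : ℕ), r.Prime → r ≠ 2 → (r : K) ≠ 0 → (2 : K) ≠ 0 →
    ∀ (j : ℕ), 2 ≤ j → ((2 ^ j - 1 : ℕ) : K) = 0 →
    ∀ (y : (Module.End K A)ˣ), y ^ 2 ^ j = 1 → ∀ (c₁ c₂ c₃ : K),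
    ((y : Module.End K A) - c₁ • (1 : Module.End K A)) *
      ((y : Module.End K A) - c₂ • (1 : Module.End K A)) *
      ((y : Module.End K A) - c₃ • (1 : Module.End K A)) = 0 →
    ∀ (R : Subgroup (Module.End K A)ˣ), Finite R → IsPGroup r R → (∀ g ∈ R, y * g * y⁻¹ ∈ R) →
    ∀ g ∈ R, y ^ 2 ^ (j - 1) * g * (y ^ 2 ^ (j - 1))⁻¹ = g

/-- **Two layers.**  `Q` a finite `q`-group (`q` odd, invertible in the field) of invertible
operators, of class at most two, whose central elements are scalars; `x` an invertible operator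
with `x ^ 2 ^ j = 1` without nonzero fixed vectors normalizing `Q`; `t = x ^ 2 ^ (j - 1)`.
Then either `t` centralizes `Q`, or `q = 2 ^ j - 1`, `x` centralizes every element of `Q`
which `t` centralizes modulo the centre, and the subgroup of the elements inverted by `t`
modulo the centre is generated by two elements modulo the centre. -/
def TwoLayerStmt : Prop :=
  ∀ (K : Type) [Field K] [IsAlgClosed K] (W : Type u) [AddCommGroup W] [Module K W]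
    [FiniteDimensional K W] (q : ℕ), q.Prime → q ≠ 2 → (q : K) ≠ 0 → (2 : K) ≠ 0 →
    ∀ (j : ℕ), 1 ≤ j → ∀ (x : (Module.End K W)ˣ), x ^ 2 ^ j = 1 →
    (∀ v : W, (x : Module.End K W) v = v → v = 0) →
    ∀ (Q : Subgroup (Module.End K W)ˣ), Finite Q → IsPGroup q Q → (∀ g ∈ Q, x * g * x⁻¹ ∈ Q) →
    (∀ g ∈ Q, ∀ h ∈ Q, ∀ k ∈ Q, (g * h * g⁻¹ * h⁻¹) * k = k * (g * h * g⁻¹ * h⁻¹)) →
    (∀ g ∈ Q, (∀ h ∈ Q, g * h = h * g) →
      ∃ μ : K, (g : Module.End K W) = μ • (1 : Module.End K W)) →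
    (∀ g ∈ Q, x ^ 2 ^ (j - 1) * g * (x ^ 2 ^ (j - 1))⁻¹ = g) ∨
    (2 ≤ j ∧ 2 ^ j - 1 = q ∧
      (∀ g ∈ Q, (∀ h ∈ Q, (x ^ 2 ^ (j - 1) * g * (x ^ 2 ^ (j - 1))⁻¹ * g⁻¹) * h =
          h * (x ^ 2 ^ (j - 1) * g * (x ^ 2 ^ (j - 1))⁻¹ * g⁻¹)) → x * g = g * x) ∧
      ∃ a ∈ Q, ∃ b ∈ Q, ∀ L : Subgroup (Module.End K W)ˣ, a ∈ L → b ∈ L →
        (∀ z ∈ Q, (∀ h ∈ Q, z * h = h * z) → z ∈ L) →
        ∀ g ∈ Q, (∀ h ∈ Q, (x ^ 2 ^ (j - 1) * g * (x ^ 2 ^ (j - 1))⁻¹ * g) * h =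
          h * (x ^ 2 ^ (j - 1) * g * (x ^ 2 ^ (j - 1))⁻¹ * g)) → g ∈ L)

/-- **Dual action.**  `P / N` an elementary abelian `q`-group with `q = 2 ^ j - 1`, `j ≥ 2`;
`ψ` an automorphism with `ψ ^ 2 ^ j` trivial modulo `N`, acting trivially (modulo `N`) on the
elements centralized modulo `N` by `τ = ψ ^ 2 ^ (j - 1)`, the elements inverted by `τ` modulo
`N` being generated by two elements modulo `N`; `S` an `r`-group of automorphisms (`r ≠ q`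
odd) normalized by `ψ`, stabilizing `N`.  Then the commutators `[α, τ]`, `α ∈ S`, act
trivially modulo `N`. -/
def DualStmt : Prop :=
  ∀ (P : Type u) [Group P] [Finite P] (q r : ℕ), q.Prime → r.Prime → r ≠ 2 → q ≠ r →
    ∀ (j : ℕ), 2 ≤ j → 2 ^ j - 1 = q →
    ∀ (N : Subgroup P), (∀ g h : P, g * h * g⁻¹ * h⁻¹ ∈ N) → (∀ g : P, g ^ q ∈ N) →
    ∀ (ψ : MulAut P), (∀ g, ψ g ∈ N ↔ g ∈ N) → (∀ g, (ψ ^ 2 ^ j) g * g⁻¹ ∈ N) →
    (∀ g, (ψ ^ 2 ^ (j - 1)) g * g⁻¹ ∈ N → ψ g * g⁻¹ ∈ N) →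
    (∃ a b : P, ∀ L : Subgroup P, N ≤ L → a ∈ L → b ∈ L →
      ∀ g, (ψ ^ 2 ^ (j - 1)) g * g ∈ N → g ∈ L) →
    ∀ (S : Subgroup (MulAut P)), IsPGroup r S → (∀ α ∈ S, ψ * α * ψ⁻¹ ∈ S) →
    (∀ α ∈ S, ∀ g, α g ∈ N ↔ g ∈ N) →
    ∀ α ∈ S, ∀ g : P,
      (α⁻¹ * (ψ ^ 2 ^ (j - 1) * α * (ψ ^ 2 ^ (j - 1))⁻¹)) g * g⁻¹ ∈ N

end Cfsg.Agent.Helper63.Gross2
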