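-- helper63 library: further counting results for projective representations with a
-- nondegenerate commutator pairing (structure of the extremal case); add-only once landed.
import Cfsg.Agent.Helper63.ProjRep

set_option autoImplicit false

namespace Cfsg.Agent.Helper63.ProjRep

open Module

universe u v w

section Cent2

variable {K : Type u} [Field K] {M : Type v} [AddCommGroup M] [Module K M]

/-- An eigenbasis gives as many independent elements of the centralizer as there are pairs of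
basis vectors with equal eigenvalues. -/
theorem exists_pairs_le_cent [IsAlgClosed K] [FiniteDimensional K M] (ξ : Module.End K M) (r : ℕ)
    (hξr : ξ ^ r = 1) (hrK : (r : K) ≠ 0) :
    ∃ (ι : Type u) (_ : Fintype ι) (_ : DecidableEq ι) (ev : ι → K) (_ : DecidableEq K),
      Fintype.card ι = finrank K M ∧
      (∀ a, ∃ v : M, v ≠ 0 ∧ ξ v = ev a • v) ∧
      (Finset.univ.filter (fun p : ι × ι => ev p.1 = ev p.2)).card ≤ finrank K ↥(cent ξ) := by
  classical
  obtain ⟨ι, _, b, ev, hb⟩ := exists_eigenbasis ξ r hξr hrK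
  refine ⟨ι, inferInstance, inferInstance, ev, inferInstance, ?_, ?_, ?_⟩
  · exact (Module.finrank_eq_card_basis b).symm
  · intro a
    exact ⟨b a, b.ne_zero a, hb a⟩
  · let S : Finset (ι × ι) := Finset.univ.filter (fun p => ev p.1 = ev p.2)
    have hmem : ∀ p : ι × ι, p ∈ S → b.linearMap b p ∈ cent ξ := by
      intro p hp
      have hp' : ev p.1 = ev p.2 := (Finset.mem_filter.mp hp).2
      rw [mem_cent]
      apply b.ext
      intro k
      show ξ ((b.linearMap b p) (b k)) = (b.linearMap b p) (ξ (b k))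
      rw [hb k, map_smul, Module.Basis.linearMap_apply_apply]
      split_ifs with h
      · rw [hb, hp', h]
      · rw [map_zero, smul_zero]
    have hli : LinearIndependent K
        (fun p : ↥S => (⟨b.linearMap b p.1, hmem p.1 p.2⟩ : ↥(cent ξ))) := by
      have h1 : LinearIndependent K (fun p : ↥S => b.linearMap b p.1) :=
        (b.linearMap b).linearIndependent.comp (fun p : ↥S => p.1) Subtype.val_injective
      exact LinearIndependent.of_comp (cent ξ).subtype h1
    have hcard := hli.fintype_card_le_finrank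
    rw [Fintype.card_coe] at hcard
    exact hcard

/-- The centralizer of a diagonalizable operator has dimension at least that of the space. -/
theorem finrank_le_cent [IsAlgClosed K] [FiniteDimensional K M] (ξ : Module.End K M) (r : ℕ)
    (hξr : ξ ^ r = 1) (hrK : (r : K) ≠ 0) : finrank K M ≤ finrank K ↥(cent ξ) := by
  classical
  obtain ⟨ι, _, _, ev, _, hcard, -, hle⟩ := exists_pairs_le_cent ξ r hξr hrK
  refine le_trans ?_ hle
  rw [← hcard, ← Finset.card_univ]
  apply Finset.card_le_card_of_injOn (fun a => (a, a))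
  · intro a _
    simp
  · intro a _ b _ h
    exact (Prod.mk.inj h).1

/-- If all eigenvalues of a diagonalizable operator lie in the finite set `T`, then
`(dim M)² ≤ |T| · dim C(ξ)`. -/
theorem sq_finrank_le_cent_of_mem [IsAlgClosed K] [FiniteDimensional K M] [DecidableEq K]
    (ξ : Module.End K M) (r : ℕ) (hξr : ξ ^ r = 1) (hrK : (r : K) ≠ 0) (T : Finset K)
    (hT : ∀ (μ : K) (v : M), v ≠ 0 → ξ v = μ • v → μ ∈ T) :
    (finrank K M) ^ 2 ≤ T.card * finrank K ↥(cent ξ) := by
  classical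
  obtain ⟨ι, _, _, ev, _, hcard, hev, hle⟩ := exists_pairs_le_cent ξ r hξr hrK
  have hTa : ∀ a : ι, ev a ∈ T := by
    intro a
    obtain ⟨v, hv, hv'⟩ := hev a
    exact hT _ v hv hv'
  let d : K → ℕ := fun t => (Finset.univ.filter (fun a : ι => ev a = t)).card
  have hD : finrank K M = ∑ t ∈ T, d t := by
    rw [← hcard, ← Finset.card_univ]
    exact Finset.card_eq_sum_card_fiberwise (fun a _ => hTa a)
  have hS : (Finset.univ.filter (fun p : ι × ι => ev p.1 = ev p.2)).card = ∑ t ∈ T, d t ^ 2 := by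
    rw [Finset.card_eq_sum_card_fiberwise (f := fun p : ι × ι => ev p.1) (t := T)
      (fun p _ => hTa p.1)]
    apply Finset.sum_congr rfl
    intro t _
    have h1 : (Finset.univ.filter (fun p : ι × ι => ev p.1 = ev p.2)).filter
        (fun p => ev p.1 = t) = (Finset.univ.filter (fun a : ι => ev a = t)) ×ˢ
        (Finset.univ.filter (fun a : ι => ev a = t)) := by
      ext p
      simp only [Finset.mem_filter, Finset.mem_univ, true_and, Finset.mem_product]
      constructor
      · rintro ⟨h1, h2⟩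
        exact ⟨h2, h1 ▸ h2⟩
      · rintro ⟨h1, h2⟩
        exact ⟨h1.trans h2.symm, h1⟩
    rw [h1, Finset.card_product, sq]
  calc (finrank K M) ^ 2 = (∑ t ∈ T, d t) ^ 2 := by rw [hD]
    _ ≤ T.card * ∑ t ∈ T, d t ^ 2 := sq_sum_le_card_mul_sum_sq
    _ = T.card * (Finset.univ.filter (fun p : ι × ι => ev p.1 = ev p.2)).card := by rw [hS]
    _ ≤ T.card * finrank K ↥(cent ξ) := Nat.mul_le_mul_left _ hle

end Cent2

section Arith

/-- The arithmetic of the extremal case. -/
theorem extremal_arith {F C G d r t cz : ℕ} (hF : 0 < F) (hFF : F * F = G * C) (hG : G = d ^ 2)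
    (ht : t * r + 1 = G) (h1 : F ^ 2 ≤ (r - 1) * cz) (h2 : F ≤ cz) (h3 : cz ≤ 1 + t * C) :
    G = 1 ∨ G = (r - 1) ^ 2 := by
  rcases Nat.lt_or_ge d 2 with hd | hd
  · left
    have hd1 : d ≤ 1 := by omega
    have hG0 : 0 < G := by omega
    rw [hG] at hG0 ⊢
    have hd0 : d ≠ 0 := by
      rintro rfl
      simp at hG0
    have : d = 1 := by omega
    rw [this, one_pow]
  right
  -- `d ∣ F`
  have hdF : d ∣ F := by
    have h4 : d ^ 2 ∣ F ^ 2 := ⟨C, by rw [sq F, hFF, hG]⟩
    exact (Nat.pow_dvd_pow_iff two_ne_zero).mp h4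
  obtain ⟨c, hc⟩ := hdF
  have hd0 : 0 < d := by omega
  have hc0 : 0 < c := by
    rcases Nat.eq_zero_or_pos c with h | h
    · rw [h, mul_zero] at hc
      omega
    · exact h
  have hC : C = c ^ 2 := by
    have h4 : d ^ 2 * C = d ^ 2 * c ^ 2 := by
      calc d ^ 2 * C = G * C := by rw [hG]
        _ = F * F := hFF.symm
        _ = d ^ 2 * c ^ 2 := by rw [hc]; ring
    exact Nat.eq_of_mul_eq_mul_left (by positivity) h4
  have hr0 : r ≠ 0 := by
    rintro rfl
    have : G = 1 := by omega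
    rw [hG] at this
    have h5 : 2 ^ 2 ≤ d ^ 2 := Nat.pow_le_pow_left hd 2
    omega
  obtain ⟨r', rfl⟩ : ∃ r', r = r' + 1 := ⟨r - 1, by omega⟩
  simp only [Nat.add_sub_cancel] at h1 ⊢
  rw [hG]
  have hd4 : 4 ≤ d ^ 2 := by
    have h5 : 2 ^ 2 ≤ d ^ 2 := Nat.pow_le_pow_left hd 2
    omega
  have hdsq : d ^ 2 = t * (r' + 1) + 1 := by rw [← hG, ht]
  have ht0 : 0 < t := by
    rcases Nat.eq_zero_or_pos t with h | h
    · rw [h] at hdsq
      omega
    · exact h
  -- the two inequalities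
  have hi1 : d ^ 2 * c ^ 2 ≤ r' * (1 + t * c ^ 2) := by
    have h6 : F ^ 2 = d ^ 2 * c ^ 2 := by rw [hc]; ring
    rw [← h6]
    calc F ^ 2 ≤ r' * cz := h1
      _ ≤ r' * (1 + t * C) := Nat.mul_le_mul_left _ h3
      _ = r' * (1 + t * c ^ 2) := by rw [hC]
  have hi2 : d * c ≤ 1 + t * c ^ 2 := by
    rw [← hc, ← hC]
    exact h2.trans h3
  have hi1' : c ^ 2 * (1 + t) ≤ r' := by
    rw [hdsq] at hi1
    nlinarith
  rcases Nat.lt_or_ge c 2 with hc2 | hc2
  · have hc1 : c = 1 := by omega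
    rw [hc1] at hi1' hi2
    simp only [one_pow, one_mul, mul_one] at hi1' hi2
    have hle : d ≤ r' := by omega
    have hge : r' ≤ d := by
      by_contra hlt
      push Not at hlt
      have h7 : d + 1 ≤ r' := hlt
      have h8 : t * (r' + 1) ≥ t * (d + 2) := Nat.mul_le_mul_left _ (by omega)
      have h9 : d ≤ 1 + t := hi2
      nlinarith
    have : d = r' := le_antisymm hle hge
    rw [this]
  · exfalso
    have htc : d ≤ t * c := by
      by_contra hlt
      push Not at hlt
      have h7 : t * c + 1 ≤ d := hlt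
      have h8 : c * (t * c + 1) ≤ d * c := by
        rw [mul_comm d c]
        exact Nat.mul_le_mul_left _ h7
      nlinarith
    have h9 : d ^ 2 ≤ t ^ 2 * c ^ 2 := by
      calc d ^ 2 ≤ (t * c) ^ 2 := Nat.pow_le_pow_left htc 2
        _ = t ^ 2 * c ^ 2 := by ring
    have h10 : t ^ 2 * (c ^ 2 * (1 + t)) ≤ t ^ 2 * r' := Nat.mul_le_mul_left _ hi1'
    have h11 : d ^ 2 * (1 + t) ≤ t ^ 2 * r' := by
      calc d ^ 2 * (1 + t) ≤ t ^ 2 * c ^ 2 * (1 + t) := Nat.mul_le_mul_right _ h9
        _ = t ^ 2 * (c ^ 2 * (1 + t)) := by ring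
        _ ≤ t ^ 2 * r' := h10
    rw [hdsq] at h11
    nlinarith

end Arith

section Fixed2

variable {K : Type u} [Field K] {M : Type v} [AddCommGroup M] [Module K M]
  {Γ : Type w} [Group Γ] [Fintype Γ]

/-- The scalar attached to the identity is one. -/
theorem Data.s_one [Nontrivial M] (D : Data K M Γ) (ξ ξi : Module.End K M) (hξ : ξ * ξi = 1)
    (σ : Equiv.Perm Γ) (s : Γ → K)
    (hs : ∀ w, ξ * D.τ w * ξi = s w • D.τ (σ w)) (hσ1 : σ 1 = 1) : s 1 = 1 := by
  obtain ⟨c, hc, h1⟩ := D.proj 1 1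
  rw [mul_one] at h1
  have h2 : D.τ 1 = c • (1 : Module.End K M) := by
    calc D.τ 1 = D.τ 1 * (D.τ 1 * D.τi 1) := by rw [D.τ_τi, mul_one]
      _ = (D.τ 1 * D.τ 1) * D.τi 1 := by rw [mul_assoc]
      _ = c • (D.τ 1 * D.τi 1) := by rw [h1, smul_mul_assoc]
      _ = c • (1 : Module.End K M) := by rw [D.τ_τi]
  have h3 := hs 1
  rw [hσ1, h2, mul_smul_comm, mul_one, smul_mul_assoc, hξ, smul_smul] at h3
  obtain ⟨v, hv⟩ := exists_ne (0 : M)
  have h4 := LinearMap.congr_fun h3 v
  simp only [LinearMap.smul_apply, Module.End.one_apply] at h4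
  have h5 : (c - s 1 * c) • v = 0 := by rw [sub_smul, ← h4, sub_self]
  rcases smul_eq_zero.mp h5 with h6 | h6
  · have h7 : c * (1 - s 1) = 0 := by rw [← h6]; ring
    rcases mul_eq_zero.mp h7 with h8 | h8
    · exact absurd h8 hc
    · exact (sub_eq_zero.mp h8).symm
  · exact absurd h6 hv

/-- Upper bound for the dimension of the centralizer of `ξ` by orbit counting. -/
theorem Data.finrank_cent_le [FiniteDimensional K M] [Nontrivial M]
    (D : Data K M Γ) (ξ ξi : Module.End K M) (hξ : ξ * ξi = 1) (hξ' : ξi * ξ = 1)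
    (σ : Equiv.Perm Γ) (s : Γ → K) (hs0 : ∀ w, s w ≠ 0)
    (hs : ∀ w, ξ * D.τ w * ξi = s w • D.τ (σ w))
    (r : ℕ) (hr : 0 < r) (hσr : σ ^ r = 1) (hσ1 : σ 1 = 1)
    (hfree : ∀ w, w ≠ 1 → ∀ i, 0 < i → i < r → (σ ^ i) w ≠ w) :
    ∃ t : ℕ, t * r + 1 = Fintype.card Γ ∧
      finrank K ↥(cent ξ) ≤ finrank K ↥(D.comm1 ⊓ cent ξ) + t * finrank K ↥D.comm1 := by
  classical
  obtain ⟨S, hS1, hcov, hcard⟩ := exists_reps σ r hr hσr hσ1 hfree
  refine ⟨S.card, hcard, ?_⟩
  have hs1 := D.s_one ξ ξi hξ σ s hs hσ1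
  have hmem1 : ∀ e : ↥(cent ξ),
      ((D.Φ (e : Module.End K M) 1 : ↥D.comm1) : Module.End K M) ∈ D.comm1 ⊓ cent ξ := by
    intro e
    refine ⟨(D.Φ (e : Module.End K M) 1).2, ?_⟩
    have h1 := D.Φ_sigma ξ ξi hξ hξ' σ s hs0 hs (e : Module.End K M) e.2 1
    rw [hσ1, hs1, one_smul] at h1
    rw [SetLike.mem_coe, mem_cent]
    conv_rhs => rw [h1]
    rw [mul_assoc, mul_assoc, hξ', mul_one]
  let L1 : ↥(cent ξ) →ₗ[K] ↥(D.comm1 ⊓ cent ξ) :=
    (D.comm1.subtype ∘ₗ (LinearMap.proj (R := K) (φ := fun _ : Γ => ↥D.comm1) (1 : Γ)) ∘ₗ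
      D.Φ ∘ₗ (cent ξ).subtype).codRestrict (D.comm1 ⊓ cent ξ) (fun e => hmem1 e)
  let L2 : ↥(cent ξ) →ₗ[K] (↥S → ↥D.comm1) :=
    (LinearMap.funLeft K ↥D.comm1 (Subtype.val : ↥S → Γ)) ∘ₗ D.Φ ∘ₗ (cent ξ).subtype
  let L : ↥(cent ξ) →ₗ[K] ↥(D.comm1 ⊓ cent ξ) × (↥S → ↥D.comm1) := L1.prod L2
  have hL : Function.Injective L := by
    rw [← LinearMap.ker_eq_bot, LinearMap.ker_eq_bot']
    intro e he
    have he1 : L1 e = 0 := congrArg Prod.fst he
    have he2 : L2 e = 0 := congrArg Prod.snd he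
    have h01 : D.Φ (e : Module.End K M) 1 = 0 := by
      apply Subtype.ext
      exact congrArg (fun z : ↥(D.comm1 ⊓ cent ξ) => (z : Module.End K M)) he1
    have h0 : ∀ a ∈ S, D.Φ (e : Module.End K M) a = 0 := by
      intro a ha
      exact congrFun he2 ⟨a, ha⟩
    have hstep : ∀ i : ℕ, ∀ a ∈ S, D.Φ (e : Module.End K M) ((σ ^ i) a) = 0 := by
      intro i
      induction i with
      | zero =>
        intro a ha
        exact h0 a ha
      | succ i ih =>
        intro a ha
        apply Subtype.ext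
        rw [pow_succ', Equiv.Perm.mul_apply,
          D.Φ_sigma ξ ξi hξ hξ' σ s hs0 hs (e : Module.End K M) e.2 ((σ ^ i) a), ih a ha]
        simp
    have hall : D.Φ (e : Module.End K M) = 0 := by
      funext w
      by_cases hw : w = 1
      · rw [hw]
        exact h01
      · obtain ⟨a, ha, i, hi⟩ := hcov w hw
        rw [← hi]
        exact hstep i a ha
    apply Subtype.ext
    have h1 := D.Ψ_Φ (e : Module.End K M)
    rw [hall, map_zero] at h1
    exact h1.symm
  have h2 := LinearMap.finrank_le_finrank_of_injective hL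
  rw [Module.finrank_prod, Module.finrank_pi_fintype, Finset.sum_const, Finset.card_univ,
    Fintype.card_coe, smul_eq_mul] at h2
  exact h2

/-- Variant of the main bound for an operator with at most three eigenvalues. -/
theorem Data.card_le_of_cubic [IsAlgClosed K] [FiniteDimensional K M] [Nontrivial M]
    (D : Data K M Γ) (ξ ξi : Module.End K M) (hξ : ξ * ξi = 1) (hξ' : ξi * ξ = 1)
    (σ : Equiv.Perm Γ) (s : Γ → K) (hs0 : ∀ w, s w ≠ 0)
    (hs : ∀ w, ξ * D.τ w * ξi = s w • D.τ (σ w))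
    (r : ℕ) (hr : 0 < r) (hσr : σ ^ r = 1) (hσ1 : σ 1 = 1)
    (hfree : ∀ w, w ≠ 1 → ∀ i, 0 < i → i < r → (σ ^ i) w ≠ w)
    (hξr : ξ ^ r = 1) (hrK : (r : K) ≠ 0) (c₁ c₂ c₃ : K)
    (hcub : (ξ - c₁ • (1 : Module.End K M)) * (ξ - c₂ • (1 : Module.End K M)) *
      (ξ - c₃ • (1 : Module.End K M)) = 0) :
    r * Fintype.card Γ ≤ 3 * (Fintype.card Γ - 1) + 3 * r := by
  classical
  obtain ⟨t, ht, hle⟩ := D.finrank_cent_le ξ ξi hξ hξ' σ s hs0 hs r hr hσr hσ1 hfree
  have hT : ∀ (μ : K) (v : M), v ≠ 0 → ξ v = μ • v → μ ∈ ({c₁, c₂, c₃} : Finset K) := by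
    intro μ v hv hμ
    have h1 := LinearMap.congr_fun hcub v
    have e3 : (ξ - c₃ • (1 : Module.End K M)) v = (μ - c₃) • v := by
      rw [LinearMap.sub_apply, hμ, LinearMap.smul_apply, Module.End.one_apply, sub_smul]
    have e2 : (ξ - c₂ • (1 : Module.End K M)) v = (μ - c₂) • v := by
      rw [LinearMap.sub_apply, hμ, LinearMap.smul_apply, Module.End.one_apply, sub_smul]
    have e1 : (ξ - c₁ • (1 : Module.End K M)) v = (μ - c₁) • v := by
      rw [LinearMap.sub_apply, hμ, LinearMap.smul_apply, Module.End.one_apply, sub_smul]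
    rw [Module.End.mul_apply, Module.End.mul_apply, e3, map_smul, e2, map_smul, map_smul, e1,
      smul_smul, smul_smul, LinearMap.zero_apply] at h1
    rcases smul_eq_zero.mp h1 with h2 | h2
    · simp only [Finset.mem_insert, Finset.mem_singleton]
      rcases mul_eq_zero.mp h2 with h3 | h3
      · rcases mul_eq_zero.mp h3 with h4 | h4
        · right; right
          exact sub_eq_zero.mp h4
        · right; left
          exact sub_eq_zero.mp h4
      · left
        exact sub_eq_zero.mp h3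
    · exact absurd h2 hv
  have h2 := sq_finrank_le_cent_of_mem ξ r hξr hrK ({c₁, c₂, c₃} : Finset K) hT
  have hcard3 : ({c₁, c₂, c₃} : Finset K).card ≤ 3 := Finset.card_le_three
  have h3 := D.finrank_end
  rw [Module.finrank_linearMap] at h3
  have hb : finrank K ↥(D.comm1 ⊓ cent ξ) ≤ finrank K ↥D.comm1 :=
    Submodule.finrank_mono inf_le_left
  have hDpos : 0 < finrank K M := Module.finrank_pos
  have hd₁ : 0 < finrank K ↥D.comm1 := by
    rcases Nat.eq_zero_or_pos (finrank K ↥D.comm1) with h | h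
    · rw [h, mul_zero] at h3
      have h4 := Nat.mul_pos hDpos hDpos
      omega
    · exact h
  have h4 : Fintype.card Γ * finrank K ↥D.comm1 ≤ (3 * (t + 1)) * finrank K ↥D.comm1 := by
    rw [← h3, ← sq]
    calc finrank K M ^ 2 ≤ ({c₁, c₂, c₃} : Finset K).card * finrank K ↥(cent ξ) := h2
      _ ≤ 3 * finrank K ↥(cent ξ) := Nat.mul_le_mul_right _ hcard3
      _ ≤ 3 * (finrank K ↥D.comm1 + t * finrank K ↥D.comm1) :=
          Nat.mul_le_mul_left _ (hle.trans (Nat.add_le_add_right hb _))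
      _ = (3 * (t + 1)) * finrank K ↥D.comm1 := by ring
  have h5 : Fintype.card Γ ≤ 3 * (t + 1) := Nat.le_of_mul_le_mul_right h4 hd₁
  rw [← ht] at h5 ⊢
  simp only [Nat.add_sub_cancel]
  nlinarith

/-- **Extremal structure, I.**  In the situation of the main bound, `|Γ|` is `1` or
exactly `(r - 1)²`. -/
theorem Data.card_eq_of_fixedPointFree [IsAlgClosed K] (σ : Equiv.Perm Γ) (r : ℕ) (hr : 0 < r)
    (hσr : σ ^ r = 1) (hσ1 : σ 1 = 1)
    (hfree : ∀ w, w ≠ 1 → ∀ i, 0 < i → i < r → (σ ^ i) w ≠ w) (hrK : (r : K) ≠ 0) (d : ℕ) :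
    ∀ (M : Type v) [AddCommGroup M] [Module K M] [FiniteDimensional K M] [Nontrivial M]
      (D : Data K M Γ) (ξ ξi : Module.End K M), finrank K M = d → ξ * ξi = 1 → ξi * ξ = 1 →
      ∀ (s : Γ → K), (∀ w, s w ≠ 0) → (∀ w, ξ * D.τ w * ξi = s w • D.τ (σ w)) →
      ξ ^ r = 1 → (∀ v, ξ v = v → v = 0) →
      Fintype.card Γ = 1 ∨ Fintype.card Γ = (r - 1) ^ 2 := by
  induction d using Nat.strong_induction_on with
  | _ d ih =>
    intro M _ _ _ _ D ξ ξi hd hξ hξ' s hs0 hs hξr hfix
    classical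
    by_cases hex : ∃ e ∈ D.comm1 ⊓ cent ξ, ∀ μ : K, e ≠ μ • (1 : Module.End K M)
    · obtain ⟨e, ⟨heC, heξ⟩, hens⟩ := hex
      have heξ' : ξ * e = e * ξ := heξ
      have heξi : ξi * e = e * ξi := by
        calc ξi * e = ξi * e * (ξ * ξi) := by rw [hξ, mul_one]
          _ = ξi * (e * ξ) * ξi := by simp only [mul_assoc]
          _ = ξi * (ξ * e) * ξi := by rw [heξ']
          _ = e * ξi := by rw [← mul_assoc, hξ', one_mul]
      obtain ⟨μ, hμ⟩ := Module.End.exists_eigenvalue e
      obtain ⟨W, hWdef⟩ : ∃ W : Submodule K M, W = Module.End.eigenspace e μ := ⟨_, rfl⟩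
      have hWmem : ∀ v, v ∈ W ↔ e v = μ • v := by
        intro v
        rw [hWdef]
        exact Module.End.mem_eigenspace_iff
      have hW0 : W ≠ ⊥ := by
        rw [hWdef]
        exact hμ
      have hWtop : W ≠ ⊤ := by
        intro h
        apply hens μ
        apply LinearMap.ext
        intro v
        have hv : v ∈ W := by
          rw [h]
          exact Submodule.mem_top
        rw [LinearMap.smul_apply, Module.End.one_apply]
        exact (hWmem v).mp hv
      have hinv : ∀ a : Module.End K M, a * e = e * a → ∀ v ∈ W, a v ∈ W := by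
        intro a ha v hv
        rw [hWmem] at hv ⊢
        have h1 := LinearMap.congr_fun ha v
        rw [Module.End.mul_apply, Module.End.mul_apply, hv, map_smul] at h1
        exact h1.symm
      have h1 : ∀ g, ∀ v ∈ W, D.τ g v ∈ W := fun g => hinv _ (heC g)
      have h2 : ∀ g, ∀ v ∈ W, D.τi g v ∈ W := fun g => hinv _ (D.comm1_τi heC g)
      have h3 : ∀ v ∈ W, ξ v ∈ W := hinv _ heξ'
      have h4 : ∀ v ∈ W, ξi v ∈ W := hinv _ heξi
      haveI : Nontrivial ↥W := Submodule.nontrivial_iff_ne_bot.mpr hW0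
      have hlt : finrank K ↥W < d := by
        rw [← hd]
        exact Submodule.finrank_lt hWtop
      have hpow : ∀ (n : ℕ) (v : ↥W), (((ξ.restrict h3) ^ n) v : M) = (ξ ^ n) (v : M) := by
        intro n
        induction n with
        | zero =>
          intro v
          simp
        | succ n ihn =>
          intro v
          rw [pow_succ, Module.End.mul_apply, ihn, pow_succ, Module.End.mul_apply]
          rfl
      refine ih _ hlt ↥W (D.restrict W h1 h2) (ξ.restrict h3) (ξi.restrict h4) rfl ?_ ?_ s hs0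
        ?_ ?_ ?_
      · refine LinearMap.ext fun v => Subtype.ext ?_
        exact LinearMap.congr_fun hξ (v : M)
      · refine LinearMap.ext fun v => Subtype.ext ?_
        exact LinearMap.congr_fun hξ' (v : M)
      · intro w
        refine LinearMap.ext fun v => Subtype.ext ?_
        exact LinearMap.congr_fun (hs w) (v : M)
      · refine LinearMap.ext fun v => Subtype.ext ?_
        rw [hpow, hξr]
        rfl
      · intro v hv
        apply Subtype.ext
        apply hfix
        exact congrArg Subtype.val hv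
    · push Not at hex
      have hb : finrank K ↥(D.comm1 ⊓ cent ξ) ≤ 1 := by
        have hle : D.comm1 ⊓ cent ξ ≤ Submodule.span K {(1 : Module.End K M)} := by
          intro e he
          obtain ⟨μ, hμ⟩ := hex e he
          rw [hμ]
          exact Submodule.smul_mem _ _ (Submodule.subset_span rfl)
        have h1ne : (1 : Module.End K M) ≠ 0 := by
          intro h
          obtain ⟨v, hv⟩ := exists_ne (0 : M)
          apply hv
          have := LinearMap.congr_fun h v
          simpa using this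
        exact (Submodule.finrank_mono hle).trans (le_of_eq (finrank_span_singleton h1ne))
      obtain ⟨t, ht, hle⟩ := D.finrank_cent_le ξ ξi hξ hξ' σ s hs0 hs r hr hσr hσ1 hfree
      obtain ⟨d0, hd0⟩ := D.exists_card_eq_sq
      have h2 := sq_finrank_le_cent ξ r hr hξr hrK hfix
      have h3 := D.finrank_end
      rw [Module.finrank_linearMap] at h3
      have h4 := finrank_le_cent ξ r hξr hrK
      have hDpos : 0 < finrank K M := Module.finrank_pos
      exact extremal_arith hDpos h3 hd0 ht h2 h4 (hle.trans (by omega))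

/-- **Extremal structure, II.**  If `|Γ| = (r - 1)²` in the situation of the main bound, then
`ξ` commutes with the commutant of the family `τ`. -/
theorem Data.comm1_le_cent [IsAlgClosed K] [FiniteDimensional K M] [Nontrivial M]
    (D : Data K M Γ) (ξ ξi : Module.End K M) (hξ : ξ * ξi = 1) (hξ' : ξi * ξ = 1)
    (σ : Equiv.Perm Γ) (s : Γ → K) (hs0 : ∀ w, s w ≠ 0)
    (hs : ∀ w, ξ * D.τ w * ξi = s w • D.τ (σ w))
    (r : ℕ) (hr : 0 < r) (hσr : σ ^ r = 1) (hσ1 : σ 1 = 1)
    (hfree : ∀ w, w ≠ 1 → ∀ i, 0 < i → i < r → (σ ^ i) w ≠ w)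
    (hξr : ξ ^ r = 1) (hrK : (r : K) ≠ 0) (hfix : ∀ v, ξ v = v → v = 0)
    (hcard : Fintype.card Γ = (r - 1) ^ 2) :
    ∀ c ∈ D.comm1, ξ * c = c * ξ := by
  classical
  obtain ⟨t, ht, hle⟩ := D.finrank_cent_le ξ ξi hξ hξ' σ s hs0 hs r hr hσr hσ1 hfree
  have h2 := sq_finrank_le_cent ξ r hr hξr hrK hfix
  have h3 := D.finrank_end
  rw [Module.finrank_linearMap] at h3
  have hDpos : 0 < finrank K M := Module.finrank_pos
  have hr1 : r ≠ 1 := by
    rintro rfl
    rw [pow_one] at hξr
    obtain ⟨v, hv⟩ := exists_ne (0 : M)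
    apply hv
    apply hfix
    rw [hξr, Module.End.one_apply]
  obtain ⟨r', rfl⟩ : ∃ r', r = r' + 2 := ⟨r - 2, by omega⟩
  have e1 : r' + 2 - 1 = r' + 1 := by omega
  rw [e1] at hcard h2
  have htr : t = r' := by
    rw [hcard] at ht
    have h5 : t * (r' + 2) = r' * (r' + 2) := by nlinarith
    exact Nat.eq_of_mul_eq_mul_right (by omega) h5
  subst htr
  have hb : finrank K ↥(D.comm1 ⊓ cent ξ) ≤ finrank K ↥D.comm1 :=
    Submodule.finrank_mono inf_le_left
  have hge : finrank K ↥D.comm1 ≤ finrank K ↥(D.comm1 ⊓ cent ξ) := by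
    have h6 : (t + 1) ^ 2 * finrank K ↥D.comm1 ≤
        (t + 1) * (finrank K ↥(D.comm1 ⊓ cent ξ) + t * finrank K ↥D.comm1) := by
      rw [← hcard, ← h3, ← sq]
      exact h2.trans (Nat.mul_le_mul_left _ hle)
    have h7 : (t + 1) * ((t + 1) * finrank K ↥D.comm1) ≤
        (t + 1) * (finrank K ↥(D.comm1 ⊓ cent ξ) + t * finrank K ↥D.comm1) := by
      calc (t + 1) * ((t + 1) * finrank K ↥D.comm1) = (t + 1) ^ 2 * finrank K ↥D.comm1 := by
            ring
        _ ≤ _ := h6
    have h8 := Nat.le_of_mul_le_mul_left h7 (by omega)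
    nlinarith
  have heq : D.comm1 ⊓ cent ξ = D.comm1 :=
    Submodule.eq_of_le_of_finrank_le inf_le_left hge
  intro c hc
  have hc' : c ∈ D.comm1 ⊓ cent ξ := by
    rw [heq]
    exact hc
  exact hc'.2

end Fixed2

end Cfsg.Agent.Helper63.ProjRep
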