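-- helper63 library: group-level forms of the extremal structure of the Shult-type bound
-- (cubic variant, two-power variant); add-only once landed.
import Cfsg.Agent.Helper63.ProjRepGroup
import Cfsg.Agent.Helper63.ProjRep2

set_option autoImplicit false

namespace Cfsg.Agent.Helper63.ProjRep

open Module

universe u v w

section Group2

variable {K : Type u} [Field K] {M : Type v} [AddCommGroup M] [Module K M]
  {Q : Type w} [Group Q] [Finite Q] {ρ : Q →* Module.End K M} {lam : Q → K}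

omit [Finite Q] in
/-- The permutation of `Q / Z(Q)` induced by an automorphism implemented by an operator, with
its scalar cocycle. -/
theorem Hyp.exists_perm [Nontrivial M] [Fintype (Q ⧸ Subgroup.center Q)] (H : Hyp ρ lam)
    (φ : MulAut Q) (ξ ξi : Module.End K M) (hequiv : ∀ g, ξ * ρ g * ξi = ρ (φ g)) :
    ∃ (σ : Equiv.Perm (Q ⧸ Subgroup.center Q)) (s : Q ⧸ Subgroup.center Q → K),
      (∀ w, s w ≠ 0) ∧ (∀ w, ξ * H.data.τ w * ξi = s w • H.data.τ (σ w)) ∧ σ 1 = 1 ∧
      (∀ (i : ℕ) (a : Q), (σ ^ i) (QuotientGroup.mk a) = QuotientGroup.mk ((φ ^ i) a)) ∧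
      (∀ a b : Q ⧸ Subgroup.center Q, σ (a * b) = σ a * σ b) := by
  classical
  have hmap : (Subgroup.center Q).map (φ : Q →* Q) = Subgroup.center Q := by
    apply le_antisymm
    · rintro _ ⟨z, hz, rfl⟩
      exact map_mem_center φ hz
    · intro z hz
      exact ⟨φ.symm z, map_mem_center φ.symm hz, φ.apply_symm_apply z⟩
  let σe : (Q ⧸ Subgroup.center Q) ≃* (Q ⧸ Subgroup.center Q) :=
    QuotientGroup.congr (Subgroup.center Q) (Subgroup.center Q) φ hmap
  let σ : Equiv.Perm (Q ⧸ Subgroup.center Q) := σe.toEquiv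
  have hσmk : ∀ a : Q, σ (QuotientGroup.mk a) = QuotientGroup.mk (φ a) :=
    fun a => QuotientGroup.congr_mk (Subgroup.center Q) (Subgroup.center Q) φ hmap a
  have hσpow : ∀ (i : ℕ) (a : Q), (σ ^ i) (QuotientGroup.mk a) = QuotientGroup.mk ((φ ^ i) a) := by
    intro i
    induction i with
    | zero =>
      intro a
      rfl
    | succ i ih =>
      intro a
      rw [pow_succ', Equiv.Perm.mul_apply, ih, hσmk, pow_succ', MulAut.mul_apply]
  have hzw : ∀ x : Q ⧸ Subgroup.center Q,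
      (Quotient.out (σ x))⁻¹ * φ (Quotient.out x) ∈ Subgroup.center Q := by
    intro x
    have h1 : (QuotientGroup.mk (Quotient.out (σ x)) : Q ⧸ Subgroup.center Q) =
        QuotientGroup.mk (φ (Quotient.out x)) := by
      rw [QuotientGroup.out_eq', ← hσmk, QuotientGroup.out_eq']
    exact QuotientGroup.eq.mp h1
  let s : Q ⧸ Subgroup.center Q → K :=
    fun x => lam ((Quotient.out (σ x))⁻¹ * φ (Quotient.out x))
  have hs : ∀ x, ξ * H.data.τ x * ξi = s x • H.data.τ (σ x) := by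
    intro x
    show ξ * ρ (Quotient.out x) * ξi =
      lam ((Quotient.out (σ x))⁻¹ * φ (Quotient.out x)) • ρ (Quotient.out (σ x))
    rw [hequiv]
    have h1 : φ (Quotient.out x) =
        Quotient.out (σ x) * ((Quotient.out (σ x))⁻¹ * φ (Quotient.out x)) := by group
    conv_lhs => rw [h1]
    rw [map_mul, H.scalar _ (hzw x), mul_smul_comm, mul_one]
  have hs0 : ∀ x, s x ≠ 0 := fun x => H.lam_ne_zero (hzw x)
  exact ⟨σ, s, hs0, hs, map_one σe, hσpow, fun a b => map_mul σe a b⟩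

/-- **Cubic variant of the Shult-type bound, group form.** -/
theorem Hyp.index_cubic [IsAlgClosed K] [FiniteDimensional K M] [Nontrivial M] (H : Hyp ρ lam)
    (φ : MulAut Q) (ξ ξi : Module.End K M) (hξ : ξ * ξi = 1) (hξ' : ξi * ξ = 1)
    (hequiv : ∀ g, ξ * ρ g * ξi = ρ (φ g))
    (r : ℕ) (hr : 0 < r) (hφr : φ ^ r = 1)
    (hfree : ∀ g : Q, ∀ i, 0 < i → i < r → (φ ^ i) g * g⁻¹ ∈ Subgroup.center Q →
      g ∈ Subgroup.center Q)
    (hξr : ξ ^ r = 1) (hrK : (r : K) ≠ 0) (c₁ c₂ c₃ : K)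
    (hcub : (ξ - c₁ • (1 : Module.End K M)) * (ξ - c₂ • (1 : Module.End K M)) *
      (ξ - c₃ • (1 : Module.End K M)) = 0) :
    r * (Subgroup.center Q).index ≤ 3 * ((Subgroup.center Q).index - 1) + 3 * r := by
  classical
  letI : Fintype (Q ⧸ Subgroup.center Q) := Fintype.ofFinite _
  obtain ⟨σ, s, hs0, hs, hσ1, hσpow, -⟩ := H.exists_perm φ ξ ξi hequiv
  have hσr : σ ^ r = 1 := by
    ext x
    rw [← QuotientGroup.out_eq' x, hσpow, hφr]
    rfl
  have hfree' : ∀ x, x ≠ 1 → ∀ i, 0 < i → i < r → (σ ^ i) x ≠ x := by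
    intro x hx i hi0 hir hfix'
    apply out_notMem hx
    apply hfree (Quotient.out x) i hi0 hir
    have h0 : (QuotientGroup.mk ((φ ^ i) (Quotient.out x)) : Q ⧸ Subgroup.center Q) =
        QuotientGroup.mk (Quotient.out x) := by
      rw [← hσpow, QuotientGroup.out_eq']
      exact hfix'
    have h1 := QuotientGroup.eq.mp h0
    have h2 := Subgroup.inv_mem _ h1
    have h3 : (φ ^ i) (Quotient.out x) * (Quotient.out x)⁻¹ =
        (Quotient.out x) * (((φ ^ i) (Quotient.out x))⁻¹ * Quotient.out x)⁻¹ *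
          (Quotient.out x)⁻¹ := by group
    rw [h3]
    exact (inferInstance : (Subgroup.center Q).Normal).conj_mem _ h2 _
  have hmain := H.data.card_le_of_cubic ξ ξi hξ hξ' σ s hs0 hs r hr hσr hσ1 hfree'
    hξr hrK c₁ c₂ c₃ hcub
  have hcard : Fintype.card (Q ⧸ Subgroup.center Q) = (Subgroup.center Q).index := by
    rw [Subgroup.index, Nat.card_eq_fintype_card]
  rwa [hcard] at hmain

/-- **Two-power extremal structure, group form.**  If the operator `ξ` with `ξ ^ 2 ^ j = 1`,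
without nonzero fixed vectors, induces an automorphism `φ` whose power `φ ^ 2 ^ (j - 1)`
inverts `Q / Z(Q)` (of odd order), then `|Q : Z(Q)|` is `1` or `(2 ^ j - 1)²`, and in the
second case `ξ` commutes with every operator commuting with the image of `Q`. -/
theorem Hyp.two_pow [IsAlgClosed K] [FiniteDimensional K M] [Nontrivial M] (H : Hyp ρ lam)
    (φ : MulAut Q) (ξ ξi : Module.End K M) (hξ : ξ * ξi = 1) (hξ' : ξi * ξ = 1)
    (hequiv : ∀ g, ξ * ρ g * ξi = ρ (φ g))
    (j : ℕ) (hj : 1 ≤ j) (hφr : φ ^ 2 ^ j = 1)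
    (hinv : ∀ g : Q, (φ ^ 2 ^ (j - 1)) g * g ∈ Subgroup.center Q)
    (hodd : ∀ g : Q, g * g ∈ Subgroup.center Q → g ∈ Subgroup.center Q)
    (hξr : ξ ^ 2 ^ j = 1) (h2K : (2 : K) ≠ 0) (hfix : ∀ x, ξ x = x → x = 0) :
    (Subgroup.center Q).index = 1 ∨
      ((Subgroup.center Q).index = (2 ^ j - 1) ^ 2 ∧
        ∀ c : Module.End K M, (∀ g, ρ g * c = c * ρ g) → ξ * c = c * ξ) := by
  classical
  letI : Fintype (Q ⧸ Subgroup.center Q) := Fintype.ofFinite _
  obtain ⟨σ, s, hs0, hs, hσ1, hσpow, -⟩ := H.exists_perm φ ξ ξi hequiv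
  have hr : 0 < 2 ^ j := Nat.pow_pos (by norm_num)
  have hσr : σ ^ 2 ^ j = 1 := by
    ext x
    rw [← QuotientGroup.out_eq' x, hσpow, hφr]
    rfl
  have hσinv : ∀ x : Q ⧸ Subgroup.center Q, (σ ^ 2 ^ (j - 1)) x = x⁻¹ := by
    intro x
    rw [← QuotientGroup.out_eq' x, hσpow, ← QuotientGroup.mk_inv]
    apply QuotientGroup.eq.mpr
    have h1 := hinv (Quotient.out x)
    have h2 : ((φ ^ 2 ^ (j - 1)) (Quotient.out x))⁻¹ * (Quotient.out x)⁻¹ =
        ((Quotient.out x) * (φ ^ 2 ^ (j - 1)) (Quotient.out x))⁻¹ := by group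
    rw [h2]
    apply Subgroup.inv_mem
    have h3 : (Quotient.out x) * (φ ^ 2 ^ (j - 1)) (Quotient.out x) =
        (Quotient.out x) * ((φ ^ 2 ^ (j - 1)) (Quotient.out x) * Quotient.out x) *
          (Quotient.out x)⁻¹ := by group
    rw [h3]
    exact (inferInstance : (Subgroup.center Q).Normal).conj_mem _ h1 _
  have hsq : ∀ x : Q ⧸ Subgroup.center Q, x⁻¹ = x → x = 1 := by
    intro x hx
    rw [← QuotientGroup.out_eq' x] at hx ⊢
    rw [← QuotientGroup.mk_inv] at hx
    have h1 := QuotientGroup.eq.mp hx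
    rw [inv_inv] at h1
    exact (QuotientGroup.eq_one_iff _).mpr (hodd _ h1)
  have hfree' : ∀ x, x ≠ 1 → ∀ i, 0 < i → i < 2 ^ j → (σ ^ i) x ≠ x := by
    intro x hx i hi0 hir hfix'
    apply hx
    apply hsq
    rw [← hσinv]
    have hp1 : Function.IsPeriodicPt σ i x := by
      show (σ^[i]) x = x
      rw [← Equiv.Perm.coe_pow]
      exact hfix'
    have hp2 : Function.IsPeriodicPt σ (2 ^ j) x := by
      show (σ^[2 ^ j]) x = x
      rw [← Equiv.Perm.coe_pow, hσr]
      rfl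
    have hp3 := hp1.gcd hp2
    obtain ⟨a, haj, ha⟩ := (Nat.dvd_prime_pow Nat.prime_two).mp (Nat.gcd_dvd_right i (2 ^ j))
    have haj' : a ≤ j - 1 := by
      by_contra hcon
      have haj2 : a = j := by omega
      rw [haj2] at ha
      have h1 : 2 ^ j ∣ i := by
        rw [← ha]
        exact Nat.gcd_dvd_left i (2 ^ j)
      have h2 := Nat.le_of_dvd hi0 h1
      omega
    rw [ha] at hp3
    have hp4 : Function.IsPeriodicPt σ (2 ^ (j - 1)) x :=
      hp3.trans_dvd (pow_dvd_pow 2 haj')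
    have hp5 : (σ^[2 ^ (j - 1)]) x = x := hp4
    rw [← Equiv.Perm.coe_pow] at hp5
    exact hp5
  have hrK : ((2 ^ j : ℕ) : K) ≠ 0 := by
    rw [Nat.cast_pow]
    exact pow_ne_zero _ (by exact_mod_cast h2K)
  have hcard : Fintype.card (Q ⧸ Subgroup.center Q) = (Subgroup.center Q).index := by
    rw [Subgroup.index, Nat.card_eq_fintype_card]
  have h1 := Data.card_eq_of_fixedPointFree (K := K) σ (2 ^ j) hr hσr hσ1 hfree' hrK
    (finrank K M) M H.data ξ ξi rfl hξ hξ' s hs0 hs hξr hfix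
  rw [hcard] at h1
  rcases h1 with h1 | h1
  · left
    exact h1
  · right
    refine ⟨h1, ?_⟩
    intro c hc
    have h2 := H.data.comm1_le_cent ξ ξi hξ hξ' σ s hs0 hs (2 ^ j) hr hσr hσ1 hfree' hξr hrK
      hfix (by rw [hcard]; exact h1)
    apply h2 c
    rw [Data.mem_comm1]
    intro g
    exact hc _

end Group2

end Cfsg.Agent.Helper63.ProjRep
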