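-- helper63 library: auxiliary lemmas on coprime actions (fixed points in cosets, generation
-- by centralizers for an elementary abelian group of order p^2); add-only once landed.
import Cfsg.Agent.Helper63.GrossFitting

set_option autoImplicit false

namespace Cfsg.Agent.Helper63.Ward

open Cfsg.Agent.Helper63.Gross

universe u v w

open scoped commutatorElement

section Coset

variable {Γ : Type u} [Group Γ]

/-- A `p`-group of automorphisms stabilizing a coset `u N` of a finite subgroup `N` of order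
prime to `p` fixes a point of the coset. -/
theorem exists_fixed_in_coset {p : ℕ} [Fact p.Prime] (S : Subgroup (MulAut Γ))
    (hS : IsPGroup p S) (N : Subgroup Γ) [Finite N] (hpN : ¬ p ∣ Nat.card N)
    (hNS : ∀ ψ ∈ S, ∀ n ∈ N, ψ n ∈ N) (u : Γ) (hu : ∀ ψ ∈ S, u⁻¹ * ψ u ∈ N) :
    ∃ w : Γ, u⁻¹ * w ∈ N ∧ ∀ ψ ∈ S, ψ w = w := by
  classical
  have hmem : ∀ (ψ : MulAut Γ), ψ ∈ S → ∀ w : Γ, u⁻¹ * w ∈ N → u⁻¹ * ψ w ∈ N := by
    intro ψ hψ w hw
    have h1 : u⁻¹ * ψ w = (u⁻¹ * ψ u) * ψ (u⁻¹ * w) := by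
      rw [map_mul, map_inv]
      group
    rw [h1]
    exact N.mul_mem (hu ψ hψ) (hNS ψ hψ _ hw)
  letI : MulAction S {w : Γ // u⁻¹ * w ∈ N} :=
    { smul := fun ψ w => ⟨(ψ : MulAut Γ) w.1, hmem ψ ψ.2 w.1 w.2⟩
      one_smul := fun w => Subtype.ext rfl
      mul_smul := fun ψ₁ ψ₂ w => Subtype.ext rfl }
  have hcard : Nat.card {w : Γ // u⁻¹ * w ∈ N} = Nat.card N := by
    apply Nat.card_congr
    exact
      { toFun := fun w => ⟨u⁻¹ * w.1, w.2⟩
        invFun := fun n => ⟨u * n.1, by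
          have h1 : u⁻¹ * (u * (n : Γ)) = n := by group
          rw [h1]
          exact n.2⟩
        left_inv := fun w => Subtype.ext (by simp)
        right_inv := fun n => Subtype.ext (by simp) }
  obtain ⟨w, hw⟩ := hS.nonempty_fixed_point_of_prime_not_dvd_card {w : Γ // u⁻¹ * w ∈ N}
    (by rw [hcard]; exact hpN)
  refine ⟨w.1, w.2, fun ψ hψ => ?_⟩
  have h1 : (⟨ψ, hψ⟩ : S) • w = w := hw ⟨ψ, hψ⟩
  exact congrArg Subtype.val h1

/-- Version for a single automorphism of order dividing `p`. -/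
theorem exists_fixed_in_coset_single {p : ℕ} [Fact p.Prime] (ψ : MulAut Γ) (hψ : ψ ^ p = 1)
    (N : Subgroup Γ) [Finite N] (hpN : ¬ p ∣ Nat.card N) (hN : ∀ n ∈ N, ψ n ∈ N) (u : Γ)
    (hu : u⁻¹ * ψ u ∈ N) : ∃ w : Γ, u⁻¹ * w ∈ N ∧ ψ w = w := by
  have hp : p.Prime := Fact.out
  have hfin : IsOfFinOrder ψ := isOfFinOrder_iff_pow_eq_one.mpr ⟨p, hp.pos, hψ⟩
  have hpow : ∀ j : ℕ, (∀ n ∈ N, (ψ ^ j) n ∈ N) ∧ u⁻¹ * (ψ ^ j) u ∈ N := by
    intro j
    induction j with
    | zero =>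
      refine ⟨fun n hn => by simpa using hn, ?_⟩
      rw [pow_zero, MulAut.one_apply, inv_mul_cancel]
      exact N.one_mem
    | succ j ih =>
      refine ⟨fun n hn => ?_, ?_⟩
      · rw [pow_succ', MulAut.mul_apply]
        exact hN _ (ih.1 n hn)
      · rw [pow_succ', MulAut.mul_apply]
        have h1 : u⁻¹ * ψ ((ψ ^ j) u) = (u⁻¹ * ψ u) * ψ (u⁻¹ * (ψ ^ j) u) := by
          rw [map_mul, map_inv]
          group
        rw [h1]
        exact N.mul_mem hu (hN _ ih.2)
  have hS : IsPGroup p (Subgroup.zpowers ψ) := by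
    rintro ⟨g, hg⟩
    obtain ⟨k, rfl⟩ := Subgroup.mem_zpowers_iff.mp hg
    refine ⟨1, ?_⟩
    apply Subtype.ext
    show (ψ ^ k) ^ p ^ 1 = 1
    rw [pow_one, ← zpow_natCast, ← zpow_mul, mul_comm, zpow_mul, zpow_natCast, hψ, one_zpow]
  have hall : ∀ φ ∈ Subgroup.zpowers ψ, ∃ j : ℕ, φ = ψ ^ j := by
    intro φ hφ
    obtain ⟨j, hj⟩ := (hfin.mem_powers_iff_mem_zpowers).mpr hφ
    exact ⟨j, hj.symm⟩
  obtain ⟨w, hw1, hw2⟩ := exists_fixed_in_coset (Subgroup.zpowers ψ) hS N hpN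
    (by
      intro φ hφ n hn
      obtain ⟨j, rfl⟩ := hall φ hφ
      exact (hpow j).1 n hn)
    u (by
      intro φ hφ
      obtain ⟨j, rfl⟩ := hall φ hφ
      exact (hpow j).2)
  exact ⟨w, hw1, hw2 ψ (Subgroup.mem_zpowers ψ)⟩

/-- Version for a `p`-group acting through a homomorphism. -/
theorem exists_fixed_in_coset_hom {A : Type v} [Group A] {p : ℕ} [Fact p.Prime]
    (hA : IsPGroup p A) (act : A →* MulAut Γ) (N : Subgroup Γ) [Finite N]
    (hpN : ¬ p ∣ Nat.card N) (hN : ∀ x, ∀ n ∈ N, act x n ∈ N) (u : Γ)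
    (hu : ∀ x, u⁻¹ * act x u ∈ N) : ∃ w : Γ, u⁻¹ * w ∈ N ∧ ∀ x, act x w = w := by
  have hS : IsPGroup p act.range := by
    rintro ⟨g, hg⟩
    obtain ⟨x, rfl⟩ := hg
    obtain ⟨k, hk⟩ := hA x
    refine ⟨k, ?_⟩
    apply Subtype.ext
    show (act x) ^ p ^ k = 1
    rw [← map_pow, hk, map_one]
  obtain ⟨w, hw1, hw2⟩ := exists_fixed_in_coset act.range hS N hpN
    (by
      rintro _ ⟨x, rfl⟩ n hn
      exact hN x n hn)
    u (by
      rintro _ ⟨x, rfl⟩
      exact hu x)
  exact ⟨w, hw1, fun x => hw2 (act x) ⟨x, rfl⟩⟩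

/-- A fixed-point-free automorphism of a finite subgroup: `n ↦ n⁻¹ ψ(n)` is onto. -/
theorem fpf_surj (T : Subgroup Γ) [Finite T] (ψ : MulAut Γ) (hψ : ∀ t ∈ T, ψ t ∈ T)
    (hfpf : ∀ t ∈ T, ψ t = t → t = 1) : ∀ n₁ ∈ T, ∃ n ∈ T, n⁻¹ * ψ n = n₁ := by
  intro n₁ hn₁
  let f : ↥T → ↥T := fun n => ⟨(n : Γ)⁻¹ * ψ n, T.mul_mem (T.inv_mem n.2) (hψ n n.2)⟩
  have hinj : Function.Injective f := by
    intro n m hnm
    have h1 : (n : Γ)⁻¹ * ψ n = (m : Γ)⁻¹ * ψ m := congrArg Subtype.val hnm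
    have h2 : ψ ((n : Γ) * (m : Γ)⁻¹) = (n : Γ) * (m : Γ)⁻¹ := by
      have h3 : ψ (n : Γ) = (n : Γ) * ((m : Γ)⁻¹ * ψ m) := by
        rw [← h1]
        group
      rw [map_mul, map_inv, h3]
      group
    have h4 := hfpf _ (T.mul_mem n.2 (T.inv_mem m.2)) h2
    exact Subtype.ext (mul_inv_eq_one.mp h4)
  obtain ⟨n, hn⟩ := (Finite.injective_iff_surjective.mp hinj) ⟨n₁, hn₁⟩
  exact ⟨n, n.2, congrArg Subtype.val hn⟩

/-- If `t` commutes with the commutator `t u t⁻¹ u⁻¹`, whose order is prime to that of `t`,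
then `t` and `u` commute. -/
theorem commute_of_commute_commutator (t u : Γ)
    (h : t * (t * u * t⁻¹ * u⁻¹) = (t * u * t⁻¹ * u⁻¹) * t)
    (hcop : (orderOf (t * u * t⁻¹ * u⁻¹)).Coprime (orderOf t)) : t * u = u * t := by
  obtain ⟨w, hw⟩ : ∃ w, w = t * u * t⁻¹ * u⁻¹ := ⟨_, rfl⟩
  rw [← hw] at h hcop
  have htu : t * u = w * u * t := by
    rw [hw]
    group
  have hk : ∀ k : ℕ, t ^ k * u = w ^ k * u * t ^ k := by
    intro k
    induction k with
    | zero => simp
    | succ k ih =>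
      have hc : Commute t (w ^ k) := (show Commute t w from h).pow_right k
      calc t ^ (k + 1) * u = t * (t ^ k * u) := by rw [pow_succ']; group
        _ = t * (w ^ k * u * t ^ k) := by rw [ih]
        _ = (t * w ^ k) * u * t ^ k := by group
        _ = (w ^ k * t) * u * t ^ k := by rw [hc.eq]
        _ = w ^ k * (t * u) * t ^ k := by group
        _ = w ^ k * (w * u * t) * t ^ k := by rw [htu]
        _ = w ^ (k + 1) * u * t ^ (k + 1) := by rw [pow_succ, pow_succ']; group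
  have h1 := hk (orderOf t)
  rw [pow_orderOf_eq_one, one_mul, mul_one] at h1
  have h2 : w ^ orderOf t = 1 := by
    have h3 : w ^ orderOf t * u = 1 * u := by rw [one_mul]; exact h1.symm
    exact mul_right_cancel h3
  have h4 : orderOf w = 1 := Nat.Coprime.eq_one_of_dvd hcop (orderOf_dvd_of_pow_eq_one h2)
  have h5 : w = 1 := orderOf_eq_one_iff.mp h4
  rw [htu, h5, one_mul]

end Coset

section Nilp

/-- In a finite nilpotent group, elements of prime power orders for different primes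
commute. -/
theorem commute_of_nilpotent {H : Type u} [Group H] [Finite H] [Group.IsNilpotent H] {q s : ℕ}
    (hq : q.Prime) (hs : s.Prime) (hqs : q ≠ s) (x y : H) (hx : ∃ i : ℕ, x ^ q ^ i = 1)
    (hy : ∃ j : ℕ, y ^ s ^ j = 1) : x * y = y * x := by
  haveI : Fact q.Prime := ⟨hq⟩
  haveI : Fact s.Prime := ⟨hs⟩
  obtain ⟨i, hi⟩ := hx
  obtain ⟨j, hj⟩ := hy
  have hxq : IsPGroup q (Subgroup.zpowers x) := by
    rintro ⟨g, hg⟩
    obtain ⟨k, rfl⟩ := Subgroup.mem_zpowers_iff.mp hg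
    refine ⟨i, ?_⟩
    apply Subtype.ext
    show (x ^ k) ^ q ^ i = 1
    rw [← zpow_natCast, ← zpow_mul, mul_comm, zpow_mul, zpow_natCast, hi, one_zpow]
  have hys : IsPGroup s (Subgroup.zpowers y) := by
    rintro ⟨g, hg⟩
    obtain ⟨k, rfl⟩ := Subgroup.mem_zpowers_iff.mp hg
    refine ⟨j, ?_⟩
    apply Subtype.ext
    show (y ^ k) ^ s ^ j = 1
    rw [← zpow_natCast, ← zpow_mul, mul_comm, zpow_mul, zpow_natCast, hj, one_zpow]
  obtain ⟨Q, hQ⟩ := hxq.exists_le_sylow
  obtain ⟨S, hS⟩ := hys.exists_le_sylow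
  have hxQ : x ∈ (Q : Subgroup H) := hQ (Subgroup.mem_zpowers x)
  have hyS : y ∈ (S : Subgroup H) := hS (Subgroup.mem_zpowers y)
  have hQn : (Q : Subgroup H).Normal := inferInstance
  have hSn : (S : Subgroup H).Normal := inferInstance
  have h1 : x * y * x⁻¹ * y⁻¹ ∈ (Q : Subgroup H) := by
    have h2 := hQn.conj_mem x⁻¹ (Subgroup.inv_mem _ hxQ) y
    have e : x * y * x⁻¹ * y⁻¹ = x * (y * x⁻¹ * y⁻¹) := by group
    rw [e]
    exact Subgroup.mul_mem _ hxQ h2
  have h2 : x * y * x⁻¹ * y⁻¹ ∈ (S : Subgroup H) := by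
    have h3 := hSn.conj_mem y hyS x
    exact Subgroup.mul_mem _ h3 (Subgroup.inv_mem _ hyS)
  have hdisj := IsPGroup.disjoint_of_ne q s hqs (Q : Subgroup H) (S : Subgroup H) Q.isPGroup'
    S.isPGroup'
  have h3 : x * y * x⁻¹ * y⁻¹ = 1 := by
    have h4 : x * y * x⁻¹ * y⁻¹ ∈ (Q : Subgroup H) ⊓ (S : Subgroup H) := ⟨h1, h2⟩
    rw [hdisj.eq_bot, Subgroup.mem_bot] at h4
    exact h4
  calc x * y = (x * y * x⁻¹ * y⁻¹) * (y * x) := by group
    _ = y * x := by rw [h3, one_mul]

/-- Thompson's theorem for solvable groups: a finite solvable group with a fixed-point-free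
automorphism of order dividing a prime is nilpotent. -/
theorem nilpotent_of_fpf_prime {G : Type u} [Group G] [Finite G] (hsol : Group.IsSolvable G)
    {p : ℕ} (hp : p.Prime) (σ : MulAut G) (hσ : σ ^ p = 1) (hfpf : ∀ g, σ g = g → g = 1) :
    Group.IsNilpotent G := by
  by_cases hp2 : p = 2
  · subst hp2
    have hσσ : ∀ x, σ (σ x) = x := by
      intro x
      have h1 := congrArg (fun τ : MulAut G => τ x) hσ
      simpa [pow_succ, MulAut.mul_apply] using h1
    have hsurj := Cfsg.Agent.Helper63.Ward.fpf_surj (⊤ : Subgroup G) σ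
      (fun t _ => Subgroup.mem_top _) (fun t _ h => hfpf t h)
    have hinv : ∀ y, σ y = y⁻¹ := by
      intro y
      obtain ⟨x, _, hx⟩ := hsurj y (Subgroup.mem_top _)
      rw [← hx, map_mul, map_inv, hσσ]
      group
    have hcomm : ∀ x y : G, x * y = y * x := by
      intro x y
      have h1 : σ (x * y) = (x * y)⁻¹ := hinv _
      rw [map_mul, hinv, hinv, mul_inv_rev] at h1
      have h2 := congrArg (fun z => z⁻¹) h1
      simp only [mul_inv_rev, inv_inv] at h2
      exact h2.symm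
    letI : CommGroup G := { (inferInstance : Group G) with mul_comm := hcomm }
    infer_instance
  · obtain ⟨F, hF0, hFlast, _, _, hlcs⟩ := fitting_chain hp hp2 1 G hsol σ
      (by rw [pow_one]; exact hσ) hfpf
    obtain ⟨k, hk⟩ := hlcs 0
    have e1 : (0 : Fin 1).succ = Fin.last 1 := rfl
    have e2 : (0 : Fin 1).castSucc = 0 := rfl
    rw [e1, e2, hFlast, hF0] at hk
    exact Subgroup.nilpotent_iff_lowerCentralSeries.mpr ⟨k, le_bot_iff.mp hk⟩

theorem lcs_le_of_quot_nilpotent {G : Type u} [Group G] (N : Subgroup G) [N.Normal]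
    (h : Group.IsNilpotent (G ⧸ N)) : ∃ k, (⊤ : Subgroup G).lowerCentralSeries k ≤ N := by
  obtain ⟨k, hk⟩ := Subgroup.nilpotent_iff_lowerCentralSeries.mp h
  refine ⟨k, ?_⟩
  have h1 := Subgroup.map_lowerCentralSeries (S := (⊤ : Subgroup G)) (QuotientGroup.mk' N) k
  rw [← MonoidHom.range_eq_map,
    MonoidHom.range_eq_top.mpr (QuotientGroup.mk'_surjective N), hk] at h1
  have h2 := (Subgroup.map_eq_bot_iff _).mp h1
  rwa [QuotientGroup.ker_mk'] at h2

theorem quot_nilpotent_of_lcs_le {G : Type u} [Group G] (N : Subgroup G) [N.Normal] (k : ℕ)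
    (h : (⊤ : Subgroup G).lowerCentralSeries k ≤ N) : Group.IsNilpotent (G ⧸ N) := by
  apply Subgroup.nilpotent_iff_lowerCentralSeries.mpr
  refine ⟨k, ?_⟩
  have h1 := Subgroup.map_lowerCentralSeries (S := (⊤ : Subgroup G)) (QuotientGroup.mk' N) k
  rw [← MonoidHom.range_eq_map,
    MonoidHom.range_eq_top.mpr (QuotientGroup.mk'_surjective N)] at h1
  rw [← h1, Subgroup.map_eq_bot_iff, QuotientGroup.ker_mk']
  exact h

end Nilp

section AStruct

variable {A : Type v} [Group A] {p : ℕ}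

theorem orderOf_eq_prime (hp : p.Prime) (hAexp : ∀ x : A, x ^ p = 1) {c : A} (hc : c ≠ 1) :
    orderOf c = p := by
  rcases (Nat.dvd_prime hp).mp (orderOf_dvd_of_pow_eq_one (hAexp c)) with h | h
  · exact absurd (orderOf_eq_one_iff.mp h) hc
  · exact h

theorem mem_zpowers_swap [Finite A] (hp : p.Prime) (hAexp : ∀ x : A, x ^ p = 1) {c d : A} (hc : c ≠ 1)
    (hcd : c ∈ Subgroup.zpowers d) : d ∈ Subgroup.zpowers c := by
  have hd : d ≠ 1 := by
    rintro rfl
    rw [Subgroup.zpowers_one_eq_bot, Subgroup.mem_bot] at hcd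
    exact hc hcd
  have hle : Subgroup.zpowers c ≤ Subgroup.zpowers d := (Subgroup.zpowers_le).mpr hcd
  have hcard : Nat.card (Subgroup.zpowers d) ≤ Nat.card (Subgroup.zpowers c) := by
    rw [Nat.card_zpowers, Nat.card_zpowers, orderOf_eq_prime hp hAexp hc,
      orderOf_eq_prime hp hAexp hd]
  have heq := Subgroup.eq_of_le_of_card_ge hle hcard
  rw [heq]
  exact Subgroup.mem_zpowers d

theorem exists_zpow_mul [Finite A] (hp : p.Prime) (hAcomm : ∀ x y : A, x * y = y * x)
    (hAexp : ∀ x : A, x ^ p = 1) (hAcard : Nat.card A = p ^ 2) {c d : A} (hc : c ≠ 1)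
    (hd : d ∉ Subgroup.zpowers c) (x : A) : ∃ m n : ℤ, c ^ m * d ^ n = x := by
  letI : CommGroup A := { (inferInstance : Group A) with mul_comm := hAcomm }
  have hle : Subgroup.zpowers c ≤ Subgroup.closure ({c, d} : Set A) :=
    (Subgroup.zpowers_le).mpr (Subgroup.subset_closure (Set.mem_insert c _))
  have hdH : d ∈ Subgroup.closure ({c, d} : Set A) :=
    Subgroup.subset_closure (Set.mem_insert_of_mem c rfl)
  have htop : Subgroup.closure ({c, d} : Set A) = ⊤ := by
    by_contra hne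
    have h1 : Nat.card (Subgroup.closure ({c, d} : Set A)) ∣ p ^ 2 :=
      hAcard ▸ Subgroup.card_subgroup_dvd_card _
    obtain ⟨j, hj, hjeq⟩ := (Nat.dvd_prime_pow hp).mp h1
    have h2 : p ∣ Nat.card (Subgroup.closure ({c, d} : Set A)) := by
      have h3 := Subgroup.card_dvd_of_le hle
      rwa [Nat.card_zpowers, orderOf_eq_prime hp hAexp hc] at h3
    have hj1 : j = 1 := by
      interval_cases j
      · rw [hjeq, pow_zero] at h2
        exact absurd (Nat.le_of_dvd Nat.one_pos h2) (not_le.mpr hp.one_lt)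
      · rfl
      · exact absurd (Subgroup.eq_top_of_card_eq _ (hjeq.trans hAcard.symm)) hne
    have h3 : Nat.card (Subgroup.closure ({c, d} : Set A)) ≤ Nat.card (Subgroup.zpowers c) := by
      rw [hjeq, hj1, pow_one, Nat.card_zpowers, orderOf_eq_prime hp hAexp hc]
    have h4 := Subgroup.eq_of_le_of_card_ge hle h3
    exact hd (h4 ▸ hdH)
  have hx : x ∈ Subgroup.closure ({c, d} : Set A) := htop ▸ Subgroup.mem_top x
  exact Subgroup.mem_closure_pair.mp hx

theorem exists_not_mem_zpowers (hp : p.Prime) (hAexp : ∀ x : A, x ^ p = 1)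
    (hAcard : Nat.card A = p ^ 2) (c : A) : ∃ d : A, d ∉ Subgroup.zpowers c := by
  by_contra hcon
  push Not at hcon
  have htop : Subgroup.zpowers c = ⊤ := (Subgroup.eq_top_iff' _).mpr hcon
  have h1 : Nat.card (Subgroup.zpowers c) = p ^ 2 := by
    rw [htop, Subgroup.card_top, hAcard]
  rw [Nat.card_zpowers] at h1
  have h2 : orderOf c ∣ p := orderOf_dvd_of_pow_eq_one (hAexp c)
  have h3 := Nat.le_of_dvd hp.pos h2
  have h4 : p < p ^ 2 := by
    have := hp.one_lt
    nlinarith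
  omega

theorem isPGroup_of_card_sq (_hp : p.Prime) (hAcard : Nat.card A = p ^ 2) : IsPGroup p A := by
  haveI : Fact p.Prime := ⟨_hp⟩
  exact IsPGroup.of_card hAcard

/-- A `p`-group acting with a single fixed point acts on a group of order prime to `p`. -/
theorem not_dvd_card_of_fpf_hom {G : Type u} [Group G] [Finite G] (hp : p.Prime)
    (hA : IsPGroup p A) (act : A →* MulAut G) (hfpf : ∀ g, (∀ x, act x g = g) → g = 1) :
    ¬ p ∣ Nat.card G := by
  haveI : Fact p.Prime := ⟨hp⟩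
  letI : MulAction A G := MulAction.compHom G act
  intro hdvd
  have h1 := hA.card_modEq_card_fixedPoints G
  have h2 : MulAction.fixedPoints A G = {1} := by
    ext g
    simp only [MulAction.mem_fixedPoints, Set.mem_singleton_iff]
    constructor
    · intro h
      exact hfpf g (fun x => h x)
    · rintro rfl x
      exact map_one (act x)
  rw [h2] at h1
  have h3 : Nat.card ({1} : Set G) = 1 := by simp
  rw [h3] at h1
  have h4 : Nat.card G % p = 1 % p := h1
  rw [Nat.mod_eq_zero_of_dvd hdvd, Nat.mod_eq_of_lt hp.one_lt] at h4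
  exact zero_ne_one h4

end AStruct

section Gen

variable {Γ : Type u} [Group Γ] {A : Type v} [Group A] [Finite A] {p q : ℕ}

omit [Finite A] in
/-- Reindexing a product over the powers of an element of order dividing the prime `p`. -/
theorem prod_pow_mul_reindex {M : Type w} [CommMonoid M] (hp : p.Prime) (a : A)
    (ha : a ^ p = 1) (F : A → M) (j : ℕ) (hj0 : 0 < j) (hjp : j < p) :
    ∏ k ∈ Finset.range p, F (a ^ (k * j)) = ∏ i ∈ Finset.range p, F (a ^ i) := by
  have hcop : Nat.Coprime j p :=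
    (Nat.Coprime.symm ((Nat.Prime.coprime_iff_not_dvd hp).mpr
      (Nat.not_dvd_of_pos_of_lt hj0 hjp)))
  obtain ⟨j', -, hj'⟩ := Nat.exists_mul_mod_eq_one_of_coprime hcop hp.one_lt
  have hpow : ∀ k, a ^ (k * j) = a ^ (k * j % p) := fun k => pow_eq_pow_mod _ ha
  simp_rw [hpow]
  refine Finset.prod_nbij' (fun k => k * j % p) (fun i => i * j' % p) ?_ ?_ ?_ ?_ ?_
  · intro k _
    exact Finset.mem_range.mpr (Nat.mod_lt _ hp.pos)
  · intro i _
    exact Finset.mem_range.mpr (Nat.mod_lt _ hp.pos)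
  · intro k hk
    have hk' := Finset.mem_range.mp hk
    show k * j % p * j' % p = k
    rw [Nat.mod_mul_mod, mul_assoc, Nat.mul_mod, hj', mul_one, Nat.mod_mod,
      Nat.mod_eq_of_lt hk']
  · intro i hi
    have hi' := Finset.mem_range.mp hi
    show i * j' % p * j % p = i
    rw [Nat.mod_mul_mod, mul_assoc, mul_comm j' j, Nat.mul_mod, hj', mul_one, Nat.mod_mod,
      Nat.mod_eq_of_lt hi']
  · intro k _
    rfl

/-- **Generation by centralizers.**  Let the elementary abelian group `A` of order `p²` act on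
the `q`-group `P`, and let `H ≤ P` be an invariant subgroup containing `[P, P]` and all the
fixed points of the non-identity elements of `A`.  Then `H = P`. -/
theorem gen_core (hp : p.Prime) (hq : q.Prime) (hpq : p ≠ q)
    (hAcomm : ∀ x y : A, x * y = y * x) (hAexp : ∀ x : A, x ^ p = 1)
    (hAcard : Nat.card A = p ^ 2) (act : A →* MulAut Γ) (P H : Subgroup Γ) [Finite P]
    (hPq : IsPGroup q P) (hHP : H ≤ P) (hPP : ⁅P, P⁆ ≤ H)
    (hPA : ∀ x, ∀ u ∈ P, act x u ∈ P) (hHA : ∀ x, ∀ u ∈ H, act x u ∈ H)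
    (hfix : ∀ c : A, c ≠ 1 → ∀ u ∈ P, act c u = u → u ∈ H) : P ≤ H := by
  haveI : Fact p.Prime := ⟨hp⟩
  haveI : Fact q.Prime := ⟨hq⟩
  haveI : Finite H :=
    Finite.of_injective (Subgroup.inclusion hHP) (Subgroup.inclusion_injective hHP)
  have hpH : ¬ p ∣ Nat.card H := by
    obtain ⟨j, hj⟩ := (IsPGroup.iff_card).mp (hPq.to_le hHP)
    rw [hj]
    intro h
    exact hpq ((Nat.prime_dvd_prime_iff_eq hp hq).mp (hp.dvd_of_dvd_pow h))
  have hnorm : (H.subgroupOf P).Normal := by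
    constructor
    intro n hn g
    rw [Subgroup.mem_subgroupOf] at hn ⊢
    have h1 : ((g * n * g⁻¹ : ↥P) : Γ) = ⁅(g : Γ), (n : Γ)⁆ * n := by
      rw [commutatorElement_def]
      simp
    rw [h1]
    exact H.mul_mem (hPP (Subgroup.commutator_mem_commutator g.2 n.2)) hn
  haveI := hnorm
  letI : CommGroup (↥P ⧸ H.subgroupOf P) :=
    { (inferInstance : Group (↥P ⧸ H.subgroupOf P)) with
      mul_comm := by
        intro x y
        induction x using QuotientGroup.induction_on with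
        | _ x =>
        induction y using QuotientGroup.induction_on with
        | _ y =>
        rw [← QuotientGroup.mk_mul, ← QuotientGroup.mk_mul, QuotientGroup.eq,
          Subgroup.mem_subgroupOf]
        have h1 : (((x * y)⁻¹ * (y * x) : ↥P) : Γ) = ⁅(y : Γ)⁻¹, (x : Γ)⁻¹⁆ := by
          rw [commutatorElement_def]
          simp [mul_assoc]
        rw [h1]
        exact hPP (Subgroup.commutator_mem_commutator (P.inv_mem y.2) (P.inv_mem x.2)) }
  let resP : A → (↥P →* ↥P) := fun x =>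
    ((act x).toMonoidHom.comp P.subtype).codRestrict P (fun u => hPA x u u.2)
  have hresP : ∀ (x : A) (u : ↥P), ((resP x u : ↥P) : Γ) = act x u := fun x u => rfl
  let φ : A → ((↥P ⧸ H.subgroupOf P) →* (↥P ⧸ H.subgroupOf P)) := fun x =>
    QuotientGroup.map _ _ (resP x) (by
      intro n hn
      rw [Subgroup.mem_comap, Subgroup.mem_subgroupOf] at *
      exact hHA x n hn)
  have hφ : ∀ (x : A) (u : ↥P), φ x (QuotientGroup.mk u) = QuotientGroup.mk (resP x u) :=
    fun x u => rfl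
  intro u hu
  let f : A → (↥P ⧸ H.subgroupOf P) := fun x => QuotientGroup.mk (resP x ⟨u, hu⟩)
  have hfφ : ∀ c z : A, φ c (f z) = f (c * z) := by
    intro c z
    show φ c (QuotientGroup.mk (resP z ⟨u, hu⟩)) = QuotientGroup.mk (resP (c * z) ⟨u, hu⟩)
    rw [hφ]
    congr 1
    apply Subtype.ext
    rw [hresP, hresP, hresP, map_mul, MulAut.mul_apply]
  -- (I)
  have hI : ∀ c : A, c ≠ 1 → ∀ y : A, ∏ i ∈ Finset.range p, f (c ^ i * y) = 1 := by
    intro c hc y
    obtain ⟨m, hm⟩ : ∃ m, m = ∏ i ∈ Finset.range p, f (c ^ i * y) := ⟨_, rfl⟩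
    rw [← hm]
    have hφm : φ c m = m := by
      rw [hm, map_prod]
      have h1 : ∀ i ∈ Finset.range p, φ c (f (c ^ i * y)) = f (c ^ (i + 1) * y) := by
        intro i _
        rw [hfφ, ← mul_assoc, ← pow_succ']
      rw [Finset.prod_congr rfl h1]
      have h2 := Finset.prod_range_succ' (fun i => f (c ^ i * y)) p
      have h3 := Finset.prod_range_succ (fun i => f (c ^ i * y)) p
      rw [h3] at h2
      simp only [hAexp c, pow_zero] at h2
      exact (mul_right_cancel h2).symm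
    obtain ⟨w₀, hw₀⟩ := QuotientGroup.mk_surjective m
    rw [← hw₀, hφ] at hφm
    have h4 : (w₀ : Γ)⁻¹ * act c (w₀ : Γ) ∈ H := by
      have h5 := QuotientGroup.eq.mp hφm.symm
      rw [Subgroup.mem_subgroupOf] at h5
      simpa [hresP] using h5
    have hcp : (act c) ^ p = 1 := by rw [← map_pow, hAexp, map_one]
    obtain ⟨w, hw1, hw2⟩ := exists_fixed_in_coset_single (act c) hcp H hpH (hHA c) (w₀ : Γ) h4
    have hwP : w ∈ P := by
      have e : w = (w₀ : Γ) * ((w₀ : Γ)⁻¹ * w) := by group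
      rw [e]
      exact P.mul_mem w₀.2 (hHP hw1)
    have hwH : w ∈ H := hfix c hc w hwP hw2
    have hw₀H : (w₀ : Γ) ∈ H := by
      have e : (w₀ : Γ) = w * ((w₀ : Γ)⁻¹ * w)⁻¹ := by group
      rw [e]
      exact H.mul_mem hwH (H.inv_mem hw1)
    rw [← hw₀]
    exact (QuotientGroup.eq_one_iff _).mpr (Subgroup.mem_subgroupOf.mpr hw₀H)
  -- generators of `A`
  have hAnt : ∃ a : A, a ≠ 1 := by
    by_contra hcon
    push Not at hcon
    have h1 : Nat.card A = 1 := Nat.card_eq_one_iff_unique.mpr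
      ⟨⟨fun x y => (hcon x).trans (hcon y).symm⟩, ⟨1⟩⟩
    rw [hAcard] at h1
    have := hp.one_lt
    nlinarith
  obtain ⟨a, ha⟩ := hAnt
  obtain ⟨b, hb⟩ := exists_not_mem_zpowers hp hAexp hAcard a
  have h1 : ∀ k ∈ Finset.range p, ∏ j ∈ Finset.range p, f (a ^ (k * j) * b ^ j) = 1 := by
    intro k _
    have hc : a ^ k * b ≠ 1 := by
      intro h
      apply hb
      have e : b = (a ^ k)⁻¹ := eq_inv_of_mul_eq_one_right h
      rw [e]
      exact Subgroup.inv_mem _ (Subgroup.pow_mem _ (Subgroup.mem_zpowers a) k)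
    have h2 := hI (a ^ k * b) hc 1
    simp only [mul_one] at h2
    rw [← h2]
    apply Finset.prod_congr rfl
    intro j _
    have hcomm : Commute (a ^ k) b := hAcomm _ _
    rw [hcomm.mul_pow, ← pow_mul]
  have h2 : ∏ j ∈ Finset.range p, ∏ k ∈ Finset.range p, f (a ^ (k * j) * b ^ j) = 1 := by
    rw [Finset.prod_comm]
    exact Finset.prod_eq_one h1
  have h0 : (0 : ℕ) ∈ Finset.range p := Finset.mem_range.mpr hp.pos
  rw [← Finset.mul_prod_erase _ _ h0] at h2
  have h3 : ∏ j ∈ (Finset.range p).erase 0, ∏ k ∈ Finset.range p, f (a ^ (k * j) * b ^ j) = 1 := by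
    apply Finset.prod_eq_one
    intro j hj
    have hj0 : 0 < j := Nat.pos_of_ne_zero (Finset.ne_of_mem_erase hj)
    have hjp : j < p := Finset.mem_range.mp (Finset.mem_of_mem_erase hj)
    rw [prod_pow_mul_reindex hp a (hAexp a) (fun x => f (x * b ^ j)) j hj0 hjp]
    exact hI a ha (b ^ j)
  rw [h3, mul_one] at h2
  simp only [mul_zero, pow_zero, mul_one, Finset.prod_const, Finset.card_range] at h2
  have hf1 : f 1 = QuotientGroup.mk (⟨u, hu⟩ : ↥P) := by
    show QuotientGroup.mk (resP 1 ⟨u, hu⟩) = QuotientGroup.mk (⟨u, hu⟩ : ↥P)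
    congr 1
    apply Subtype.ext
    rw [hresP, map_one, MulAut.one_apply]
  rw [hf1, ← QuotientGroup.mk_pow, QuotientGroup.eq_one_iff, Subgroup.mem_subgroupOf] at h2
  have h4 : u ^ p ∈ H := by simpa using h2
  obtain ⟨j, hj⟩ := (IsPGroup.iff_orderOf).mp hPq ⟨u, hu⟩
  have hcop : p.Coprime (orderOf u) := by
    have h5 : orderOf u = q ^ j := by
      rw [← hj, Subgroup.orderOf_mk]
    rw [h5]
    exact Nat.Coprime.pow_right _ ((Nat.coprime_primes hp hq).mpr hpq)
  obtain ⟨m, hm⟩ := exists_pow_eq_self_of_coprime hcop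
  rw [← hm]
  exact H.pow_mem h4 m

end Gen

end Cfsg.Agent.Helper63.Ward
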