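-- helper63 library: the key linear proposition for Ward's theorem: a subgroup `T` centralized
-- by an element `a` of an elementary abelian group `A` of order `p²` acting on a `q`-group `P`
-- and compatibly on a module, such that centralizers act trivially on fixed spaces, centralizes
-- `P`; add-only once landed.
import Cfsg.Agent.Helper63.WardAux

set_option autoImplicit false

namespace Cfsg.Agent.Helper63.Ward

open Module Cfsg.Agent.Helper63.Gross Cfsg.Agent.Helper63.Shult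

universe u v w w'

open scoped commutatorElement

section Lin

variable {K : Type u} [Field K] {M : Type v} [AddCommGroup M] [Module K M]

/-- A commuting family of semisimple operators is simultaneously diagonalizable. -/
theorem iSup_simEig_eq_top [IsAlgClosed K] [FiniteDimensional K M] {ι : Type w}
    (f : ι → Module.End K M) (hcomm : ∀ i j, f i * f j = f j * f i)
    (hss : ∀ i, (f i).IsSemisimple) : ⨆ χ : ι → K, simEig f χ = ⊤ := by
  have htop : ⨆ χ : ι → K, ⨅ i, (f i).maxGenEigenspace (χ i) = ⊤ := by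
    apply Module.End.iSup_iInf_maxGenEigenspace_eq_top_of_iSup_maxGenEigenspace_eq_top_of_commute
    · intro i j _
      exact hcomm i j
    · intro i
      exact Module.End.iSup_maxGenEigenspace_eq_top (f i)
  rw [eq_top_iff, ← htop]
  apply iSup_le
  intro χ
  refine le_trans ?_ (le_iSup _ χ)
  intro v hv
  rw [mem_simEig]
  intro i
  have h1 := (Submodule.mem_iInf _).mp hv i
  rw [(hss i).isFinitelySemisimple.maxGenEigenspace_eq_eigenspace] at h1
  exact Module.End.mem_eigenspace_iff.mp h1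

/-- A vector of a simultaneous eigenspace that is a sum of vectors from simultaneous
eigenspaces for other eigenvalue systems vanishes. -/
theorem sep {ι : Type w} {κ : Type} [DecidableEq κ] (f : ι → Module.End K M) (θ : ι → K)
    (θs : κ → ι → K) :
    ∀ (s : Finset κ), (∀ k ∈ s, θs k ≠ θ) → ∀ (x : M), x ∈ simEig f θ → ∀ (y : κ → M),
      (∀ k ∈ s, y k ∈ simEig f (θs k)) → x + ∑ k ∈ s, y k = 0 → x = 0 := by
  intro s
  induction s using Finset.induction_on with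
  | empty =>
    intro _ x _ y _ h
    simpa using h
  | insert k₀ s hk₀ ih =>
    intro hne x hx y hy hsum
    have hne₀ := hne k₀ (Finset.mem_insert_self _ _)
    obtain ⟨i, hi⟩ : ∃ i, θs k₀ i ≠ θ i := by
      by_contra hcon
      push Not at hcon
      exact hne₀ (funext hcon)
    have hfx : f i x = θ i • x := (mem_simEig f θ x).mp hx i
    have hfy₀ : f i (y k₀) = θs k₀ i • y k₀ :=
      (mem_simEig f _ _).mp (hy k₀ (Finset.mem_insert_self _ _)) i
    have hfy : ∀ k ∈ s, f i (y k) = θs k i • y k := fun k hk =>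
      (mem_simEig f _ _).mp (hy k (Finset.mem_insert_of_mem hk)) i
    have h1 : (θ i - θs k₀ i) • x + ∑ k ∈ s, (θs k i - θs k₀ i) • y k = 0 := by
      have h2 : f i (x + ∑ k ∈ insert k₀ s, y k) - θs k₀ i • (x + ∑ k ∈ insert k₀ s, y k) = 0 := by
        rw [hsum, map_zero, smul_zero, sub_zero]
      rw [Finset.sum_insert hk₀, map_add, map_add, map_sum, hfx, hfy₀,
        Finset.sum_congr rfl hfy] at h2
      rw [← h2]
      simp only [sub_smul, smul_add, Finset.smul_sum, Finset.sum_sub_distrib]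
      abel
    have h4 := ih (fun k hk => hne k (Finset.mem_insert_of_mem hk)) ((θ i - θs k₀ i) • x)
      (Submodule.smul_mem _ _ hx) (fun k => (θs k i - θs k₀ i) • y k)
      (fun k hk => Submodule.smul_mem _ _ (hy k (Finset.mem_insert_of_mem hk))) h1
    rcases smul_eq_zero.mp h4 with h5 | h5
    · exact absurd (sub_eq_zero.mp h5).symm hi
    · exact h5

end Lin

section Key

variable {K : Type u} [Field K] {V : Type v} [AddCommGroup V] [Module K V]
  {Γ : Type w} [Group Γ] {A : Type w'} [Group A]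
  (act : A →* MulAut Γ) (ρ : Γ →* Module.End K V) (op : A →* Module.End K V)

/-- The simultaneous eigenspace of the subgroup `R` for the function `lam`. -/
def eig (R : Subgroup Γ) (lam : Γ → K) : Submodule K V :=
  simEig (fun r : ↥R => ρ (r : Γ)) (fun r => lam (r : Γ))

theorem mem_eig {R : Subgroup Γ} {lam : Γ → K} {v : V} :
    v ∈ eig ρ R lam ↔ ∀ r ∈ R, ρ r v = lam r • v := by
  constructor
  · intro h r hr
    exact h ⟨r, hr⟩
  · intro h r
    exact h r r.2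

/-- The elements of `A` fixing the function `lam` on `R`. -/
def stab (R : Subgroup Γ) (hRA : ∀ x, ∀ r ∈ R, act x r ∈ R) (lam : Γ → K) : Subgroup A where
  carrier := {x | ∀ r ∈ R, lam (act x r) = lam r}
  one_mem' := by
    intro r _
    rw [map_one, MulAut.one_apply]
  mul_mem' := by
    intro x y hx hy r hr
    rw [map_mul, MulAut.mul_apply, hx _ (hRA y r hr), hy r hr]
  inv_mem' := by
    intro x hx r hr
    have h1 := hx _ (hRA x⁻¹ r hr)
    rw [← MulAut.mul_apply, ← map_mul, mul_inv_cancel, map_one, MulAut.one_apply] at h1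
    exact h1.symm

omit [Field K] in
theorem mem_stab {R : Subgroup Γ} {hRA : ∀ x, ∀ r ∈ R, act x r ∈ R} {lam : Γ → K} {x : A} :
    x ∈ stab act R hRA lam ↔ ∀ r ∈ R, lam (act x r) = lam r := Iff.rfl

theorem act_eq_of_mem_zpowers {c d : A} (hd : d ∈ Subgroup.zpowers c) {g : Γ}
    (hg : act c g = g) : act d g = g := by
  obtain ⟨m, rfl⟩ := Subgroup.mem_zpowers_iff.mp hd
  have h1 : act c ∈ MulAction.stabilizer (MulAut Γ) g := hg
  have h2 := Subgroup.zpow_mem _ h1 m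
  rw [map_zpow]
  exact h2

theorem act_inv_act (x : A) (g : Γ) : act x (act x⁻¹ g) = g := by
  rw [← MulAut.mul_apply, ← map_mul, mul_inv_cancel, map_one, MulAut.one_apply]

theorem act_act_inv (x : A) (g : Γ) : act x⁻¹ (act x g) = g := by
  rw [← MulAut.mul_apply, ← map_mul, inv_mul_cancel, map_one, MulAut.one_apply]

variable {act ρ op}

theorem op_mem_eig (hequiv : ∀ (x : A) (g : Γ), op x * ρ g = ρ (act x g) * op x)
    (R : Subgroup Γ) (hRA : ∀ x, ∀ r ∈ R, act x r ∈ R) (lam : Γ → K) (x : A) (v : V)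
    (hv : v ∈ eig ρ R lam) : op x v ∈ eig ρ R (fun g => lam (act x⁻¹ g)) := by
  rw [mem_eig] at hv ⊢
  intro r hr
  have h1 := LinearMap.congr_fun (hequiv x (act x⁻¹ r)) v
  simp only [Module.End.mul_apply] at h1
  rw [act_inv_act] at h1
  rw [← h1, hv _ (hRA x⁻¹ r hr), map_smul]

theorem op_mem_eig_of_stab (hequiv : ∀ (x : A) (g : Γ), op x * ρ g = ρ (act x g) * op x)
    (R : Subgroup Γ) (hRA : ∀ x, ∀ r ∈ R, act x r ∈ R) (lam : Γ → K) {x : A}
    (hx : x ∈ stab act R hRA lam) (v : V) (hv : v ∈ eig ρ R lam) : op x v ∈ eig ρ R lam := by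
  have h1 := op_mem_eig hequiv R hRA lam x v hv
  rw [mem_eig] at h1 ⊢
  intro r hr
  rw [h1 r hr]
  have h2 : lam (act x⁻¹ r) = lam r := (stab act R hRA lam).inv_mem hx r hr
  rw [h2]

/-- If `c` does not stabilize `lam`, an element `g` fixed by `c`, preserving the eigenspace and
acting trivially on the fixed vectors of `c`, acts trivially on the eigenspace. -/
theorem eig_triv [Finite A] {p : ℕ} (hp : p.Prime) (hAexp : ∀ x : A, x ^ p = 1)
    (hequiv : ∀ (x : A) (g : Γ), op x * ρ g = ρ (act x g) * op x)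
    (R : Subgroup Γ) (hRA : ∀ x, ∀ r ∈ R, act x r ∈ R) (lam : Γ → K) (c : A)
    (hc : c ∉ stab act R hRA lam) (g : Γ) (hg : act c g = g)
    (hnil : ∀ v : V, op c v = v → ρ g v = v)
    (hpres : ∀ v ∈ eig ρ R lam, ρ g v ∈ eig ρ R lam) : ∀ v ∈ eig ρ R lam, ρ g v = v := by
  classical
  intro v hv
  have hc1 : c ≠ 1 := by
    rintro rfl
    exact hc (Subgroup.one_mem _)
  have hξp : (op c) ^ p = 1 := by rw [← map_pow, hAexp, map_one]
  have hcomm : Commute (op c) (ρ g) := by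
    have h1 := hequiv c g
    rw [hg] at h1
    exact h1
  have hw : op c (∑ i ∈ Finset.range p, ((op c) ^ i) v) = ∑ i ∈ Finset.range p, ((op c) ^ i) v :=
    sum_pow_fixed' (op c) p v (by rw [hξp]; rfl)
  have h1 := hnil _ hw
  have hx : ρ g v - v ∈ eig ρ R lam := Submodule.sub_mem _ (hpres v hv) hv
  have hsum : ∑ i ∈ Finset.range p, ((op c) ^ i) (ρ g v - v) = 0 := by
    have h2 : ∀ i ∈ Finset.range p, ((op c) ^ i) (ρ g v - v) =
        ρ g (((op c) ^ i) v) - ((op c) ^ i) v := by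
      intro i _
      have h3 : (op c) ^ i * ρ g = ρ g * (op c) ^ i := (hcomm.pow_left i).eq
      have h4 := LinearMap.congr_fun h3 v
      simp only [Module.End.mul_apply] at h4
      rw [map_sub, h4]
    rw [Finset.sum_congr rfl h2, Finset.sum_sub_distrib, ← map_sum, h1, sub_self]
  have h0 : (0 : ℕ) ∈ Finset.range p := Finset.mem_range.mpr hp.pos
  rw [← Finset.add_sum_erase _ _ h0, pow_zero, Module.End.one_apply] at hsum
  have hkey := sep (fun r : ↥R => ρ (r : Γ)) (fun r => lam (r : Γ))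
    (fun (k : ℕ) (r : ↥R) => lam (act (c ^ k)⁻¹ (r : Γ))) ((Finset.range p).erase 0)
    (by
      intro k hk hθ
      have hk0 : k ≠ 0 := Finset.ne_of_mem_erase hk
      have hkp : k < p := Finset.mem_range.mp (Finset.mem_of_mem_erase hk)
      have hck : c ^ k ≠ 1 := by
        intro h
        have h5 := orderOf_dvd_of_pow_eq_one h
        rw [orderOf_eq_prime hp hAexp hc1] at h5
        exact absurd (Nat.le_of_dvd (Nat.pos_of_ne_zero hk0) h5) (not_le.mpr hkp)
      have hinv : (c ^ k)⁻¹ ∈ stab act R hRA lam := by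
        intro r hr
        exact congrFun hθ ⟨r, hr⟩
      have hmem : c ^ k ∈ stab act R hRA lam := by
        have := Subgroup.inv_mem _ hinv
        rwa [inv_inv] at this
      have h6 : c ∈ Subgroup.zpowers (c ^ k) :=
        mem_zpowers_swap hp hAexp hck (Subgroup.pow_mem _ (Subgroup.mem_zpowers c) k)
      exact hc ((Subgroup.zpowers_le.mpr hmem) h6))
    (ρ g v - v) hx (fun k => ((op c) ^ k) (ρ g v - v))
    (by
      intro k _
      have h7 := op_mem_eig hequiv R hRA lam (c ^ k) (ρ g v - v) hx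
      rw [map_pow] at h7
      exact h7)
    hsum
  exact sub_eq_zero.mp hkey

/-- A multiplicative function on an invariant subgroup of order prime to `p`, invariant under
a `p`-group acting without nontrivial fixed points, is trivial. -/
theorem char_eq_one_of_invariant [Finite Γ] {p : ℕ} (hp : p.Prime) (hA : IsPGroup p A)
    (R : Subgroup Γ) (hRp : ¬ p ∣ Nat.card R) (hRA : ∀ x, ∀ r ∈ R, act x r ∈ R)
    (hRfpf : ∀ r ∈ R, (∀ x : A, act x r = r) → r = 1) (lam : Γ → K) (h1 : lam 1 = 1)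
    (hmul : ∀ r ∈ R, ∀ r' ∈ R, lam (r * r') = lam r * lam r')
    (hinv : ∀ x : A, ∀ r ∈ R, lam (act x r) = lam r) : ∀ r ∈ R, lam r = 1 := by
  haveI : Fact p.Prime := ⟨hp⟩
  let N : Subgroup Γ :=
    { carrier := {r | r ∈ R ∧ lam r = 1}
      one_mem' := ⟨R.one_mem, h1⟩
      mul_mem' := by
        rintro r r' ⟨hr, hr1⟩ ⟨hr', hr1'⟩
        exact ⟨R.mul_mem hr hr', by rw [hmul r hr r' hr', hr1, hr1', one_mul]⟩
      inv_mem' := by
        rintro r ⟨hr, hr1⟩
        refine ⟨R.inv_mem hr, ?_⟩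
        have h2 := hmul r hr r⁻¹ (R.inv_mem hr)
        rw [mul_inv_cancel, h1, hr1, one_mul] at h2
        exact h2.symm }
  have hNR : N ≤ R := fun r hr => hr.1
  have hpN : ¬ p ∣ Nat.card N := fun h => hRp (h.trans (Subgroup.card_dvd_of_le hNR))
  intro r hr
  obtain ⟨w, hw1, hw2⟩ := exists_fixed_in_coset_hom hA act N hpN
    (fun x n hn => ⟨hRA x n hn.1, by rw [hinv x n hn.1]; exact hn.2⟩) r
    (fun x => by
      refine ⟨R.mul_mem (R.inv_mem hr) (hRA x r hr), ?_⟩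
      rw [hmul _ (R.inv_mem hr) _ (hRA x r hr), hinv x r hr, ← hmul _ (R.inv_mem hr) _ hr,
        inv_mul_cancel, h1])
  have hwR : w ∈ R := by
    have e : w = r * (r⁻¹ * w) := by group
    rw [e]
    exact R.mul_mem hr hw1.1
  have hw1' := hRfpf w hwR hw2
  rw [hw1', mul_one] at hw1
  have h3 := hmul r hr r⁻¹ (R.inv_mem hr)
  rw [mul_inv_cancel, h1, hw1.2, mul_one] at h3
  exact h3.symm

theorem eq_top_of_two [Finite A] {p : ℕ} (hp : p.Prime) (hAcomm : ∀ x y : A, x * y = y * x)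
    (hAexp : ∀ x : A, x ^ p = 1) (hAcard : Nat.card A = p ^ 2) (S : Subgroup A) {c₀ c : A}
    (hc₀ : c₀ ∈ S) (hc₀1 : c₀ ≠ 1) (hc : c ∈ S) (hcc : c ∉ Subgroup.zpowers c₀) (x : A) :
    x ∈ S := by
  obtain ⟨m, n, rfl⟩ := exists_zpow_mul hp hAcomm hAexp hAcard hc₀1 hcc x
  exact S.mul_mem (S.zpow_mem hc₀ m) (S.zpow_mem hc n)

/-- The kernel of a multiplicative function on a subgroup. -/
def kerSub (R : Subgroup Γ) (lam : Γ → K) (h1 : lam 1 = 1)
    (hmul : ∀ r ∈ R, ∀ r' ∈ R, lam (r * r') = lam r * lam r') : Subgroup Γ where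
  carrier := {r | r ∈ R ∧ lam r = 1}
  one_mem' := ⟨R.one_mem, h1⟩
  mul_mem' := by
    rintro r r' ⟨hr, hr1⟩ ⟨hr', hr1'⟩
    exact ⟨R.mul_mem hr hr', by rw [hmul r hr r' hr', hr1, hr1', one_mul]⟩
  inv_mem' := by
    rintro r ⟨hr, hr1⟩
    refine ⟨R.inv_mem hr, ?_⟩
    have h2 := hmul r hr r⁻¹ (R.inv_mem hr)
    rw [mul_inv_cancel, h1, hr1, one_mul] at h2
    exact h2.symm

theorem eig_lam_one {R : Subgroup Γ} {lam : Γ → K} {v : V} (hv : v ∈ eig ρ R lam)
    (hv0 : v ≠ 0) : lam 1 = 1 := by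
  have h := ((mem_eig ρ).mp hv) 1 R.one_mem
  rw [map_one, Module.End.one_apply] at h
  exact smul_left_injective K hv0 (by
    show lam 1 • v = (1 : K) • v
    rw [one_smul]
    exact h.symm)

theorem eig_lam_mul {R : Subgroup Γ} {lam : Γ → K} {v : V} (hv : v ∈ eig ρ R lam)
    (hv0 : v ≠ 0) : ∀ r ∈ R, ∀ r' ∈ R, lam (r * r') = lam r * lam r' := by
  intro r hr r' hr'
  have h := ((mem_eig ρ).mp hv) (r * r') (R.mul_mem hr hr')
  rw [map_mul, Module.End.mul_apply, ((mem_eig ρ).mp hv) r' hr', map_smul, ((mem_eig ρ).mp hv) r hr,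
    smul_smul, mul_comm] at h
  exact (smul_left_injective K hv0 h).symm

/-- Step 1: the stabilizer of a nontrivial eigen-function of `P` trivial on `Z`. -/
theorem key_step1 [Finite Γ] [Finite A] {p : ℕ} (hp : p.Prime)
    (hAcomm : ∀ x y : A, x * y = y * x) (hAexp : ∀ x : A, x ^ p = 1)
    (hAcard : Nat.card A = p ^ 2)
    (hequiv : ∀ (x : A) (g : Γ), op x * ρ g = ρ (act x g) * op x)
    (P Z : Subgroup Γ) (hPp : ¬ p ∣ Nat.card P) (hPA : ∀ x, ∀ u ∈ P, act x u ∈ P)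
    (hZP : Z ≤ P) (a : A) (hCPaZ : ∀ u ∈ P, act a u = u → u ∈ Z)
    (hnil : ∀ c : A, c ≠ 1 → ∀ u ∈ P, act c u = u → ∀ v : V, op c v = v → ρ u v = v)
    (hgen : ∀ Pc : Subgroup Γ, Z ≤ Pc → (∀ c : A, c ≠ 1 → ∀ u ∈ P, act c u = u → u ∈ Pc) → P ≤ Pc)
    (lam : Γ → K) (w : V) (hw : w ∈ eig ρ P lam) (hw0 : w ≠ 0) (hlamZ : ∀ z ∈ Z, lam z = 1)
    (u₁ : Γ) (hu₁ : u₁ ∈ P) (hlam1 : lam u₁ ≠ 1) :
    a ∉ stab act P hPA lam ∧ ∃ c₀ ∈ stab act P hPA lam, c₀ ∉ Subgroup.zpowers a ∧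
      ∀ c ∈ stab act P hPA lam, c ∈ Subgroup.zpowers c₀ := by
  haveI : Fact p.Prime := ⟨hp⟩
  have h1 := eig_lam_one hw hw0
  have hmul := eig_lam_mul hw hw0
  have hker : ∀ c : A, c ∉ stab act P hPA lam → ∀ u ∈ P, act c u = u → lam u = 1 := by
    intro c hc u hu hcu
    have hc1 : c ≠ 1 := by
      rintro rfl
      exact hc (Subgroup.one_mem _)
    have h2 := eig_triv hp hAexp hequiv P hPA lam c hc u hcu (hnil c hc1 u hu hcu)
      (fun v hv => by
        rw [((mem_eig ρ).mp hv) u hu]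
        exact Submodule.smul_mem _ _ hv) w hw
    rw [((mem_eig ρ).mp hw) u hu] at h2
    exact smul_left_injective K hw0 (by
      show lam u • w = (1 : K) • w
      rw [one_smul]
      exact h2)
  have ha : a ∉ stab act P hPA lam := by
    intro haS
    apply hlam1
    obtain ⟨x, hx1, hx2⟩ := exists_fixed_in_coset_single (act a)
      (by rw [← map_pow, hAexp, map_one])
      (kerSub P lam h1 hmul)
      (fun h => hPp (h.trans (Subgroup.card_dvd_of_le (fun r hr => hr.1))))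
      (fun n hn => ⟨hPA a n hn.1, by rw [haS n hn.1]; exact hn.2⟩) u₁
      ⟨P.mul_mem (P.inv_mem hu₁) (hPA a u₁ hu₁), by
        rw [hmul _ (P.inv_mem hu₁) _ (hPA a u₁ hu₁), haS u₁ hu₁, ← hmul _ (P.inv_mem hu₁) _ hu₁,
          inv_mul_cancel, h1]⟩
    have hxP : x ∈ P := by
      have e : x = u₁ * (u₁⁻¹ * x) := by group
      rw [e]
      exact P.mul_mem hu₁ hx1.1
    have hxZ := hCPaZ x hxP hx2
    have h3 := hmul u₁ hu₁ (u₁⁻¹ * x) hx1.1
    rw [hx1.2, mul_one] at h3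
    rw [← h3]
    have e : u₁ * (u₁⁻¹ * x) = x := by group
    rw [e]
    exact hlamZ x hxZ
  refine ⟨ha, ?_⟩
  by_contra hcon
  push Not at hcon
  have hall : ∀ c₀ ∈ stab act P hPA lam, c₀ ∈ Subgroup.zpowers a := by
    intro c₀ hc₀
    by_contra hc₀a
    obtain ⟨c, hc, hcc⟩ := hcon c₀ hc₀ hc₀a
    have hc₀1 : c₀ ≠ 1 := by
      rintro rfl
      exact hc₀a (Subgroup.one_mem _)
    exact ha (eq_top_of_two hp hAcomm hAexp hAcard _ hc₀ hc₀1 hc hcc a)
  have hnone : ∀ c : A, c ≠ 1 → c ∉ stab act P hPA lam := by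
    intro c hc1 hcS
    have h2 := mem_zpowers_swap hp hAexp hc1 (hall c hcS)
    exact ha ((Subgroup.zpowers_le.mpr hcS) h2)
  have hle := hgen (kerSub P lam h1 hmul) (fun z hz => ⟨hZP hz, hlamZ z hz⟩)
    (fun c hc1 u hu hcu => ⟨hu, hker c (hnone c hc1) u hu hcu⟩)
  exact hlam1 (hle hu₁).2

/-- Step 2: `T` fixes every eigen-function of `P` trivial on `Z`. -/
theorem key_step2 [Finite Γ] [Finite A] {p : ℕ} (hp : p.Prime)
    (hAcomm : ∀ x y : A, x * y = y * x) (hAexp : ∀ x : A, x ^ p = 1)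
    (hAcard : Nat.card A = p ^ 2)
    (hequiv : ∀ (x : A) (g : Γ), op x * ρ g = ρ (act x g) * op x)
    (P Z T : Subgroup Γ) (hPp : ¬ p ∣ Nat.card P) (hPA : ∀ x, ∀ u ∈ P, act x u ∈ P)
    (hZP : Z ≤ P) (a : A) (ha1 : a ≠ 1) (hCPaZ : ∀ u ∈ P, act a u = u → u ∈ Z)
    (hnil : ∀ c : A, c ≠ 1 → ∀ u ∈ P, act c u = u → ∀ v : V, op c v = v → ρ u v = v)
    (hgen : ∀ Pc : Subgroup Γ, Z ≤ Pc → (∀ c : A, c ≠ 1 → ∀ u ∈ P, act c u = u → u ∈ Pc) → P ≤ Pc)
    (hTp : ∀ t ∈ T, (orderOf t).Coprime p) (hTA : ∀ x, ∀ t ∈ T, act x t ∈ T)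
    (hPT : ∀ t ∈ T, ∀ u ∈ P, t * u * t⁻¹ ∈ P) (haT : ∀ t ∈ T, act a t = t)
    (hTfpf : ∀ c, c ∉ Subgroup.zpowers a → ∀ t ∈ T, act c t = t → t = 1)
    (hZT : ∀ z ∈ Z, ∀ t ∈ T, t * z = z * t)
    (lam : Γ → K) (w : V) (hw : w ∈ eig ρ P lam) (hw0 : w ≠ 0) (hlamZ : ∀ z ∈ Z, lam z = 1) :
    ∀ t ∈ T, ∀ u ∈ P, lam (t⁻¹ * u * t) = lam u := by
  have hPT' : ∀ t ∈ T, ∀ u ∈ P, t⁻¹ * u * t ∈ P := by
    intro t ht u hu
    have := hPT t⁻¹ (T.inv_mem ht) u hu
    rwa [inv_inv] at this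
  intro t ht
  by_cases htriv : ∀ u ∈ P, lam u = 1
  · intro u hu
    rw [htriv u hu, htriv _ (hPT' t ht u hu)]
  push Not at htriv
  obtain ⟨u₁, hu₁, hlam1⟩ := htriv
  obtain ⟨haS, c₀, hc₀S, hc₀a, hSc₀⟩ := key_step1 hp hAcomm hAexp hAcard hequiv P Z hPp hPA hZP a
    hCPaZ hnil hgen lam w hw hw0 hlamZ u₁ hu₁ hlam1
  obtain ⟨lamt, hlamt⟩ : ∃ lamt : Γ → K, lamt = fun g => lam (t⁻¹ * g * t) := ⟨_, rfl⟩
  have hlamt' : ∀ g, lamt g = lam (t⁻¹ * g * t) := by
    intro g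
    rw [hlamt]
  have hwt : ρ t w ∈ eig ρ P lamt := by
    rw [mem_eig]
    intro u hu
    have e : u * t = t * (t⁻¹ * u * t) := by group
    rw [← Module.End.mul_apply, ← map_mul, e, map_mul, Module.End.mul_apply,
      ((mem_eig ρ).mp hw) _ (hPT' t ht u hu), map_smul, hlamt']
  have hwt0 : ρ t w ≠ 0 := by
    intro h
    apply hw0
    have h2 : ρ t⁻¹ (ρ t w) = w := by
      rw [← Module.End.mul_apply, ← map_mul, inv_mul_cancel, map_one, Module.End.one_apply]
    rw [← h2, h, map_zero]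
  have hlamtZ : ∀ z ∈ Z, lamt z = 1 := by
    intro z hz
    rw [hlamt']
    have e : t⁻¹ * z * t = z := by
      rw [mul_assoc, ← hZT z hz t ht]
      group
    rw [e]
    exact hlamZ z hz
  have hlamt1 : lamt (t * u₁ * t⁻¹) ≠ 1 := by
    rw [hlamt']
    have e : t⁻¹ * (t * u₁ * t⁻¹) * t = u₁ := by group
    rw [e]
    exact hlam1
  obtain ⟨-, c₁, hc₁S, hc₁a, hSc₁⟩ := key_step1 hp hAcomm hAexp hAcard hequiv P Z hPp hPA hZP a
    hCPaZ hnil hgen lamt (ρ t w) hwt hwt0 hlamtZ (t * u₁ * t⁻¹) (hPT t ht u₁ hu₁) hlamt1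
  have hc₀1 : c₀ ≠ 1 := by
    rintro rfl
    exact hc₀a (Subgroup.one_mem _)
  have hc₁1 : c₁ ≠ 1 := by
    rintro rfl
    exact hc₁a (Subgroup.one_mem _)
  have htransfer : ∀ (a' e : A), act a' t = t → e ∈ stab act P hPA lam →
      a' * e ∈ stab act P hPA lamt → ∀ u ∈ P,
      lam ((t⁻¹ * act e⁻¹ t)⁻¹ * act a' u * (t⁻¹ * act e⁻¹ t)) = lam u := by
    intro a' e ha't heS hSt u hu
    have hν : t⁻¹ * act e⁻¹ t ∈ T := T.mul_mem (T.inv_mem ht) (hTA _ t ht)
    have hmemP : (t⁻¹ * act e⁻¹ t)⁻¹ * act a' u * (t⁻¹ * act e⁻¹ t) ∈ P :=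
      hPT' _ hν _ (hPA a' u hu)
    have h2 := hSt (t * u * t⁻¹) (hPT t ht u hu)
    rw [hlamt', hlamt'] at h2
    have e1 : t⁻¹ * (t * u * t⁻¹) * t = u := by group
    rw [e1] at h2
    have e2 : t⁻¹ * act (a' * e) (t * u * t⁻¹) * t =
        act e ((t⁻¹ * act e⁻¹ t)⁻¹ * act a' u * (t⁻¹ * act e⁻¹ t)) := by
      rw [hAcomm a' e, map_mul act e a', MulAut.mul_apply]
      simp only [map_mul, map_inv, ha't]
      rw [MulAut.apply_inv_self]
      group
    rw [e2, heS _ hmemP] at h2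
    exact h2
  by_cases hcase : c₁ ∈ Subgroup.zpowers c₀
  · -- both stabilizers contain `c₀`
    have hc₀St : c₀ ∈ stab act P hPA lamt :=
      (Subgroup.zpowers_le.mpr hc₁S) (mem_zpowers_swap hp hAexp hc₁1 hcase)
    have hd : c₀⁻¹ ∈ stab act P hPA lam := Subgroup.inv_mem _ hc₀S
    have hda : c₀⁻¹ ∉ Subgroup.zpowers a := by
      intro h
      have := Subgroup.inv_mem _ h
      rw [inv_inv] at this
      exact hc₀a this
    have h1t : act (1 : A) t = t := by rw [map_one, MulAut.one_apply]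
    have htr := htransfer 1 c₀ h1t hc₀S (by rw [one_mul]; exact hc₀St)
    let Tχ : Subgroup Γ :=
      { carrier := {τ | τ ∈ T ∧ ∀ u ∈ P, lam (τ⁻¹ * u * τ) = lam u}
        one_mem' := ⟨T.one_mem, fun u _ => by rw [inv_one, one_mul, mul_one]⟩
        mul_mem' := by
          rintro τ τ' ⟨hτ, h1⟩ ⟨hτ', h1'⟩
          refine ⟨T.mul_mem hτ hτ', fun u hu => ?_⟩
          have e : (τ * τ')⁻¹ * u * (τ * τ') = τ'⁻¹ * (τ⁻¹ * u * τ) * τ' := by group
          rw [e, h1' _ (hPT' τ hτ u hu), h1 u hu]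
        inv_mem' := by
          rintro τ ⟨hτ, h1⟩
          refine ⟨T.inv_mem hτ, fun u hu => ?_⟩
          have h2 := h1 (τ * u * τ⁻¹) (hPT τ hτ u hu)
          have e : τ⁻¹ * (τ * u * τ⁻¹) * τ = u := by group
          rw [e] at h2
          rw [inv_inv]
          exact h2.symm }
    have hTχ : ∀ τ, τ ∈ Tχ ↔ τ ∈ T ∧ ∀ u ∈ P, lam (τ⁻¹ * u * τ) = lam u := fun τ => Iff.rfl
    have hTχd : ∀ τ ∈ Tχ, act c₀⁻¹ τ ∈ Tχ := by
      intro τ hτ
      rw [hTχ] at hτ ⊢
      refine ⟨hTA _ τ hτ.1, fun u hu => ?_⟩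
      have e : (act c₀⁻¹ τ)⁻¹ * u * act c₀⁻¹ τ =
          act c₀⁻¹ (τ⁻¹ * act c₀⁻¹⁻¹ u * τ) := by
        simp only [map_mul, map_inv]
        rw [MulAut.apply_inv_self]
      rw [e, hd _ (hPT' τ hτ.1 _ (hPA _ u hu)), hτ.2 _ (hPA _ u hu)]
      have := Subgroup.inv_mem _ hd
      exact this u hu
    have hνT : t⁻¹ * act c₀⁻¹ t ∈ T := T.mul_mem (T.inv_mem ht) (hTA _ t ht)
    have hν : t⁻¹ * act c₀⁻¹ t ∈ Tχ := by
      rw [hTχ]
      refine ⟨hνT, fun u hu => ?_⟩
      have h3 := htr u hu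
      rw [map_one, MulAut.one_apply] at h3
      exact h3
    obtain ⟨n, hn, hnν⟩ := fpf_surj Tχ (act c₀⁻¹) hTχd
      (fun τ hτ h => hTfpf c₀⁻¹ hda τ ((hTχ τ).mp hτ).1 h) _ hν
    have hnT : n ∈ T := ((hTχ n).mp hn).1
    have h3 : act c₀⁻¹ n = n * (t⁻¹ * act c₀⁻¹ t) := by
      rw [← hnν]
      group
    have h4 : act c₀⁻¹ (t * n⁻¹) = t * n⁻¹ := by
      rw [map_mul (act c₀⁻¹) t n⁻¹, map_inv (act c₀⁻¹) n, h3]
      group
    have h5 := hTfpf c₀⁻¹ hda (t * n⁻¹) (T.mul_mem ht (T.inv_mem hnT)) h4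
    have h6 : t = n := mul_inv_eq_one.mp h5
    rw [h6]
    exact ((hTχ n).mp hn).2
  · -- `c₁ = a^m c₀^k` with `a^m ≠ 1`
    exfalso
    obtain ⟨m, k, hmk⟩ := exists_zpow_mul hp hAcomm hAexp hAcard ha1 hc₀a c₁
    have ha'1 : a ^ m ≠ 1 := by
      intro h
      rw [h, one_mul] at hmk
      exact hcase (hmk ▸ Subgroup.zpow_mem_zpowers c₀ k)
    have ha'mem : a ^ m ∈ Subgroup.zpowers a := Subgroup.zpow_mem_zpowers a m
    have ha'T : ∀ τ ∈ T, act (a ^ m) τ = τ := fun τ hτ =>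
      act_eq_of_mem_zpowers act ha'mem (haT τ hτ)
    have heS : c₀ ^ k ∈ stab act P hPA lam := Subgroup.zpow_mem _ hc₀S k
    have htr := htransfer (a ^ m) (c₀ ^ k) (ha'T t ht) heS (by rw [hmk]; exact hc₁S)
    obtain ⟨ν, hνdef⟩ : ∃ ν : Γ, ν = t⁻¹ * act (c₀ ^ k)⁻¹ t := ⟨_, rfl⟩
    rw [← hνdef] at htr
    have hνT : ν ∈ T := by
      rw [hνdef]
      exact T.mul_mem (T.inv_mem ht) (hTA _ t ht)
    obtain ⟨Ψ, hΨdef⟩ : ∃ Ψ : MulAut Γ, Ψ = MulAut.conj ν⁻¹ * act (a ^ m) := ⟨_, rfl⟩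
    have hΨ : ∀ g, Ψ g = ν⁻¹ * act (a ^ m) g * ν := by
      intro g
      rw [hΨdef, MulAut.mul_apply, MulAut.conj_apply, inv_inv]
    have hΨj : ∀ j : ℕ, ∀ u ∈ P, (Ψ ^ j) u ∈ P ∧ lam ((Ψ ^ j) u) = lam u := by
      intro j
      induction j with
      | zero =>
        intro u hu
        rw [pow_zero, MulAut.one_apply]
        exact ⟨hu, rfl⟩
      | succ j ih =>
        intro u hu
        obtain ⟨ih1, ih2⟩ := ih u hu
        rw [pow_succ', MulAut.mul_apply, hΨ]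
        exact ⟨hPT' ν hνT _ (hPA _ _ ih1), (htr _ ih1).trans ih2⟩
    have hcommΨ : Commute (MulAut.conj ν⁻¹) (act (a ^ m)) := by
      apply MulEquiv.ext
      intro g
      rw [MulAut.mul_apply, MulAut.mul_apply, MulAut.conj_apply, MulAut.conj_apply, inv_inv,
        map_mul (act (a ^ m)), map_mul (act (a ^ m)), map_inv (act (a ^ m)), ha'T ν hνT]
    have hΨo : Ψ ^ orderOf ν = act ((a ^ m) ^ orderOf ν) := by
      rw [hΨdef, hcommΨ.mul_pow, ← map_pow, ← map_pow, inv_pow, pow_orderOf_eq_one, inv_one,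
        map_one, one_mul]
    have hmemS : (a ^ m) ^ orderOf ν ∈ stab act P hPA lam := by
      intro u hu
      have h3 := (hΨj (orderOf ν) u hu).2
      rw [hΨo] at h3
      exact h3
    have hne1 : (a ^ m) ^ orderOf ν ≠ 1 := by
      intro h
      have h3 := orderOf_dvd_of_pow_eq_one h
      rw [orderOf_eq_prime hp hAexp ha'1] at h3
      exact hp.ne_one (Nat.Coprime.eq_one_of_dvd (hTp ν hνT).symm h3)
    have h7 : a ∈ Subgroup.zpowers ((a ^ m) ^ orderOf ν) :=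
      mem_zpowers_swap hp hAexp hne1 (Subgroup.pow_mem _ ha'mem _)
    exact haS ((Subgroup.zpowers_le.mpr hmemS) h7)

/-- The case of an eigenspace of `Z` for a nontrivial eigen-function. -/
theorem key_caseB [Finite Γ] [Finite A] {p : ℕ} (hp : p.Prime)
    (hAcomm : ∀ x y : A, x * y = y * x) (hAexp : ∀ x : A, x ^ p = 1)
    (hAcard : Nat.card A = p ^ 2)
    (hequiv : ∀ (x : A) (g : Γ), op x * ρ g = ρ (act x g) * op x)
    (P Z T : Subgroup Γ) (hZA : ∀ x, ∀ z ∈ Z, act x z ∈ Z)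
    (hZP : Z ≤ P) (a : A) (hCPaZ : ∀ u ∈ P, act a u = u → u ∈ Z)
    (hnil : ∀ c : A, c ≠ 1 → ∀ u ∈ P, act c u = u → ∀ v : V, op c v = v → ρ u v = v)
    (hgen : ∀ Pc : Subgroup Γ, Z ≤ Pc → (∀ c : A, c ≠ 1 → ∀ u ∈ P, act c u = u → u ∈ Pc) → P ≤ Pc)
    (hTA : ∀ x, ∀ t ∈ T, act x t ∈ T)
    (hPT : ∀ t ∈ T, ∀ u ∈ P, t * u * t⁻¹ ∈ P)
    (hTfpf : ∀ c, c ∉ Subgroup.zpowers a → ∀ t ∈ T, act c t = t → t = 1)
    (hZT : ∀ z ∈ Z, ∀ t ∈ T, t * z = z * t) (hZc : ∀ z ∈ Z, ∀ u ∈ P, u * z = z * u)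
    (lam : Γ → K) (v₀ : V) (hv₀ : v₀ ∈ eig ρ Z lam) (hv₀0 : v₀ ≠ 0)
    (hstab : ∃ x : A, x ∉ stab act Z hZA lam) :
    ∀ v ∈ eig ρ Z lam, ∀ t ∈ T, ∀ u ∈ P, ρ t (ρ u v) = ρ u (ρ t v) := by
  have hcentE : ∀ g : Γ, (∀ z ∈ Z, g * z = z * g) → ∀ v ∈ eig ρ Z lam,
      ρ g v ∈ eig ρ Z lam := by
    intro g hg v hv
    rw [mem_eig]
    intro z hz
    rw [← Module.End.mul_apply, ← map_mul, ← hg z hz, map_mul, Module.End.mul_apply,
      ((mem_eig ρ).mp hv) z hz, map_smul]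
  have hPE : ∀ g ∈ P, ∀ v ∈ eig ρ Z lam, ρ g v ∈ eig ρ Z lam :=
    fun g hg => hcentE g (fun z hz => hZc z hz g hg)
  have hTE : ∀ t ∈ T, ∀ v ∈ eig ρ Z lam, ρ t v ∈ eig ρ Z lam :=
    fun t ht => hcentE t (fun z hz => hZT z hz t ht)
  obtain ⟨x₀, hx₀⟩ := hstab
  by_cases hB : ∃ c₀ ∈ stab act Z hZA lam, c₀ ∉ Subgroup.zpowers a
  · obtain ⟨c₀, hc₀S, hc₀a⟩ := hB
    have hc₀1 : c₀ ≠ 1 := by
      rintro rfl
      exact hc₀a (Subgroup.one_mem _)
    have hopE : ∀ v ∈ eig ρ Z lam, op c₀ v ∈ eig ρ Z lam :=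
      fun v hv => op_mem_eig_of_stab hequiv Z hZA lam hc₀S v hv
    have hopE' : ∀ v ∈ eig ρ Z lam, op c₀⁻¹ v ∈ eig ρ Z lam :=
      fun v hv => op_mem_eig_of_stab hequiv Z hZA lam (Subgroup.inv_mem _ hc₀S) v hv
    have hopinv : ∀ v, op c₀ (op c₀⁻¹ v) = v := by
      intro v
      rw [← Module.End.mul_apply, ← map_mul, mul_inv_cancel, map_one, Module.End.one_apply]
    let Pc : Subgroup Γ :=
      { carrier := {g | (∀ v ∈ eig ρ Z lam, ρ g v ∈ eig ρ Z lam) ∧
          (∀ v ∈ eig ρ Z lam, ρ g⁻¹ v ∈ eig ρ Z lam) ∧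
          ∀ v ∈ eig ρ Z lam, ρ g (op c₀ v) = op c₀ (ρ g v)}
        one_mem' := by
          refine ⟨?_, ?_, ?_⟩
          · intro v hv
            rw [map_one]
            exact hv
          · intro v hv
            rw [inv_one, map_one]
            exact hv
          · intro v hv
            rw [map_one]
            rfl
        mul_mem' := by
          rintro g g' ⟨h1, h2, h3⟩ ⟨h1', h2', h3'⟩
          refine ⟨?_, ?_, ?_⟩
          · intro v hv
            rw [map_mul]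
            exact h1 _ (h1' v hv)
          · intro v hv
            rw [mul_inv_rev, map_mul]
            exact h2' _ (h2 v hv)
          · intro v hv
            rw [map_mul, Module.End.mul_apply, Module.End.mul_apply, h3' v hv,
              h3 _ (h1' v hv)]
        inv_mem' := by
          rintro g ⟨h1, h2, h3⟩
          refine ⟨h2, ?_, ?_⟩
          · rw [inv_inv]
            exact h1
          · intro v hv
            have h4 := h3 _ (h2 v hv)
            have h5 : ρ g (ρ g⁻¹ v) = v := by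
              rw [← Module.End.mul_apply, ← map_mul, mul_inv_cancel, map_one,
                Module.End.one_apply]
            rw [h5] at h4
            rw [← h4, ← Module.End.mul_apply, ← map_mul, inv_mul_cancel, map_one,
              Module.End.one_apply] }
    have hPc : ∀ g, g ∈ Pc → (∀ v ∈ eig ρ Z lam, ρ g v ∈ eig ρ Z lam) ∧
          (∀ v ∈ eig ρ Z lam, ρ g⁻¹ v ∈ eig ρ Z lam) ∧
          ∀ v ∈ eig ρ Z lam, ρ g (op c₀ v) = op c₀ (ρ g v) := fun g hg => hg
    have hZPc : Z ≤ Pc := by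
      intro z hz
      refine ⟨hPE z (hZP hz), hPE z⁻¹ (P.inv_mem (hZP hz)), ?_⟩
      intro v hv
      rw [((mem_eig ρ).mp (hopE v hv)) z hz, ((mem_eig ρ).mp hv) z hz, map_smul]
    have hfixPc : ∀ c : A, c ≠ 1 → ∀ u ∈ P, act c u = u → u ∈ Pc := by
      intro c hc1 u hu hcu
      refine ⟨hPE u hu, hPE u⁻¹ (P.inv_mem hu), ?_⟩
      intro v hv
      by_cases hcc : c ∈ Subgroup.zpowers c₀
      · have h1 : act c₀ u = u :=
          act_eq_of_mem_zpowers act (mem_zpowers_swap hp hAexp hc1 hcc) hcu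
        have h2 := LinearMap.congr_fun (hequiv c₀ u) v
        simp only [Module.End.mul_apply] at h2
        rw [h1] at h2
        exact h2.symm
      · have hcS : c ∉ stab act Z hZA lam := by
          intro hcS
          exact hx₀ (eq_top_of_two hp hAcomm hAexp hAcard _ hc₀S hc₀1 hcS hcc x₀)
        have h3 := eig_triv hp hAexp hequiv Z hZA lam c hcS u hcu (hnil c hc1 u hu hcu)
          (hPE u hu)
        rw [h3 v hv, h3 _ (hopE v hv)]
    have hPPc := hgen Pc hZPc hfixPc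
    intro v hv t ht u hu
    obtain ⟨τ, hτ, rfl⟩ := fpf_surj T (act c₀) (hTA c₀) (hTfpf c₀ hc₀a) t ht
    have hswap : ∀ y : V, ρ (act c₀ τ) (op c₀ y) = op c₀ (ρ τ y) := by
      intro y
      have h2 := LinearMap.congr_fun (hequiv c₀ τ) y
      simp only [Module.End.mul_apply] at h2
      exact h2.symm
    have hconj : ∀ y : V, ρ τ (ρ u y) = ρ (τ * u * τ⁻¹) (ρ τ y) := by
      intro y
      rw [← Module.End.mul_apply, ← Module.End.mul_apply, ← map_mul, ← map_mul]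
      have e0 : τ * u * τ⁻¹ * τ = τ * u := by group
      rw [e0]
    have hkey : ρ (act c₀ τ) (ρ u v) = ρ (τ * u * τ⁻¹) (ρ (act c₀ τ) v) := by
      have hw := hopE' v hv
      have e1 : ρ u v = op c₀ (ρ u (op c₀⁻¹ v)) := by
        rw [← (hPc u (hPPc hu)).2.2 _ hw, hopinv]
      have e2 : ρ (act c₀ τ) v = op c₀ (ρ τ (op c₀⁻¹ v)) := by
        rw [← hswap, hopinv]
      rw [e1, hswap, e2, (hPc _ (hPPc (hPT τ hτ u hu))).2.2 _ (hTE τ hτ _ hw), hconj]
    have hfin : ∀ X : V, ρ τ⁻¹ (ρ (τ * u * τ⁻¹) X) = ρ u (ρ τ⁻¹ X) := by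
      intro X
      rw [← Module.End.mul_apply, ← Module.End.mul_apply, ← map_mul, ← map_mul]
      have e0 : τ⁻¹ * (τ * u * τ⁻¹) = u * τ⁻¹ := by group
      rw [e0]
    rw [map_mul, Module.End.mul_apply, Module.End.mul_apply, hkey]
    exact hfin _
  · push Not at hB
    let Pc : Subgroup Γ :=
      { carrier := {g | ∃ μ : K, ∀ v ∈ eig ρ Z lam, ρ g v = μ • v}
        one_mem' := ⟨1, fun v _ => by rw [map_one, one_smul]; rfl⟩
        mul_mem' := by
          rintro g g' ⟨μ, hμ⟩ ⟨μ', hμ'⟩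
          refine ⟨μ * μ', fun v hv => ?_⟩
          rw [map_mul, Module.End.mul_apply, hμ' v hv, map_smul, hμ v hv, smul_smul, mul_comm]
        inv_mem' := by
          rintro g ⟨μ, hμ⟩
          have hμ0 : μ ≠ 0 := by
            rintro rfl
            apply hv₀0
            have h5 : ρ g⁻¹ (ρ g v₀) = v₀ := by
              rw [← Module.End.mul_apply, ← map_mul, inv_mul_cancel, map_one,
                Module.End.one_apply]
            rw [← h5, hμ v₀ hv₀, zero_smul, map_zero]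
          refine ⟨μ⁻¹, fun v hv => ?_⟩
          have h5 : ρ g⁻¹ (ρ g v) = v := by
            rw [← Module.End.mul_apply, ← map_mul, inv_mul_cancel, map_one,
              Module.End.one_apply]
          rw [hμ v hv, map_smul] at h5
          calc ρ g⁻¹ v = μ⁻¹ • (μ • ρ g⁻¹ v) := by
                rw [smul_smul, inv_mul_cancel₀ hμ0, one_smul]
            _ = μ⁻¹ • v := by rw [h5] }
    have hPc : ∀ g, g ∈ Pc → ∃ μ : K, ∀ v ∈ eig ρ Z lam, ρ g v = μ • v := fun g hg => hg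
    have hZPc : Z ≤ Pc := fun z hz => ⟨lam z, fun v hv => ((mem_eig ρ).mp hv) z hz⟩
    have hfixPc : ∀ c : A, c ≠ 1 → ∀ u ∈ P, act c u = u → u ∈ Pc := by
      intro c hc1 u hu hcu
      by_cases hca : c ∈ Subgroup.zpowers a
      · have h1 : act a u = u :=
          act_eq_of_mem_zpowers act (mem_zpowers_swap hp hAexp hc1 hca) hcu
        exact hZPc (hCPaZ u hu h1)
      · have hcS : c ∉ stab act Z hZA lam := fun h => hca (hB c h)
        have h3 := eig_triv hp hAexp hequiv Z hZA lam c hcS u hcu (hnil c hc1 u hu hcu)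
          (hPE u hu)
        exact ⟨1, fun v hv => by rw [h3 v hv, one_smul]⟩
    have hPPc := hgen Pc hZPc hfixPc
    intro v hv t ht u hu
    obtain ⟨μ, hμ⟩ := hPc u (hPPc hu)
    rw [hμ v hv, hμ _ (hTE t ht v hv), map_smul]

/-- **Key proposition for Ward's theorem.**  Let `A` be elementary abelian of order `p²`
acting on `Γ` and compatibly on the module `V`, `T` an `A`-invariant subgroup of order prime
to `p q` centralized by `a ∈ A` on which every element of `A` outside `⟨a⟩` acts without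
fixed points.  If `P` is an `A`- and `T`-invariant `q`-subgroup acting faithfully on `V` with
`C_P(A) = 1`, `C_P(a)` centralized by `T`, and such that `C_P(c)` acts trivially on `C_V(c)`
for all `c ≠ 1`, then `T` centralizes `P`. -/
theorem ward_key [IsAlgClosed K] [FiniteDimensional K V] [Finite Γ] [Finite A] {p q : ℕ}
    (hp : p.Prime) (hq : q.Prime) (hpq : p ≠ q) (hqK : (q : K) ≠ 0)
    (hAcomm : ∀ x y : A, x * y = y * x) (hAexp : ∀ x : A, x ^ p = 1)
    (hAcard : Nat.card A = p ^ 2)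
    (hequiv : ∀ (x : A) (g : Γ), op x * ρ g = ρ (act x g) * op x)
    (T : Subgroup Γ) (hTq : ∀ t ∈ T, (orderOf t).Coprime q)
    (hTp : ∀ t ∈ T, (orderOf t).Coprime p) (hTA : ∀ x, ∀ t ∈ T, act x t ∈ T)
    (a : A) (ha1 : a ≠ 1) (haT : ∀ t ∈ T, act a t = t)
    (hTfpf : ∀ c, c ∉ Subgroup.zpowers a → ∀ t ∈ T, act c t = t → t = 1) :
    ∀ n, ∀ P : Subgroup Γ, Nat.card P = n → IsPGroup q P → (∀ x, ∀ u ∈ P, act x u ∈ P) →
      (∀ t ∈ T, ∀ u ∈ P, t * u * t⁻¹ ∈ P) → (∀ u ∈ P, (∀ x, act x u = u) → u = 1) →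
      (∀ u ∈ P, act a u = u → ∀ t ∈ T, t * u = u * t) →
      (∀ c : A, c ≠ 1 → ∀ u ∈ P, act c u = u → ∀ v : V, op c v = v → ρ u v = v) →
      (∀ u ∈ P, ρ u = 1 → u = 1) → ∀ u ∈ P, ∀ t ∈ T, t * u = u * t := by
  classical
  haveI : Fact p.Prime := ⟨hp⟩
  haveI : Fact q.Prime := ⟨hq⟩
  have hA : IsPGroup p A := isPGroup_of_card_sq hp hAcard
  intro n
  induction n using Nat.strong_induction_on with
  | _ n IH =>
  intro P hPn hPq hPA hPT hPfpf hCPa hnil hfaith
  by_contra hcon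
  push Not at hcon
  obtain ⟨u₀, hu₀, t₀, ht₀, hne₀⟩ := hcon
  have hsmall : ∀ Q : Subgroup Γ, Q ≤ P → Q ≠ P → (∀ x, ∀ u ∈ Q, act x u ∈ Q) →
      (∀ t ∈ T, ∀ u ∈ Q, t * u * t⁻¹ ∈ Q) → ∀ u ∈ Q, ∀ t ∈ T, t * u = u * t := by
    intro Q hQP hQne hQA hQT
    have hlt : Nat.card Q < n := by
      rw [← hPn]
      by_contra hge
      push Not at hge
      exact hQne (Subgroup.eq_of_le_of_card_ge hQP hge)
    exact IH (Nat.card Q) hlt Q rfl (hPq.to_le hQP) hQA hQT (fun u hu => hPfpf u (hQP hu))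
      (fun u hu => hCPa u (hQP hu)) (fun c hc u hu => hnil c hc u (hQP hu))
      (fun u hu => hfaith u (hQP hu))
  have hPT' : ∀ t ∈ T, ∀ u ∈ P, t⁻¹ * u * t ∈ P := by
    intro t ht u hu
    have := hPT t⁻¹ (T.inv_mem ht) u hu
    rwa [inv_inv] at this
  -- `⁅P, T⁆ = P`
  have hDP : ⁅P, T⁆ ≤ P := by
    rw [Subgroup.commutator_le]
    intro u hu t ht
    have e : ⁅u, t⁆ = u * (t * u⁻¹ * t⁻¹) := by
      rw [commutatorElement_def]
      group
    rw [e]
    exact P.mul_mem hu (hPT t ht _ (P.inv_mem hu))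
  have hcommA : ∀ (H₁ H₂ : Subgroup Γ), (∀ x, ∀ u ∈ H₁, act x u ∈ H₁) →
      (∀ x, ∀ u ∈ H₂, act x u ∈ H₂) → ∀ x, ∀ u ∈ ⁅H₁, H₂⁆, act x u ∈ ⁅H₁, H₂⁆ := by
    intro H₁ H₂ h₁ h₂ x u hu
    have h1 : (⁅H₁, H₂⁆).map (act x).toMonoidHom ≤ ⁅H₁, H₂⁆ := by
      rw [Subgroup.map_commutator]
      apply Subgroup.commutator_mono
      · rintro _ ⟨g, hg, rfl⟩
        exact h₁ x g hg
      · rintro _ ⟨g, hg, rfl⟩
        exact h₂ x g hg
    exact h1 ⟨u, hu, rfl⟩
  have hcommT : ∀ (H₁ H₂ : Subgroup Γ), (∀ t ∈ T, ∀ u ∈ H₁, t * u * t⁻¹ ∈ H₁) →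
      (∀ t ∈ T, ∀ u ∈ H₂, t * u * t⁻¹ ∈ H₂) →
      ∀ t ∈ T, ∀ u ∈ ⁅H₁, H₂⁆, t * u * t⁻¹ ∈ ⁅H₁, H₂⁆ := by
    intro H₁ H₂ h₁ h₂ t ht u hu
    have h1 : (⁅H₁, H₂⁆).map (MulAut.conj t).toMonoidHom ≤ ⁅H₁, H₂⁆ := by
      rw [Subgroup.map_commutator]
      apply Subgroup.commutator_mono
      · rintro _ ⟨g, hg, rfl⟩
        exact h₁ t ht g hg
      · rintro _ ⟨g, hg, rfl⟩
        exact h₂ t ht g hg
    exact h1 ⟨u, hu, rfl⟩
  have hTT : ∀ t ∈ T, ∀ u ∈ T, t * u * t⁻¹ ∈ T :=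
    fun t ht u hu => T.mul_mem (T.mul_mem ht hu) (T.inv_mem ht)
  have hDeq : ⁅P, T⁆ = P := by
    by_contra hDne
    have hcent := hsmall ⁅P, T⁆ hDP hDne (hcommA P T hPA hTA) (hcommT P T hPT hTT)
    apply hne₀
    have hmem : t₀ * u₀ * t₀⁻¹ * u₀⁻¹ ∈ ⁅P, T⁆ := by
      rw [Subgroup.commutator_comm]
      exact Subgroup.commutator_mem_commutator ht₀ hu₀
    apply commute_of_commute_commutator t₀ u₀ (hcent _ hmem t₀ ht₀)
    have hmemP := hDP hmem
    obtain ⟨k, hk⟩ := (IsPGroup.iff_orderOf.mp hPq) ⟨_, hmemP⟩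
    rw [Subgroup.orderOf_mk] at hk
    rw [hk]
    exact Nat.Coprime.pow_left k ((hTq t₀ ht₀).symm)
  have hP'P : ⁅P, P⁆ ≤ P := by
    rw [Subgroup.commutator_le]
    intro g₁ h₁ g₂ h₂
    exact P.mul_mem (P.mul_mem (P.mul_mem h₁ h₂) (P.inv_mem h₁)) (P.inv_mem h₂)
  have hP'ne : ⁅P, P⁆ ≠ P := by
    intro heq
    haveI : Nontrivial ↥P := by
      refine ⟨⟨⟨u₀, hu₀⟩, 1, ?_⟩⟩
      intro h
      have h1 : u₀ = 1 := congrArg Subtype.val h
      apply hne₀
      rw [h1, mul_one, one_mul]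
    haveI : Group.IsNilpotent ↥P := hPq.isNilpotent
    have hlt := Group.IsSolvable.commutator_lt_top_of_nontrivial ↥P
    apply ne_of_lt hlt
    have h2 : (commutator ↥P).map P.subtype = ⁅P, P⁆ := by
      rw [commutator_def, Subgroup.map_commutator, ← MonoidHom.range_eq_map,
        Subgroup.range_subtype]
    have h3 : (commutator ↥P).map P.subtype = (⊤ : Subgroup ↥P).map P.subtype := by
      rw [h2, heq, ← MonoidHom.range_eq_map, Subgroup.range_subtype]
    exact Subgroup.map_injective P.subtype_injective h3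
  have hP'cent := hsmall ⁅P, P⁆ hP'P hP'ne (hcommA P P hPA hPA) (hcommT P P hPT hPT)
  -- the subgroup `Z = C_P(T)`
  obtain ⟨Z, hZdef⟩ : ∃ Z : Subgroup Γ, Z = P ⊓ Subgroup.centralizer (T : Set Γ) := ⟨_, rfl⟩
  have hZmem : ∀ g, g ∈ Z ↔ g ∈ P ∧ ∀ t ∈ T, t * g = g * t := by
    intro g
    rw [hZdef, Subgroup.mem_inf, Subgroup.mem_centralizer_iff]
    rfl
  have hZP : Z ≤ P := fun g hg => ((hZmem g).mp hg).1
  have hZT : ∀ z ∈ Z, ∀ t ∈ T, t * z = z * t := fun z hz => ((hZmem z).mp hz).2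
  have hP'Z : ⁅P, P⁆ ≤ Z := fun g hg => (hZmem g).mpr ⟨hP'P hg, hP'cent g hg⟩
  have hZA : ∀ x, ∀ z ∈ Z, act x z ∈ Z := by
    intro x z hz
    rw [hZmem]
    refine ⟨hPA x z (hZP hz), ?_⟩
    intro t ht
    have h1 := hZT z hz (act x⁻¹ t) (hTA x⁻¹ t ht)
    have h2 := congrArg (act x) h1
    rw [map_mul, map_mul, act_inv_act] at h2
    exact h2
  have hCPaZ : ∀ u ∈ P, act a u = u → u ∈ Z :=
    fun u hu hau => (hZmem u).mpr ⟨hu, hCPa u hu hau⟩
  have hZc : ∀ z ∈ Z, ∀ u ∈ P, u * z = z * u := by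
    have h1 : ⁅⁅P, Z⁆, T⁆ = ⊥ := by
      rw [Subgroup.commutator_eq_bot_iff_le_centralizer]
      refine le_trans (Subgroup.commutator_mono le_rfl hZP) ?_
      intro g hg
      rw [Subgroup.mem_centralizer_iff]
      intro t ht
      exact hP'cent g hg t ht
    have h2 : ⁅⁅Z, T⁆, P⁆ = ⊥ := by
      have h3 : ⁅Z, T⁆ = ⊥ := by
        rw [Subgroup.commutator_eq_bot_iff_le_centralizer]
        intro g hg
        rw [Subgroup.mem_centralizer_iff]
        intro t ht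
        exact hZT g hg t ht
      rw [h3, Subgroup.commutator_bot_left]
    have h4 := Subgroup.commutator_commutator_eq_bot_of_rotate h1 h2
    rw [Subgroup.commutator_comm T P, hDeq,
      Subgroup.commutator_eq_bot_iff_le_centralizer] at h4
    intro z hz u hu
    have h5 := h4 hu
    rw [Subgroup.mem_centralizer_iff] at h5
    exact (h5 z hz).symm
  have hPp : ¬ p ∣ Nat.card P := by
    obtain ⟨j, hj⟩ := (IsPGroup.iff_card).mp hPq
    rw [hj]
    intro h
    exact hpq ((Nat.prime_dvd_prime_iff_eq hp hq).mp (hp.dvd_of_dvd_pow h))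
  have hZp : ¬ p ∣ Nat.card Z := fun h => hPp (h.trans (Subgroup.card_dvd_of_le hZP))
  -- generation by centralizers
  have hgen : ∀ Pc : Subgroup Γ, Z ≤ Pc →
      (∀ c : A, c ≠ 1 → ∀ u ∈ P, act c u = u → u ∈ Pc) → P ≤ Pc := by
    intro Pc hZPc hfix
    obtain ⟨S, hS⟩ : ∃ S : Set Γ,
        S = (Z : Set Γ) ∪ {u | u ∈ P ∧ ∃ c : A, c ≠ 1 ∧ act c u = u} := ⟨_, rfl⟩
    have hSP : Subgroup.closure S ≤ P := by
      rw [Subgroup.closure_le, hS]
      rintro g (hg | hg)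
      · exact hZP hg
      · exact hg.1
    have hSPc : Subgroup.closure S ≤ Pc := by
      rw [Subgroup.closure_le, hS]
      rintro g (hg | ⟨hg, c, hc1, hcg⟩)
      · exact hZPc hg
      · exact hfix c hc1 g hg hcg
    have hHA : ∀ x, ∀ u ∈ Subgroup.closure S, act x u ∈ Subgroup.closure S := by
      intro x u hu
      have h1 : Subgroup.closure S ≤ (Subgroup.closure S).comap (act x).toMonoidHom := by
        rw [Subgroup.closure_le]
        intro g hg
        show act x g ∈ Subgroup.closure S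
        apply Subgroup.subset_closure
        rw [hS] at hg ⊢
        rcases hg with hg | ⟨hg, c, hc1, hcg⟩
        · exact Or.inl (hZA x g hg)
        · refine Or.inr ⟨hPA x g hg, c, hc1, ?_⟩
          rw [← MulAut.mul_apply, ← map_mul, hAcomm c x, map_mul, MulAut.mul_apply, hcg]
      exact h1 hu
    have h2 := gen_core hp hq hpq hAcomm hAexp hAcard act P (Subgroup.closure S) hPq hSP
      (le_trans hP'Z (by
        intro z hz
        apply Subgroup.subset_closure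
        rw [hS]
        exact Or.inl hz)) hPA hHA
      (by
        intro c hc1 u hu hcu
        apply Subgroup.subset_closure
        rw [hS]
        exact Or.inr ⟨hu, c, hc1, hcu⟩)
    exact le_trans h2 hSPc
  -- semisimplicity
  have hss : ∀ g ∈ P, (ρ g).IsSemisimple := by
    intro g hg
    obtain ⟨k, hk⟩ := (IsPGroup.iff_orderOf.mp hPq) ⟨g, hg⟩
    rw [Subgroup.orderOf_mk] at hk
    apply isSemisimple_of_pow_eq_one (ρ g) (q ^ k)
    · rw [← map_pow, ← hk, pow_orderOf_eq_one, map_one]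
    · rw [Nat.cast_pow]
      exact pow_ne_zero k hqK
  let Cm : Submodule K V :=
    { carrier := {v | ∀ t ∈ T, ∀ u ∈ P, ρ t (ρ u v) = ρ u (ρ t v)}
      add_mem' := by
        intro v v' hv hv' t ht u hu
        rw [map_add, map_add, map_add, map_add, hv t ht u hu, hv' t ht u hu]
      zero_mem' := by
        intro t ht u hu
        simp
      smul_mem' := by
        intro c v hv t ht u hu
        rw [map_smul, map_smul, map_smul, map_smul, hv t ht u hu] }
  have hCm : ∀ v, v ∈ Cm ↔ ∀ t ∈ T, ∀ u ∈ P, ρ t (ρ u v) = ρ u (ρ t v) := fun v => Iff.rfl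
  have hZcomm : ∀ i j : ↥Z, ρ (i : Γ) * ρ (j : Γ) = ρ (j : Γ) * ρ (i : Γ) := by
    intro i j
    rw [← map_mul, ← map_mul, hZc j j.2 i (hZP i.2)]
  have hdec := iSup_simEig_eq_top (fun z : ↥Z => ρ (z : Γ)) hZcomm (fun i => hss _ (hZP i.2))
  have htop : (⊤ : Submodule K V) ≤ Cm := by
    rw [← hdec]
    apply iSup_le
    intro θ v hv
    rw [hCm]
    by_cases hv0 : v = 0
    · intro t ht u hu
      rw [hv0]
      simp
    obtain ⟨lam, hlam⟩ : ∃ lam : Γ → K,
        lam = fun g => if h : g ∈ Z then θ ⟨g, h⟩ else 0 := ⟨_, rfl⟩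
    have hlamZ : ∀ z : ↥Z, lam (z : Γ) = θ z := by
      intro z
      rw [hlam]
      show (if h : (z : Γ) ∈ Z then θ ⟨(z : Γ), h⟩ else 0) = θ z
      rw [dif_pos z.2]
    have hvE : v ∈ eig ρ Z lam := by
      rw [mem_eig]
      intro r hr
      have h1 := (mem_simEig _ _ _).mp hv ⟨r, hr⟩
      rw [hlamZ ⟨r, hr⟩]
      exact h1
    by_cases hone : ∀ z ∈ Z, lam z = 1
    · -- the fixed space of `Z`
      have hWP : ∀ g : ↥P, ∀ w ∈ eig ρ Z lam, (ρ.comp P.subtype) g w ∈ eig ρ Z lam := by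
        intro g w hw
        rw [mem_eig] at hw ⊢
        intro z hz
        show ρ z (ρ (g : Γ) w) = lam z • ρ (g : Γ) w
        rw [← Module.End.mul_apply, ← map_mul, ← hZc z hz g g.2, map_mul,
          Module.End.mul_apply, hw z hz, map_smul]
      obtain ⟨ρW, hρW⟩ : ∃ ρW : ↥P →* Module.End K ↥(eig ρ Z lam),
          ρW = resHom (ρ.comp P.subtype) (eig ρ Z lam) hWP := ⟨_, rfl⟩
      have hρWval : ∀ (g : ↥P) (w : ↥(eig ρ Z lam)),
          ((ρW g w : ↥(eig ρ Z lam)) : V) = ρ (g : Γ) (w : V) := by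
        intro g w
        rw [hρW]
        rfl
      have hWcomm : ∀ i j : ↥P, ρW i * ρW j = ρW j * ρW i := by
        intro i j
        apply LinearMap.ext
        intro w
        apply Subtype.ext
        rw [Module.End.mul_apply, Module.End.mul_apply, hρWval, hρWval, hρWval, hρWval]
        have hc : (i : Γ) * j = ⁅(i : Γ), (j : Γ)⁆ * (j * i) := by
          rw [commutatorElement_def]
          group
        have hcz : ⁅(i : Γ), (j : Γ)⁆ ∈ Z :=
          hP'Z (Subgroup.commutator_mem_commutator i.2 j.2)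
        have hjw : ρ ((j : Γ) * i) (w : V) ∈ eig ρ Z lam := hWP (j * i) w w.2
        rw [← Module.End.mul_apply, ← map_mul, hc, map_mul, Module.End.mul_apply,
          ((mem_eig ρ).mp hjw) _ hcz, hone _ hcz, one_smul, map_mul, Module.End.mul_apply]
      have hWss : ∀ i : ↥P, (ρW i).IsSemisimple := by
        intro i
        obtain ⟨k, hk⟩ := (IsPGroup.iff_orderOf.mp hPq) i
        apply isSemisimple_of_pow_eq_one (ρW i) (q ^ k)
        · rw [← map_pow, ← hk, pow_orderOf_eq_one, map_one]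
        · rw [Nat.cast_pow]
          exact pow_ne_zero k hqK
      have hdecW := iSup_simEig_eq_top (fun u : ↥P => ρW u) hWcomm hWss
      have htopW : (⊤ : Submodule K ↥(eig ρ Z lam)) ≤ Cm.comap (eig ρ Z lam).subtype := by
        rw [← hdecW]
        apply iSup_le
        intro χ w hw
        rw [Submodule.mem_comap, hCm]
        show ∀ t ∈ T, ∀ u ∈ P, ρ t (ρ u (w : V)) = ρ u (ρ t (w : V))
        by_cases hw0 : w = 0
        · intro t ht u hu
          rw [hw0]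
          simp
        have hw0' : (w : V) ≠ 0 := fun h => hw0 (Subtype.ext h)
        obtain ⟨lamχ, hlamχ⟩ : ∃ lamχ : Γ → K,
            lamχ = fun g => if h : g ∈ P then χ ⟨g, h⟩ else 0 := ⟨_, rfl⟩
        have hlamχP : ∀ u : ↥P, lamχ (u : Γ) = χ u := by
          intro u
          rw [hlamχ]
          show (if h : (u : Γ) ∈ P then χ ⟨(u : Γ), h⟩ else 0) = χ u
          rw [dif_pos u.2]
        have hwE : (w : V) ∈ eig ρ P lamχ := by
          rw [mem_eig]
          intro r hr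
          have h1 := (mem_simEig _ _ _).mp hw ⟨r, hr⟩
          have h2 := congrArg Subtype.val h1
          rw [hρWval] at h2
          rw [hlamχP ⟨r, hr⟩]
          exact h2
        have hlamχZ : ∀ z ∈ Z, lamχ z = 1 := by
          intro z hz
          have h1 := ((mem_eig ρ).mp hwE) z (hZP hz)
          have h2 := ((mem_eig ρ).mp w.2) z hz
          rw [hone z hz, one_smul] at h2
          rw [h2] at h1
          exact (smul_left_injective K hw0' (by
            show lamχ z • (w : V) = (1 : K) • (w : V)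
            rw [one_smul]
            exact h1.symm))
        have hstep2 := key_step2 hp hAcomm hAexp hAcard hequiv P Z T hPp hPA hZP a ha1 hCPaZ
          hnil hgen hTp hTA hPT haT hTfpf hZT lamχ (w : V) hwE hw0' hlamχZ
        intro t ht u hu
        have e : u * t = t * (t⁻¹ * u * t) := by group
        have hR : ρ u (ρ t (w : V)) = ρ t (lamχ u • (w : V)) := by
          rw [← Module.End.mul_apply, ← map_mul, e, map_mul, Module.End.mul_apply,
            ((mem_eig ρ).mp hwE) _ (hPT' t ht u hu), hstep2 t ht u hu]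
        rw [hR, ((mem_eig ρ).mp hwE) u hu]
      intro t ht u hu
      have h1 := htopW (Submodule.mem_top : (⟨v, hvE⟩ : ↥(eig ρ Z lam)) ∈ ⊤)
      exact (hCm v).mp h1 t ht u hu
    · push Not at hone
      obtain ⟨z₁, hz₁, hlz₁⟩ := hone
      have hstab : ∃ x : A, x ∉ stab act Z hZA lam := by
        by_contra hall
        push Not at hall
        exact hlz₁ (char_eq_one_of_invariant hp hA Z hZp hZA
          (fun r hr hfix => hPfpf r (hZP hr) hfix) lam (eig_lam_one hvE hv0)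
          (eig_lam_mul hvE hv0) (fun x r hr => hall x r hr) z₁ hz₁)
      exact key_caseB hp hAcomm hAexp hAcard hequiv P Z T hZA hZP a hCPaZ hnil hgen hTA
        hPT hTfpf hZT hZc lam v hvE hv0 hstab v hvE
  have hcomm : ∀ v : V, ρ t₀ (ρ u₀ v) = ρ u₀ (ρ t₀ v) :=
    fun v => (hCm v).mp (htop Submodule.mem_top) t₀ ht₀ u₀ hu₀
  apply hne₀
  have hmemP : t₀ * u₀ * t₀⁻¹ * u₀⁻¹ ∈ P := P.mul_mem (hPT t₀ ht₀ u₀ hu₀) (P.inv_mem hu₀)
  have h1 : ρ (t₀ * u₀ * t₀⁻¹ * u₀⁻¹) = 1 := by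
    have h2 : ρ (t₀ * u₀) = ρ (u₀ * t₀) := by
      rw [map_mul, map_mul]
      exact LinearMap.ext hcomm
    have e : t₀ * u₀ * t₀⁻¹ * u₀⁻¹ = (t₀ * u₀) * (u₀ * t₀)⁻¹ := by group
    rw [e, map_mul, h2, ← map_mul, mul_inv_cancel, map_one]
  have h3 := hfaith _ hmemP h1
  have e : t₀ * u₀ = (t₀ * u₀ * t₀⁻¹ * u₀⁻¹) * (u₀ * t₀) := by group
  rw [e, h3, one_mul]


end Key

end Cfsg.Agent.Helper63.Ward
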