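-- helper63 library: counting tools for a Frobenius-type operator group acting on a class-two
-- group of linear maps: orbit count with fixed points for the projective data, and freeness of
-- a module over an operator of prime order permuting eigencharacters freely; add-only once
-- landed.
import Cfsg.Agent.Helper63.WardLinear

set_option autoImplicit false

namespace Cfsg.Agent.Helper63.Frob

open Module Cfsg.Agent.Helper63.Gross Cfsg.Agent.Helper63.Shult Cfsg.Agent.Helper63.ProjRep
  Cfsg.Agent.Helper63.Ward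

universe u v w w'

section Sep

variable {K : Type u} [Field K] {M : Type v} [AddCommGroup M] [Module K M]

/-- A vector of a simultaneous eigenspace that is a sum of vectors from simultaneous
eigenspaces for other eigenvalue systems vanishes (arbitrary index universe). -/
theorem sep' {ι : Type w} {κ : Type w'} [DecidableEq κ] (f : ι → Module.End K M) (θ : ι → K)
    (θs : κ → ι → K) :
    ∀ (s : Finset κ), (∀ k ∈ s, θs k ≠ θ) → ∀ (x : M), x ∈ simEig f θ → ∀ (y : κ → M),
      (∀ k ∈ s, y k ∈ simEig f (θs k)) → x + ∑ k ∈ s, y k = 0 → x = 0 := by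
  intro s
  induction s using Finset.induction_on with
  | empty =>
    intro _ x _ y _ h
    simpa using h
  | insert k₀ s hk₀ ih =>
    intro hne x hx y hy hsum
    have hne₀ := hne k₀ (Finset.mem_insert_self _ _)
    obtain ⟨i, hi⟩ : ∃ i, θs k₀ i ≠ θ i := by
      by_contra hcon
      push Not at hcon
      exact hne₀ (funext hcon)
    have hfx : f i x = θ i • x := (mem_simEig f θ x).mp hx i
    have hfy₀ : f i (y k₀) = θs k₀ i • y k₀ :=
      (mem_simEig f _ _).mp (hy k₀ (Finset.mem_insert_self _ _)) i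
    have hfy : ∀ k ∈ s, f i (y k) = θs k i • y k := fun k hk =>
      (mem_simEig f _ _).mp (hy k (Finset.mem_insert_of_mem hk)) i
    have h1 : (θ i - θs k₀ i) • x + ∑ k ∈ s, (θs k i - θs k₀ i) • y k = 0 := by
      have h2 : f i (x + ∑ k ∈ insert k₀ s, y k) - θs k₀ i • (x + ∑ k ∈ insert k₀ s, y k) = 0 := by
        rw [hsum, map_zero, smul_zero, sub_zero]
      rw [Finset.sum_insert hk₀, map_add, map_add, map_sum, hfx, hfy₀,
        Finset.sum_congr rfl hfy] at h2
      rw [← h2]
      simp only [sub_smul, smul_add, Finset.smul_sum, Finset.sum_sub_distrib]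
      abel
    have h4 := ih (fun k hk => hne k (Finset.mem_insert_of_mem hk)) ((θ i - θs k₀ i) • x)
      (Submodule.smul_mem _ _ hx) (fun k => (θs k i - θs k₀ i) • y k)
      (fun k hk => Submodule.smul_mem _ _ (hy k (Finset.mem_insert_of_mem hk))) h1
    rcases smul_eq_zero.mp h4 with h5 | h5
    · exact absurd (sub_eq_zero.mp h5).symm hi
    · exact h5

/-- Simultaneous eigenspaces of a commuting family are independent. -/
theorem simEig_iSupIndep {ι : Type w} (f : ι → Module.End K M)
    (hcomm : ∀ i j, f i * f j = f j * f i) :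
    iSupIndep (fun χ : ι → K => simEig f χ) := by
  have h1 := Module.End.independent_iInf_maxGenEigenspace_of_forall_mapsTo f
    (fun i j φ => Module.End.mapsTo_maxGenEigenspace_of_comm (hcomm j i : Commute (f j) (f i)) φ)
  refine h1.mono ?_
  intro χ v hv
  rw [Submodule.mem_iInf]
  intro i
  rw [Module.End.mem_maxGenEigenspace]
  refine ⟨1, ?_⟩
  have h2 := (mem_simEig f χ v).mp hv i
  rw [pow_one, LinearMap.sub_apply, h2]
  simp

end Sep

section Perm

/-- Orbit representatives for the non-fixed points of a permutation of prime order. -/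
theorem exists_reps_fix {Γ : Type w} [Fintype Γ] [DecidableEq Γ] (σ : Equiv.Perm Γ) {r : ℕ}
    (hr : r.Prime) (hσr : σ ^ r = 1) :
    ∃ S : Finset Γ, (∀ a ∈ S, σ a ≠ a) ∧ (∀ w, σ w ≠ w → ∃ a ∈ S, ∃ i : ℕ, (σ ^ i) a = w) ∧
      S.card * r + (Finset.univ.filter (fun w => σ w = w)).card = Fintype.card Γ := by
  classical
  have hfree : ∀ w, σ w ≠ w → ∀ i, 0 < i → i < r → (σ ^ i) w ≠ w := by
    intro w hw i hi0 hir hfix
    obtain ⟨m, hm⟩ := exists_pow_pow_eq_self σ hr hσr hi0 hir
    apply hw
    have h1 : ∀ n : ℕ, ((σ ^ i) ^ n) w = w := by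
      intro n
      induction n with
      | zero => rfl
      | succ n ih => rw [pow_succ', Equiv.Perm.mul_apply, ih, hfix]
    have h2 := h1 m
    rw [hm] at h2
    exact h2
  have hnf : ∀ (i : ℕ) w, σ w ≠ w → σ ((σ ^ i) w) ≠ (σ ^ i) w := by
    intro i w hw h
    apply hw
    apply (σ ^ i).injective
    rw [← Equiv.Perm.mul_apply, ← pow_succ, pow_succ', Equiv.Perm.mul_apply]
    exact h
  let P : Set (Finset Γ) :=
    {S | (∀ a ∈ S, σ a ≠ a) ∧ ∀ a ∈ S, ∀ b ∈ S, ∀ i, 0 < i → i < r → (σ ^ i) a ≠ b}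
  have hP : P.Nonempty := ⟨∅, by simp, by simp⟩
  obtain ⟨S, hSP, hSmax⟩ := (Set.toFinite P).exists_maximal hP
  obtain ⟨hS1, hS2⟩ := hSP
  have hcov : ∀ w, σ w ≠ w → ∃ a ∈ S, ∃ i : ℕ, (σ ^ i) a = w := by
    intro w hw
    by_contra hno
    push Not at hno
    have hins : insert w S ∈ P := by
      refine ⟨?_, ?_⟩
      · intro a ha
        rw [Finset.mem_insert] at ha
        rcases ha with ha | ha
        · rw [ha]
          exact hw
        · exact hS1 a ha
      · intro a ha b hb i hi0 hir hab
        rw [Finset.mem_insert] at ha hb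
        rcases ha with ha | ha <;> rcases hb with hb | hb
        · rw [ha, hb] at hab
          exact hfree w hw i hi0 hir hab
        · rw [ha] at hab
          apply hno b hb (r - i)
          rw [← hab, ← Equiv.Perm.mul_apply, ← pow_add, Nat.sub_add_cancel hir.le, hσr]
          rfl
        · rw [hb] at hab
          exact hno a ha i hab
        · exact hS2 a ha b hb i hi0 hir hab
    have hle : S ≤ insert w S := Finset.subset_insert w S
    have h1 := hSmax hins hle
    have hwS : w ∈ S := h1 (Finset.mem_insert_self w S)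
    exact hno w hwS 0 rfl
  have key : ∀ a ∈ S, ∀ b ∈ S, ∀ i j : ℕ, i < j → j < r → (σ ^ i) a ≠ (σ ^ j) b := by
    intro a ha b hb i j hij hjr h
    have h1 : (σ ^ (j - i)) b = a := by
      apply (σ ^ i).injective
      rw [← Equiv.Perm.mul_apply, ← pow_add, Nat.add_sub_cancel' hij.le]
      exact h.symm
    exact hS2 b hb a ha (j - i) (by omega) (by omega) h1
  refine ⟨S, hS1, hcov, ?_⟩
  have hcard : (S ×ˢ Finset.range r).card = (Finset.univ.filter (fun w => ¬ σ w = w)).card := by
    apply Finset.card_bij (fun p _ => (σ ^ p.2) p.1)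
    · intro p hp
      rw [Finset.mem_product] at hp
      rw [Finset.mem_filter]
      exact ⟨Finset.mem_univ _, hnf p.2 p.1 (hS1 p.1 hp.1)⟩
    · intro p hp p' hp' h
      rw [Finset.mem_product, Finset.mem_range] at hp hp'
      rcases lt_trichotomy p.2 p'.2 with h1 | h1 | h1
      · exact absurd h (key p.1 hp.1 p'.1 hp'.1 p.2 p'.2 h1 hp'.2)
      · have h2 : p.1 = p'.1 := by
          apply (σ ^ p.2).injective
          rw [h, h1]
        exact Prod.ext h2 h1
      · exact absurd h.symm (key p'.1 hp'.1 p.1 hp.1 p'.2 p.2 h1 hp.2)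
    · intro w hw
      rw [Finset.mem_filter] at hw
      obtain ⟨a, ha, i, hi⟩ := hcov w hw.2
      refine ⟨(a, i % r), ?_, ?_⟩
      · rw [Finset.mem_product, Finset.mem_range]
        exact ⟨ha, Nat.mod_lt _ hr.pos⟩
      · have h1 : σ ^ i = σ ^ (i % r) := by
          conv_lhs => rw [← Nat.div_add_mod i r, pow_add, pow_mul, hσr, one_pow, one_mul]
        show (σ ^ (i % r)) a = w
        rw [← h1, hi]
  rw [Finset.card_product, Finset.card_range] at hcard
  have h2 := Finset.card_filter_add_card_filter_not (s := (Finset.univ : Finset Γ))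
    (fun w => σ w = w)
  rw [Finset.card_univ] at h2
  rw [hcard]
  omega

end Perm

section Fixed

variable {K : Type u} [Field K] {M : Type v} [AddCommGroup M] [Module K M]
  {Γ : Type w} [Group Γ] [Fintype Γ]

/-- **Bound with fixed points.**  If `ξ` of prime order `r` normalizes the projective family
`τ` and has no nonzero fixed vector, then `|Γ| ≤ (r - 1) (y + m)`, where `y` is the number of
fixed points of the induced permutation and `m` the number of its other orbits. -/
theorem card_le_of_perm [IsAlgClosed K] [FiniteDimensional K M] [Nontrivial M]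
    [DecidableEq Γ] (D : Data K M Γ) (ξ ξi : Module.End K M) (hξ : ξ * ξi = 1)
    (hξ' : ξi * ξ = 1) (σ : Equiv.Perm Γ) (s : Γ → K) (hs0 : ∀ w, s w ≠ 0)
    (hs : ∀ w, ξ * D.τ w * ξi = s w • D.τ (σ w))
    {r : ℕ} (hr : r.Prime) (hσr : σ ^ r = 1)
    (hξr : ξ ^ r = 1) (hrK : (r : K) ≠ 0) (hfix : ∀ v, ξ v = v → v = 0) :
    ∃ m : ℕ, m * r + (Finset.univ.filter (fun w => σ w = w)).card = Fintype.card Γ ∧
      Fintype.card Γ ≤ (r - 1) * ((Finset.univ.filter (fun w => σ w = w)).card + m) := by
  classical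
  obtain ⟨S, hS1, hcov, hcard⟩ := exists_reps_fix σ hr hσr
  obtain ⟨Fx, hFx⟩ : ∃ Fx : Finset Γ, Fx = Finset.univ.filter (fun w => σ w = w) := ⟨_, rfl⟩
  have hFxmem : ∀ w, w ∈ Fx ↔ σ w = w := by
    intro w
    rw [hFx, Finset.mem_filter]
    exact ⟨fun h => h.2, fun h => ⟨Finset.mem_univ _, h⟩⟩
  rw [← hFx] at hcard ⊢
  have hdisj : Disjoint Fx S := by
    rw [Finset.disjoint_left]
    intro a ha haS
    exact hS1 a haS ((hFxmem a).mp ha)
  let L : ↥(cent ξ) →ₗ[K] (↥(Fx ∪ S : Finset Γ) → ↥D.comm1) :=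
    (LinearMap.funLeft K ↥D.comm1 (Subtype.val : ↥(Fx ∪ S : Finset Γ) → Γ)) ∘ₗ D.Φ ∘ₗ
      (cent ξ).subtype
  have hL : Function.Injective L := by
    rw [← LinearMap.ker_eq_bot, LinearMap.ker_eq_bot']
    intro e he
    have h0 : ∀ a ∈ Fx ∪ S, D.Φ (e : Module.End K M) a = 0 := by
      intro a ha
      exact congrFun he ⟨a, ha⟩
    have hstep : ∀ i : ℕ, ∀ a ∈ S, D.Φ (e : Module.End K M) ((σ ^ i) a) = 0 := by
      intro i
      induction i with
      | zero =>
        intro a ha
        exact h0 a (Finset.mem_union_right _ ha)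
      | succ i ih =>
        intro a ha
        apply Subtype.ext
        rw [pow_succ', Equiv.Perm.mul_apply,
          D.Φ_sigma ξ ξi hξ hξ' σ s hs0 hs (e : Module.End K M) e.2 ((σ ^ i) a), ih a ha]
        simp
    have hall : D.Φ (e : Module.End K M) = 0 := by
      funext w
      by_cases hw : σ w = w
      · exact h0 w (Finset.mem_union_left _ ((hFxmem w).mpr hw))
      · obtain ⟨a, ha, i, hi⟩ := hcov w hw
        rw [← hi]
        exact hstep i a ha
    apply Subtype.ext
    have h1 := D.Ψ_Φ (e : Module.End K M)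
    rw [hall, map_zero] at h1
    exact h1.symm
  have h1 : finrank K ↥(cent ξ) ≤ (Fx.card + S.card) * finrank K ↥D.comm1 := by
    have h2 := LinearMap.finrank_le_finrank_of_injective hL
    rw [Module.finrank_pi_fintype, Finset.sum_const, Finset.card_univ, Fintype.card_coe,
      Finset.card_union_of_disjoint hdisj, smul_eq_mul] at h2
    exact h2
  have h2 := sq_finrank_le_cent ξ r hr.pos hξr hrK hfix
  have h3 := D.finrank_end
  rw [Module.finrank_linearMap] at h3
  have hDpos : 0 < finrank K M := Module.finrank_pos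
  have hd₁ : 0 < finrank K ↥D.comm1 := by
    rcases Nat.eq_zero_or_pos (finrank K ↥D.comm1) with h | h
    · rw [h, mul_zero] at h3
      have h4 := Nat.mul_pos hDpos hDpos
      omega
    · exact h
  have h4 : Fintype.card Γ * finrank K ↥D.comm1 ≤
      ((r - 1) * (Fx.card + S.card)) * finrank K ↥D.comm1 := by
    rw [← h3, ← sq, mul_assoc]
    exact h2.trans (Nat.mul_le_mul_left _ h1)
  have h5 : Fintype.card Γ ≤ (r - 1) * (Fx.card + S.card) := Nat.le_of_mul_le_mul_right h4 hd₁
  exact ⟨S.card, hcard, h5⟩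

end Fixed

section GroupFix

variable {K : Type u} [Field K] {M : Type v} [AddCommGroup M] [Module K M]
  {Q : Type w} [Group Q] [Finite Q]

theorem map_center_eq (φ : MulAut Q) :
    (Subgroup.center Q).map (φ : Q →* Q) = Subgroup.center Q := by
  apply le_antisymm
  · rintro _ ⟨z, hz, rfl⟩
    exact map_mem_center φ hz
  · intro z hz
    exact ⟨φ.symm z, map_mem_center φ.symm hz, φ.apply_symm_apply z⟩

/-- **Shult-type bound with fixed points, group form.** -/
theorem index_le_fix [IsAlgClosed K] [FiniteDimensional K M] [Nontrivial M]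
    {ρ : Q →* Module.End K M} {lam : Q → K} (H : Hyp ρ lam)
    (φ : MulAut Q) (ξ ξi : Module.End K M) (hξ : ξ * ξi = 1) (hξ' : ξi * ξ = 1)
    (hequiv : ∀ g, ξ * ρ g * ξi = ρ (φ g))
    {r : ℕ} (hr : r.Prime) (hφr : φ ^ r = 1)
    (hξr : ξ ^ r = 1) (hrK : (r : K) ≠ 0) (hfix : ∀ x, ξ x = x → x = 0) :
    ∃ m : ℕ, m * r + Nat.card {x : Q ⧸ Subgroup.center Q //
        QuotientGroup.congr (Subgroup.center Q) (Subgroup.center Q) φ (map_center_eq φ) x = x} =
        (Subgroup.center Q).index ∧
      (Subgroup.center Q).index ≤ (r - 1) * (Nat.card {x : Q ⧸ Subgroup.center Q //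
        QuotientGroup.congr (Subgroup.center Q) (Subgroup.center Q) φ (map_center_eq φ) x = x}
          + m) := by
  classical
  letI : Fintype (Q ⧸ Subgroup.center Q) := Fintype.ofFinite _
  have hmap := map_center_eq φ
  let σe : (Q ⧸ Subgroup.center Q) ≃* (Q ⧸ Subgroup.center Q) :=
    QuotientGroup.congr (Subgroup.center Q) (Subgroup.center Q) φ hmap
  let σ : Equiv.Perm (Q ⧸ Subgroup.center Q) := σe.toEquiv
  have hσmk : ∀ a : Q, σ (QuotientGroup.mk a) = QuotientGroup.mk (φ a) :=
    fun a => QuotientGroup.congr_mk (Subgroup.center Q) (Subgroup.center Q) φ hmap a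
  have hσpow : ∀ (i : ℕ) (a : Q), (σ ^ i) (QuotientGroup.mk a) = QuotientGroup.mk ((φ ^ i) a) := by
    intro i
    induction i with
    | zero =>
      intro a
      rfl
    | succ i ih =>
      intro a
      rw [pow_succ', Equiv.Perm.mul_apply, ih, hσmk, pow_succ', MulAut.mul_apply]
  have hzw : ∀ x : Q ⧸ Subgroup.center Q,
      (Quotient.out (σ x))⁻¹ * φ (Quotient.out x) ∈ Subgroup.center Q := by
    intro x
    have h1 : (QuotientGroup.mk (Quotient.out (σ x)) : Q ⧸ Subgroup.center Q) =
        QuotientGroup.mk (φ (Quotient.out x)) := by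
      rw [QuotientGroup.out_eq', ← hσmk, QuotientGroup.out_eq']
    exact QuotientGroup.eq.mp h1
  let s : Q ⧸ Subgroup.center Q → K :=
    fun x => lam ((Quotient.out (σ x))⁻¹ * φ (Quotient.out x))
  have hs : ∀ x, ξ * H.data.τ x * ξi = s x • H.data.τ (σ x) := by
    intro x
    show ξ * ρ (Quotient.out x) * ξi =
      lam ((Quotient.out (σ x))⁻¹ * φ (Quotient.out x)) • ρ (Quotient.out (σ x))
    rw [hequiv]
    have h1 : φ (Quotient.out x) =
        Quotient.out (σ x) * ((Quotient.out (σ x))⁻¹ * φ (Quotient.out x)) := by group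
    conv_lhs => rw [h1]
    rw [map_mul, H.scalar _ (hzw x), mul_smul_comm, mul_one]
  have hs0 : ∀ x, s x ≠ 0 := fun x => H.lam_ne_zero (hzw x)
  have hσr : σ ^ r = 1 := by
    ext x
    rw [← QuotientGroup.out_eq' x, hσpow, hφr]
    rfl
  obtain ⟨m, hm1, hm2⟩ := card_le_of_perm H.data ξ ξi hξ hξ' σ s hs0 hs hr hσr hξr hrK hfix
  have hcard : Fintype.card (Q ⧸ Subgroup.center Q) = (Subgroup.center Q).index := by
    rw [Subgroup.index, Nat.card_eq_fintype_card]
  have hfx : Nat.card {x : Q ⧸ Subgroup.center Q // σe x = x} =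
      (Finset.univ.filter (fun w => σ w = w)).card := by
    rw [Nat.card_eq_fintype_card, Fintype.card_subtype]
    rfl
  refine ⟨m, ?_, ?_⟩
  · rw [hfx, ← hcard]
    exact hm1
  · rw [hfx, ← hcard]
    exact hm2

end GroupFix

end Cfsg.Agent.Helper63.Frob
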