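-- helper63 library: a module for a Frobenius-like group `S₀ ⋊ ⟨σ⟩` in coprime characteristic,
-- generated by the commutators with `S₀`, is "free" for `σ` (dimension count for the fixed
-- points of `σ`); add-only once landed.
import Cfsg.Agent.Helper63.FrobCount

set_option autoImplicit false

namespace Cfsg.Agent.Helper63.Frob

open Module Cfsg.Agent.Helper63.Gross Cfsg.Agent.Helper63.Shult Cfsg.Agent.Helper63.ProjRep
  Cfsg.Agent.Helper63.Ward

universe u v w w'

section Free

variable {q r : ℕ} {E : Type u} [AddCommGroup E] [Module (ZMod q) E]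
  {K₂ : Type w} [Field K₂] {V₂ : Type w'} [AddCommGroup V₂] [Module K₂ V₂]
  [Module (ZMod q) V₂] [SMulCommClass (ZMod q) K₂ V₂]

/-- Precomposition, as an operator on the `K₂`-valued dual. -/
def pre (α : Module.End (ZMod q) E) : Module.End K₂ (E →ₗ[ZMod q] V₂) :=
  LinearMap.lcomp K₂ V₂ α

theorem pre_apply (α : Module.End (ZMod q) E) (φ : E →ₗ[ZMod q] V₂) (x : E) :
    (pre (K₂ := K₂) α φ : E →ₗ[ZMod q] V₂) x = φ (α x) := rfl

theorem pre_mul (α β : Module.End (ZMod q) E) :
    (pre (α * β) : Module.End K₂ (E →ₗ[ZMod q] V₂)) = pre β * pre α := rfl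

theorem pre_one : (pre (1 : Module.End (ZMod q) E) : Module.End K₂ (E →ₗ[ZMod q] V₂)) = 1 := rfl

theorem pre_pow (α : Module.End (ZMod q) E) (n : ℕ) :
    (pre (α ^ n) : Module.End K₂ (E →ₗ[ZMod q] V₂)) = (pre α) ^ n := by
  induction n with
  | zero => rfl
  | succ n ih => rw [pow_succ, pre_mul, ih, pow_succ']

theorem ext_of_iSup {K : Type u} [Field K] {M : Type v} [AddCommGroup M] [Module K M]
    {ι : Type w} (p : ι → Submodule K M) (htop : ⨆ i, p i = ⊤) (f g : Module.End K M)
    (h : ∀ i, ∀ x ∈ p i, f x = g x) : f = g := by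
  have h1 : (⊤ : Submodule K M) ≤ LinearMap.eqLocus f g := by
    rw [← htop]
    exact iSup_le (fun i x hx => h i x hx)
  exact LinearMap.ext (fun x => h1 Submodule.mem_top)

/-- **Freeness, dual form.**  `S₀` acts on `E` through commuting operators `τ a`, the operator
`σ` of prime order `r` normalizes this action through the automorphism `c` of `S₀`, the fixed
points of `c` act trivially and `E` is generated by the commutators with `S₀`.  Then the fixed
points of `σ` have dimension at most `dim E / r`, and are nonzero if `E` is. -/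
theorem free_aux [Fact q.Prime] [IsAlgClosed K₂] [CharP K₂ q] [Finite E]
    [FiniteDimensional K₂ V₂] (hV₂ : finrank K₂ V₂ = 1) (hr : r.Prime)
    (hqr : q ≠ r) (σ : Module.End (ZMod q) E) (hσ : σ ^ r = 1)
    {S₀ : Type v} [Group S₀] [Finite S₀] (τ : S₀ →* Module.End (ZMod q) E)
    (hτcomm : ∀ a b, τ a * τ b = τ b * τ a)
    (hS₀q : (Nat.card S₀).Coprime q) (hS₀r : (Nat.card S₀).Coprime r)
    (c : MulAut S₀) (hc : c ^ r = 1)
    (hστ : ∀ a, σ * τ a = τ (c a) * σ)
    (hfix : ∀ a, c a = a → τ a = 1)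
    (hgen : ∀ N : Submodule (ZMod q) E, (∀ a x, τ a x - x ∈ N) → N = ⊤) :
    r * finrank (ZMod q) ↥(LinearMap.ker (σ - 1)) ≤ finrank (ZMod q) E ∧
      (0 < finrank (ZMod q) E → 0 < finrank (ZMod q) ↥(LinearMap.ker (σ - 1))) := by
  classical
  haveI : Fact r.Prime := ⟨hr⟩
  have hq : q.Prime := Fact.out
  have hrpos := hr.pos
  have hrK : ((r : ℕ) : K₂) ≠ 0 := by
    intro h
    have h1 := (CharP.cast_eq_zero_iff K₂ q r).mp h
    exact hqr ((Nat.prime_dvd_prime_iff_eq hq hr).mp h1)
  have hNK : ((Nat.card S₀ : ℕ) : K₂) ≠ 0 := by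
    intro h
    have h1 := (CharP.cast_eq_zero_iff K₂ q (Nat.card S₀)).mp h
    exact (Nat.Prime.coprime_iff_not_dvd hq).mp hS₀q.symm h1
  have hrq : ((r : ℕ) : ZMod q) ≠ 0 := by
    intro h
    have h1 := (ZMod.natCast_eq_zero_iff r q).mp h
    exact hqr ((Nat.prime_dvd_prime_iff_eq hq hr).mp h1)
  obtain ⟨Ξ, hΞdef⟩ : ∃ Ξ : Module.End K₂ (E →ₗ[ZMod q] V₂), Ξ = pre σ := ⟨_, rfl⟩
  obtain ⟨T, hTdef⟩ : ∃ T : S₀ → Module.End K₂ (E →ₗ[ZMod q] V₂), T = fun a => pre (τ a) :=
    ⟨_, rfl⟩
  have hΞapp : ∀ (φ : E →ₗ[ZMod q] V₂) (x : E), Ξ φ x = φ (σ x) := by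
    intro φ x
    rw [hΞdef]
    rfl
  have hTapp : ∀ (a : S₀) (φ : E →ₗ[ZMod q] V₂) (x : E), T a φ x = φ (τ a x) := by
    intro a φ x
    rw [hTdef]
    rfl
  have hT1 : T 1 = 1 := by
    apply LinearMap.ext
    intro φ
    apply LinearMap.ext
    intro x
    rw [hTapp, map_one]
    rfl
  have hTmul : ∀ a b, T (a * b) = T a * T b := by
    intro a b
    apply LinearMap.ext
    intro φ
    apply LinearMap.ext
    intro x
    rw [hTapp, Module.End.mul_apply, hTapp, hTapp, map_mul, hτcomm a b]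
    rfl
  have hTpow : ∀ (a : S₀) (n : ℕ), T (a ^ n) = (T a) ^ n := by
    intro a n
    induction n with
    | zero => rw [pow_zero, pow_zero, hT1]
    | succ n ih => rw [pow_succ, hTmul, ih, pow_succ]
  have hTcomm : ∀ a b, T a * T b = T b * T a := by
    intro a b
    apply LinearMap.ext
    intro φ
    apply LinearMap.ext
    intro x
    rw [Module.End.mul_apply, Module.End.mul_apply, hTapp, hTapp, hTapp, hTapp]
    have h1 := LinearMap.congr_fun (hτcomm b a) x
    rw [Module.End.mul_apply, Module.End.mul_apply] at h1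
    rw [h1]
  have hΞr : Ξ ^ r = 1 := by rw [hΞdef, ← pre_pow, hσ, pre_one]
  have hTΞ : ∀ a, T a * Ξ = Ξ * T (c a) := by
    intro a
    apply LinearMap.ext
    intro φ
    apply LinearMap.ext
    intro x
    rw [Module.End.mul_apply, Module.End.mul_apply, hTapp, hΞapp, hΞapp, hTapp]
    have h1 := LinearMap.congr_fun (hστ a) x
    rw [Module.End.mul_apply, Module.End.mul_apply] at h1
    rw [h1]
  have hss : ∀ a, (T a).IsSemisimple := by
    intro a
    apply isSemisimple_of_pow_eq_one (T a) (Nat.card S₀) _ hNK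
    rw [← hTpow, pow_card_eq_one', hT1]
  have htop := iSup_simEig_eq_top T hTcomm hss
  have hind := simEig_iSupIndep T hTcomm
  have hΞmem : ∀ (χ : S₀ → K₂) (φ : E →ₗ[ZMod q] V₂), φ ∈ simEig T χ →
      Ξ φ ∈ simEig T (fun a => χ (c a)) := by
    intro χ φ hφ
    rw [mem_simEig] at hφ ⊢
    intro a
    have h1 := LinearMap.congr_fun (hTΞ a) φ
    rw [Module.End.mul_apply, Module.End.mul_apply] at h1
    rw [h1, hφ (c a), map_smul]
  have hΞpow_mem : ∀ (i : ℕ) (χ : S₀ → K₂) (φ : E →ₗ[ZMod q] V₂), φ ∈ simEig T χ →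
      (Ξ ^ i) φ ∈ simEig T (fun a => χ ((c ^ i) a)) := by
    intro i
    induction i with
    | zero =>
      intro χ φ hφ
      simpa using hφ
    | succ i ih =>
      intro χ φ hφ
      have h1 := ih _ _ (hΞmem χ φ hφ)
      have e : (fun a => χ ((c ^ (i + 1)) a)) = fun a => χ (c ((c ^ i) a)) := by
        funext a
        rw [pow_succ', MulAut.mul_apply]
      rw [e, pow_succ, Module.End.mul_apply]
      exact h1
  have hΞinj : ∀ (i : ℕ) (φ : E →ₗ[ZMod q] V₂), (Ξ ^ i) φ = 0 → φ = 0 := by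
    intro i φ h
    have h1 : (Ξ ^ i) ^ r = 1 := by rw [← pow_mul, mul_comm, pow_mul, hΞr, one_pow]
    have h2 : ((Ξ ^ i) ^ (r - 1) * Ξ ^ i) φ = φ := by
      rw [← pow_succ, Nat.sub_add_cancel hrpos, h1, Module.End.one_apply]
    rw [Module.End.mul_apply, h, map_zero] at h2
    exact h2.symm
  have hcpow : ∀ k : ℕ, c ^ (r * k) = 1 := by
    intro k
    rw [pow_mul, hc, one_pow]
  -- no occurring character is fixed by a nontrivial power of `c`
  have claimA : ∀ χ : S₀ → K₂, simEig T χ ≠ ⊥ → ∀ k : ℕ, (∀ a, χ ((c ^ k) a) = χ a) →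
      r ∣ k := by
    intro χ hχ k hk
    obtain ⟨φ, hφ, hφ0⟩ := (Submodule.ne_bot_iff _).mp hχ
    rw [mem_simEig] at hφ
    by_contra hnd
    have hi0 : 0 < k % r := Nat.pos_of_ne_zero (fun h => hnd (Nat.dvd_of_mod_eq_zero h))
    have hir : k % r < r := Nat.mod_lt _ hrpos
    have hck : c ^ k = c ^ (k % r) := by
      conv_lhs => rw [← Nat.div_add_mod k r, pow_add, hcpow, one_mul]
    rw [hck] at hk
    obtain ⟨m, hm⟩ := exists_pow_pow_eq_self c hr hc hi0 hir
    have hχc : ∀ a, χ (c a) = χ a := by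
      have h1 : ∀ (n : ℕ) a, χ (((c ^ (k % r)) ^ n) a) = χ a := by
        intro n
        induction n with
        | zero =>
          intro a
          rw [pow_zero, MulAut.one_apply]
        | succ n ih =>
          intro a
          rw [pow_succ', MulAut.mul_apply, hk, ih]
      intro a
      have h2 := h1 m a
      rw [hm] at h2
      exact h2
    have hχmul : ∀ a b, χ (a * b) = χ a * χ b := by
      intro a b
      have h1 := hφ (a * b)
      rw [hTmul, Module.End.mul_apply, hφ b, map_smul, hφ a, smul_smul, mul_comm] at h1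
      exact (smul_left_injective K₂ hφ0 h1).symm
    have hχ1 : χ 1 = 1 := by
      have h1 := hφ 1
      rw [hT1, Module.End.one_apply] at h1
      exact smul_left_injective K₂ hφ0 (by
        show χ 1 • φ = (1 : K₂) • φ
        rw [one_smul]
        exact h1.symm)
    let kerχ : Subgroup S₀ :=
      { carrier := {a | χ a = 1}
        one_mem' := hχ1
        mul_mem' := by
          intro a b ha hb
          show χ (a * b) = 1
          rw [hχmul, show χ a = 1 from ha, show χ b = 1 from hb, one_mul]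
        inv_mem' := by
          intro a ha
          show χ a⁻¹ = 1
          have h2 := hχmul a a⁻¹
          rw [mul_inv_cancel, hχ1, show χ a = 1 from ha, one_mul] at h2
          exact h2.symm }
    have hker : ∀ a, a ∈ kerχ ↔ χ a = 1 := fun a => Iff.rfl
    have hrN : ¬ r ∣ Nat.card kerχ := by
      intro h
      have h1 := h.trans (Subgroup.card_subgroup_dvd_card kerχ)
      exact (Nat.Prime.coprime_iff_not_dvd hr).mp hS₀r.symm h1
    have hχone : ∀ a, χ a = 1 := by
      intro a
      obtain ⟨w, hw1, hw2⟩ := exists_fixed_in_coset_single c hc kerχ hrN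
        (fun n hn => by
          rw [hker] at hn ⊢
          rw [hχc, hn]) a
        (by
          rw [hker, hχmul, hχc, ← hχmul, inv_mul_cancel, hχ1])
      have hw3 : χ w = 1 := by
        have h1 := hφ w
        have h2 : T w = 1 := by
          rw [hTdef]
          show pre (τ w) = 1
          rw [hfix w hw2, pre_one]
        rw [h2, Module.End.one_apply] at h1
        exact smul_left_injective K₂ hφ0 (by
          show χ w • φ = (1 : K₂) • φ
          rw [one_smul]
          exact h1.symm)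
      have h3 : a = w * (a⁻¹ * w)⁻¹ := by group
      rw [h3, hχmul, hw3, one_mul]
      exact (hker _).mp (kerχ.inv_mem hw1)
    have hN := hgen (LinearMap.ker φ) (by
      intro a x
      rw [LinearMap.mem_ker, map_sub, ← hTapp, hφ a, hχone a, one_smul, sub_self])
    exact hφ0 (LinearMap.ker_eq_top.mp hN)
  -- a primitive root and a function on characters twisting by it along `c`-orbits
  haveI : NeZero ((r : ℕ) : K₂) := ⟨hrK⟩
  obtain ⟨ζ, hζ⟩ := HasEnoughRootsOfUnity.exists_primitiveRoot K₂ r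
  have hζ0 : ζ ≠ 0 := hζ.ne_zero hr.ne_zero
  have hd : ∃ d : (S₀ → K₂) → K₂, (∀ χ, d χ ≠ 0) ∧
      ∀ χ, simEig T χ ≠ ⊥ → d χ = ζ * d (fun a => χ (c a)) := by
    let sd : Setoid (S₀ → K₂) :=
      { r := fun χ χ' => ∃ i : ℕ, χ' = fun a => χ ((c ^ i) a)
        iseqv :=
          { refl := fun χ => ⟨0, by
              funext a
              rw [pow_zero, MulAut.one_apply]⟩
            symm := by
              rintro χ χ' ⟨i, hi⟩
              refine ⟨(r - 1) * i, ?_⟩
              rw [hi]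
              funext a
              show χ a = χ ((c ^ i) ((c ^ ((r - 1) * i)) a))
              have e : i + (r - 1) * i = r * i := by
                have h1 : r = (r - 1) + 1 := by omega
                conv_rhs => rw [h1]
                ring
              rw [← MulAut.mul_apply, ← pow_add, e, hcpow, MulAut.one_apply]
            trans := by
              rintro χ χ' χ'' ⟨i, hi⟩ ⟨j, hj⟩
              refine ⟨i + j, ?_⟩
              rw [hj, hi]
              funext a
              show χ ((c ^ i) ((c ^ j) a)) = χ ((c ^ (i + j)) a)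
              rw [← MulAut.mul_apply, ← pow_add] } }
    have hout : ∀ χ : S₀ → K₂, ∃ i : ℕ, χ = fun a => (Quotient.mk sd χ).out ((c ^ i) a) :=
      fun χ => Quotient.mk_out (s := sd) χ
    choose idx hidx using hout
    refine ⟨fun χ => (ζ ^ idx χ)⁻¹, fun χ => inv_ne_zero (pow_ne_zero _ hζ0), ?_⟩
    intro χ hχ
    obtain ⟨ρ₀, hρ₀⟩ : ∃ ρ₀ : S₀ → K₂, ρ₀ = (Quotient.mk sd χ).out := ⟨_, rfl⟩
    have h1 : χ = fun a => ρ₀ ((c ^ idx χ) a) := by
      rw [hρ₀]
      exact hidx χ
    have h2 : (Quotient.mk sd (fun a => χ (c a))).out = ρ₀ := by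
      rw [hρ₀]
      refine congrArg Quotient.out (Quotient.sound (s := sd) ?_).symm
      exact ⟨1, by
        funext a
        rw [pow_one]⟩
    have h3 : (fun a => χ (c a)) = fun a => ρ₀ ((c ^ idx (fun a => χ (c a))) a) := by
      have h4 := hidx (fun a => χ (c a))
      rw [h2] at h4
      exact h4
    have h5 : ∀ a, ρ₀ ((c ^ idx (fun a => χ (c a))) a) = ρ₀ ((c ^ (idx χ + 1)) a) := by
      intro a
      have h6 := congrFun h3 a
      have h7 := congrFun h1 (c a)
      rw [← h6, h7, pow_succ, MulAut.mul_apply]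
    -- `ρ₀` occurs
    have hρocc : simEig T ρ₀ ≠ ⊥ := by
      obtain ⟨φ, hφ, hφ0⟩ := (Submodule.ne_bot_iff _).mp hχ
      have h8 := hΞpow_mem ((r - 1) * idx χ) χ φ hφ
      have e : (fun a => χ ((c ^ ((r - 1) * idx χ)) a)) = ρ₀ := by
        funext a
        have h7 := congrFun h1 ((c ^ ((r - 1) * idx χ)) a)
        have e2 : idx χ + (r - 1) * idx χ = r * idx χ := by
          have h1 : r = (r - 1) + 1 := by omega
          conv_rhs => rw [h1]
          ring
        rw [h7, ← MulAut.mul_apply, ← pow_add, e2, hcpow, MulAut.one_apply]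
      rw [e] at h8
      exact (Submodule.ne_bot_iff _).mpr ⟨_, h8, fun h => hφ0 (hΞinj _ φ h)⟩
    obtain ⟨I, hI⟩ : ∃ I : ℕ, I = idx (fun a => χ (c a)) := ⟨_, rfl⟩
    rw [← hI] at h5
    have e3 : I + (r - 1) * I = r * I := by
      have h1 : r = (r - 1) + 1 := by omega
      conv_rhs => rw [h1]
      ring
    have h9 : r ∣ (idx χ + 1) + (r - 1) * I := by
      apply claimA ρ₀ hρocc
      intro a
      rw [pow_add, MulAut.mul_apply, ← h5, ← MulAut.mul_apply, ← pow_add, e3, hcpow,
        MulAut.one_apply]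
    have h10 : r ∣ I + (r - 1) * I := by
      rw [e3]
      exact dvd_mul_right r I
    have hmod : idx χ + 1 ≡ I [MOD r] :=
      Nat.ModEq.add_right_cancel' ((r - 1) * I)
        (((Nat.modEq_zero_iff_dvd).mpr h9).trans ((Nat.modEq_zero_iff_dvd).mpr h10).symm)
    have hpm : ∀ n : ℕ, ζ ^ n = ζ ^ (n % r) := by
      intro n
      conv_lhs => rw [← Nat.div_add_mod n r, pow_add, pow_mul, hζ.pow_eq_one, one_pow, one_mul]
    have hpw : ζ ^ (idx χ + 1) = ζ ^ I := by
      rw [hpm (idx χ + 1), hpm I]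
      exact congrArg (fun n => ζ ^ n) hmod
    show (ζ ^ idx χ)⁻¹ = ζ * (ζ ^ idx (fun a => χ (c a)))⁻¹
    rw [← hI, ← hpw, pow_succ]
    field_simp
  obtain ⟨d, hd0, hdc⟩ := hd
  -- the twisting operator
  have hD : ∃ D : Module.End K₂ (E →ₗ[ZMod q] V₂), Function.Injective D ∧
      ∀ φ, Ξ (D φ) = ζ • D (Ξ φ) := by
    have hint := DirectSum.isInternal_submodule_of_iSupIndep_of_iSup_eq_top hind htop
    obtain ⟨eW, heW⟩ : ∃ eW : (DirectSum (S₀ → K₂) fun χ => ↥(simEig T χ)) ≃ₗ[K₂]
        (E →ₗ[ZMod q] V₂),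
        ∀ x, eW x = DirectSum.coeLinearMap (fun χ : S₀ → K₂ => simEig T χ) x :=
      ⟨LinearEquiv.ofBijective (DirectSum.coeLinearMap (fun χ : S₀ → K₂ => simEig T χ)) hint,
        fun x => rfl⟩
    have hmk : ∀ d' : (S₀ → K₂) → K₂, ∃ D : Module.End K₂ (E →ₗ[ZMod q] V₂),
        ∀ χ, ∀ φ ∈ simEig T χ, D φ = d' χ • φ := by
      intro d'
      refine ⟨(DirectSum.toModule K₂ (S₀ → K₂) (E →ₗ[ZMod q] V₂)
        (fun χ => d' χ • (simEig T χ).subtype)) ∘ₗ eW.symm.toLinearMap, ?_⟩
      intro χ φ hφ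
      have h1 : eW.symm φ =
          DirectSum.lof K₂ (S₀ → K₂) (fun χ => ↥(simEig T χ)) χ ⟨φ, hφ⟩ := by
        rw [LinearEquiv.symm_apply_eq, heW, DirectSum.lof_eq_of, DirectSum.coeLinearMap_of]
      rw [LinearMap.comp_apply, LinearEquiv.coe_coe, h1, DirectSum.toModule_lof]
      rfl
    obtain ⟨D, hDd⟩ := hmk d
    obtain ⟨D', hD'd⟩ := hmk (fun χ => (d χ)⁻¹)
    have hD'D : D' * D = 1 := by
      apply ext_of_iSup (fun χ => simEig T χ) htop
      intro χ φ hφ
      rw [Module.End.mul_apply, hDd χ φ hφ, map_smul, hD'd χ φ hφ, smul_smul,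
        mul_inv_cancel₀ (hd0 χ), one_smul, Module.End.one_apply]
    refine ⟨D, ?_, ?_⟩
    · intro φ φ' h
      have h1 := congrArg D' h
      rw [← Module.End.mul_apply, ← Module.End.mul_apply, hD'D] at h1
      exact h1
    · have h2 : Ξ * D = ζ • (D * Ξ) := by
        apply ext_of_iSup (fun χ => simEig T χ) htop
        intro χ φ hφ
        by_cases hχ : simEig T χ = ⊥
        · rw [hχ, Submodule.mem_bot] at hφ
          rw [hφ, map_zero, map_zero]
        · rw [Module.End.mul_apply, LinearMap.smul_apply, Module.End.mul_apply, hDd χ φ hφ,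
            map_smul, hDd _ _ (hΞmem χ φ hφ), smul_smul, ← hdc χ hχ]
      intro φ
      have h3 := LinearMap.congr_fun h2 φ
      rw [Module.End.mul_apply, LinearMap.smul_apply, Module.End.mul_apply] at h3
      exact h3
  obtain ⟨D, hDinj, hDΞ⟩ := hD
  obtain ⟨U, hUdef⟩ : ∃ U : Submodule K₂ (E →ₗ[ZMod q] V₂), U = LinearMap.ker (Ξ - 1) :=
    ⟨_, rfl⟩
  have hUmem : ∀ φ, φ ∈ U ↔ Ξ φ = φ := by
    intro φ
    rw [hUdef, LinearMap.mem_ker, LinearMap.sub_apply, Module.End.one_apply, sub_eq_zero]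
  -- `r` independent copies of the fixed space
  have hb : r * finrank K₂ ↥U ≤ finrank (ZMod q) E := by
    have hpowD : ∀ (j : ℕ) (φ : E →ₗ[ZMod q] V₂), φ ∈ U →
        Ξ ((D ^ j) φ) = ζ ^ j • (D ^ j) φ := by
      intro j
      induction j with
      | zero =>
        intro φ hφ
        rw [pow_zero, pow_zero, one_smul, Module.End.one_apply]
        exact (hUmem φ).mp hφ
      | succ j ih =>
        intro φ hφ
        rw [pow_succ', Module.End.mul_apply, hDΞ, ih φ hφ, map_smul, smul_smul, pow_succ']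
    have hDpinj : ∀ (j : ℕ) (φ : E →ₗ[ZMod q] V₂), (D ^ j) φ = 0 → φ = 0 := by
      intro j
      induction j with
      | zero =>
        intro φ h
        simpa using h
      | succ j ih =>
        intro φ h
        rw [pow_succ', Module.End.mul_apply] at h
        exact ih φ (hDinj (by rw [h, map_zero]))
    let J : (Fin r → ↥U) →ₗ[K₂] (E →ₗ[ZMod q] V₂) :=
      ∑ j : Fin r, ((D ^ (j : ℕ)) ∘ₗ U.subtype) ∘ₗ LinearMap.proj j
    have hJ : ∀ f : Fin r → ↥U,
        J f = ∑ j : Fin r, (D ^ (j : ℕ)) (f j : E →ₗ[ZMod q] V₂) := by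
      intro f
      simp [J, LinearMap.sum_apply]
    have hJinj : Function.Injective J := by
      apply (injective_iff_map_eq_zero J).mpr
      intro f hf
      rw [hJ] at hf
      funext j₀
      have h0 := sep' (fun _ : Unit => Ξ) (fun _ => ζ ^ (j₀ : ℕ))
        (fun (k : Fin r) (_ : Unit) => ζ ^ (k : ℕ)) (Finset.univ.erase j₀)
        (by
          intro k hk hθ
          have h1 := congrFun hθ ()
          have h2 := hζ.pow_inj k.2 j₀.2 h1
          exact (Finset.ne_of_mem_erase hk) (Fin.ext h2))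
        ((D ^ (j₀ : ℕ)) (f j₀ : E →ₗ[ZMod q] V₂))
        (by
          rw [mem_simEig]
          intro _
          exact hpowD _ _ (f j₀).2)
        (fun k => (D ^ (k : ℕ)) (f k : E →ₗ[ZMod q] V₂))
        (by
          intro k _
          rw [mem_simEig]
          intro _
          exact hpowD _ _ (f k).2)
        ((Finset.add_sum_erase Finset.univ
          (fun k : Fin r => (D ^ (k : ℕ)) (f k : E →ₗ[ZMod q] V₂)) (Finset.mem_univ j₀)).trans hf)
      have h1 := hDpinj _ _ h0
      exact Subtype.ext h1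
    have h1 := LinearMap.finrank_le_finrank_of_injective hJinj
    rw [Module.finrank_pi_fintype, Finset.sum_const, Finset.card_univ, Fintype.card_fin,
      smul_eq_mul, Module.finrank_linearMap (ZMod q) K₂ E V₂, hV₂, mul_one] at h1
    exact h1
  -- the projector onto the fixed points of `σ`
  obtain ⟨N₁, hN₁def⟩ : ∃ N₁ : Submodule (ZMod q) E, N₁ = LinearMap.ker (σ - 1) := ⟨_, rfl⟩
  have hN₁mem : ∀ x, x ∈ N₁ ↔ σ x = x := by
    intro x
    rw [hN₁def, LinearMap.mem_ker, LinearMap.sub_apply, Module.End.one_apply, sub_eq_zero]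
  rw [← hN₁def]
  obtain ⟨e, hedef⟩ : ∃ e : Module.End (ZMod q) E,
      e = ((r : ℕ) : ZMod q)⁻¹ • ∑ i ∈ Finset.range r, σ ^ i := ⟨_, rfl⟩
  have heapp : ∀ x, e x = ((r : ℕ) : ZMod q)⁻¹ • ∑ i ∈ Finset.range r, (σ ^ i) x := by
    intro x
    rw [hedef, LinearMap.smul_apply, LinearMap.sum_apply]
  have hσe : ∀ x, σ (e x) = e x := by
    intro x
    rw [heapp, map_smul]
    congr 1
    exact sum_pow_fixed' σ r x (by rw [hσ]; rfl)
  have heσ : ∀ x, e (σ x) = e x := by
    intro x
    rw [heapp, heapp]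
    congr 1
    have h1 : ∀ i ∈ Finset.range r, (σ ^ i) (σ x) = σ ((σ ^ i) x) := by
      intro i _
      rw [← Module.End.mul_apply, ← Module.End.mul_apply, ← pow_succ, ← pow_succ']
    rw [Finset.sum_congr rfl h1, ← map_sum]
    exact sum_pow_fixed' σ r x (by rw [hσ]; rfl)
  have hefix : ∀ x, σ x = x → e x = x := by
    intro x hx
    have h1 : ∀ i : ℕ, (σ ^ i) x = x := by
      intro i
      induction i with
      | zero => rfl
      | succ i ih => rw [pow_succ, Module.End.mul_apply, hx, ih]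
    rw [heapp, Finset.sum_congr rfl (fun i _ => h1 i), Finset.sum_const, Finset.card_range,
      ← Nat.cast_smul_eq_nsmul (ZMod q), inv_smul_smul₀ hrq]
  obtain ⟨e', he'⟩ : ∃ e' : E →ₗ[ZMod q] ↥N₁, ∀ x, ((e' x : ↥N₁) : E) = e x :=
    ⟨e.codRestrict N₁ (fun x => (hN₁mem _).mpr (hσe x)), fun x => rfl⟩
  have hA : finrank (ZMod q) ↥N₁ ≤ finrank K₂ ↥U := by
    have hAU : ∀ ψ : ↥N₁ →ₗ[ZMod q] V₂, LinearMap.lcomp K₂ V₂ e' ψ ∈ U := by
      intro ψ
      rw [hUmem]
      apply LinearMap.ext
      intro x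
      rw [hΞapp]
      show ψ (e' (σ x)) = ψ (e' x)
      congr 1
      apply Subtype.ext
      rw [he', he', heσ]
    have hinj : Function.Injective ((LinearMap.lcomp K₂ V₂ e').codRestrict U hAU) := by
      apply (injective_iff_map_eq_zero _).mpr
      intro ψ hψ
      apply LinearMap.ext
      intro y
      have h1 : (LinearMap.lcomp K₂ V₂ e' ψ : E →ₗ[ZMod q] V₂) (y : E) = 0 := by
        have h2 := congrArg Subtype.val hψ
        exact LinearMap.congr_fun h2 (y : E)
      have h3 : e' (y : E) = y := by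
        apply Subtype.ext
        rw [he']
        exact hefix _ ((hN₁mem _).mp y.2)
      have h4 : (LinearMap.lcomp K₂ V₂ e' ψ : E →ₗ[ZMod q] V₂) (y : E) = ψ (e' (y : E)) := rfl
      rw [h4, h3] at h1
      rw [h1]
      rfl
    have h5 := LinearMap.finrank_le_finrank_of_injective hinj
    rw [Module.finrank_linearMap (ZMod q) K₂ ↥N₁ V₂, hV₂, mul_one] at h5
    exact h5
  have hB : finrank K₂ ↥U ≤ finrank (ZMod q) ↥N₁ := by
    have hinj : Function.Injective ((LinearMap.lcomp K₂ V₂ N₁.subtype) ∘ₗ U.subtype) := by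
      apply (injective_iff_map_eq_zero _).mpr
      intro φ hφ
      apply Subtype.ext
      apply LinearMap.ext
      intro x
      have hφσ : ∀ y, (φ : E →ₗ[ZMod q] V₂) (σ y) = (φ : E →ₗ[ZMod q] V₂) y := by
        intro y
        have h1 := (hUmem _).mp φ.2
        have h2 := LinearMap.congr_fun h1 y
        rw [hΞapp] at h2
        exact h2
      have hφpow : ∀ (i : ℕ) y, (φ : E →ₗ[ZMod q] V₂) ((σ ^ i) y) =
          (φ : E →ₗ[ZMod q] V₂) y := by
        intro i
        induction i with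
        | zero =>
          intro y
          rfl
        | succ i ih =>
          intro y
          rw [pow_succ', Module.End.mul_apply, hφσ, ih]
      have h3 : (φ : E →ₗ[ZMod q] V₂) (e x) = (φ : E →ₗ[ZMod q] V₂) x := by
        rw [heapp, map_smul, map_sum, Finset.sum_congr rfl (fun i _ => hφpow i x),
          Finset.sum_const, Finset.card_range, ← Nat.cast_smul_eq_nsmul (ZMod q),
          inv_smul_smul₀ hrq]
      have h4 : (φ : E →ₗ[ZMod q] V₂) (e x) = 0 := by
        have h5 := LinearMap.congr_fun hφ (e' x)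
        have h6 : (((LinearMap.lcomp K₂ V₂ N₁.subtype) ∘ₗ U.subtype) φ) (e' x) =
            (φ : E →ₗ[ZMod q] V₂) ((e' x : ↥N₁) : E) := rfl
        rw [h6, he'] at h5
        exact h5
      rw [← h3, h4]
      rfl
    have h5 := LinearMap.finrank_le_finrank_of_injective hinj
    rw [Module.finrank_linearMap (ZMod q) K₂ ↥N₁ V₂, hV₂, mul_one] at h5
    exact h5
  have hpos : 0 < finrank (ZMod q) E → 0 < finrank K₂ ↥U := by
    intro hn
    have hn' : 0 < finrank K₂ (E →ₗ[ZMod q] V₂) := by
      rw [Module.finrank_linearMap (ZMod q) K₂ E V₂, hV₂, mul_one]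
      exact hn
    obtain ⟨φ₀, hφ₀⟩ := Module.finrank_pos_iff_exists_ne_zero.mp hn'
    obtain ⟨χ, hχ⟩ : ∃ χ : S₀ → K₂, simEig T χ ≠ ⊥ := by
      by_contra hall
      push Not at hall
      have h1 : (⨆ χ : S₀ → K₂, simEig T χ) = ⊥ := by
        rw [iSup_eq_bot]
        exact hall
      rw [htop] at h1
      have h2 : φ₀ ∈ (⊥ : Submodule K₂ (E →ₗ[ZMod q] V₂)) := by
        rw [← h1]
        exact Submodule.mem_top
      exact hφ₀ ((Submodule.mem_bot K₂).mp h2)
    obtain ⟨φ, hφ, hφ0⟩ := (Submodule.ne_bot_iff _).mp hχ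
    have hfixΦ := sum_pow_fixed' Ξ r φ (by rw [hΞr]; rfl)
    apply Nat.pos_of_ne_zero
    intro hU0
    have hUbot := Submodule.finrank_eq_zero.mp hU0
    have h1 : ∑ i ∈ Finset.range r, (Ξ ^ i) φ = 0 := by
      have h2 : ∑ i ∈ Finset.range r, (Ξ ^ i) φ ∈ U := (hUmem _).mpr hfixΦ
      rw [hUbot, Submodule.mem_bot] at h2
      exact h2
    apply hφ0
    have h00 : (0 : ℕ) ∈ Finset.range r := Finset.mem_range.mpr hrpos
    rw [← Finset.add_sum_erase _ _ h00, pow_zero, Module.End.one_apply] at h1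
    exact sep' T χ (fun (k : ℕ) (a : S₀) => χ ((c ^ k) a)) ((Finset.range r).erase 0)
      (by
        intro k hk hθ
        have hk0 : k ≠ 0 := Finset.ne_of_mem_erase hk
        have hkr : k < r := Finset.mem_range.mp (Finset.mem_of_mem_erase hk)
        have h2 := claimA χ hχ k (fun a => congrFun hθ a)
        exact absurd (Nat.le_of_dvd (Nat.pos_of_ne_zero hk0) h2) (not_le.mpr hkr))
      φ hφ (fun k => (Ξ ^ k) φ) (fun k _ => hΞpow_mem k χ φ hφ) h1
  exact ⟨(Nat.mul_le_mul_left r hA).trans hb, fun hn => lt_of_lt_of_le (hpos hn) hB⟩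

end Free

section FreeGroup

/-- Freeness, group form, with the module structure as an instance. -/
theorem free_group_aux {q r : ℕ} [Fact q.Prime] (hr : r.Prime) (hqr : q ≠ r)
    {Ē : Type u} [CommGroup Ē] [Finite Ē] [Module (ZMod q) (Additive Ē)]
    (σ : MulAut Ē) (hσ : σ ^ r = 1)
    {S₀ : Type v} [Group S₀] [Finite S₀] (τ : S₀ →* MulAut Ē)
    (hτcomm : ∀ a b, τ a * τ b = τ b * τ a)
    (hS₀q : (Nat.card S₀).Coprime q) (hS₀r : (Nat.card S₀).Coprime r)
    (c : MulAut S₀) (hc : c ^ r = 1)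
    (hστ : ∀ a x, σ (τ a x) = τ (c a) (σ x))
    (hfix : ∀ a, c a = a → τ a = 1)
    (hgen : ∀ N : Subgroup Ē, (∀ a x, τ a x * x⁻¹ ∈ N) → N = ⊤) :
    ∃ n n₁ : ℕ, Nat.card Ē = q ^ n ∧ Nat.card {x : Ē // σ x = x} = q ^ n₁ ∧ r * n₁ ≤ n ∧
      (0 < n → 0 < n₁) := by
  classical
  let linHom : MulAut Ē →* Module.End (ZMod q) (Additive Ē) :=
    { toFun := fun f => AddMonoidHom.toZModLinearMap q
        (AddMonoidHom.mk' (fun x : Additive Ē => Additive.ofMul (f x.toMul))
          (fun x y => congrArg Additive.ofMul (map_mul f x.toMul y.toMul)))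
      map_one' := by
        apply LinearMap.ext
        intro x
        rw [AddMonoidHom.coe_toZModLinearMap]
        rfl
      map_mul' := by
        intro f g
        apply LinearMap.ext
        intro x
        rw [AddMonoidHom.coe_toZModLinearMap]
        rfl }
  have hlin : ∀ (f : MulAut Ē) (x : Additive Ē), linHom f x = Additive.ofMul (f x.toMul) :=
    fun f x => rfl
  have hmain := free_aux (K₂ := AlgebraicClosure (ZMod q)) (V₂ := AlgebraicClosure (ZMod q))
    (Module.finrank_self _) hr hqr (linHom σ) (by rw [← map_pow, hσ, map_one])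
    (linHom.comp τ)
    (by
      intro a b
      rw [MonoidHom.comp_apply, MonoidHom.comp_apply, ← map_mul linHom, ← map_mul linHom,
        hτcomm])
    hS₀q hS₀r c hc
    (by
      intro a
      apply LinearMap.ext
      intro x
      rw [Module.End.mul_apply, Module.End.mul_apply, MonoidHom.comp_apply, MonoidHom.comp_apply,
        hlin, hlin, hlin, hlin]
      exact congrArg Additive.ofMul (hστ a x.toMul))
    (by
      intro a ha
      rw [MonoidHom.comp_apply, hfix a ha, map_one])
    (by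
      intro N hN
      let N' : Subgroup Ē :=
        { carrier := {x | Additive.ofMul x ∈ N}
          one_mem' := N.zero_mem
          mul_mem' := fun {x y} hx hy => N.add_mem hx hy
          inv_mem' := fun {x} hx => N.neg_mem hx }
      have h1 := hgen N' (by
        intro a x
        have h2 := hN a (Additive.ofMul x)
        rw [sub_eq_add_neg] at h2
        exact h2)
      rw [eq_top_iff]
      intro x _
      have h3 : x.toMul ∈ N' := by
        rw [h1]
        exact Subgroup.mem_top _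
      exact h3)
  refine ⟨finrank (ZMod q) (Additive Ē), finrank (ZMod q) ↥(LinearMap.ker (linHom σ - 1)),
    ?_, ?_, hmain.1, hmain.2⟩
  · have h1 := Module.natCard_eq_pow_finrank (K := ZMod q) (V := Additive Ē)
    rw [Nat.card_zmod] at h1
    exact h1
  · have h1 := Module.natCard_eq_pow_finrank (K := ZMod q)
      (V := ↥(LinearMap.ker (linHom σ - 1)))
    rw [Nat.card_zmod] at h1
    rw [← h1]
    apply Nat.card_congr
    exact
      { toFun := fun x => ⟨Additive.ofMul x.1, by
          rw [LinearMap.mem_ker, LinearMap.sub_apply, Module.End.one_apply, hlin, sub_eq_zero]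
          exact congrArg Additive.ofMul x.2⟩
        invFun := fun y => ⟨(y : Additive Ē).toMul, by
          have h2 := y.2
          rw [LinearMap.mem_ker, LinearMap.sub_apply, Module.End.one_apply, hlin,
            sub_eq_zero] at h2
          exact congrArg Additive.toMul h2⟩
        left_inv := fun x => rfl
        right_inv := fun y => rfl }

/-- **Freeness, group form.**  An elementary abelian `q`-group `Ē` with a coprime action of a
Frobenius-like group `S₀ ⋊ ⟨σ⟩` (`σ` of prime order `r`), generated by commutators with `S₀`: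
the fixed points of `σ` have order `q ^ n₁` with `r n₁ ≤ n`, where `|Ē| = q ^ n`, and `n₁ > 0`
if `n > 0`. -/
theorem free_group {q r : ℕ} [Fact q.Prime] (hr : r.Prime) (hqr : q ≠ r)
    {Ē : Type u} [Group Ē] [Finite Ē] (hcomm : ∀ a b : Ē, a * b = b * a)
    (hexp : ∀ a : Ē, a ^ q = 1) (σ : MulAut Ē) (hσ : σ ^ r = 1)
    {S₀ : Type v} [Group S₀] [Finite S₀] (τ : S₀ →* MulAut Ē)
    (hτcomm : ∀ a b, τ a * τ b = τ b * τ a)
    (hS₀q : (Nat.card S₀).Coprime q) (hS₀r : (Nat.card S₀).Coprime r)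
    (c : MulAut S₀) (hc : c ^ r = 1)
    (hστ : ∀ a x, σ (τ a x) = τ (c a) (σ x))
    (hfix : ∀ a, c a = a → τ a = 1)
    (hgen : ∀ N : Subgroup Ē, (∀ a x, τ a x * x⁻¹ ∈ N) → N = ⊤) :
    ∃ n n₁ : ℕ, Nat.card Ē = q ^ n ∧ Nat.card {x : Ē // σ x = x} = q ^ n₁ ∧ r * n₁ ≤ n ∧
      (0 < n → 0 < n₁) :=
  @free_group_aux q r _ hr hqr Ē { (inferInstance : Group Ē) with mul_comm := hcomm } _
    (@AddCommGroup.zmodModule q (Additive Ē)
      (@Additive.addCommGroup Ē { (inferInstance : Group Ē) with mul_comm := hcomm })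
      (fun x => congrArg Additive.ofMul (hexp x.toMul)))
    σ hσ S₀ _ _ τ hτcomm hS₀q hS₀r c hc hστ hfix hgen

end FreeGroup

end Cfsg.Agent.Helper63.Frob
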