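-- helper63 library: the core counting contradiction for a class-two group of linear maps
-- normalized by a Frobenius-like group one of whose elements of prime order has no fixed
-- vector; add-only once landed.
import Cfsg.Agent.Helper63.FrobFree

set_option autoImplicit false

namespace Cfsg.Agent.Helper63.Frob

open Module Cfsg.Agent.Helper63.Gross Cfsg.Agent.Helper63.Shult Cfsg.Agent.Helper63.ProjRep
  Cfsg.Agent.Helper63.Ward

universe u v w w'

section QuotCenter

variable (Q : Type w) [Group Q] [Finite Q]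

/-- The automorphism induced on the central quotient. -/
noncomputable def quotCenter : MulAut Q →* MulAut (Q ⧸ Subgroup.center Q) where
  toFun φ := QuotientGroup.congr (Subgroup.center Q) (Subgroup.center Q) φ (map_center_eq φ)
  map_one' := by
    apply MulEquiv.ext
    intro x
    induction x using QuotientGroup.induction_on with
    | _ g => rfl
  map_mul' φ ψ := by
    apply MulEquiv.ext
    intro x
    induction x using QuotientGroup.induction_on with
    | _ g => rfl

variable {Q}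

theorem quotCenter_mk (φ : MulAut Q) (g : Q) :
    quotCenter Q φ (QuotientGroup.mk g) = QuotientGroup.mk (φ g) := rfl

end QuotCenter

section Arith

theorem sq_lt_two_pow (j : ℕ) (hj : 5 ≤ j) : j * j < 2 ^ j := by
  induction j, hj using Nat.le_induction with
  | base => norm_num
  | succ j hj ih =>
    rw [pow_succ]
    nlinarith

/-- The arithmetic of the counting argument. -/
theorem frob_arith {q r n n₁ d m y : ℕ} (hq : q.Prime) (hr : r.Prime)
    (hsq : q ^ n = d ^ 2) (hy : y = q ^ n₁) (hrn : r * n₁ ≤ n) (hpos : 0 < n → 0 < n₁)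
    (hm : m * r + y = q ^ n) (hle : q ^ n ≤ (r - 1) * (y + m)) : n = 0 := by
  by_contra hn
  have hn₁ : 0 < n₁ := hpos (Nat.pos_of_ne_zero hn)
  obtain ⟨k, rfl⟩ : ∃ k, r = k + 1 := ⟨r - 1, by have := hr.pos; omega⟩
  have hk1 : k + 1 - 1 = k := by omega
  rw [hk1] at hle
  subst hy
  have hq2 := hq.two_le
  have hG : q ^ n ≤ k * k * q ^ n₁ := by
    have A := Nat.mul_le_mul_left (k + 1) hle
    have B : k * (m * (k + 1) + q ^ n₁) = k * q ^ n := by rw [hm]
    nlinarith [A, B]
  have hpow : q ^ ((k + 1) * n₁) ≤ q ^ n := Nat.pow_le_pow_right hq.pos hrn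
  have hYpos : 0 < q ^ n₁ := pow_pos hq.pos _
  have h3 : q ^ (k * n₁) ≤ k * k := by
    have e : q ^ ((k + 1) * n₁) = q ^ (k * n₁) * q ^ n₁ := by
      rw [← pow_add]
      congr 1
      ring
    rw [e] at hpow
    exact Nat.le_of_mul_le_mul_right (hpow.trans hG) hYpos
  have h4 : 2 ^ k ≤ k * k := by
    calc 2 ^ k ≤ q ^ k := Nat.pow_le_pow_left hq2 k
      _ ≤ q ^ (k * n₁) := Nat.pow_le_pow_right hq.pos (Nat.le_mul_of_pos_right k hn₁)
      _ ≤ k * k := h3
  have hk4 : k ≤ 4 := by
    by_contra hk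
    push Not at hk
    exact absurd h4 (not_le.mpr (sq_lt_two_pow k hk))
  have hqpow : ∀ j : ℕ, 0 < j → q ^ j ≤ q ^ (j * n₁) := fun j _ =>
    Nat.pow_le_pow_right hq.pos (Nat.le_mul_of_pos_right j hn₁)
  interval_cases k
  · exact absurd hr (by norm_num)
  · have h5 := hqpow 1 (by norm_num)
    rw [pow_one] at h5
    omega
  · -- `r = 3`
    have h5 := hqpow 2 (by norm_num)
    have hq2' : q = 2 := by
      by_contra hne
      have h6 : 3 ≤ q := by omega
      nlinarith
    subst hq2'
    have hn₁1 : n₁ = 1 := by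
      have h6 : 2 ^ (2 * n₁) ≤ 2 ^ 2 := h3
      have h7 := (Nat.pow_le_pow_iff_right (by norm_num : 1 < 2)).mp h6
      omega
    subst hn₁1
    have hn3 : n = 3 := by
      have h6 : 2 ^ n ≤ 2 ^ 3 := hG
      have h7 := (Nat.pow_le_pow_iff_right (by norm_num : 1 < 2)).mp h6
      omega
    subst hn3
    have h8 : d ≤ 2 ∨ 3 ≤ d := by omega
    rcases h8 with h8 | h8 <;> nlinarith
  · exact absurd hr (by norm_num)
  · -- `r = 5`
    have h5 := hqpow 4 (by norm_num)
    have hq2' : q = 2 := by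
      by_contra hne
      have h6 : 3 ≤ q := by omega
      have h7 : 3 ^ 4 ≤ q ^ 4 := Nat.pow_le_pow_left h6 4
      omega
    subst hq2'
    have hn₁1 : n₁ = 1 := by
      have h6 : 2 ^ (4 * n₁) ≤ 2 ^ 4 := h3
      have h7 := (Nat.pow_le_pow_iff_right (by norm_num : 1 < 2)).mp h6
      omega
    subst hn₁1
    have hn5 : n = 5 := by
      have h6 : 2 ^ n ≤ 2 ^ 5 := hG
      have h7 := (Nat.pow_le_pow_iff_right (by norm_num : 1 < 2)).mp h6
      omega
    subst hn5
    have h8 : d ≤ 5 ∨ 6 ≤ d := by omega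
    rcases h8 with h8 | h8 <;> nlinarith

end Arith

section Core

variable {K : Type u} [Field K] [IsAlgClosed K] {M : Type v} [AddCommGroup M] [Module K M]
  [FiniteDimensional K M]

/-- **Core.**  A `q`-group `Q` of invertible linear maps of class at most two with `Q / Z(Q)`
elementary abelian and centre acting by scalars, normalized by an element `x` of prime order
`r` without fixed vectors and by a group `S₀` inducing commuting automorphisms such that `x`
acts on `S₀` with fixed points centralizing `Q`, and `Q = [Q, S₀] Z(Q)`: then `x` centralizes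
`Q`. -/
theorem frob_core {q r : ℕ} [hqF : Fact q.Prime] (hr : r.Prime) (hqr : q ≠ r)
    (hqK : (q : K) ≠ 0) (hrK : (r : K) ≠ 0)
    (Q : Subgroup (Module.End K M)ˣ) [Finite Q] (hQ : IsPGroup q Q)
    (hscal : ∀ g ∈ Q, (∀ h ∈ Q, g * h = h * g) → ∃ c : K, (g : Module.End K M) = c • 1)
    (hcl2 : ∀ g ∈ Q, ∀ h ∈ Q, ∀ k ∈ Q, (g * h * g⁻¹ * h⁻¹) * k = k * (g * h * g⁻¹ * h⁻¹))
    (hqc : ∀ g ∈ Q, ∀ k ∈ Q, g ^ q * k = k * g ^ q)
    (x : (Module.End K M)ˣ) (hxr : x ^ r = 1) (hxQ : ∀ g ∈ Q, x * g * x⁻¹ ∈ Q)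
    (hfix : ∀ v : M, (x : Module.End K M) v = v → v = 0)
    {S₀ : Type w} [Group S₀] [Finite S₀] (θ : S₀ →* (Module.End K M)ˣ)
    (hθQ : ∀ t, ∀ g ∈ Q, θ t * g * (θ t)⁻¹ ∈ Q)
    (hS₀q : (Nat.card S₀).Coprime q) (hS₀r : (Nat.card S₀).Coprime r)
    (c : MulAut S₀) (hc : c ^ r = 1) (hxθ : ∀ t, x * θ t * x⁻¹ = θ (c t))
    (hfixS : ∀ t, c t = t → ∀ g ∈ Q, θ t * g * (θ t)⁻¹ = g)
    (hSab : ∀ t t', ∀ g ∈ Q,
      θ t * θ t' * g * (θ t * θ t')⁻¹ = θ t' * θ t * g * (θ t' * θ t)⁻¹)
    (hgen : ∀ N : Subgroup (Module.End K M)ˣ, N ≤ Q →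
      (∀ g ∈ Q, (∀ h ∈ Q, g * h = h * g) → g ∈ N) →
      (∀ t, ∀ g ∈ Q, θ t * g * (θ t)⁻¹ * g⁻¹ ∈ N) → Q ≤ N) :
    ∀ g ∈ Q, x * g * x⁻¹ = g := by
  classical
  have hq : q.Prime := hqF.out
  by_cases hM : Nontrivial M
  swap
  · rw [not_nontrivial_iff_subsingleton] at hM
    intro g _
    apply Units.ext
    apply LinearMap.ext
    intro v
    exact Subsingleton.elim _ _
  obtain ⟨kQ, hkQ⟩ := IsPGroup.iff_card.mp hQ
  have hcardK : ((Nat.card ↥Q : ℕ) : K) ≠ 0 := by
    rw [hkQ, Nat.cast_pow]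
    exact pow_ne_zero _ hqK
  refine units_commute_of_abelian Q ?_ x hr hxr hxQ hcardK hfix
  by_contra hnonab
  push Not at hnonab
  obtain ⟨a₀, ha₀, b₀, hb₀, hab₀⟩ := hnonab
  have hxN := mem_normalizer_of_pow Q x hr.pos hxr hxQ
  obtain ⟨ρ, hρdef⟩ : ∃ ρ : ↥Q →* Module.End K M, ρ = unitsRep Q := ⟨_, rfl⟩
  have hρinj : Function.Injective ρ := by
    rw [hρdef]
    exact unitsRep_injective Q
  obtain ⟨φ, hφdef⟩ : ∃ φ : MulAut ↥Q, φ = conjAut Q x hxN := ⟨_, rfl⟩
  have hφval : ∀ g : ↥Q, ((φ g : ↥Q) : (Module.End K M)ˣ) = x * g * x⁻¹ := by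
    intro g
    rw [hφdef]
    rfl
  have hφr : φ ^ r = 1 := by
    rw [hφdef]
    exact conjAut_pow_eq_one Q x hxN hxr
  obtain ⟨ξ, hξdef⟩ : ∃ ξ : Module.End K M, ξ = (x : Module.End K M) := ⟨_, rfl⟩
  obtain ⟨ξi, hξidef⟩ :
      ∃ ξi : Module.End K M, ξi = ((x⁻¹ : (Module.End K M)ˣ) : Module.End K M) := ⟨_, rfl⟩
  have hξ : ξ * ξi = 1 := by
    rw [hξdef, hξidef, ← Units.val_mul, mul_inv_cancel, Units.val_one]
  have hξ' : ξi * ξ = 1 := by
    rw [hξdef, hξidef, ← Units.val_mul, inv_mul_cancel, Units.val_one]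
  have hequiv : ∀ g, ξ * ρ g * ξi = ρ (φ g) := by
    intro g
    rw [hξdef, hξidef, hρdef, hφdef]
    exact unitsRep_equiv Q x hxN g
  have hξr : ξ ^ r = 1 := by
    rw [hξdef, ← Units.val_pow_eq_pow_val, hxr, Units.val_one]
  have hfix' : ∀ v, ξ v = v → v = 0 := by
    rw [hξdef]
    exact hfix
  have hcc : ∀ g h : ↥Q, cm g h ∈ Subgroup.center ↥Q := by
    intro g h
    rw [Subgroup.mem_center_iff]
    intro k
    apply Subtype.ext
    exact (hcl2 g g.2 h h.2 k k.2).symm
  have hsc : ∀ z ∈ Subgroup.center ↥Q, ∃ c : K, ρ z = c • (1 : Module.End K M) := by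
    intro z hz
    obtain ⟨c', hc'⟩ := hscal z z.2
      (fun h hh => congrArg Subtype.val (Subgroup.mem_center_iff.mp hz ⟨h, hh⟩).symm)
    exact ⟨c', by
      rw [hρdef]
      exact hc'⟩
  let lam : ↥Q → K := fun z =>
    if h : ∃ c : K, ρ z = c • (1 : Module.End K M) then h.choose else 0
  have H : Hyp ρ lam := by
    refine ⟨hcc, ?_, ?_, ?_⟩
    · intro z hz
      have h := hsc z hz
      have h1 : lam z = h.choose := dif_pos h
      rw [h1]
      exact h.choose_spec
    · intro g hg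
      by_contra hcon
      push Not at hcon
      apply hg
      rw [Subgroup.mem_center_iff]
      intro h
      have h1 := hcon h
      rw [← map_one ρ] at h1
      have h2 := hρinj h1
      rw [cm_def] at h2
      have h3 : g * h = h * g := by
        calc g * h = (g * h * g⁻¹ * h⁻¹) * (h * g) := by group
          _ = h * g := by rw [h2, one_mul]
      exact h3.symm
    · have h1 : (Subgroup.center ↥Q).index ∣ q ^ kQ := by
        rw [← hkQ]
        exact Subgroup.index_dvd_card _
      obtain ⟨j, -, hj⟩ := (Nat.dvd_prime_pow hq).mp h1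
      rw [hj, Nat.cast_pow]
      exact pow_ne_zero _ hqK
  obtain ⟨d, hd⟩ := H.exists_index_eq_sq
  obtain ⟨m, hm1, hm2⟩ := index_le_fix H φ ξ ξi hξ hξ' hequiv hr hφr hξr hrK hfix'
  have hθN : ∀ t, θ t ∈ Subgroup.normalizer (Q : Set (Module.End K M)ˣ) := fun t =>
    mem_normalizer_of_pow Q (θ t) Nat.card_pos
      (by rw [← map_pow, pow_card_eq_one', map_one]) (hθQ t)
  let τf : S₀ →* MulAut ↥Q :=
    { toFun := fun t => conjAut Q (θ t) (hθN t)
      map_one' := by
        apply MulEquiv.ext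
        intro g
        apply Subtype.ext
        show θ 1 * (g : (Module.End K M)ˣ) * (θ 1)⁻¹ = g
        rw [map_one]
        group
      map_mul' := by
        intro t t'
        apply MulEquiv.ext
        intro g
        apply Subtype.ext
        show θ (t * t') * (g : (Module.End K M)ˣ) * (θ (t * t'))⁻¹ =
          θ t * (θ t' * g * (θ t')⁻¹) * (θ t)⁻¹
        rw [map_mul]
        group }
  have hτf : ∀ t (g : ↥Q), ((τf t g : ↥Q) : (Module.End K M)ˣ) = θ t * g * (θ t)⁻¹ :=
    fun t g => rfl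
  obtain ⟨n, n₁, hn, hy, hrn, hpos⟩ := free_group (Ē := ↥Q ⧸ Subgroup.center ↥Q) hr hqr
    (by
      intro a b
      induction a using QuotientGroup.induction_on with
      | _ g =>
      induction b using QuotientGroup.induction_on with
      | _ h =>
      rw [← QuotientGroup.mk_mul, ← QuotientGroup.mk_mul, QuotientGroup.eq]
      have h1 := hcc h⁻¹ g⁻¹
      rw [cm_def] at h1
      have e : (g * h)⁻¹ * (h * g) = h⁻¹ * g⁻¹ * h⁻¹⁻¹ * g⁻¹⁻¹ := by group
      rw [e]
      exact h1)
    (by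
      intro a
      induction a using QuotientGroup.induction_on with
      | _ g =>
      rw [← QuotientGroup.mk_pow, QuotientGroup.eq_one_iff, Subgroup.mem_center_iff]
      intro k
      apply Subtype.ext
      exact (hqc g g.2 k k.2).symm)
    (quotCenter ↥Q φ) (by rw [← map_pow, hφr, map_one])
    ((quotCenter ↥Q).comp τf)
    (by
      intro a b
      rw [MonoidHom.comp_apply, MonoidHom.comp_apply, ← map_mul (quotCenter ↥Q),
        ← map_mul (quotCenter ↥Q)]
      congr 1
      apply MulEquiv.ext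
      intro g
      apply Subtype.ext
      rw [MulAut.mul_apply, MulAut.mul_apply, hτf, hτf, hτf, hτf]
      have h1 := hSab a b g g.2
      calc θ a * (θ b * (g : (Module.End K M)ˣ) * (θ b)⁻¹) * (θ a)⁻¹
          = θ a * θ b * g * (θ a * θ b)⁻¹ := by group
        _ = θ b * θ a * g * (θ b * θ a)⁻¹ := h1
        _ = θ b * (θ a * g * (θ a)⁻¹) * (θ b)⁻¹ := by group)
    hS₀q hS₀r c hc
    (by
      intro a y
      induction y using QuotientGroup.induction_on with
      | _ g =>
      rw [MonoidHom.comp_apply, MonoidHom.comp_apply, quotCenter_mk, quotCenter_mk,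
        quotCenter_mk, quotCenter_mk]
      congr 1
      apply Subtype.ext
      rw [hφval, hτf, hτf, hφval, ← hxθ a]
      group)
    (by
      intro a ha
      rw [MonoidHom.comp_apply]
      have h1 : τf a = 1 := by
        apply MulEquiv.ext
        intro g
        apply Subtype.ext
        rw [hτf]
        exact hfixS a ha g g.2
      rw [h1, map_one])
    (by
      intro N hN
      let N' : Subgroup (Module.End K M)ˣ :=
        (N.comap (QuotientGroup.mk' (Subgroup.center ↥Q))).map Q.subtype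
      have hN'Q : N' ≤ Q := by
        rintro _ ⟨g, _, rfl⟩
        exact g.2
      have h1 := hgen N' hN'Q
        (by
          intro g hg hgc
          refine ⟨⟨g, hg⟩, ?_, rfl⟩
          show QuotientGroup.mk' (Subgroup.center ↥Q) ⟨g, hg⟩ ∈ N
          have h2 : (⟨g, hg⟩ : ↥Q) ∈ Subgroup.center ↥Q := by
            rw [Subgroup.mem_center_iff]
            intro k
            apply Subtype.ext
            exact (hgc k k.2).symm
          have h3 : QuotientGroup.mk' (Subgroup.center ↥Q) ⟨g, hg⟩ = 1 :=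
            (QuotientGroup.eq_one_iff _).mpr h2
          rw [h3]
          exact N.one_mem)
        (by
          intro t g hg
          refine ⟨τf t ⟨g, hg⟩ * (⟨g, hg⟩ : ↥Q)⁻¹, ?_, rfl⟩
          have h2 := hN t (QuotientGroup.mk (⟨g, hg⟩ : ↥Q))
          rw [MonoidHom.comp_apply, quotCenter_mk, ← QuotientGroup.mk_inv,
            ← QuotientGroup.mk_mul] at h2
          exact h2)
      rw [eq_top_iff]
      intro y _
      induction y using QuotientGroup.induction_on with
      | _ g =>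
      obtain ⟨g', hg', hgg'⟩ := h1 g.2
      have e : g' = g := Subtype.ext hgg'
      rw [e] at hg'
      exact hg')
  have hidx : (Subgroup.center ↥Q).index = q ^ n := by
    rw [Subgroup.index]
    exact hn
  have hy' : Nat.card {x : ↥Q ⧸ Subgroup.center ↥Q //
      QuotientGroup.congr (Subgroup.center ↥Q) (Subgroup.center ↥Q) φ (map_center_eq φ) x = x} =
      q ^ n₁ := hy
  rw [hy', hidx] at hm1 hm2
  rw [hidx] at hd
  have hn0 := frob_arith hq hr hd rfl hrn hpos hm1 hm2
  rw [hn0, pow_zero] at hidx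
  have hctop : Subgroup.center ↥Q = ⊤ := Subgroup.index_eq_one.mp hidx
  apply hab₀
  have ha : (⟨a₀, ha₀⟩ : ↥Q) ∈ Subgroup.center ↥Q := by
    rw [hctop]
    exact Subgroup.mem_top _
  have h1 := Subgroup.mem_center_iff.mp ha ⟨b₀, hb₀⟩
  exact (congrArg Subtype.val h1).symm

end Core

end Cfsg.Agent.Helper63.Frob
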