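-- helper63 library: Ward's theorem.  A finite solvable group with an elementary abelian group of
-- automorphisms of order `p²` without nontrivial common fixed points has a nilpotent normal
-- subgroup with nilpotent quotient; add-only once landed.
import Cfsg.Agent.Helper63.WardLinear
import Cfsg.Agent.Helper63.AddCharRep

set_option autoImplicit false
set_option maxHeartbeats 1000000

namespace Cfsg.Agent.Helper63.Ward

open Cfsg.Agent.Helper63.Gross Cfsg.Agent.Helper63.Fpf4 Cfsg.Agent.Helper63.Shult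
  Cfsg.Agent.Helper63.AddCharRep

open scoped commutatorElement Pointwise

universe u v w w'

section QuotAct

variable {G : Type u} [Group G] {A : Type v} [Group A]

/-- The action induced on the quotient by an invariant normal subgroup. -/
noncomputable def quotAct [Finite G] (act : A →* MulAut G) (N : Subgroup G) [N.Normal]
    (hN : ∀ x, ∀ g ∈ N, act x g ∈ N) : A →* MulAut (G ⧸ N) where
  toFun x := QuotientGroup.congr N N (act x) (map_eq_of_finite (act x) N (hN x))
  map_one' := by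
    apply MulEquiv.ext
    intro q
    induction q using QuotientGroup.induction_on with
    | _ g =>
      rw [congr_mk', MulAut.one_apply, map_one, MulAut.one_apply]
  map_mul' x y := by
    apply MulEquiv.ext
    intro q
    induction q using QuotientGroup.induction_on with
    | _ g =>
      rw [MulAut.mul_apply, congr_mk', congr_mk', congr_mk', map_mul, MulAut.mul_apply]

theorem quotAct_mk [Finite G] (act : A →* MulAut G) (N : Subgroup G) [N.Normal]
    (hN : ∀ x, ∀ g ∈ N, act x g ∈ N) (x : A) (g : G) :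
    quotAct act N hN x (g : G ⧸ N) = ((act x g : G) : G ⧸ N) :=
  congr_mk' (act x) N (map_eq_of_finite (act x) N (hN x)) g

theorem quotAct_fpf [Finite G] {p : ℕ} (hp : p.Prime) (hA : IsPGroup p A)
    (act : A →* MulAut G) (hfpf : ∀ g, (∀ x, act x g = g) → g = 1) (N : Subgroup G)
    [N.Normal] (hN : ∀ x, ∀ g ∈ N, act x g ∈ N) :
    ∀ q : G ⧸ N, (∀ x, quotAct act N hN x q = q) → q = 1 := by
  haveI : Fact p.Prime := ⟨hp⟩
  have hpG := not_dvd_card_of_fpf_hom hp hA act hfpf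
  have hpN : ¬ p ∣ Nat.card N := fun h => hpG (h.trans (Subgroup.card_subgroup_dvd_card N))
  intro q
  induction q using QuotientGroup.induction_on with
  | _ g =>
    intro hq
    obtain ⟨w, hw1, hw2⟩ := exists_fixed_in_coset_hom hA act N hpN hN g (fun x => by
      have h1 := hq x
      rw [quotAct_mk] at h1
      exact QuotientGroup.eq.mp h1.symm)
    have hw := hfpf w hw2
    rw [hw, mul_one] at hw1
    rw [QuotientGroup.eq_one_iff]
    have := N.inv_mem hw1
    rwa [inv_inv] at this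

/-- The subgroup of fixed points of an automorphism. -/
def fixSub (ψ : MulAut G) : Subgroup G where
  carrier := {g | ψ g = g}
  one_mem' := map_one ψ
  mul_mem' := by
    intro a b ha hb
    have ha' : ψ a = a := ha
    have hb' : ψ b = b := hb
    show ψ (a * b) = a * b
    rw [map_mul, ha', hb']
  inv_mem' := by
    intro a ha
    have ha' : ψ a = a := ha
    show ψ a⁻¹ = a⁻¹
    rw [map_inv, ha']

theorem mem_fixSub {ψ : MulAut G} {g : G} : g ∈ fixSub ψ ↔ ψ g = g := Iff.rfl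

/-- Fixed points of a non-identity element of `A` form a nilpotent group. -/
theorem fix_nilpotent [Finite G] [Finite A] (hsol : Group.IsSolvable G) {p : ℕ} (hp : p.Prime)
    (hAcomm : ∀ x y : A, x * y = y * x) (hAexp : ∀ x : A, x ^ p = 1)
    (hAcard : Nat.card A = p ^ 2) (act : A →* MulAut G)
    (hfpf : ∀ g, (∀ x, act x g = g) → g = 1) (a : A) (ha1 : a ≠ 1) :
    Group.IsNilpotent ↥(fixSub (act a)) := by
  obtain ⟨d, hd⟩ := exists_not_mem_zpowers hp hAexp hAcard a
  have hinv : ∀ x : A, ∀ g ∈ fixSub (act a), act x g ∈ fixSub (act a) := by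
    intro x g hg
    rw [mem_fixSub] at hg ⊢
    rw [← MulAut.mul_apply, ← map_mul, hAcomm a x, map_mul, MulAut.mul_apply, hg]
  have h1 : ∀ g ∈ fixSub (act a), act d g ∈ fixSub (act a) := hinv d
  have h2 : ∀ g ∈ fixSub (act a), (act d).symm g ∈ fixSub (act a) :=
    symm_mem_of_finite (act d) _ h1
  haveI : Group.IsSolvable ↥(fixSub (act a)) := inferInstance
  apply nilpotent_of_fpf_prime inferInstance hp (resAut (act d) (fixSub (act a)) h1 h2)
  · apply MulEquiv.ext
    intro g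
    apply Subtype.ext
    rw [resAut_pow_coe, ← map_pow, hAexp, map_one]
    rfl
  · intro g hg
    have hga : act a (g : G) = g := g.2
    have hgd : act d (g : G) = g := congrArg Subtype.val hg
    have h3 : (g : G) = 1 := by
      apply hfpf
      intro x
      obtain ⟨m, n, rfl⟩ := exists_zpow_mul hp hAcomm hAexp hAcard ha1 hd x
      rw [map_mul, MulAut.mul_apply,
        act_eq_of_mem_zpowers act (Subgroup.zpow_mem_zpowers d n) hgd,
        act_eq_of_mem_zpowers act (Subgroup.zpow_mem_zpowers a m) hga]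
    exact Subtype.ext h3

/-- A `p`-group acting on a group of order prime to `p` stabilizes a Sylow subgroup. -/
theorem exists_invariant_sylow [Finite G] {p : ℕ} (hp : p.Prime) (hA : IsPGroup p A)
    (act : A →* MulAut G) (hpG : ¬ p ∣ Nat.card G) (s : ℕ) [Fact s.Prime] :
    ∃ S : Sylow s G, ∀ x, ∀ g ∈ (S : Subgroup G), act x g ∈ (S : Subgroup G) := by
  haveI : Fact p.Prime := ⟨hp⟩
  have hR : IsPGroup p act.range := by
    rintro ⟨g, hg⟩
    obtain ⟨x, rfl⟩ := hg
    obtain ⟨k, hk⟩ := hA x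
    refine ⟨k, ?_⟩
    apply Subtype.ext
    show (act x) ^ p ^ k = 1
    rw [← map_pow, hk, map_one]
  obtain ⟨P₀⟩ : Nonempty (Sylow s G) := inferInstance
  have hnd : ¬ p ∣ Nat.card (Sylow s G) := by
    intro h
    apply hpG
    exact dvd_trans h (dvd_trans (Sylow.card_dvd_index P₀) (Subgroup.index_dvd_card _))
  obtain ⟨S, hS⟩ := hR.nonempty_fixed_point_of_prime_not_dvd_card (Sylow s G) hnd
  refine ⟨S, ?_⟩
  intro x g hg
  have h1 : (⟨act x, ⟨x, rfl⟩⟩ : ↥act.range) • S = S := hS _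
  have h2 : (act x) • S = S := h1
  have h3 : (act x) • g ∈ (act x) • (S : Subgroup G) :=
    Subgroup.smul_mem_pointwise_smul g (act x) _ hg
  rw [← Sylow.pointwise_smul_def, h2] at h3
  exact h3

/-- A characteristic subgroup of an invariant subgroup is invariant. -/
theorem char_map_invariant [Finite G] (ψ : MulAut G) (Mb : Subgroup G)
    (hMb : ∀ y ∈ Mb, ψ y ∈ Mb) (Q : Subgroup ↥Mb) [hQ : Q.Characteristic] :
    ∀ y ∈ Q.map Mb.subtype, ψ y ∈ Q.map Mb.subtype := by
  have hs := symm_mem_of_finite ψ Mb hMb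
  rintro _ ⟨y, hy, rfl⟩
  have h1 := Subgroup.characteristic_iff_map_eq.mp hQ (resAut ψ Mb hMb hs)
  refine ⟨resAut ψ Mb hMb hs y, ?_, rfl⟩
  rw [← h1]
  exact Subgroup.mem_map_of_mem _ hy

/-- **Generation by centralizers**, general form. -/
theorem gen_full [Finite G] [Finite A] {p q : ℕ} (hp : p.Prime) (hq : q.Prime) (hpq : p ≠ q)
    (hAcomm : ∀ x y : A, x * y = y * x) (hAexp : ∀ x : A, x ^ p = 1)
    (hAcard : Nat.card A = p ^ 2) (act : A →* MulAut G) :
    ∀ n, ∀ P H : Subgroup G, Nat.card P = n → IsPGroup q P → (∀ x, ∀ u ∈ P, act x u ∈ P) →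
      (∀ x, ∀ u ∈ H, act x u ∈ H) → (∀ c : A, c ≠ 1 → ∀ u ∈ P, act c u = u → u ∈ H) →
      P ≤ H := by
  haveI : Fact q.Prime := ⟨hq⟩
  intro n
  induction n using Nat.strong_induction_on with
  | _ n IH =>
  intro P H hPn hPq hPA hHA hfix
  by_cases hPbot : P = ⊥
  · rw [hPbot]
    exact bot_le
  have hP'P : ⁅P, P⁆ ≤ P := by
    rw [Subgroup.commutator_le]
    intro g₁ h₁ g₂ h₂
    exact P.mul_mem (P.mul_mem (P.mul_mem h₁ h₂) (P.inv_mem h₁)) (P.inv_mem h₂)
  have hP'ne : ⁅P, P⁆ ≠ P := by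
    intro heq
    haveI : Nontrivial ↥P := (Subgroup.nontrivial_iff_ne_bot P).mpr hPbot
    haveI : Group.IsNilpotent ↥P := hPq.isNilpotent
    have hlt := Group.IsSolvable.commutator_lt_top_of_nontrivial ↥P
    apply ne_of_lt hlt
    have h2 : (commutator ↥P).map P.subtype = P := by
      rw [Subgroup.map_subtype_commutator, heq]
    apply Subgroup.map_injective P.subtype_injective
    rw [h2, ← MonoidHom.range_eq_map, Subgroup.range_subtype]
  have hP'A : ∀ x, ∀ u ∈ ⁅P, P⁆, act x u ∈ ⁅P, P⁆ := by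
    intro x u hu
    have h1 : (⁅P, P⁆).map (act x).toMonoidHom ≤ ⁅P, P⁆ := by
      rw [Subgroup.map_commutator]
      apply Subgroup.commutator_mono
      · rintro _ ⟨g, hg, rfl⟩
        exact hPA x g hg
      · rintro _ ⟨g, hg, rfl⟩
        exact hPA x g hg
    exact h1 ⟨u, hu, rfl⟩
  have hlt : Nat.card ↥⁅P, P⁆ < n := by
    rw [← hPn]
    by_contra hge
    push Not at hge
    exact hP'ne (Subgroup.eq_of_le_of_card_ge hP'P hge)
  have hP'H := IH _ hlt ⁅P, P⁆ H rfl (hPq.to_le hP'P) hP'A hHA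
    (fun c hc u hu hcu => hfix c hc u (hP'P hu) hcu)
  have h2 := gen_core hp hq hpq hAcomm hAexp hAcard act P (H ⊓ P) hPq inf_le_right
    (le_inf hP'H hP'P) hPA (fun x u hu => ⟨hHA x u hu.1, hPA x u hu.2⟩)
    (fun c hc u hu hcu => ⟨hfix c hc u hu hcu, hu⟩)
  exact le_trans h2 inf_le_left

/-- A power of `g` of `q`-power order, congruent to `g` modulo `q`-power-torsion. -/
theorem exists_zpow_qpart {H : Type u} [Group H] [Finite H] (g : H) {q : ℕ} (hq : q.Prime)
    (j : ℕ) : ∃ (z y : ℤ) (i : ℕ), (g ^ z) ^ q ^ i = 1 ∧ z + y * (q : ℤ) ^ j = 1 := by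
  have ho : orderOf g ≠ 0 := (orderOf_pos g).ne'
  obtain ⟨i, o', ho', hoeq⟩ := Nat.exists_eq_pow_mul_and_not_dvd ho q hq.ne_one
  have hcop : Nat.Coprime (q ^ j) o' :=
    Nat.Coprime.pow_left j ((Nat.Prime.coprime_iff_not_dvd hq).mpr ho')
  have hcop' : IsCoprime ((q ^ j : ℕ) : ℤ) (o' : ℤ) := Nat.isCoprime_iff_coprime.mpr hcop
  obtain ⟨a, b, hab⟩ := hcop'
  refine ⟨b * o', a, i, ?_, ?_⟩
  · rw [← zpow_natCast, ← zpow_mul]
    have e : b * (o' : ℤ) * ((q ^ i : ℕ) : ℤ) = ((orderOf g : ℕ) : ℤ) * b := by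
      rw [hoeq]
      push_cast
      ring
    rw [e, zpow_mul, zpow_natCast, pow_orderOf_eq_one, one_zpow]
  · rw [← hab]
    push_cast
    ring

/-- Partial norms `m · ψ(m) ⋯ ψ^{k-1}(m)`. -/
def nrm (ψ : MulAut G) (m : G) : ℕ → G
  | 0 => 1
  | (k + 1) => nrm ψ m k * (ψ ^ k) m

theorem nrm_zero (ψ : MulAut G) (m : G) : nrm ψ m 0 = 1 := rfl

theorem nrm_succ (ψ : MulAut G) (m : G) (k : ℕ) :
    nrm ψ m (k + 1) = nrm ψ m k * (ψ ^ k) m := rfl

/-- If `F` is additive on the abelian normal subgroup `M` and `ψ`-invariant, `ψ ^ p = 1` with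
`p` invertible, and `g` is fixed by `ψ` and centralizes the fixed points of `ψ` on `M`, then
`F` is invariant under conjugation by `g`. -/
theorem norm_argument {K : Type w} [Field K] {p : ℕ} (hpK : (p : K) ≠ 0) (M : Subgroup G)
    [hMn : M.Normal] (hMab : ∀ x ∈ M, ∀ y ∈ M, x * y = y * x) (ψ : MulAut G) (hψp : ψ ^ p = 1)
    (hMψ : ∀ x ∈ M, ψ x ∈ M) (F : G → K)
    (hFmul : ∀ x ∈ M, ∀ y ∈ M, F (x * y) = F x + F y) (hFψ : ∀ x ∈ M, F (ψ x) = F x)
    (g : G) (hgψ : ψ g = g) (hgM : ∀ m ∈ M, ψ m = m → g * m = m * g) :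
    ∀ m ∈ M, F (g⁻¹ * m * g) = F m := by
  have hF1 : F 1 = 0 := by
    have h := hFmul 1 M.one_mem 1 M.one_mem
    rw [mul_one] at h
    exact left_eq_add.mp h
  have hψk : ∀ k : ℕ, ∀ x ∈ M, (ψ ^ k) x ∈ M ∧ F ((ψ ^ k) x) = F x := by
    intro k
    induction k with
    | zero =>
      intro x hx
      rw [pow_zero, MulAut.one_apply]
      exact ⟨hx, rfl⟩
    | succ k ih =>
      intro x hx
      obtain ⟨h1, h2⟩ := ih x hx
      rw [pow_succ', MulAut.mul_apply]
      exact ⟨hMψ _ h1, (hFψ _ h1).trans h2⟩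
  have hnrm : ∀ m ∈ M, ∀ k : ℕ, nrm ψ m k ∈ M ∧ F (nrm ψ m k) = (k : K) * F m := by
    intro m hm k
    induction k with
    | zero =>
      rw [nrm_zero, hF1, Nat.cast_zero, zero_mul]
      exact ⟨M.one_mem, rfl⟩
    | succ k ih =>
      obtain ⟨h1, h2⟩ := ih
      have h3 := hψk k m hm
      refine ⟨M.mul_mem h1 h3.1, ?_⟩
      rw [nrm_succ, hFmul _ h1 _ h3.1, h2, h3.2, Nat.cast_succ]
      ring
  have hnrmψ : ∀ m : G, ∀ k : ℕ, ψ (nrm ψ m k) = m⁻¹ * nrm ψ m k * (ψ ^ k) m := by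
    intro m k
    induction k with
    | zero =>
      rw [nrm_zero, map_one, pow_zero, MulAut.one_apply, mul_one, inv_mul_cancel]
    | succ k ih =>
      rw [nrm_succ, map_mul, ih, pow_succ' ψ k, MulAut.mul_apply]
      group
  have hgk : ∀ k : ℕ, (ψ ^ k) g = g := by
    intro k
    induction k with
    | zero => rw [pow_zero, MulAut.one_apply]
    | succ k ih => rw [pow_succ', MulAut.mul_apply, ih, hgψ]
  have hnrmg : ∀ m : G, ∀ k : ℕ, nrm ψ (g⁻¹ * m * g) k = g⁻¹ * nrm ψ m k * g := by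
    intro m k
    induction k with
    | zero =>
      rw [nrm_zero, nrm_zero]
      group
    | succ k ih =>
      rw [nrm_succ, nrm_succ, ih, map_mul, map_mul, map_inv, hgk k]
      group
  intro m hm
  have hN := hnrm m hm p
  have hNψ : ψ (nrm ψ m p) = nrm ψ m p := by
    rw [hnrmψ, hψp, MulAut.one_apply, mul_assoc, hMab _ hN.1 m hm, inv_mul_cancel_left]
  have hgN := hgM _ hN.1 hNψ
  have hm' : g⁻¹ * m * g ∈ M := by
    have := hMn.conj_mem m hm g⁻¹
    rwa [inv_inv] at this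
  have hN' := hnrm _ hm' p
  have e : nrm ψ (g⁻¹ * m * g) p = nrm ψ m p := by
    rw [hnrmg, mul_assoc, ← hgN, inv_mul_cancel_left]
  have h5 := hN'.2
  rw [e, hN.2] at h5
  exact mul_left_cancel₀ hpK h5.symm

end QuotAct

section LinSetup

variable {G : Type u} [Group G] {A : Type v} [Group A] (M : Subgroup G) [hMn : M.Normal]
  (K : Type w) [Field K]

/-- The inclusion of `G` into the normalizer of the normal subgroup `M`. -/
def toNorm : G →* ↥(Subgroup.normalizer (M : Set G)) where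
  toFun g := ⟨g, by
    rw [Subgroup.normalizer_eq_top]
    exact Subgroup.mem_top g⟩
  map_one' := rfl
  map_mul' _ _ := rfl

theorem toNorm_coe (g : G) : ((toNorm M g : ↥(Subgroup.normalizer (M : Set G))) : G) = g := rfl

/-- The representation of `G ⧸ C` on the additive functions on `M`, for `C` centralizing `M`. -/
def rhoQ (C : Subgroup G) [C.Normal] (hC : ∀ c ∈ C, ∀ a ∈ M, a * c = c * a) :
    (G ⧸ C) →* Module.End K ↥(addChar M K) :=
  QuotientGroup.lift C ((rho M K).comp (toNorm M)) (by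
    intro c hc
    rw [MonoidHom.mem_ker]
    apply LinearMap.ext
    intro f
    apply Subtype.ext
    funext a
    show (f : ↥M → K) (conjV (toNorm M c) a) = (f : ↥M → K) a
    refine congrArg (f : ↥M → K) (Subtype.ext ?_)
    rw [conjV_coe, toNorm_coe, mul_assoc, hC c hc a a.2, inv_mul_cancel_left])

theorem rhoQ_mk (C : Subgroup G) [C.Normal] (hC : ∀ c ∈ C, ∀ a ∈ M, a * c = c * a) (g : G)
    (f : ↥(addChar M K)) (a : ↥M) :
    ((rhoQ M K C hC (g : G ⧸ C) f : ↥(addChar M K)) : ↥M → K) a =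
      (f : ↥M → K) (conjV (toNorm M g) a) := rfl

/-- The action of `A` on the additive functions on `M`: `(x • f) a = f (x⁻¹ a)`. -/
def opA (act : A →* MulAut G) (hMA : ∀ x, ∀ g ∈ M, act x g ∈ M) :
    A →* Module.End K ↥(addChar M K) where
  toFun x :=
    { toFun := fun f => ⟨fun a => (f : ↥M → K) ⟨act x⁻¹ a, hMA x⁻¹ a a.2⟩, by
        intro a b
        have e : (⟨act x⁻¹ ((a * b : ↥M) : G), hMA x⁻¹ _ (a * b).2⟩ : ↥M) =
            ⟨act x⁻¹ a, hMA x⁻¹ a a.2⟩ * ⟨act x⁻¹ b, hMA x⁻¹ b b.2⟩ := by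
          apply Subtype.ext
          show act x⁻¹ ((a : G) * (b : G)) = act x⁻¹ a * act x⁻¹ b
          rw [map_mul]
        show (f : ↥M → K) ⟨act x⁻¹ ((a * b : ↥M) : G), hMA x⁻¹ _ (a * b).2⟩ = _
        rw [e]
        exact f.2 _ _⟩
      map_add' := by
        intro f f'
        rfl
      map_smul' := by
        intro c f
        rfl }
  map_one' := by
    apply LinearMap.ext
    intro f
    apply Subtype.ext
    funext a
    show (f : ↥M → K) ⟨act (1 : A)⁻¹ a, hMA (1 : A)⁻¹ a a.2⟩ = (f : ↥M → K) a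
    refine congrArg (f : ↥M → K) (Subtype.ext ?_)
    show act (1 : A)⁻¹ (a : G) = a
    rw [inv_one, map_one, MulAut.one_apply]
  map_mul' := by
    intro x y
    apply LinearMap.ext
    intro f
    apply Subtype.ext
    funext a
    show (f : ↥M → K) ⟨act (x * y)⁻¹ a, hMA (x * y)⁻¹ a a.2⟩ =
      (f : ↥M → K) ⟨act y⁻¹ (act x⁻¹ (a : G)), hMA y⁻¹ _ (hMA x⁻¹ a a.2)⟩
    refine congrArg (f : ↥M → K) (Subtype.ext ?_)
    show act (x * y)⁻¹ (a : G) = act y⁻¹ (act x⁻¹ (a : G))
    rw [mul_inv_rev, map_mul, MulAut.mul_apply]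

omit hMn in
theorem opA_apply (act : A →* MulAut G) (hMA : ∀ x, ∀ g ∈ M, act x g ∈ M) (x : A)
    (f : ↥(addChar M K)) (a : ↥M) :
    ((opA M K act hMA x f : ↥(addChar M K)) : ↥M → K) a =
      (f : ↥M → K) ⟨act x⁻¹ a, hMA x⁻¹ a a.2⟩ := rfl

theorem opA_equiv [Finite G] (C : Subgroup G) [C.Normal]
    (hC : ∀ c ∈ C, ∀ a ∈ M, a * c = c * a) (act : A →* MulAut G)
    (hMA : ∀ x, ∀ g ∈ M, act x g ∈ M) (hCA : ∀ x, ∀ g ∈ C, act x g ∈ C) (x : A)
    (γ : G ⧸ C) :
    opA M K act hMA x * rhoQ M K C hC γ =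
      rhoQ M K C hC (quotAct act C hCA x γ) * opA M K act hMA x := by
  induction γ using QuotientGroup.induction_on with
  | _ g =>
    rw [quotAct_mk]
    apply LinearMap.ext
    intro f
    apply Subtype.ext
    funext a
    show (f : ↥M → K) (conjV (toNorm M g) ⟨act x⁻¹ a, hMA x⁻¹ a a.2⟩) =
      (f : ↥M → K) ⟨act x⁻¹ ((conjV (toNorm M (act x g)) a : ↥M) : G),
        hMA x⁻¹ _ (conjV (toNorm M (act x g)) a).2⟩
    refine congrArg (f : ↥M → K) (Subtype.ext ?_)
    show g⁻¹ * act x⁻¹ (a : G) * g = act x⁻¹ ((act x g)⁻¹ * a * act x g)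
    rw [map_mul (act x⁻¹), map_mul (act x⁻¹), map_inv (act x⁻¹), act_act_inv]

theorem rhoQ_faithful [Finite M] {ℓ : ℕ} [Fact ℓ.Prime] [CharP K ℓ] (C : Subgroup G)
    [C.Normal] (hC : ∀ c ∈ C, ∀ a ∈ M, a * c = c * a)
    (hC' : ∀ c, (∀ a ∈ M, a * c = c * a) → c ∈ C)
    (hMab : ∀ x ∈ M, ∀ y ∈ M, x * y = y * x) (hMℓ : ∀ x ∈ M, x ^ ℓ = 1) (γ : G ⧸ C)
    (hγ : rhoQ M K C hC γ = 1) : γ = 1 := by
  induction γ using QuotientGroup.induction_on with
  | _ g =>
    rw [QuotientGroup.eq_one_iff]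
    apply hC'
    intro a ha
    have hg : rho M K (toNorm M g) = 1 := hγ
    exact commute_of_rho_eq_one (K := K) (p := ℓ)
      (fun a b => Subtype.ext (hMab a a.2 b b.2))
      (fun a => Subtype.ext (by
        rw [Subgroup.coe_pow, hMℓ a a.2]
        rfl)) (toNorm M g) hg ⟨a, ha⟩

/-- Elements of `q`-power order of `G ⧸ C` fixed by `c` act trivially on the additive functions
fixed by `c`. -/
theorem hnil_lemma [Finite G] [Finite A] (hsol : Group.IsSolvable G) {p ℓ q : ℕ}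
    (hp : p.Prime) (hℓ : ℓ.Prime) (hq : q.Prime) (hqℓ : q ≠ ℓ)
    (hAcomm : ∀ x y : A, x * y = y * x) (hAexp : ∀ x : A, x ^ p = 1)
    (hAcard : Nat.card A = p ^ 2) (act : A →* MulAut G)
    (hfpf : ∀ g, (∀ x, act x g = g) → g = 1)
    (hMab : ∀ x ∈ M, ∀ y ∈ M, x * y = y * x) (hMℓ : ∀ x ∈ M, x ^ ℓ = 1)
    (hMA : ∀ x, ∀ g ∈ M, act x g ∈ M) (C : Subgroup G) [C.Normal]
    (hC : ∀ c ∈ C, ∀ a ∈ M, a * c = c * a) (hCA : ∀ x, ∀ g ∈ C, act x g ∈ C)
    (hpK : (p : K) ≠ 0) (c : A) (hc : c ≠ 1) (u : G ⧸ C) (j : ℕ) (huq : u ^ q ^ j = 1)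
    (hu : quotAct act C hCA c u = u) (f : ↥(addChar M K))
    (hf : opA M K act hMA c f = f) : rhoQ M K C hC u f = f := by
  classical
  haveI : Fact p.Prime := ⟨hp⟩
  have hA := isPGroup_of_card_sq hp hAcard
  have hpG := not_dvd_card_of_fpf_hom hp hA act hfpf
  have hpC : ¬ p ∣ Nat.card C := fun h => hpG (h.trans (Subgroup.card_subgroup_dvd_card C))
  induction u using QuotientGroup.induction_on with
  | _ g₀ =>
  rw [quotAct_mk] at hu
  obtain ⟨g, hg1, hg2⟩ := exists_fixed_in_coset_single (act c)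
    (by rw [← map_pow, hAexp, map_one]) C hpC (hCA c) g₀ (QuotientGroup.eq.mp hu.symm)
  have hgu : (g : G ⧸ C) = (g₀ : G ⧸ C) := (QuotientGroup.eq.mpr hg1).symm
  obtain ⟨z, y, i, hz1, hz2⟩ := exists_zpow_qpart g hq j
  have hg'u : ((g ^ z : G) : G ⧸ C) = (g₀ : G ⧸ C) := by
    rw [QuotientGroup.mk_zpow, hgu]
    have h1 : (g₀ : G ⧸ C) ^ (y * (q : ℤ) ^ j) = 1 := by
      rw [mul_comm, zpow_mul, ← Nat.cast_pow, zpow_natCast, huq, one_zpow]
    calc (g₀ : G ⧸ C) ^ z
        = (g₀ : G ⧸ C) ^ (z + y * (q : ℤ) ^ j) * ((g₀ : G ⧸ C) ^ (y * (q : ℤ) ^ j))⁻¹ := by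
          rw [zpow_add, mul_inv_cancel_right]
      _ = (g₀ : G ⧸ C) := by rw [hz2, zpow_one, h1, inv_one, mul_one]
  have hg'c : act c (g ^ z) = g ^ z := by rw [map_zpow, hg2]
  haveI hnilD : Group.IsNilpotent ↥(fixSub (act c)) :=
    fix_nilpotent hsol hp hAcomm hAexp hAcard act hfpf c hc
  have hcent : ∀ m ∈ M, act c m = m → g ^ z * m = m * g ^ z := by
    intro m hm hcm
    have h1 := commute_of_nilpotent hq hℓ hqℓ (⟨g ^ z, hg'c⟩ : ↥(fixSub (act c))) ⟨m, hcm⟩
      ⟨i, Subtype.ext (by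
        rw [Subgroup.coe_pow]
        exact hz1)⟩
      ⟨1, Subtype.ext (by
        rw [Subgroup.coe_pow, pow_one]
        exact hMℓ m hm)⟩
    exact congrArg Subtype.val h1
  rw [← hg'u]
  apply Subtype.ext
  funext a
  show (f : ↥M → K) (conjV (toNorm M (g ^ z)) a) = (f : ↥M → K) a
  obtain ⟨F, hF⟩ : ∃ F : G → K,
      F = fun x => if h : x ∈ M then (f : ↥M → K) ⟨x, h⟩ else 0 := ⟨_, rfl⟩
  have hFM : ∀ x (h : x ∈ M), F x = (f : ↥M → K) ⟨x, h⟩ := by
    intro x h
    rw [hF]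
    show (if h : x ∈ M then (f : ↥M → K) ⟨x, h⟩ else 0) = _
    rw [dif_pos h]
  have hFmul : ∀ x ∈ M, ∀ y ∈ M, F (x * y) = F x + F y := by
    intro x hx y hy
    rw [hFM _ (M.mul_mem hx hy), hFM x hx, hFM y hy]
    exact f.2 ⟨x, hx⟩ ⟨y, hy⟩
  have hFψ : ∀ x ∈ M, F (act c x) = F x := by
    intro x hx
    rw [hFM _ (hMA c x hx), hFM x hx]
    have h1 := congrArg
      (fun f' : ↥(addChar M K) => (f' : ↥M → K) ⟨act c x, hMA c x hx⟩) hf
    have h2 : (⟨act c⁻¹ (act c x), hMA c⁻¹ _ (hMA c x hx)⟩ : ↥M) = ⟨x, hx⟩ :=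
      Subtype.ext (act_act_inv act c x)
    have h3 : (f : ↥M → K) ⟨act c⁻¹ (act c x), hMA c⁻¹ _ (hMA c x hx)⟩ =
        (f : ↥M → K) ⟨act c x, hMA c x hx⟩ := h1
    rw [← h3, h2]
  have h4 := norm_argument hpK M hMab (act c) (by rw [← map_pow, hAexp, map_one]) (hMA c) F
    hFmul hFψ (g ^ z) hg'c hcent a a.2
  have hmem : (g ^ z)⁻¹ * (a : G) * g ^ z ∈ M := (conjV (toNorm M (g ^ z)) a).2
  rw [hFM _ hmem, hFM _ a.2] at h4
  exact h4

end LinSetup

section Centralize

variable {Γ : Type u} [Group Γ] [Finite Γ] {A : Type v} [Group A] [Finite A]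

/-- An invariant Sylow `s`-subgroup centralizes an invariant normal `q`-subgroup acting
faithfully on a module with the centralizer property. -/
theorem sylow_centralizes (hsolΓ : Group.IsSolvable Γ) {p q s : ℕ} (hp : p.Prime)
    (hq : q.Prime) (hs : s.Prime) (hqs : q ≠ s) (hpq : p ≠ q)
    (hAcomm : ∀ x y : A, x * y = y * x) (hAexp : ∀ x : A, x ^ p = 1)
    (hAcard : Nat.card A = p ^ 2) (act : A →* MulAut Γ)
    (hfpf : ∀ g, (∀ x, act x g = g) → g = 1)
    {K : Type w} [Field K] [IsAlgClosed K] {V : Type w'} [AddCommGroup V] [Module K V]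
    [FiniteDimensional K V] (hqK : (q : K) ≠ 0)
    (ρ : Γ →* Module.End K V) (op : A →* Module.End K V)
    (hequiv : ∀ (x : A) (g : Γ), op x * ρ g = ρ (act x g) * op x)
    (hfaith : ∀ u, ρ u = 1 → u = 1)
    (S₀ : Subgroup Γ) (hS₀ : IsPGroup s S₀) (hS₀A : ∀ x, ∀ g ∈ S₀, act x g ∈ S₀)
    (P : Subgroup Γ) [hPn : P.Normal] (hPq : IsPGroup q P) (hPA : ∀ x, ∀ u ∈ P, act x u ∈ P)
    (hnil : ∀ c : A, c ≠ 1 → ∀ u ∈ P, act c u = u → ∀ v : V, op c v = v → ρ u v = v) :
    ∀ t ∈ S₀, ∀ u ∈ P, t * u = u * t := by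
  haveI : Fact s.Prime := ⟨hs⟩
  haveI : Fact q.Prime := ⟨hq⟩
  have hA := isPGroup_of_card_sq hp hAcard
  have hpΓ := not_dvd_card_of_fpf_hom hp hA act hfpf
  by_cases hps : p = s
  · intro t ht u _
    obtain ⟨k, hk⟩ := (IsPGroup.iff_orderOf.mp hS₀) ⟨t, ht⟩
    rw [Subgroup.orderOf_mk] at hk
    have h1 : orderOf t ∣ Nat.card Γ := orderOf_dvd_natCard t
    have hk0 : k = 0 := by
      by_contra hk0
      apply hpΓ
      rw [hps]
      exact dvd_trans (dvd_pow_self s hk0) (hk ▸ h1)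
    rw [hk0, pow_zero] at hk
    rw [orderOf_eq_one_iff.mp hk, one_mul, mul_one]
  have hstep : ∀ a : A, a ≠ 1 → ∀ t ∈ S₀, act a t = t → ∀ u ∈ P, t * u = u * t := by
    intro a ha1
    obtain ⟨T, hTdef⟩ : ∃ T : Subgroup Γ, T = S₀ ⊓ fixSub (act a) := ⟨_, rfl⟩
    have hTmem : ∀ t, t ∈ T ↔ t ∈ S₀ ∧ act a t = t := by
      intro t
      rw [hTdef]
      rfl
    haveI : Group.IsNilpotent ↥(fixSub (act a)) :=
      fix_nilpotent hsolΓ hp hAcomm hAexp hAcard act hfpf a ha1
    have hTq : ∀ t ∈ T, (orderOf t).Coprime q := by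
      intro t ht
      obtain ⟨k, hk⟩ := (IsPGroup.iff_orderOf.mp hS₀) ⟨t, ((hTmem t).mp ht).1⟩
      rw [Subgroup.orderOf_mk] at hk
      rw [hk]
      exact Nat.Coprime.pow_left k ((Nat.coprime_primes hs hq).mpr (Ne.symm hqs))
    have hTp : ∀ t ∈ T, (orderOf t).Coprime p := fun t _ =>
      Nat.Coprime.symm ((Nat.Prime.coprime_iff_not_dvd hp).mpr
        (fun h => hpΓ (h.trans (orderOf_dvd_natCard t))))
    have hTA : ∀ x, ∀ t ∈ T, act x t ∈ T := by
      intro x t ht
      rw [hTmem] at ht ⊢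
      refine ⟨hS₀A x t ht.1, ?_⟩
      rw [← MulAut.mul_apply, ← map_mul, hAcomm a x, map_mul, MulAut.mul_apply, ht.2]
    have haT : ∀ t ∈ T, act a t = t := fun t ht => ((hTmem t).mp ht).2
    have hTfpf : ∀ c, c ∉ Subgroup.zpowers a → ∀ t ∈ T, act c t = t → t = 1 := by
      intro c hc t ht hct
      apply hfpf
      intro x
      obtain ⟨m, n, rfl⟩ := exists_zpow_mul hp hAcomm hAexp hAcard ha1 hc x
      rw [map_mul, MulAut.mul_apply,
        act_eq_of_mem_zpowers act (Subgroup.zpow_mem_zpowers c n) hct,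
        act_eq_of_mem_zpowers act (Subgroup.zpow_mem_zpowers a m) (haT t ht)]
    have hCPa : ∀ u ∈ P, act a u = u → ∀ t ∈ T, t * u = u * t := by
      intro u hu hau t ht
      obtain ⟨k, hk⟩ := (IsPGroup.iff_orderOf.mp hS₀) ⟨t, ((hTmem t).mp ht).1⟩
      obtain ⟨k', hk'⟩ := (IsPGroup.iff_orderOf.mp hPq) ⟨u, hu⟩
      rw [Subgroup.orderOf_mk] at hk hk'
      have h1 := commute_of_nilpotent hs hq (Ne.symm hqs)
        (⟨t, haT t ht⟩ : ↥(fixSub (act a))) ⟨u, hau⟩
        ⟨k, Subtype.ext (by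
          rw [Subgroup.coe_pow]
          show t ^ s ^ k = 1
          rw [← hk]
          exact pow_orderOf_eq_one t)⟩
        ⟨k', Subtype.ext (by
          rw [Subgroup.coe_pow]
          show u ^ q ^ k' = 1
          rw [← hk']
          exact pow_orderOf_eq_one u)⟩
      exact congrArg Subtype.val h1
    have key := ward_key (act := act) (ρ := ρ) (op := op) hp hq hpq hqK hAcomm hAexp hAcard
      hequiv T hTq hTp hTA a ha1 haT hTfpf (Nat.card P) P rfl hPq hPA
      (fun t _ u hu => hPn.conj_mem u hu t) (fun u _ h => hfpf u h) hCPa hnil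
      (fun u _ h => hfaith u h)
    intro t ht hat u hu
    exact key u hu t ((hTmem t).mpr ⟨ht, hat⟩)
  obtain ⟨H, hHdef⟩ : ∃ H : Subgroup Γ, H = S₀ ⊓ Subgroup.centralizer (P : Set Γ) := ⟨_, rfl⟩
  have hHmem : ∀ t, t ∈ H ↔ t ∈ S₀ ∧ ∀ u ∈ P, u * t = t * u := by
    intro t
    rw [hHdef, Subgroup.mem_inf, Subgroup.mem_centralizer_iff]
    rfl
  have hHA : ∀ x, ∀ t ∈ H, act x t ∈ H := by
    intro x t ht
    rw [hHmem] at ht ⊢
    refine ⟨hS₀A x t ht.1, ?_⟩
    intro u hu
    have h1 := ht.2 _ (hPA x⁻¹ u hu)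
    have h2 := congrArg (act x) h1
    rw [map_mul, map_mul, act_inv_act] at h2
    exact h2
  have hgen := gen_full hp hs hps hAcomm hAexp hAcard act (Nat.card S₀) S₀ H rfl hS₀ hS₀A hHA
    (fun c hc t ht hct => (hHmem t).mpr ⟨ht, fun u hu => (hstep c hc t ht hct u hu).symm⟩)
  intro t ht u hu
  exact (((hHmem t).mp (hgen ht)).2 u hu).symm

/-- A finite group with a nilpotent normal subgroup `Mb` with nilpotent quotient, such that
for each prime `s` some Sylow `s`-subgroup centralizes the Sylow `q`-subgroups of `Mb` for all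
`q ≠ s`, is nilpotent. -/
theorem nilpotent_of_centralizing (Mb : Subgroup Γ) [Mb.Normal] [Group.IsNilpotent ↥Mb]
    (k : ℕ) (hk : (⊤ : Subgroup Γ).lowerCentralSeries k ≤ Mb)
    (hcent : ∀ (s : ℕ), s.Prime → ∃ S₀ : Sylow s Γ, ∀ (q : ℕ) [Fact q.Prime], q ≠ s →
      ∀ Q : Sylow q ↥Mb, ∀ t ∈ (S₀ : Subgroup Γ),
        ∀ u ∈ (Q : Subgroup ↥Mb).map Mb.subtype, t * u = u * t) :
    Group.IsNilpotent Γ := by
  apply ((Group.isNilpotent_of_finite_tfae (G := Γ)).out 0 3).mpr
  intro s hsF P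
  haveI := hsF
  obtain ⟨S₀, hS₀⟩ := hcent s hsF.out
  suffices hn : (S₀ : Subgroup Γ).Normal by
    haveI := hn
    obtain ⟨g, hg⟩ := MulAction.exists_smul_eq Γ S₀ P
    rw [Sylow.smul_eq_of_normal] at hg
    rw [← hg]
    exact hn
  have hMbN : Mb ≤ Subgroup.normalizer ((S₀ : Subgroup Γ) : Set Γ) := by
    have hidx : ((Subgroup.normalizer ((S₀ : Subgroup Γ) : Set Γ)).subgroupOf Mb).index = 1 := by
      by_contra hne1
      obtain ⟨r, hr, hrdvd⟩ := Nat.exists_prime_and_dvd hne1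
      haveI : Fact r.Prime := ⟨hr⟩
      obtain ⟨Q⟩ : Nonempty (Sylow r ↥Mb) := inferInstance
      have hQL : (Q : Subgroup ↥Mb) ≤
          (Subgroup.normalizer ((S₀ : Subgroup Γ) : Set Γ)).subgroupOf Mb := by
        intro y hy
        rw [Subgroup.mem_subgroupOf]
        have hyQ : (y : Γ) ∈ (Q : Subgroup ↥Mb).map Mb.subtype := ⟨y, hy, rfl⟩
        by_cases hrs : r = s
        · subst hrs
          have hQn : (Q : Subgroup ↥Mb).Normal :=
            Sylow.normal_of_normalizerCondition Group.normalizerCondition_of_isNilpotent Q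
          haveI hQchar : (Q : Subgroup ↥Mb).Characteristic :=
            Sylow.characteristic_of_normal Q hQn
          haveI hQbn : ((Q : Subgroup ↥Mb).map Mb.subtype).Normal :=
            ConjAct.normal_of_characteristic_of_normal
          have hQp : IsPGroup r ↥((Q : Subgroup ↥Mb).map Mb.subtype) := Q.isPGroup'.map _
          have h1 := S₀.is_maximal' (S₀.isPGroup'.to_sup_of_normal_right hQp) le_sup_left
          have h2 : (Q : Subgroup ↥Mb).map Mb.subtype ≤ (S₀ : Subgroup Γ) := by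
            have h3 : (Q : Subgroup ↥Mb).map Mb.subtype ≤
                (S₀ : Subgroup Γ) ⊔ (Q : Subgroup ↥Mb).map Mb.subtype := le_sup_right
            rw [h1] at h3
            exact h3
          exact Subgroup.le_normalizer (h2 hyQ)
        · apply Subgroup.centralizer_le_normalizer
          rw [Subgroup.mem_centralizer_iff]
          intro t ht
          exact hS₀ r hrs Q t ht _ hyQ
      exact Q.not_dvd_index (dvd_trans hrdvd (Subgroup.index_dvd_of_le hQL))
    intro g hg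
    have h7 := Subgroup.index_eq_one.mp hidx
    have h8 : (⟨g, hg⟩ : ↥Mb) ∈
        (Subgroup.normalizer ((S₀ : Subgroup Γ) : Set Γ)).subgroupOf Mb := by
      rw [h7]
      exact Subgroup.mem_top _
    exact Subgroup.mem_subgroupOf.mp h8
  have hJn : ((S₀ : Subgroup Γ) ⊔ Mb).Normal := by
    haveI : Group.IsNilpotent (Γ ⧸ Mb) := quot_nilpotent_of_lcs_le Mb k hk
    have hsurj := QuotientGroup.mk'_surjective Mb
    have hSp : IsPGroup s ↥((S₀ : Subgroup Γ).map (QuotientGroup.mk' Mb)) := S₀.isPGroup'.map _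
    have hnd : ¬ s ∣ ((S₀ : Subgroup Γ).map (QuotientGroup.mk' Mb)).index :=
      fun h => S₀.not_dvd_index (h.trans (Subgroup.index_map_dvd _ hsurj))
    have hnorm : ((hSp.toSylow hnd : Sylow s (Γ ⧸ Mb)) : Subgroup (Γ ⧸ Mb)).Normal :=
      inferInstance
    rw [IsPGroup.toSylow_coe] at hnorm
    have h1 := hnorm.comap (QuotientGroup.mk' Mb)
    rw [Subgroup.comap_map_eq, QuotientGroup.ker_mk'] at h1
    exact h1
  haveI := hJn
  have h3 : Subgroup.normalizer ((S₀ : Subgroup Γ) : Set Γ) ⊔ ((S₀ : Subgroup Γ) ⊔ Mb) = ⊤ :=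
    Sylow.normalizer_sup_eq_top' (N := (S₀ : Subgroup Γ) ⊔ Mb) S₀ le_sup_left
  have h4 : (S₀ : Subgroup Γ) ⊔ Mb ≤ Subgroup.normalizer ((S₀ : Subgroup Γ) : Set Γ) :=
    sup_le Subgroup.le_normalizer hMbN
  rw [sup_of_le_left h4] at h3
  exact Subgroup.normalizer_eq_top_iff.mp h3

end Centralize

section Chain

variable {G : Type u} [Group G]

theorem chain_of_two (N : Subgroup G) [hN : N.Normal]
    (h1 : ∃ k : ℕ, N.lowerCentralSeries k = ⊥)
    (h2 : ∃ k : ℕ, (⊤ : Subgroup G).lowerCentralSeries k ≤ N) :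
    ∃ F : Fin (2 + 1) → Subgroup G, F 0 = ⊥ ∧ F (Fin.last 2) = ⊤ ∧ Monotone F ∧
      (∀ i, (F i).Normal) ∧
      ∀ i : Fin 2, ∃ k : ℕ, (F i.succ).lowerCentralSeries k ≤ F i.castSucc := by
  refine ⟨![⊥, N, ⊤], rfl, rfl, ?_, ?_, ?_⟩
  · intro i j hij
    fin_cases i <;> fin_cases j
    · exact le_refl _
    · exact bot_le
    · exact bot_le
    · exact absurd hij (by decide)
    · exact le_refl _
    · exact le_top
    · exact absurd hij (by decide)
    · exact absurd hij (by decide)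
    · exact le_refl _
  · intro i
    fin_cases i
    · exact (inferInstance : (⊥ : Subgroup G).Normal)
    · exact hN
    · exact (inferInstance : (⊤ : Subgroup G).Normal)
  · intro i
    fin_cases i
    · obtain ⟨k, hk⟩ := h1
      exact ⟨k, le_of_eq hk⟩
    · exact h2

end Chain


/-- **Ward's theorem**, inductive form: a finite solvable group with an elementary abelian
group of automorphisms of order `p²` without nontrivial common fixed points has a nilpotent
normal invariant subgroup with nilpotent quotient. -/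
theorem ward_main {A : Type v} [Group A] [Finite A] {p : ℕ} (hp : p.Prime)
    (hAcomm : ∀ x y : A, x * y = y * x) (hAexp : ∀ x : A, x ^ p = 1)
    (hAcard : Nat.card A = p ^ 2) :
    ∀ m : ℕ, ∀ (G : Type u) [Group G] [Finite G], Nat.card G = m → Group.IsSolvable G →
    ∀ act : A →* MulAut G, (∀ g, (∀ x, act x g = g) → g = 1) →
    ∃ N : Subgroup G, N.Normal ∧ Group.IsNilpotent ↥N ∧ (∀ x, ∀ g ∈ N, act x g ∈ N) ∧
      ∃ k : ℕ, (⊤ : Subgroup G).lowerCentralSeries k ≤ N := by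
  have hA : IsPGroup p A := isPGroup_of_card_sq hp hAcard
  haveI : Fact p.Prime := ⟨hp⟩
  intro m
  induction m using Nat.strong_induction_on with
  | _ m ih =>
  intro G _ _ hm hsol act hfpf
  by_cases htriv : Subsingleton G
  · refine ⟨⊥, inferInstance, inferInstance, ?_, 0, ?_⟩
    · intro x g hg
      rw [Subgroup.mem_bot] at hg ⊢
      rw [hg, map_one]
    · intro g _
      rw [Subgroup.mem_bot]
      exact Subsingleton.elim _ _
  haveI : Nontrivial G := not_subsingleton_iff_nontrivial.mp htriv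
  have hpG : ¬ p ∣ Nat.card G := not_dvd_card_of_fpf_hom hp hA act hfpf
  -- a minimal invariant normal subgroup
  obtain ⟨M, ⟨hMn, hMne, hMA⟩, hmin⟩ := wellFounded_lt.has_min
    {N : Subgroup G | N.Normal ∧ N ≠ ⊥ ∧ ∀ x, ∀ g ∈ N, act x g ∈ N}
    ⟨⊤, inferInstance, top_ne_bot, fun _ _ _ => Subgroup.mem_top _⟩
  have hMmin : ∀ N : Subgroup G, N.Normal → N ≠ ⊥ → (∀ x, ∀ g ∈ N, act x g ∈ N) → N ≤ M →
      N = M :=
    fun N h1 h2 h3 h4 => (lt_or_eq_of_le h4).resolve_left (hmin N ⟨h1, h2, h3⟩)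
  haveI := hMn
  have hMab : ∀ x ∈ M, ∀ y ∈ M, x * y = y * x := by
    have hcomm_ne : ⁅M, M⁆ ≠ M := by
      intro heq
      haveI : Nontrivial M := (Subgroup.nontrivial_iff_ne_bot M).mpr hMne
      have h1 := Group.IsSolvable.commutator_lt_top_of_nontrivial M
      have h2 : (commutator M).map M.subtype = M := by
        rw [Subgroup.map_subtype_commutator, heq]
      have h3 : commutator M = ⊤ := by
        apply Subgroup.map_injective M.subtype_injective
        rw [h2, ← MonoidHom.range_eq_map, Subgroup.range_subtype]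
      exact h1.ne h3
    have hbot : ⁅M, M⁆ = ⊥ := by
      by_contra hne
      refine hcomm_ne (hMmin ⁅M, M⁆ inferInstance hne ?_ (Subgroup.commutator_le_right M M))
      intro x g hg
      have h1 : act x g ∈ (⁅M, M⁆).map (act x).toMonoidHom := Subgroup.mem_map_of_mem _ hg
      rw [Subgroup.map_commutator] at h1
      have h2 : M.map (act x).toMonoidHom ≤ M := by
        rintro _ ⟨y, hy, rfl⟩
        exact hMA x y hy
      exact Subgroup.commutator_mono h2 h2 h1
    intro x hx y hy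
    have : ⁅x, y⁆ ∈ ⁅M, M⁆ := Subgroup.commutator_mem_commutator hx hy
    rw [hbot, Subgroup.mem_bot, commutatorElement_eq_one_iff_commute] at this
    exact this.eq
  have hcard1 : Nat.card M ≠ 1 := fun h => hMne (Subgroup.card_eq_one.mp h)
  obtain ⟨ℓ, hℓ, hℓM⟩ : ∃ ℓ, ℓ.Prime ∧ ℓ ∣ Nat.card M :=
    ⟨(Nat.card M).minFac, Nat.minFac_prime hcard1, Nat.minFac_dvd _⟩
  haveI : Fact ℓ.Prime := ⟨hℓ⟩
  have hMp : ∀ x ∈ M, x ^ ℓ = 1 := by
    let Ω : Subgroup G :=
      { carrier := {x | x ∈ M ∧ x ^ ℓ = 1}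
        one_mem' := ⟨M.one_mem, one_pow _⟩
        mul_mem' := by
          rintro a b ⟨ha, ha'⟩ ⟨hb, hb'⟩
          refine ⟨M.mul_mem ha hb, ?_⟩
          rw [(show Commute a b from hMab a ha b hb).mul_pow, ha', hb', one_mul]
        inv_mem' := by
          rintro a ⟨ha, ha'⟩
          exact ⟨M.inv_mem ha, by rw [inv_pow, ha', inv_one]⟩ }
    have hΩM : Ω ≤ M := fun x hx => hx.1
    have hΩn : Ω.Normal :=
      ⟨fun x hx g => ⟨hMn.conj_mem x hx.1 g, by rw [conj_pow, hx.2, mul_one, mul_inv_cancel]⟩⟩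
    have hΩne : Ω ≠ ⊥ := by
      obtain ⟨x, hx⟩ := exists_prime_orderOf_dvd_card' (G := M) ℓ hℓM
      intro hbot
      have hxΩ : (x : G) ∈ Ω := by
        refine ⟨x.2, ?_⟩
        rw [← Subgroup.coe_pow, ← hx, pow_orderOf_eq_one]
        rfl
      rw [hbot, Subgroup.mem_bot] at hxΩ
      have hx1 : x = 1 := Subtype.ext hxΩ
      rw [hx1, orderOf_one] at hx
      exact hℓ.one_lt.ne hx
    have hΩA : ∀ x, ∀ g ∈ Ω, act x g ∈ Ω := fun x g hg =>
      ⟨hMA x g hg.1, by rw [← map_pow, hg.2, map_one]⟩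
    have hΩeq := hMmin Ω hΩn hΩne hΩA hΩM
    intro x hx
    have : x ∈ Ω := by
      rw [hΩeq]
      exact hx
    exact this.2
  have hℓp : ℓ ≠ p := by
    intro h
    apply hpG
    rw [← h]
    exact hℓM.trans (Subgroup.card_subgroup_dvd_card M)
  -- the centralizer of `M`
  obtain ⟨C, hCdef⟩ : ∃ C : Subgroup G, C = Subgroup.centralizer (M : Set G) := ⟨_, rfl⟩
  have hCmem : ∀ c, c ∈ C ↔ ∀ x ∈ M, x * c = c * x := by
    intro c
    rw [hCdef, Subgroup.mem_centralizer_iff]
    rfl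
  have hCn : C.Normal := by
    rw [hCdef]
    infer_instance
  haveI := hCn
  have hMC : M ≤ C := by
    intro x hx
    rw [hCmem]
    intro y hy
    exact hMab y hy x hx
  have hCA : ∀ x, ∀ c ∈ C, act x c ∈ C := by
    intro x c hc
    rw [hCmem] at hc ⊢
    intro y hy
    have h1 := congrArg (act x) (hc _ (hMA x⁻¹ y hy))
    rwa [map_mul, map_mul, act_inv_act] at h1
  have hCne : C ≠ ⊥ := ne_bot_of_le_ne_bot hMne hMC
  -- induction hypothesis for `G ⧸ M`
  obtain ⟨N₁, hN₁n, hN₁nil, hN₁A, k₁, hk₁⟩ := ih (Nat.card (G ⧸ M)) (hm ▸ card_quot_lt M hMne)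
    (G ⧸ M) rfl inferInstance (quotAct act M hMA) (quotAct_fpf hp hA act hfpf M hMA)
  -- key claim: `G ⧸ C` is nilpotent
  have hKC : ∃ k₂ : ℕ, (⊤ : Subgroup G).lowerCentralSeries k₂ ≤ C := by
    apply lcs_le_of_quot_nilpotent C
    obtain ⟨actC, hactCdef⟩ : ∃ actC : A →* MulAut (G ⧸ C), actC = quotAct act C hCA :=
      ⟨_, rfl⟩
    have hactCmk : ∀ (x : A) (g : G), actC x (g : G ⧸ C) = ((act x g : G) : G ⧸ C) := by
      intro x g
      rw [hactCdef]
      exact quotAct_mk act C hCA x g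
    have hfpfC : ∀ q : G ⧸ C, (∀ x, actC x q = q) → q = 1 := by
      rw [hactCdef]
      exact quotAct_fpf hp hA act hfpf C hCA
    obtain ⟨Mb, hMbn, hMbnil, hMbA, k₂, hk₂⟩ := ih (Nat.card (G ⧸ C))
      (hm ▸ card_quot_lt C hCne) (G ⧸ C) rfl inferInstance actC hfpfC
    haveI := hMbn
    haveI := hMbnil
    have hpΓ : ¬ p ∣ Nat.card (G ⧸ C) := not_dvd_card_of_fpf_hom hp hA actC hfpfC
    -- no normal invariant `ℓ`-subgroup in `G ⧸ C`
    have hOp : ∀ P : Subgroup (G ⧸ C), P.Normal → IsPGroup ℓ P →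
        (∀ x, ∀ y ∈ P, actC x y ∈ P) → P = ⊥ := by
      intro P hPn hPp hPA
      let D : Subgroup G :=
        { carrier := {x | x ∈ M ∧ ∀ g : G, (g : G ⧸ C) ∈ P → g * x * g⁻¹ = x}
          one_mem' := ⟨M.one_mem, fun g _ => by group⟩
          mul_mem' := by
            rintro a b ⟨ha, ha'⟩ ⟨hb, hb'⟩
            refine ⟨M.mul_mem ha hb, fun g hg => ?_⟩
            calc g * (a * b) * g⁻¹ = (g * a * g⁻¹) * (g * b * g⁻¹) := by group
              _ = a * b := by rw [ha' g hg, hb' g hg]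
          inv_mem' := by
            rintro a ⟨ha, ha'⟩
            refine ⟨M.inv_mem ha, fun g hg => ?_⟩
            calc g * a⁻¹ * g⁻¹ = (g * a * g⁻¹)⁻¹ := by group
              _ = a⁻¹ := by rw [ha' g hg] }
      have hDM : D ≤ M := fun x hx => hx.1
      have hDn : D.Normal := by
        constructor
        intro x hx y
        refine ⟨hMn.conj_mem x hx.1 y, fun g hg => ?_⟩
        have hg' : ((y⁻¹ * g * y : G) : G ⧸ C) ∈ P := by
          have := hPn.conj_mem _ hg ((y⁻¹ : G) : G ⧸ C)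
          simpa using this
        have := hx.2 _ hg'
        calc g * (y * x * y⁻¹) * g⁻¹
            = y * ((y⁻¹ * g * y) * x * (y⁻¹ * g * y)⁻¹) * y⁻¹ := by group
          _ = y * x * y⁻¹ := by rw [this]
      have hDA : ∀ x, ∀ d ∈ D, act x d ∈ D := by
        intro x d hd
        refine ⟨hMA x d hd.1, fun g hg => ?_⟩
        have hg' : ((act x⁻¹ g : G) : G ⧸ C) ∈ P := by
          rw [← hactCmk]
          exact hPA x⁻¹ _ hg
        have h3 := congrArg (act x) (hd.2 _ hg')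
        rwa [map_mul (act x), map_mul (act x), map_inv (act x), act_inv_act] at h3
      have hDne : D ≠ ⊥ := by
        let ρM : (G ⧸ C) →* MulAut M :=
          QuotientGroup.lift _ (MulAut.conjNormal (H := M)) (by
            intro g hg
            rw [MonoidHom.mem_ker]
            ext x
            rw [MulAut.conjNormal_apply]
            have := (hCmem g).mp hg x x.2
            rw [← this]
            simp)
        letI : MulAction P M := MulAction.compHom M (ρM.comp P.subtype)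
        have hfix1 : (1 : M) ∈ MulAction.fixedPoints P M := by
          intro x
          show (ρM.comp P.subtype) x • (1 : M) = 1
          rw [MulAut.smul_def, map_one]
        obtain ⟨b, hb, hb1⟩ :=
          hPp.exists_fixed_point_of_prime_dvd_card_of_fixed_point (α := M) hℓM hfix1
        intro hbot
        have hbD : (b : G) ∈ D := by
          refine ⟨b.2, fun g hg => ?_⟩
          have h1 : (⟨(g : G ⧸ C), hg⟩ : P) • b = b := hb ⟨_, hg⟩
          have h2 : ((ρM (g : G ⧸ C)) b : G) = g * b * g⁻¹ := by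
            rw [show ρM (g : G ⧸ C) = MulAut.conjNormal g from rfl, MulAut.conjNormal_apply]
          rw [← h2]
          exact congrArg Subtype.val h1
        rw [hbot, Subgroup.mem_bot] at hbD
        exact hb1 (Subtype.ext hbD.symm)
      have hDeq : D = M := hMmin D hDn hDne hDA hDM
      rw [Subgroup.eq_bot_iff_forall]
      intro q hq
      induction q using QuotientGroup.induction_on with
      | _ g =>
        rw [QuotientGroup.eq_one_iff, hCmem]
        intro x hx
        have hxD : x ∈ D := hDeq ▸ hx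
        have := hxD.2 g hq
        exact (mul_inv_eq_iff_eq_mul.mp this).symm
    -- `ℓ` does not divide the order of `Mb`
    have hℓMb : ¬ ℓ ∣ Nat.card ↥Mb := by
      obtain ⟨S⟩ : Nonempty (Sylow ℓ ↥Mb) := inferInstance
      have hSn : (S : Subgroup ↥Mb).Normal :=
        Sylow.normal_of_normalizerCondition Group.normalizerCondition_of_isNilpotent S
      haveI hSchar : (S : Subgroup ↥Mb).Characteristic := Sylow.characteristic_of_normal S hSn
      have hPn : ((S : Subgroup ↥Mb).map Mb.subtype).Normal :=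
        ConjAct.normal_of_characteristic_of_normal
      have hPp : IsPGroup ℓ ↥((S : Subgroup ↥Mb).map Mb.subtype) := S.isPGroup'.map _
      have hbot := hOp _ hPn hPp
        (fun x => char_map_invariant (actC x) Mb (hMbA x) (S : Subgroup ↥Mb))
      have hSbot : (S : Subgroup ↥Mb) = ⊥ := by
        apply Subgroup.map_injective Mb.subtype_injective
        rw [hbot, Subgroup.map_bot]
      intro hdvd
      have h1 := S.not_dvd_index
      rw [hSbot, Subgroup.index_bot] at h1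
      exact h1 hdvd
    -- the linear data
    obtain ⟨K, _, _, _, hK⟩ : ∃ (K : Type) (_ : Field K) (_ : IsAlgClosed K) (_ : CharP K ℓ),
        True := ⟨AlgebraicClosure (ZMod ℓ), inferInstance, inferInstance, inferInstance, trivial⟩
    have hpK : (p : K) ≠ 0 := by
      intro h
      have h1 := (CharP.cast_eq_zero_iff K ℓ p).mp h
      exact hℓp ((Nat.prime_dvd_prime_iff_eq hℓ hp).mp h1)
    have hC : ∀ c ∈ C, ∀ a ∈ M, a * c = c * a := fun c hc => (hCmem c).mp hc
    have hequiv : ∀ (x : A) (γ : G ⧸ C), opA M K act hMA x * rhoQ M K C hC γ =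
        rhoQ M K C hC (actC x γ) * opA M K act hMA x := by
      intro x γ
      rw [hactCdef]
      exact opA_equiv M K C hC act hMA hCA x γ
    have hfaith : ∀ γ : G ⧸ C, rhoQ M K C hC γ = 1 → γ = 1 := fun γ hγ =>
      rhoQ_faithful M K C hC (fun c hc => (hCmem c).mpr hc) hMab hMp γ hγ
    apply nilpotent_of_centralizing Mb k₂ hk₂
    intro s hs
    haveI : Fact s.Prime := ⟨hs⟩
    obtain ⟨S₀, hS₀A⟩ := exists_invariant_sylow hp hA actC hpΓ s
    refine ⟨S₀, ?_⟩
    intro q hqF hqs Q t ht u hu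
    have hq : q.Prime := hqF.out
    have hQtriv : ¬ q ∣ Nat.card ↥Mb → t * u = u * t := by
      intro hnd
      have h1 : Nat.card (Q : Subgroup ↥Mb) = 1 := by
        obtain ⟨j, hj⟩ := (IsPGroup.iff_card).mp Q.isPGroup'
        have h2 : Nat.card (Q : Subgroup ↥Mb) ∣ Nat.card ↥Mb := Subgroup.card_subgroup_dvd_card _
        by_contra hne
        have hj0 : j ≠ 0 := by
          rintro rfl
          exact hne (by rw [hj, pow_zero])
        apply hnd
        exact dvd_trans (dvd_pow_self q hj0) (hj ▸ h2)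
      have hQbot : (Q : Subgroup ↥Mb) = ⊥ := Subgroup.card_eq_one.mp h1
      rw [hQbot, Subgroup.map_bot, Subgroup.mem_bot] at hu
      rw [hu, mul_one, one_mul]
    by_cases hqℓ : q = ℓ
    · exact hQtriv (hqℓ ▸ hℓMb)
    by_cases hqp : q = p
    · apply hQtriv
      rw [hqp]
      intro h
      exact hpΓ (h.trans (Subgroup.card_subgroup_dvd_card Mb))
    have hqK : (q : K) ≠ 0 := by
      intro h
      have h1 := (CharP.cast_eq_zero_iff K ℓ q).mp h
      exact hqℓ ((Nat.prime_dvd_prime_iff_eq hℓ hq).mp h1).symm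
    have hQn : (Q : Subgroup ↥Mb).Normal :=
      Sylow.normal_of_normalizerCondition Group.normalizerCondition_of_isNilpotent Q
    haveI hQchar : (Q : Subgroup ↥Mb).Characteristic := Sylow.characteristic_of_normal Q hQn
    haveI hPn : ((Q : Subgroup ↥Mb).map Mb.subtype).Normal :=
      ConjAct.normal_of_characteristic_of_normal
    have hPq : IsPGroup q ↥((Q : Subgroup ↥Mb).map Mb.subtype) := Q.isPGroup'.map _
    have hnil : ∀ c : A, c ≠ 1 → ∀ u ∈ (Q : Subgroup ↥Mb).map Mb.subtype, actC c u = u →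
        ∀ v : ↥(addChar M K), opA M K act hMA c v = v → rhoQ M K C hC u v = v := by
      intro c hc u hu hcu v hv
      obtain ⟨j, hj⟩ := (IsPGroup.iff_orderOf.mp hPq) ⟨u, hu⟩
      rw [Subgroup.orderOf_mk] at hj
      have huq : u ^ q ^ j = 1 := by
        rw [← hj]
        exact pow_orderOf_eq_one u
      rw [hactCdef] at hcu
      exact hnil_lemma M K hsol hp hℓ hq hqℓ hAcomm hAexp hAcard act hfpf hMab hMp hMA C hC
        hCA hpK c hc u j huq hcu v hv
    exact sylow_centralizes (inferInstance : Group.IsSolvable (G ⧸ C)) hp hq hs hqs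
      (fun h => hqp h.symm) hAcomm hAexp hAcard actC hfpfC hqK (rhoQ M K C hC)
      (opA M K act hMA) hequiv hfaith (S₀ : Subgroup (G ⧸ C)) S₀.isPGroup' hS₀A
      ((Q : Subgroup ↥Mb).map Mb.subtype) hPq
      (fun x => char_map_invariant (actC x) Mb (hMbA x) (Q : Subgroup ↥Mb)) hnil t ht u hu
  obtain ⟨k₂, hk₂⟩ := hKC
  -- the subgroup
  obtain ⟨N, hNdef⟩ : ∃ N : Subgroup G, N = N₁.comap (QuotientGroup.mk' M) ⊓ C := ⟨_, rfl⟩
  have hNmem : ∀ g, g ∈ N ↔ (g : G ⧸ M) ∈ N₁ ∧ g ∈ C := by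
    intro g
    rw [hNdef]
    rfl
  haveI := hN₁n
  haveI := hN₁nil
  refine ⟨N, ?_, ?_, ?_, max k₁ k₂, ?_⟩
  · rw [hNdef]
    infer_instance
  · let f : ↥N →* ↥N₁ :=
      ((QuotientGroup.mk' M).comp N.subtype).codRestrict N₁ (fun x => ((hNmem x).mp x.2).1)
    apply Subgroup.isNilpotent_of_ker_le_center f
    intro x hx
    rw [MonoidHom.mem_ker] at hx
    have hxM : (x : G) ∈ M := by
      have h1 := congrArg Subtype.val hx
      exact (QuotientGroup.eq_one_iff _).mp h1
    rw [Subgroup.mem_center_iff]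
    intro y
    have hyC : (y : G) ∈ C := ((hNmem y).mp y.2).2
    have h2 := (hCmem _).mp hyC _ hxM
    exact Subtype.ext h2.symm
  · intro x g hg
    rw [hNmem] at hg ⊢
    refine ⟨?_, hCA x g hg.2⟩
    rw [← quotAct_mk act M hMA]
    exact hN₁A x _ hg.1
  · intro g hg
    rw [hNmem]
    constructor
    · have h1 : g ∈ (⊤ : Subgroup G).lowerCentralSeries k₁ :=
        Subgroup.lowerCentralSeries_antitone _ (le_max_left k₁ k₂) hg
      have h2 := Subgroup.map_lowerCentralSeries (S := (⊤ : Subgroup G)) (QuotientGroup.mk' M) k₁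
      rw [← MonoidHom.range_eq_map,
        MonoidHom.range_eq_top.mpr (QuotientGroup.mk'_surjective M)] at h2
      apply hk₁
      rw [← h2]
      exact Subgroup.mem_map_of_mem _ h1
    · exact hk₂ (Subgroup.lowerCentralSeries_antitone _ (le_max_right k₁ k₂) hg)


end Cfsg.Agent.Helper63.Ward
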