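-- helper63 library: the key linear statements for a Frobenius group of order `p r` acting
-- without fixed points (triviality of a class-two `q`-group on a module on which an element
-- of prime order has no fixed vector); add-only once landed.
import Cfsg.Agent.Helper63.FrobCore
import Cfsg.Agent.Helper63.WardGroup

set_option autoImplicit false

namespace Cfsg.Agent.Helper63.Frob

open Module Cfsg.Agent.Helper63.Gross Cfsg.Agent.Helper63.Shult Cfsg.Agent.Helper63.ProjRep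
  Cfsg.Agent.Helper63.Ward

universe u v w w'

section FC

variable {K : Type u} [Field K] [IsAlgClosed K] {V : Type v} [AddCommGroup V] [Module K V]
  [FiniteDimensional K V] {Γ : Type w} [Group Γ] [Finite Γ]

/-- **Centralizer lemma.**  `P` a `q`-group of class at most two (relative to `Z`) acted on by
`S` with `P = [P, S]`, both normalized by `ψ` of prime order `r` whose fixed points on `S`
centralize `P`; `ξ` realizes `ψ` on the module.  On every invariant subspace `X` on which `ξ`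
has no fixed vector, `ψ u` and `u` act in the same way. -/
theorem fc_main {q r : ℕ} [hqF : Fact q.Prime] (hr : r.Prime) (hqr : q ≠ r)
    (hqK : (q : K) ≠ 0) (hrK : (r : K) ≠ 0)
    (ρ : Γ →* Module.End K V) (ψ : MulAut Γ) (hψr : ψ ^ r = 1) (ξ : Module.End K V)
    (hξr : ξ ^ r = 1) (hξψ : ∀ g, ξ * ρ g = ρ (ψ g) * ξ)
    (P S Z : Subgroup Γ) (hPq : IsPGroup q P)
    (hSq : (Nat.card S).Coprime q) (hSr : (Nat.card S).Coprime r)
    (hPψ : ∀ u ∈ P, ψ u ∈ P) (hSψ : ∀ t ∈ S, ψ t ∈ S)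
    (hPS : ∀ t ∈ S, ∀ u ∈ P, t * u * t⁻¹ ∈ P)
    (hZP : Z ≤ P) (hZc : ∀ z ∈ Z, ∀ u ∈ P, u * z = z * u)
    (hP'Z : ∀ u ∈ P, ∀ u' ∈ P, u * u' * u⁻¹ * u'⁻¹ ∈ Z) (hqZ : ∀ u ∈ P, u ^ q ∈ Z)
    (hS'P : ∀ t ∈ S, ∀ t' ∈ S, ∀ u ∈ P, t * t' * u * (t * t')⁻¹ = t' * t * u * (t' * t)⁻¹)
    (hfixS : ∀ t ∈ S, ψ t = t → ∀ u ∈ P, t * u = u * t)
    (hgenP : ∀ N : Subgroup Γ, (∀ t ∈ S, ∀ u ∈ P, t * u * t⁻¹ * u⁻¹ ∈ N) → P ≤ N) :
    ∀ n : ℕ, ∀ X : Submodule K V, finrank K ↥X = n → (∀ u ∈ P, ∀ v ∈ X, ρ u v ∈ X) →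
      (∀ t ∈ S, ∀ v ∈ X, ρ t v ∈ X) → (∀ v ∈ X, ξ v ∈ X) → (∀ v ∈ X, ξ v = v → v = 0) →
      ∀ u ∈ P, ∀ v ∈ X, ρ (ψ u) v = ρ u v := by
  classical
  haveI : Fact r.Prime := ⟨hr⟩
  have hq : q.Prime := hqF.out
  have hrpos := hr.pos
  have hψinv_r : (ψ⁻¹) ^ r = 1 := by rw [inv_pow, hψr, inv_one]
  have hψ1 : ∀ g, ψ (ψ⁻¹ g) = g := fun g => MulAut.apply_inv_self Γ ψ g
  have hψ2 : ∀ g, ψ⁻¹ (ψ g) = g := fun g => MulAut.inv_apply_self Γ ψ g
  have hPψ' : ∀ u ∈ P, ψ⁻¹ u ∈ P := symm_mem_of_finite ψ P hPψ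
  have hSψ' : ∀ t ∈ S, ψ⁻¹ t ∈ S := symm_mem_of_finite ψ S hSψ
  have hρξ : ∀ g v, ρ g (ξ v) = ξ (ρ (ψ⁻¹ g) v) := by
    intro g v
    have h1 := LinearMap.congr_fun (hξψ (ψ⁻¹ g)) v
    rw [Module.End.mul_apply, Module.End.mul_apply, hψ1] at h1
    exact h1.symm
  have hξρ : ∀ g v, ξ (ρ g v) = ρ (ψ g) (ξ v) := by
    intro g v
    have h1 := LinearMap.congr_fun (hξψ g) v
    rw [Module.End.mul_apply, Module.End.mul_apply] at h1
    exact h1
  have hξinj : ∀ v, ξ v = 0 → v = 0 := by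
    intro v h
    have h2 : (ξ ^ (r - 1) * ξ) v = v := by
      rw [← pow_succ, Nat.sub_add_cancel hrpos, hξr, Module.End.one_apply]
    rw [Module.End.mul_apply, h, map_zero] at h2
    exact h2.symm
  have hξinj' : ∀ v v', ξ v = ξ v' → v = v' := by
    intro v v' h
    have h1 : ξ (v - v') = 0 := by rw [map_sub, h, sub_self]
    exact sub_eq_zero.mp (hξinj _ h1)
  have hρmul : ∀ g h v, ρ (g * h) v = ρ g (ρ h v) := by
    intro g h v
    rw [map_mul, Module.End.mul_apply]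
  have hρinv' : ∀ g v, ρ g (ρ g⁻¹ v) = v := by
    intro g v
    rw [← hρmul, mul_inv_cancel, map_one, Module.End.one_apply]
  have hρinj : ∀ g v, ρ g v = 0 → v = 0 := by
    intro g v h
    have h1 : ρ g⁻¹ (ρ g v) = v := by
      rw [← hρmul, inv_mul_cancel, map_one, Module.End.one_apply]
    rw [h, map_zero] at h1
    exact h1.symm
  have hPS' : ∀ t ∈ S, ∀ u ∈ P, t⁻¹ * u * t ∈ P := by
    intro t ht u hu
    have := hPS t⁻¹ (S.inv_mem ht) u hu
    rwa [inv_inv] at this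
  have hrS : ¬ r ∣ Nat.card S := (Nat.Prime.coprime_iff_not_dvd hr).mp hSr.symm
  intro n
  induction n using Nat.strong_induction_on with
  | _ n IH =>
  intro X hXn hXP hXS hXξ hXfix
  let Zh : Subgroup Γ :=
    { carrier := {z | z ∈ P ∧ ∀ u ∈ P, ∀ v ∈ X, ρ (z * u) v = ρ (u * z) v}
      one_mem' := ⟨P.one_mem, fun u _ v _ => by rw [one_mul, mul_one]⟩
      mul_mem' := by
        rintro z z' ⟨hz, hz'⟩ ⟨hz2, hz2'⟩
        refine ⟨P.mul_mem hz hz2, fun u hu v hv => ?_⟩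
        calc ρ (z * z' * u) v = ρ z (ρ (z' * u) v) := by rw [mul_assoc, hρmul]
          _ = ρ z (ρ (u * z') v) := by rw [hz2' u hu v hv]
          _ = ρ (z * u) (ρ z' v) := by rw [← hρmul, ← mul_assoc, hρmul]
          _ = ρ (u * z) (ρ z' v) := by rw [hz' u hu _ (hXP z' hz2 v hv)]
          _ = ρ (u * (z * z')) v := by rw [← hρmul, mul_assoc]
      inv_mem' := by
        rintro z ⟨hz, hz'⟩
        refine ⟨P.inv_mem hz, fun u hu v hv => ?_⟩
        have A : ρ (z * u * z⁻¹) v = ρ u v := by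
          have h1 := hz' u hu (ρ z⁻¹ v) (hXP z⁻¹ (P.inv_mem hz) v hv)
          rw [← hρmul, ← hρmul, mul_inv_cancel_right] at h1
          exact h1
        calc ρ (z⁻¹ * u) v = ρ z⁻¹ (ρ u v) := hρmul _ _ _
          _ = ρ z⁻¹ (ρ (z * u * z⁻¹) v) := by rw [A]
          _ = ρ (u * z⁻¹) v := by
            rw [← hρmul]
            congr 2
            group }
  have hZhmem : ∀ z, z ∈ Zh ↔ z ∈ P ∧ ∀ u ∈ P, ∀ v ∈ X, ρ (z * u) v = ρ (u * z) v :=
    fun z => Iff.rfl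
  have hZhP : Zh ≤ P := fun z hz => hz.1
  have hZhcomm : ∀ z ∈ Zh, ∀ u ∈ P, ∀ v ∈ X, ρ z (ρ u v) = ρ u (ρ z v) := by
    intro z hz u hu v hv
    rw [← hρmul, ← hρmul]
    exact hz.2 u hu v hv
  have hZhψ' : ∀ z ∈ Zh, ψ⁻¹ z ∈ Zh := by
    intro z hz
    refine ⟨hPψ' z hz.1, fun u hu v hv => ?_⟩
    apply hξinj'
    calc ξ (ρ (ψ⁻¹ z * u) v) = ρ (z * ψ u) (ξ v) := by
          rw [hξρ, map_mul ψ, hψ1]
      _ = ρ (ψ u * z) (ξ v) := hz.2 _ (hPψ u hu) _ (hXξ v hv)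
      _ = ξ (ρ (u * ψ⁻¹ z) v) := by
          rw [hξρ, map_mul ψ, hψ1]
  have hZhψ : ∀ z ∈ Zh, ψ z ∈ Zh := symm_mem_of_finite ψ⁻¹ Zh hZhψ'
  have hZhS : ∀ t ∈ S, ∀ z ∈ Zh, t * z * t⁻¹ ∈ Zh := by
    intro t ht z hz
    refine ⟨hPS t ht z hz.1, fun u hu v hv => ?_⟩
    have h1 := hz.2 _ (hPS' t ht u hu) _ (hXS t⁻¹ (S.inv_mem ht) v hv)
    calc ρ (t * z * t⁻¹ * u) v = ρ t (ρ (z * (t⁻¹ * u * t)) (ρ t⁻¹ v)) := by
          rw [← hρmul, ← hρmul]
          congr 2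
          group
      _ = ρ t (ρ (t⁻¹ * u * t * z) (ρ t⁻¹ v)) := by rw [h1]
      _ = ρ (u * (t * z * t⁻¹)) v := by
          rw [← hρmul, ← hρmul]
          congr 2
          group
  have hZhS' : ∀ t ∈ S, ∀ z ∈ Zh, t⁻¹ * z * t ∈ Zh := by
    intro t ht z hz
    have := hZhS t⁻¹ (S.inv_mem ht) z hz
    rwa [inv_inv] at this
  have hZZh : Z ≤ Zh := by
    intro z hz
    refine ⟨hZP hz, fun u hu v _ => ?_⟩
    rw [hZc z hz u hu]
  -- the pieces of `X`
  have hmemE : ∀ (μ : Γ → K) (v : V), v ∈ X ⊓ eig ρ Zh μ ↔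
      v ∈ X ∧ ∀ z ∈ Zh, ρ z v = μ z • v := by
    intro μ v
    rw [Submodule.mem_inf, mem_eig]
  have hE1 : ∀ (μ : Γ → K) (v : V), v ∈ X ⊓ eig ρ Zh μ →
      ξ v ∈ X ⊓ eig ρ Zh (fun g => μ (ψ⁻¹ g)) := by
    intro μ v hv
    rw [hmemE] at hv ⊢
    refine ⟨hXξ v hv.1, fun z hz => ?_⟩
    rw [hρξ, hv.2 _ (hZhψ' z hz), map_smul]
  have hE1pow : ∀ (i : ℕ) (μ : Γ → K) (v : V), v ∈ X ⊓ eig ρ Zh μ →
      (ξ ^ i) v ∈ X ⊓ eig ρ Zh (fun g => μ ((ψ⁻¹ ^ i) g)) := by
    intro i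
    induction i with
    | zero =>
      intro μ v hv
      simpa using hv
    | succ i ih =>
      intro μ v hv
      have h1 := ih _ _ (hE1 μ v hv)
      have e : (fun g => μ ((ψ⁻¹ ^ (i + 1)) g)) = fun g => μ (ψ⁻¹ ((ψ⁻¹ ^ i) g)) := by
        funext g
        rw [pow_succ', MulAut.mul_apply]
      rw [e, pow_succ, Module.End.mul_apply]
      exact h1
  have hZhpow : ∀ (j : ℕ), ∀ z ∈ Zh, (ψ⁻¹ ^ j) z ∈ Zh := by
    intro j
    induction j with
    | zero =>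
      intro z hz
      simpa using hz
    | succ j ih =>
      intro z hz
      rw [pow_succ', MulAut.mul_apply]
      exact hZhψ' _ (ih z hz)
  have hE2 : ∀ (μ : Γ → K), X ⊓ eig ρ Zh μ ≠ ⊥ → ∀ z ∈ Zh, μ (ψ⁻¹ z) = μ z := by
    intro μ hμ
    obtain ⟨v, hv, hv0⟩ := (Submodule.ne_bot_iff _).mp hμ
    by_contra hcon
    push Not at hcon
    obtain ⟨z₁, hz₁, hne⟩ := hcon
    have hfixs := sum_pow_fixed' ξ r v (by rw [hξr]; rfl)
    have hsumX : ∑ i ∈ Finset.range r, (ξ ^ i) v ∈ X :=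
      Submodule.sum_mem _ (fun i _ => (Submodule.mem_inf.mp (hE1pow i μ v hv)).1)
    have h0 := hXfix _ hsumX hfixs
    have h00 : (0 : ℕ) ∈ Finset.range r := Finset.mem_range.mpr hrpos
    rw [← Finset.add_sum_erase _ _ h00, pow_zero, Module.End.one_apply] at h0
    apply hv0
    exact sep' (fun z : ↥Zh => ρ (z : Γ)) (fun z => μ (z : Γ))
      (fun (k : ℕ) (z : ↥Zh) => μ ((ψ⁻¹ ^ k) (z : Γ))) ((Finset.range r).erase 0)
      (by
        intro k hk hθ
        have hk0 : 0 < k := Nat.pos_of_ne_zero (Finset.ne_of_mem_erase hk)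
        have hkr : k < r := Finset.mem_range.mp (Finset.mem_of_mem_erase hk)
        obtain ⟨m, hm⟩ := exists_pow_pow_eq_self ψ⁻¹ hr hψinv_r hk0 hkr
        have h1 : ∀ (j : ℕ), ∀ z ∈ Zh, μ (((ψ⁻¹ ^ k) ^ j) z) = μ z := by
          intro j
          induction j with
          | zero =>
            intro z _
            rw [pow_zero, MulAut.one_apply]
          | succ j ih =>
            intro z hz
            rw [pow_succ', MulAut.mul_apply]
            have h2 : ((ψ⁻¹ ^ k) ^ j) z ∈ Zh := by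
              rw [← pow_mul]
              exact hZhpow _ z hz
            have h3 := congrFun hθ ⟨_, h2⟩
            exact h3.trans (ih z hz)
        have h4 := h1 m z₁ hz₁
        rw [hm] at h4
        exact hne h4)
      v (Submodule.mem_inf.mp hv).2 (fun k => (ξ ^ k) v)
      (fun k _ => (Submodule.mem_inf.mp (hE1pow k μ v hv)).2) h0
  have hE3 : ∀ (μ : Γ → K), X ⊓ eig ρ Zh μ ≠ ⊥ → ∀ z ∈ Zh, μ (ψ z) = μ z := by
    intro μ hμ z hz
    have h1 := hE2 μ hμ (ψ z) (hZhψ z hz)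
    rw [hψ2] at h1
    exact h1.symm
  have hE4 : ∀ (μ : Γ → K), ∀ t ∈ S, ∀ v ∈ X ⊓ eig ρ Zh μ,
      ρ t v ∈ X ⊓ eig ρ Zh (fun g => μ (t⁻¹ * g * t)) := by
    intro μ t ht v hv
    rw [hmemE] at hv ⊢
    refine ⟨hXS t ht v hv.1, fun z hz => ?_⟩
    have e : z * t = t * (t⁻¹ * z * t) := by group
    rw [← hρmul, e, hρmul, hv.2 _ (hZhS' t ht z hz), map_smul]
  have hE5 : ∀ (μ : Γ → K), X ⊓ eig ρ Zh μ ≠ ⊥ → ∀ t ∈ S, ∀ z ∈ Zh,
      μ (t⁻¹ * z * t) = μ z := by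
    intro μ hμ
    obtain ⟨v, hv, hv0⟩ := (Submodule.ne_bot_iff _).mp hμ
    have hμψ' := hE2 μ hμ
    have hμψ := hE3 μ hμ
    let Sμ : Subgroup Γ :=
      { carrier := {s | s ∈ S ∧ ∀ z ∈ Zh, μ (s⁻¹ * z * s) = μ z}
        one_mem' := ⟨S.one_mem, fun z _ => by rw [inv_one, one_mul, mul_one]⟩
        mul_mem' := by
          rintro s s' ⟨hs, hs'⟩ ⟨hs2, hs2'⟩
          refine ⟨S.mul_mem hs hs2, fun z hz => ?_⟩
          have e : (s * s')⁻¹ * z * (s * s') = s'⁻¹ * (s⁻¹ * z * s) * s' := by group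
          rw [e, hs2' _ (hZhS' s hs z hz), hs' z hz]
        inv_mem' := by
          rintro s ⟨hs, hs'⟩
          refine ⟨S.inv_mem hs, fun z hz => ?_⟩
          have h1 := hs' _ (hZhS s hs z hz)
          have e : s⁻¹ * (s * z * s⁻¹) * s = z := by group
          rw [e] at h1
          rw [inv_inv]
          exact h1.symm }
    have hSμS : Sμ ≤ S := fun s hs => hs.1
    have hrSμ : ¬ r ∣ Nat.card Sμ := fun h => hrS (h.trans (Subgroup.card_dvd_of_le hSμS))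
    intro t ht
    have hμt : X ⊓ eig ρ Zh (fun g => μ (t⁻¹ * g * t)) ≠ ⊥ :=
      (Submodule.ne_bot_iff _).mpr ⟨ρ t v, hE4 μ t ht v hv, fun h => hv0 (hρinj t v h)⟩
    have hμtψ := hE3 _ hμt
    obtain ⟨w, hw1, hw2⟩ := exists_fixed_in_coset_single ψ⁻¹ hψinv_r Sμ hrSμ
      (by
        rintro s ⟨hs, hs'⟩
        refine ⟨hSψ' s hs, fun z hz => ?_⟩
        have e : (ψ⁻¹ s)⁻¹ * z * ψ⁻¹ s = ψ⁻¹ (s⁻¹ * ψ z * s) := by
          rw [map_mul, map_mul, map_inv, hψ2]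
        rw [e, hμψ' _ (hZhS' s hs _ (hZhψ z hz)), hs' _ (hZhψ z hz), hμψ z hz])
      t
      (by
        refine ⟨S.mul_mem (S.inv_mem ht) (hSψ' t ht), fun z hz => ?_⟩
        have h1 := hμtψ (t * z * t⁻¹) (hZhS t ht z hz)
        have e1 : t⁻¹ * (t * z * t⁻¹) * t = z := by group
        rw [e1] at h1
        have e2 : t⁻¹ * ψ (t * z * t⁻¹) * t =
            ψ ((t⁻¹ * ψ⁻¹ t)⁻¹ * z * (t⁻¹ * ψ⁻¹ t)) := by
          have ea : ψ (t⁻¹ * ψ⁻¹ t) = (ψ t)⁻¹ * t := by rw [map_mul ψ, map_inv ψ, hψ1]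
          rw [map_mul ψ ((t⁻¹ * ψ⁻¹ t)⁻¹ * z), map_mul ψ (t⁻¹ * ψ⁻¹ t)⁻¹ z,
            map_inv ψ (t⁻¹ * ψ⁻¹ t), ea, map_mul ψ (t * z), map_mul ψ t z, map_inv ψ t]
          group
        rw [e2, hμψ _ (hZhS' _ (S.mul_mem (S.inv_mem ht) (hSψ' t ht)) z hz)] at h1
        exact h1)
    have hwψ : ψ w = w := by
      have h1 := congrArg ψ hw2
      rw [hψ1] at h1
      exact h1.symm
    have hwS : w ∈ S := by
      have e : w = t * (t⁻¹ * w) := by group
      rw [e]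
      exact S.mul_mem ht (hSμS hw1)
    have hwc := hfixS w hwS hwψ
    have hwSμ : w ∈ Sμ := by
      refine ⟨hwS, fun z hz => ?_⟩
      have e : w⁻¹ * z * w = z := by
        rw [mul_assoc, ← hwc z (hZhP hz)]
        group
      rw [e]
    have htSμ : t ∈ Sμ := by
      have e : t = w * (t⁻¹ * w)⁻¹ := by group
      rw [e]
      exact Sμ.mul_mem hwSμ (Sμ.inv_mem hw1)
    exact htSμ.2
  -- the restricted representation
  obtain ⟨ρX, hρX⟩ : ∃ ρX : ↥P →* Module.End K ↥X,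
      ρX = resHom (ρ.comp P.subtype) X (fun g v hv => hXP g g.2 v hv) := ⟨_, rfl⟩
  have hρXval : ∀ (g : ↥P) (w : ↥X), ((ρX g w : ↥X) : V) = ρ (g : Γ) (w : V) := by
    intro g w
    rw [hρX]
    rfl
  obtain ⟨Cm, hCm⟩ : ∃ Cm : Submodule K V, ∀ v, v ∈ Cm ↔ ∀ u ∈ P, ρ (ψ u) v = ρ u v :=
    ⟨{ carrier := {v | ∀ u ∈ P, ρ (ψ u) v = ρ u v}
       add_mem' := by
         intro a b ha hb u hu
         rw [map_add, map_add, ha u hu, hb u hu]
       zero_mem' := by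
         intro u hu
         rw [map_zero, map_zero]
       smul_mem' := by
         intro c a ha u hu
         rw [map_smul, map_smul, ha u hu] }, fun v => Iff.rfl⟩
  suffices hall : (⊤ : Submodule K ↥X) ≤ Cm.comap X.subtype by
    intro u hu v hv
    have h1 := hall (Submodule.mem_top : (⟨v, hv⟩ : ↥X) ∈ ⊤)
    exact (hCm v).mp h1 u hu
  by_cases hsc : ∀ z ∈ Zh, ∃ c : K, ∀ v ∈ X, ρ z v = c • v
  · -- every element of `Zh` is scalar on `X`: the core
    intro w _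
    rw [Submodule.mem_comap, hCm]
    show ∀ u ∈ P, ρ (ψ u) (w : V) = ρ u (w : V)
    obtain ⟨ρu, hρu⟩ : ∃ ρu : ↥P →* (Module.End K ↥X)ˣ,
        ∀ g, ((ρu g : (Module.End K ↥X)ˣ) : Module.End K ↥X) = ρX g :=
      ⟨ρX.toHomUnits, fun g => rfl⟩
    obtain ⟨ρS, hρS⟩ : ∃ ρS : ↥S →* Module.End K ↥X,
        ρS = resHom (ρ.comp S.subtype) X (fun g v hv => hXS g g.2 v hv) := ⟨_, rfl⟩
    have hρSval : ∀ (g : ↥S) (w : ↥X), ((ρS g w : ↥X) : V) = ρ (g : Γ) (w : V) := by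
      intro g w
      rw [hρS]
      rfl
    obtain ⟨θ, hθ⟩ : ∃ θ : ↥S →* (Module.End K ↥X)ˣ,
        ∀ g, ((θ g : (Module.End K ↥X)ˣ) : Module.End K ↥X) = ρS g :=
      ⟨ρS.toHomUnits, fun g => rfl⟩
    obtain ⟨ξX, hξX⟩ : ∃ ξX : Module.End K ↥X, ∀ w : ↥X, ((ξX w : ↥X) : V) = ξ (w : V) :=
      ⟨ξ.restrict hXξ, fun w => rfl⟩
    have hξXr : ξX ^ r = 1 := by
      have h : ∀ (k : ℕ) (w : ↥X), (((ξX ^ k) w : ↥X) : V) = (ξ ^ k) (w : V) := by
        intro k
        induction k with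
        | zero =>
          intro w
          rfl
        | succ k ih =>
          intro w
          rw [pow_succ, Module.End.mul_apply, ih, hξX, pow_succ, Module.End.mul_apply]
      apply LinearMap.ext
      intro w
      apply Subtype.ext
      rw [h, hξr]
      rfl
    obtain ⟨x, hx⟩ : ∃ x : (Module.End K ↥X)ˣ,
        ((x : (Module.End K ↥X)ˣ) : Module.End K ↥X) = ξX :=
      ⟨Units.ofPowEqOne ξX r hξXr hr.ne_zero, rfl⟩
    have hxr : x ^ r = 1 := by
      apply Units.ext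
      rw [Units.val_pow_eq_pow_val, hx, hξXr]
      rfl
    obtain ⟨Q, hQ⟩ : ∃ Q : Subgroup (Module.End K ↥X)ˣ, Q = ρu.range := ⟨_, rfl⟩
    have hQmem : ∀ g, g ∈ Q ↔ ∃ u : ↥P, ρu u = g := by
      intro g
      rw [hQ]
      exact MonoidHom.mem_range
    haveI : Finite ↥Q := by
      rw [hQ]
      exact Finite.of_surjective ρu.rangeRestrict ρu.rangeRestrict_surjective
    have hQq : IsPGroup q ↥Q := by
      rw [hQ]
      exact hPq.of_surjective ρu.rangeRestrict ρu.rangeRestrict_surjective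
    have hval : ∀ (g : ↥P) (w : ↥X),
        ((((ρu g : (Module.End K ↥X)ˣ) : Module.End K ↥X) w : ↥X) : V) = ρ (g : Γ) (w : V) := by
      intro g w
      rw [hρu, hρXval]
    have hθval : ∀ (g : ↥S) (w : ↥X),
        ((((θ g : (Module.End K ↥X)ˣ) : Module.End K ↥X) w : ↥X) : V) = ρ (g : Γ) (w : V) := by
      intro g w
      rw [hθ, hρSval]
    have hxval : ∀ (w : ↥X),
        ((((x : (Module.End K ↥X)ˣ) : Module.End K ↥X) w : ↥X) : V) = ξ (w : V) := by
      intro w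
      rw [hx, hξX]
    have hext : ∀ a b : (Module.End K ↥X)ˣ,
        (∀ w : ↥X, (((a : Module.End K ↥X) w : ↥X) : V) = (((b : Module.End K ↥X) w : ↥X) : V)) →
        a = b := by
      intro a b h
      apply Units.ext
      apply LinearMap.ext
      intro w
      exact Subtype.ext (h w)
    have hxρ : ∀ u : ↥P, x * ρu u * x⁻¹ = ρu ⟨ψ u, hPψ u u.2⟩ := by
      intro u
      rw [mul_inv_eq_iff_eq_mul]
      apply hext
      intro w
      simp only [Units.val_mul, Module.End.mul_apply, hxval, hval]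
      exact hξρ u w
    have hθρ : ∀ (t : ↥S) (u : ↥P),
        θ t * ρu u * (θ t)⁻¹ = ρu ⟨t * u * t⁻¹, hPS t t.2 u u.2⟩ := by
      intro t u
      rw [mul_inv_eq_iff_eq_mul]
      apply hext
      intro w
      simp only [Units.val_mul, Module.End.mul_apply, hθval, hval]
      rw [← hρmul, ← hρmul, Subgroup.coe_inv, inv_mul_cancel_right]
    obtain ⟨c, hcdef⟩ : ∃ c : MulAut ↥S, c = resAut ψ S hSψ (symm_mem_of_finite ψ S hSψ) :=
      ⟨_, rfl⟩
    have hcval : ∀ t : ↥S, ((c t : ↥S) : Γ) = ψ (t : Γ) := by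
      intro t
      rw [hcdef]
      rfl
    have hc : c ^ r = 1 := by
      apply MulEquiv.ext
      intro g
      apply Subtype.ext
      rw [hcdef, resAut_pow_coe, hψr]
      rfl
    have hxθ : ∀ t : ↥S, x * θ t * x⁻¹ = θ (c t) := by
      intro t
      rw [mul_inv_eq_iff_eq_mul]
      apply hext
      intro w
      simp only [Units.val_mul, Module.End.mul_apply, hxval, hθval, hcval]
      exact hξρ t w
    have hcore := frob_core (K := K) (M := ↥X) hr hqr hqK hrK Q hQq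
      (by
        intro g hg hgc
        obtain ⟨u, rfl⟩ := (hQmem g).mp hg
        have huZh : (u : Γ) ∈ Zh := by
          refine ⟨u.2, fun u' hu' v hv => ?_⟩
          have h1 := hgc (ρu ⟨u', hu'⟩) ((hQmem _).mpr ⟨_, rfl⟩)
          have h2 := congrArg
            (fun a : (Module.End K ↥X)ˣ => (((a : Module.End K ↥X) ⟨v, hv⟩ : ↥X) : V)) h1
          simp only [Units.val_mul, Module.End.mul_apply, hval] at h2
          rw [hρmul, hρmul]
          exact h2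
        obtain ⟨c', hc'⟩ := hsc _ huZh
        refine ⟨c', ?_⟩
        apply LinearMap.ext
        intro w
        apply Subtype.ext
        rw [hval]
        exact hc' w w.2)
      (by
        intro g hg h hh k hk
        obtain ⟨u, rfl⟩ := (hQmem g).mp hg
        obtain ⟨u', rfl⟩ := (hQmem h).mp hh
        obtain ⟨u'', rfl⟩ := (hQmem k).mp hk
        rw [← map_inv, ← map_inv, ← map_mul, ← map_mul, ← map_mul, ← map_mul, ← map_mul]
        congr 1
        apply Subtype.ext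
        exact (hZc _ (hP'Z u u.2 u' u'.2) u'' u''.2).symm)
      (by
        intro g hg k hk
        obtain ⟨u, rfl⟩ := (hQmem g).mp hg
        obtain ⟨u'', rfl⟩ := (hQmem k).mp hk
        rw [← map_pow, ← map_mul, ← map_mul]
        congr 1
        apply Subtype.ext
        exact (hZc _ (hqZ u u.2) u'' u''.2).symm)
      x hxr
      (by
        intro g hg
        obtain ⟨u, rfl⟩ := (hQmem g).mp hg
        rw [hxρ]
        exact (hQmem _).mpr ⟨_, rfl⟩)
      (by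
        intro v hv
        apply Subtype.ext
        apply hXfix (v : V) v.2
        rw [← hxval, hv])
      θ
      (by
        intro t g hg
        obtain ⟨u, rfl⟩ := (hQmem g).mp hg
        rw [hθρ]
        exact (hQmem _).mpr ⟨_, rfl⟩)
      hSq hSr c hc hxθ
      (by
        intro t ht g hg
        obtain ⟨u, rfl⟩ := (hQmem g).mp hg
        rw [hθρ]
        congr 1
        apply Subtype.ext
        have h1 : ψ (t : Γ) = t := by
          rw [← hcval, ht]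
        have h2 := hfixS t t.2 h1 u u.2
        show (t : Γ) * u * (t : Γ)⁻¹ = u
        rw [h2, mul_inv_cancel_right])
      (by
        intro t t' g hg
        obtain ⟨u, rfl⟩ := (hQmem g).mp hg
        rw [← map_mul θ, ← map_mul θ, hθρ, hθρ]
        congr 1
        apply Subtype.ext
        exact hS'P t t.2 t' t'.2 u u.2)
      (by
        intro N hNQ _ hN
        let N₀ : Subgroup Γ := (N.comap ρu).map P.subtype
        have h1 := hgenP N₀ (by
          intro t ht u hu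
          refine ⟨⟨t * u * t⁻¹ * u⁻¹, P.mul_mem (hPS t ht u hu) (P.inv_mem hu)⟩, ?_, rfl⟩
          have h2 := hN ⟨t, ht⟩ (ρu ⟨u, hu⟩) ((hQmem _).mpr ⟨_, rfl⟩)
          rw [hθρ, ← map_inv, ← map_mul] at h2
          exact h2)
        intro g hg
        obtain ⟨u, rfl⟩ := (hQmem g).mp hg
        obtain ⟨u', hu', huu'⟩ := h1 u.2
        have e : u' = u := Subtype.ext huu'
        rw [e] at hu'
        exact hu')
    intro u hu
    have h1 := hcore (ρu ⟨u, hu⟩) ((hQmem _).mpr ⟨_, rfl⟩)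
    rw [hxρ] at h1
    have h2 := congrArg
      (fun a : (Module.End K ↥X)ˣ => (((a : Module.End K ↥X) w : ↥X) : V)) h1
    simp only [hval] at h2
    exact h2
  · push Not at hsc
    obtain ⟨z₀, hz₀, hz₀ns⟩ := hsc
    have hfcomm : ∀ i j : ↥Zh, ρX ⟨i, hZhP i.2⟩ * ρX ⟨j, hZhP j.2⟩ =
        ρX ⟨j, hZhP j.2⟩ * ρX ⟨i, hZhP i.2⟩ := by
      intro i j
      apply LinearMap.ext
      intro w
      apply Subtype.ext
      rw [Module.End.mul_apply, Module.End.mul_apply, hρXval, hρXval, hρXval, hρXval]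
      exact hZhcomm i i.2 j (hZhP j.2) w w.2
    have hfss : ∀ i : ↥Zh, (ρX ⟨i, hZhP i.2⟩).IsSemisimple := by
      intro i
      obtain ⟨k, hk⟩ := (IsPGroup.iff_orderOf.mp hPq) ⟨i, hZhP i.2⟩
      apply isSemisimple_of_pow_eq_one _ (q ^ k)
      · rw [← map_pow, ← hk, pow_orderOf_eq_one, map_one]
      · rw [Nat.cast_pow]
        exact pow_ne_zero k hqK
    have hdec := iSup_simEig_eq_top (fun z : ↥Zh => ρX ⟨z, hZhP z.2⟩) hfcomm hfss
    rw [← hdec]
    apply iSup_le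
    intro χ w hw
    rw [Submodule.mem_comap, hCm]
    show ∀ u ∈ P, ρ (ψ u) (w : V) = ρ u (w : V)
    by_cases hw0 : w = 0
    · intro u hu
      rw [hw0]
      simp
    have hw0' : (w : V) ≠ 0 := fun h => hw0 (Subtype.ext h)
    obtain ⟨lam, hlam⟩ : ∃ lam : Γ → K,
        lam = fun g => if h : g ∈ Zh then χ ⟨g, h⟩ else 0 := ⟨_, rfl⟩
    have hlamZ : ∀ z : ↥Zh, lam (z : Γ) = χ z := by
      intro z
      rw [hlam]
      show (if h : (z : Γ) ∈ Zh then χ ⟨(z : Γ), h⟩ else 0) = χ z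
      rw [dif_pos z.2]
    have hwE : (w : V) ∈ X ⊓ eig ρ Zh lam := by
      rw [hmemE]
      refine ⟨w.2, fun z hz => ?_⟩
      have h1 := (mem_simEig _ _ _).mp hw ⟨z, hz⟩
      have h2 := congrArg Subtype.val h1
      rw [hρXval] at h2
      rw [hlamZ ⟨z, hz⟩]
      exact h2
    have hEne : X ⊓ eig ρ Zh lam ≠ ⊥ := (Submodule.ne_bot_iff _).mpr ⟨_, hwE, hw0'⟩
    have hlt : finrank K ↥(X ⊓ eig ρ Zh lam) < n := by
      rw [← hXn]
      apply Submodule.finrank_lt_finrank_of_lt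
      apply lt_of_le_of_ne inf_le_left
      intro heq
      obtain ⟨v, hv, hvne⟩ := hz₀ns (lam z₀)
      apply hvne
      have h1 : v ∈ X ⊓ eig ρ Zh lam := by
        rw [heq]
        exact hv
      exact ((hmemE _ _).mp h1).2 z₀ hz₀
    have hres := IH _ hlt (X ⊓ eig ρ Zh lam) rfl
      (by
        intro u hu v hv
        rw [hmemE] at hv ⊢
        refine ⟨hXP u hu v hv.1, fun z hz => ?_⟩
        rw [hZhcomm z hz u hu v hv.1, hv.2 z hz, map_smul])
      (by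
        intro t ht v hv
        have h1 := hE4 lam t ht v hv
        rw [hmemE] at h1 ⊢
        refine ⟨h1.1, fun z hz => ?_⟩
        rw [h1.2 z hz, hE5 lam hEne t ht z hz])
      (by
        intro v hv
        have h1 := hE1 lam v hv
        rw [hmemE] at h1 ⊢
        refine ⟨h1.1, fun z hz => ?_⟩
        rw [h1.2 z hz, hE2 lam hEne z hz])
      (fun v hv h => hXfix v (Submodule.mem_inf.mp hv).1 h)
    intro u hu
    exact hres u hu _ hwE

end FC

end Cfsg.Agent.Helper63.Frob
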