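-- helper63 library: consequences of the centralizer lemma `fc_main`, a Shult-type statement
-- on an invariant subspace, and a Thompson-type quotient lemma; add-only once landed.
import Cfsg.Agent.Helper63.FrobKey

set_option autoImplicit false

namespace Cfsg.Agent.Helper63.Frob

open Module Cfsg.Agent.Helper63.Gross Cfsg.Agent.Helper63.Shult Cfsg.Agent.Helper63.ProjRep
  Cfsg.Agent.Helper63.Ward Cfsg.Agent.Helper63.Fpf4

universe u v w w'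

section FC2

variable {K : Type u} [Field K] [IsAlgClosed K] {V : Type v} [AddCommGroup V] [Module K V]
  [FiniteDimensional K V] {Γ : Type w} [Group Γ] [Finite Γ]

/-- **Centralizer lemma, final form.**  In the situation of `fc_main`, the group `P` acts
trivially on every invariant subspace on which `ξ` has no fixed vector. -/
theorem fc_triv {q r : ℕ} [hqF : Fact q.Prime] (hr : r.Prime) (hqr : q ≠ r)
    (hqK : (q : K) ≠ 0) (hrK : (r : K) ≠ 0)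
    (ρ : Γ →* Module.End K V) (ψ : MulAut Γ) (hψr : ψ ^ r = 1) (ξ : Module.End K V)
    (hξr : ξ ^ r = 1) (hξψ : ∀ g, ξ * ρ g = ρ (ψ g) * ξ)
    (P S Z : Subgroup Γ) (hPq : IsPGroup q P)
    (hSq : (Nat.card S).Coprime q) (hSr : (Nat.card S).Coprime r)
    (hPψ : ∀ u ∈ P, ψ u ∈ P) (hSψ : ∀ t ∈ S, ψ t ∈ S)
    (hPS : ∀ t ∈ S, ∀ u ∈ P, t * u * t⁻¹ ∈ P)
    (hZP : Z ≤ P) (hZc : ∀ z ∈ Z, ∀ u ∈ P, u * z = z * u)
    (hP'Z : ∀ u ∈ P, ∀ u' ∈ P, u * u' * u⁻¹ * u'⁻¹ ∈ Z) (hqZ : ∀ u ∈ P, u ^ q ∈ Z)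
    (hS'P : ∀ t ∈ S, ∀ t' ∈ S, ∀ u ∈ P, t * t' * u * (t * t')⁻¹ = t' * t * u * (t' * t)⁻¹)
    (hfixS : ∀ t ∈ S, ψ t = t → ∀ u ∈ P, t * u = u * t)
    (hgenP : ∀ N : Subgroup Γ, (∀ t ∈ S, ∀ u ∈ P, t * u * t⁻¹ * u⁻¹ ∈ N) → P ≤ N)
    (X : Submodule K V) (hXP : ∀ u ∈ P, ∀ v ∈ X, ρ u v ∈ X)
    (hXS : ∀ t ∈ S, ∀ v ∈ X, ρ t v ∈ X) (hXξ : ∀ v ∈ X, ξ v ∈ X)
    (hXfix : ∀ v ∈ X, ξ v = v → v = 0) : ∀ u ∈ P, ∀ v ∈ X, ρ u v = v := by
  classical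
  haveI : Fact r.Prime := ⟨hr⟩
  have hrpos := hr.pos
  have hmain := fc_main hr hqr hqK hrK ρ ψ hψr ξ hξr hξψ P S Z hPq hSq hSr hPψ hSψ hPS hZP hZc
    hP'Z hqZ hS'P hfixS hgenP _ X rfl hXP hXS hXξ hXfix
  obtain ⟨φ, hφ⟩ : ∃ φ : MulAut Γ, φ = ψ⁻¹ := ⟨_, rfl⟩
  have hφr : φ ^ r = 1 := by rw [hφ, inv_pow, hψr, inv_one]
  have hψ1 : ∀ g, ψ (φ g) = g := fun g => by rw [hφ]; exact MulAut.apply_inv_self Γ ψ g
  have hψ2 : ∀ g, φ (ψ g) = g := fun g => by rw [hφ]; exact MulAut.inv_apply_self Γ ψ g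
  have hPφ : ∀ u ∈ P, φ u ∈ P := by rw [hφ]; exact symm_mem_of_finite ψ P hPψ
  have hSφ : ∀ t ∈ S, φ t ∈ S := by rw [hφ]; exact symm_mem_of_finite ψ S hSψ
  have hξρ : ∀ g v, ξ (ρ g v) = ρ (ψ g) (ξ v) := by
    intro g v
    have h1 := LinearMap.congr_fun (hξψ g) v
    rw [Module.End.mul_apply, Module.End.mul_apply] at h1
    exact h1
  have hξinj : ∀ v, ξ v = 0 → v = 0 := by
    intro v h
    have h2 : (ξ ^ (r - 1) * ξ) v = v := by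
      rw [← pow_succ, Nat.sub_add_cancel hrpos, hξr, Module.End.one_apply]
    rw [Module.End.mul_apply, h, map_zero] at h2
    exact h2.symm
  have hξinj' : ∀ v v', ξ v = ξ v' → v = v' := by
    intro v v' h
    have h1 : ξ (v - v') = 0 := by rw [map_sub, h, sub_self]
    exact sub_eq_zero.mp (hξinj _ h1)
  have hρmul : ∀ g h v, ρ (g * h) v = ρ g (ρ h v) := by
    intro g h v
    rw [map_mul, Module.End.mul_apply]
  have hrS : ¬ r ∣ Nat.card S := (Nat.Prime.coprime_iff_not_dvd hr).mp hSr.symm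
  have hmain' : ∀ u ∈ P, ∀ v ∈ X, ρ (φ u) v = ρ u v := by
    intro u hu v hv
    have h1 := hmain (φ u) (hPφ u hu) v hv
    rw [hψ1] at h1
    exact h1.symm
  let S₁ : Subgroup Γ :=
    { carrier := {s | s ∈ S ∧ ∀ u ∈ P, ∀ v ∈ X, ρ (s * u) v = ρ (u * s) v}
      one_mem' := ⟨S.one_mem, fun u _ v _ => by rw [one_mul, mul_one]⟩
      mul_mem' := by
        rintro z z' ⟨hz, hz'⟩ ⟨hz2, hz2'⟩
        refine ⟨S.mul_mem hz hz2, fun u hu v hv => ?_⟩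
        calc ρ (z * z' * u) v = ρ z (ρ (z' * u) v) := by rw [mul_assoc, hρmul]
          _ = ρ z (ρ (u * z') v) := by rw [hz2' u hu v hv]
          _ = ρ (z * u) (ρ z' v) := by rw [← hρmul, ← mul_assoc, hρmul]
          _ = ρ (u * z) (ρ z' v) := by rw [hz' u hu _ (hXS z' hz2 v hv)]
          _ = ρ (u * (z * z')) v := by rw [← hρmul, mul_assoc]
      inv_mem' := by
        rintro z ⟨hz, hz'⟩
        refine ⟨S.inv_mem hz, fun u hu v hv => ?_⟩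
        have A : ρ (z * u * z⁻¹) v = ρ u v := by
          have h1 := hz' u hu (ρ z⁻¹ v) (hXS z⁻¹ (S.inv_mem hz) v hv)
          rw [← hρmul, ← hρmul, mul_inv_cancel_right] at h1
          exact h1
        calc ρ (z⁻¹ * u) v = ρ z⁻¹ (ρ u v) := hρmul _ _ _
          _ = ρ z⁻¹ (ρ (z * u * z⁻¹) v) := by rw [A]
          _ = ρ (u * z⁻¹) v := by
            rw [← hρmul]
            congr 2
            group }
  have hS₁mem : ∀ s, s ∈ S₁ ↔ s ∈ S ∧ ∀ u ∈ P, ∀ v ∈ X, ρ (s * u) v = ρ (u * s) v :=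
    fun s => Iff.rfl
  have hS₁S : S₁ ≤ S := fun s hs => hs.1
  have hrS₁ : ¬ r ∣ Nat.card S₁ := fun h => hrS (h.trans (Subgroup.card_dvd_of_le hS₁S))
  have hS₁φ : ∀ s ∈ S₁, φ s ∈ S₁ := by
    intro z hz
    refine ⟨hSφ z hz.1, fun u hu v hv => ?_⟩
    apply hξinj'
    calc ξ (ρ (φ z * u) v) = ρ (z * ψ u) (ξ v) := by
          rw [hξρ, map_mul ψ, hψ1]
      _ = ρ (ψ u * z) (ξ v) := hz.2 _ (hPψ u hu) _ (hXξ v hv)
      _ = ξ (ρ (u * φ z) v) := by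
          rw [hξρ, map_mul ψ, hψ1]
  have hd : ∀ t ∈ S, t⁻¹ * φ t ∈ S₁ := by
    intro t ht
    refine ⟨S.mul_mem (S.inv_mem ht) (hSφ t ht), fun u hu v hv => ?_⟩
    have h1 := hmain' (t * u * t⁻¹) (hPS t ht u hu) (ρ (φ t) v) (hXS _ (hSφ t ht) v hv)
    have h2 : ρ (φ (t * u * t⁻¹)) (ρ (φ t) v) = ρ (φ t) (ρ u v) := by
      rw [← hρmul, map_mul φ, map_mul φ, map_inv φ, inv_mul_cancel_right, hρmul,
        hmain' u hu v hv]
    rw [h2] at h1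
    calc ρ (t⁻¹ * φ t * u) v = ρ t⁻¹ (ρ (φ t) (ρ u v)) := by rw [mul_assoc, hρmul, hρmul]
      _ = ρ t⁻¹ (ρ (t * u * t⁻¹) (ρ (φ t) v)) := by rw [h1]
      _ = ρ (u * (t⁻¹ * φ t)) v := by
        rw [← hρmul, ← hρmul]
        congr 2
        group
  have hall : ∀ t ∈ S, t ∈ S₁ := by
    intro t ht
    obtain ⟨w, hw1, hw2⟩ := exists_fixed_in_coset_single φ hφr S₁ hrS₁ hS₁φ t (hd t ht)
    have hwψ : ψ w = w := by
      have h1 := congrArg ψ hw2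
      rw [hψ1] at h1
      exact h1.symm
    have hwS : w ∈ S := by
      have e : w = t * (t⁻¹ * w) := by group
      rw [e]
      exact S.mul_mem ht (hS₁S hw1)
    have hwc := hfixS w hwS hwψ
    have hwS₁ : w ∈ S₁ := ⟨hwS, fun u hu v _ => by rw [hwc u hu]⟩
    have e : t = w * (t⁻¹ * w)⁻¹ := by group
    rw [e]
    exact S₁.mul_mem hwS₁ (S₁.inv_mem hw1)
  let N : Subgroup Γ :=
    { carrier := {g | ∀ v ∈ X, ρ g v = v}
      one_mem' := fun v _ => by rw [map_one, Module.End.one_apply]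
      mul_mem' := by
        intro g h hg hh v hv
        rw [hρmul, hh v hv, hg v hv]
      inv_mem' := by
        intro g hg v hv
        have h1 : ρ g⁻¹ (ρ g v) = v := by
          rw [← hρmul, inv_mul_cancel, map_one, Module.End.one_apply]
        rw [hg v hv] at h1
        exact h1 }
  have hPN := hgenP N (by
    intro t ht u hu v hv
    have hv' : ρ (t⁻¹ * u⁻¹) v ∈ X := by
      rw [hρmul]
      exact hXS _ (S.inv_mem ht) _ (hXP _ (P.inv_mem hu) v hv)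
    have h1 := (hall t ht).2 u hu _ hv'
    have e : t * u * t⁻¹ * u⁻¹ = (t * u) * (t⁻¹ * u⁻¹) := by group
    rw [e, hρmul, h1, ← hρmul]
    have e2 : u * t * (t⁻¹ * u⁻¹) = 1 := by group
    rw [e2, map_one, Module.End.one_apply])
  intro u hu v hv
  exact hPN hu v hv

/-- **Shult-type statement on an invariant subspace.**  A `q`-group `P` normalized by `ψ`,
realized on the module by `ξ` of prime order `r` without fixed vectors on the invariant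
subspace `X`: then `ψ u` and `u` act in the same way on `X`, unless `q = 2` and `r` is a
Fermat prime. -/
theorem shult_sub {q r : ℕ} [hqF : Fact q.Prime] (hr : r.Prime) (hqr : q ≠ r)
    (hqK : (q : K) ≠ 0) (hrK : (r : K) ≠ 0)
    (ρ : Γ →* Module.End K V) (ψ : MulAut Γ) (ξ : Module.End K V)
    (hξr : ξ ^ r = 1) (hξψ : ∀ g, ξ * ρ g = ρ (ψ g) * ξ)
    (P : Subgroup Γ) (hPq : IsPGroup q P) (hPψ : ∀ u ∈ P, ψ u ∈ P)
    (hex : ¬ (q = 2 ∧ ∃ k : ℕ, r = 2 ^ k + 1))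
    (X : Submodule K V) (hXP : ∀ u ∈ P, ∀ v ∈ X, ρ u v ∈ X) (hXξ : ∀ v ∈ X, ξ v ∈ X)
    (hXfix : ∀ v ∈ X, ξ v = v → v = 0) : ∀ u ∈ P, ∀ v ∈ X, ρ (ψ u) v = ρ u v := by
  classical
  have hξρ : ∀ g v, ξ (ρ g v) = ρ (ψ g) (ξ v) := by
    intro g v
    have h1 := LinearMap.congr_fun (hξψ g) v
    rw [Module.End.mul_apply, Module.End.mul_apply] at h1
    exact h1
  obtain ⟨ρX, hρX⟩ : ∃ ρX : ↥P →* Module.End K ↥X,
      ρX = resHom (ρ.comp P.subtype) X (fun g v hv => hXP g g.2 v hv) := ⟨_, rfl⟩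
  have hρXval : ∀ (g : ↥P) (w : ↥X), ((ρX g w : ↥X) : V) = ρ (g : Γ) (w : V) := by
    intro g w
    rw [hρX]
    rfl
  obtain ⟨ρu, hρu⟩ : ∃ ρu : ↥P →* (Module.End K ↥X)ˣ,
      ∀ g, ((ρu g : (Module.End K ↥X)ˣ) : Module.End K ↥X) = ρX g :=
    ⟨ρX.toHomUnits, fun g => rfl⟩
  obtain ⟨ξX, hξX⟩ : ∃ ξX : Module.End K ↥X, ∀ w : ↥X, ((ξX w : ↥X) : V) = ξ (w : V) :=
    ⟨ξ.restrict hXξ, fun w => rfl⟩
  have hξXr : ξX ^ r = 1 := by
    have h : ∀ (k : ℕ) (w : ↥X), (((ξX ^ k) w : ↥X) : V) = (ξ ^ k) (w : V) := by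
      intro k
      induction k with
      | zero =>
        intro w
        rfl
      | succ k ih =>
        intro w
        rw [pow_succ, Module.End.mul_apply, ih, hξX, pow_succ, Module.End.mul_apply]
    apply LinearMap.ext
    intro w
    apply Subtype.ext
    rw [h, hξr]
    rfl
  obtain ⟨x, hx⟩ : ∃ x : (Module.End K ↥X)ˣ,
      ((x : (Module.End K ↥X)ˣ) : Module.End K ↥X) = ξX :=
    ⟨Units.ofPowEqOne ξX r hξXr hr.ne_zero, rfl⟩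
  have hxr : x ^ r = 1 := by
    apply Units.ext
    rw [Units.val_pow_eq_pow_val, hx, hξXr]
    rfl
  obtain ⟨Q, hQ⟩ : ∃ Q : Subgroup (Module.End K ↥X)ˣ, Q = ρu.range := ⟨_, rfl⟩
  have hQmem : ∀ g, g ∈ Q ↔ ∃ u : ↥P, ρu u = g := by
    intro g
    rw [hQ]
    exact MonoidHom.mem_range
  haveI : Finite ↥Q := by
    rw [hQ]
    exact Finite.of_surjective ρu.rangeRestrict ρu.rangeRestrict_surjective
  have hQq : IsPGroup q ↥Q := by
    rw [hQ]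
    exact hPq.of_surjective ρu.rangeRestrict ρu.rangeRestrict_surjective
  have hval : ∀ (g : ↥P) (w : ↥X),
      ((((ρu g : (Module.End K ↥X)ˣ) : Module.End K ↥X) w : ↥X) : V) = ρ (g : Γ) (w : V) := by
    intro g w
    rw [hρu, hρXval]
  have hxval : ∀ (w : ↥X),
      ((((x : (Module.End K ↥X)ˣ) : Module.End K ↥X) w : ↥X) : V) = ξ (w : V) := by
    intro w
    rw [hx, hξX]
  have hext : ∀ a b : (Module.End K ↥X)ˣ,
      (∀ w : ↥X, (((a : Module.End K ↥X) w : ↥X) : V) = (((b : Module.End K ↥X) w : ↥X) : V)) →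
      a = b := by
    intro a b h
    apply Units.ext
    apply LinearMap.ext
    intro w
    exact Subtype.ext (h w)
  have hxρ : ∀ u : ↥P, x * ρu u * x⁻¹ = ρu ⟨ψ u, hPψ u u.2⟩ := by
    intro u
    rw [mul_inv_eq_iff_eq_mul]
    apply hext
    intro w
    simp only [Units.val_mul, Module.End.mul_apply, hxval, hval]
    exact hξρ u w
  have hcent : ∀ g ∈ Q, x * g * x⁻¹ = g := by
    by_contra hcon
    push Not at hcon
    obtain ⟨h1, h2, -⟩ := shult_linear (K := K) (M := ↥X) hr hqr hqK hrK Q hQq x hxr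
      (by
        intro g hg
        obtain ⟨u, rfl⟩ := (hQmem g).mp hg
        rw [hxρ]
        exact (hQmem _).mpr ⟨_, rfl⟩)
      (by
        intro v hv
        apply Subtype.ext
        apply hXfix (v : V) v.2
        rw [← hxval, hv])
      hcon
    exact hex ⟨h1, h2⟩
  intro u hu v hv
  have h1 := hcent (ρu ⟨u, hu⟩) ((hQmem _).mpr ⟨_, rfl⟩)
  rw [hxρ] at h1
  have h2 := congrArg
    (fun a : (Module.End K ↥X)ˣ => (((a : Module.End K ↥X) ⟨v, hv⟩ : ↥X) : V)) h1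
  simp only [hval] at h2
  exact h2

end FC2

section Grp

variable {Γ : Type u} [Group Γ]

/-- **Thompson-type quotient lemma.**  `ψ` of prime order `p` normalizes the `q`-group `P`
and the `s`-group `S`, which normalizes `P`; if `ψ` has no fixed points on `P` and its fixed
points on `S` centralize `P`, then `S` centralizes `P`. -/
theorem thompson_quot [Finite Γ] (hsol : Group.IsSolvable Γ) {p q s : ℕ} (hp : p.Prime)
    (hq : q.Prime) (hs : s.Prime) (hqs : q ≠ s) (ψ : MulAut Γ) (hψp : ψ ^ p = 1)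
    (P S : Subgroup Γ) (hPq : IsPGroup q P) (hSs : IsPGroup s S)
    (hpS : ¬ p ∣ Nat.card S)
    (hPψ : ∀ u ∈ P, ψ u ∈ P) (hSψ : ∀ t ∈ S, ψ t ∈ S)
    (hPS : ∀ t ∈ S, ∀ u ∈ P, t * u * t⁻¹ ∈ P)
    (hPfpf : ∀ u ∈ P, ψ u = u → u = 1)
    (hSfix : ∀ t ∈ S, ψ t = t → ∀ u ∈ P, t * u = u * t) :
    ∀ t ∈ S, ∀ u ∈ P, t * u = u * t := by
  classical
  haveI : Fact p.Prime := ⟨hp⟩
  haveI : Fact q.Prime := ⟨hq⟩
  haveI : Fact s.Prime := ⟨hs⟩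
  haveI := hsol
  have hdisj : ∀ g, g ∈ P → g ∈ S → g = 1 := by
    intro g hgP hgS
    have h := IsPGroup.disjoint_of_ne q s hqs P S hPq hSs
    have h4 : g ∈ P ⊓ S := ⟨hgP, hgS⟩
    rw [h.eq_bot, Subgroup.mem_bot] at h4
    exact h4
  let W : Subgroup Γ :=
    { carrier := {g | ∃ u ∈ P, ∃ t ∈ S, g = u * t}
      one_mem' := ⟨1, P.one_mem, 1, S.one_mem, by rw [mul_one]⟩
      mul_mem' := by
        rintro _ _ ⟨u, hu, t, ht, rfl⟩ ⟨u', hu', t', ht', rfl⟩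
        refine ⟨u * (t * u' * t⁻¹), P.mul_mem hu (hPS t ht u' hu'), t * t',
          S.mul_mem ht ht', ?_⟩
        group
      inv_mem' := by
        rintro _ ⟨u, hu, t, ht, rfl⟩
        refine ⟨t⁻¹ * u⁻¹ * t⁻¹⁻¹, hPS t⁻¹ (S.inv_mem ht) u⁻¹ (P.inv_mem hu), t⁻¹,
          S.inv_mem ht, ?_⟩
        group }
  have hPW : P ≤ W := fun u hu => ⟨u, hu, 1, S.one_mem, by rw [mul_one]⟩
  have hSW : S ≤ W := fun t ht => ⟨1, P.one_mem, t, ht, by rw [one_mul]⟩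
  have hWψ : ∀ g ∈ W, ψ g ∈ W := by
    rintro _ ⟨u, hu, t, ht, rfl⟩
    exact ⟨ψ u, hPψ u hu, ψ t, hSψ t ht, map_mul ψ u t⟩
  let C : Subgroup ↥W :=
    { carrier := {g | (g : Γ) ∈ S ∧ ∀ u ∈ P, (g : Γ) * u = u * g}
      one_mem' := ⟨S.one_mem, fun u _ => by rw [Subgroup.coe_one, one_mul, mul_one]⟩
      mul_mem' := by
        rintro a b ⟨ha, ha'⟩ ⟨hb, hb'⟩
        refine ⟨S.mul_mem ha hb, fun u hu => ?_⟩
        rw [Subgroup.coe_mul, mul_assoc, hb' u hu, ← mul_assoc, ha' u hu, mul_assoc]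
      inv_mem' := by
        rintro a ⟨ha, ha'⟩
        refine ⟨S.inv_mem ha, fun u hu => ?_⟩
        rw [Subgroup.coe_inv]
        have h := ha' u hu
        calc (a : Γ)⁻¹ * u = (a : Γ)⁻¹ * (u * a) * (a : Γ)⁻¹ := by group
          _ = (a : Γ)⁻¹ * (a * u) * (a : Γ)⁻¹ := by rw [h]
          _ = u * (a : Γ)⁻¹ := by group }
  have hCn : C.Normal := by
    constructor
    rintro ⟨c, hcW⟩ ⟨hc, hc'⟩ ⟨g, hgW⟩
    obtain ⟨u, hu, t, ht, rfl⟩ := hgW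
    have hc'' : ∀ u' ∈ P, c * u' = u' * c := hc'
    have hcS : c ∈ S := hc
    have hcent : ∀ u' ∈ P, (t * c * t⁻¹) * u' = u' * (t * c * t⁻¹) := by
      intro u' hu'
      have h1 := hc'' (t⁻¹ * u' * t) (by
        have := hPS t⁻¹ (S.inv_mem ht) u' hu'
        rwa [inv_inv] at this)
      calc t * c * t⁻¹ * u' = t * (c * (t⁻¹ * u' * t)) * t⁻¹ := by group
        _ = t * ((t⁻¹ * u' * t) * c) * t⁻¹ := by rw [h1]
        _ = u' * (t * c * t⁻¹) := by group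
    have e : u * t * c * (u * t)⁻¹ = t * c * t⁻¹ := by
      calc u * t * c * (u * t)⁻¹ = u * (t * c * t⁻¹) * u⁻¹ := by group
        _ = (t * c * t⁻¹) * u * u⁻¹ := by rw [hcent u hu]
        _ = t * c * t⁻¹ := by group
    refine ⟨?_, ?_⟩
    · show u * t * c * (u * t)⁻¹ ∈ S
      rw [e]
      exact S.mul_mem (S.mul_mem ht hcS) (S.inv_mem ht)
    · intro u' hu'
      show u * t * c * (u * t)⁻¹ * u' = u' * (u * t * c * (u * t)⁻¹)
      rw [e]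
      exact hcent u' hu'
  haveI := hCn
  obtain ⟨ψW, hψWdef⟩ : ∃ ψW : MulAut ↥W,
      ψW = resAut ψ W hWψ (symm_mem_of_finite ψ W hWψ) := ⟨_, rfl⟩
  have hψW : ∀ g : ↥W, ((ψW g : ↥W) : Γ) = ψ g := by
    intro g
    rw [hψWdef]
    rfl
  have hψWp : ψW ^ p = 1 := by
    apply MulEquiv.ext
    intro g
    apply Subtype.ext
    rw [hψWdef, resAut_pow_coe, hψp]
    rfl
  have hCψ : ∀ c ∈ C, ψW c ∈ C := by
    rintro c ⟨hc, hc'⟩
    refine ⟨by rw [hψW]; exact hSψ _ hc, fun u hu => ?_⟩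
    rw [hψW]
    have h1 := hc' (ψ.symm u) (symm_mem_of_finite ψ P hPψ u hu)
    have h2 := congrArg ψ h1
    rwa [map_mul, map_mul, MulEquiv.apply_symm_apply] at h2
  have hmap : C.map ψW.toMonoidHom = C := map_eq_of_finite ψW C hCψ
  obtain ⟨ψQ, hψQ⟩ : ∃ ψQ : MulAut (↥W ⧸ C),
      ∀ g : ↥W, ψQ (g : ↥W ⧸ C) = ((ψW g : ↥W) : ↥W ⧸ C) :=
    ⟨QuotientGroup.congr C C ψW hmap, fun g => congr_mk' ψW C hmap g⟩
  have hψQpow : ∀ (k : ℕ) (g : ↥W),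
      (ψQ ^ k) (g : ↥W ⧸ C) = (((ψW ^ k) g : ↥W) : ↥W ⧸ C) := by
    intro k
    induction k with
    | zero =>
      intro g
      rfl
    | succ k ih =>
      intro g
      rw [pow_succ', MulAut.mul_apply, ih, hψQ, pow_succ', MulAut.mul_apply]
  have hψQp : ψQ ^ p = 1 := by
    apply MulEquiv.ext
    intro x
    induction x using QuotientGroup.induction_on with
    | _ g =>
      rw [hψQpow, hψWp]
      rfl
  have hpC : ¬ p ∣ Nat.card C := by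
    intro h
    apply hpS
    have h1 : Nat.card (C.map W.subtype) = Nat.card C :=
      Subgroup.card_map_of_injective W.subtype_injective
    have h2 : C.map W.subtype ≤ S := by
      rintro _ ⟨c, hc, rfl⟩
      exact hc.1
    exact h.trans (h1 ▸ Subgroup.card_dvd_of_le h2)
  have hfpfQ : ∀ x : ↥W ⧸ C, ψQ x = x → x = 1 := by
    intro x
    induction x using QuotientGroup.induction_on with
    | _ g =>
      intro hx
      rw [hψQ] at hx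
      obtain ⟨w, hw1, hw2⟩ := exists_fixed_in_coset_single ψW hψWp C hpC hCψ g
        (QuotientGroup.eq.mp hx.symm)
      obtain ⟨u, hu, t, ht, hwut⟩ := w.2
      have hwψ : ψ (w : Γ) = w := by rw [← hψW, hw2]
      rw [hwut, map_mul] at hwψ
      have h3 : u⁻¹ * ψ u = t * (ψ t)⁻¹ := by
        calc u⁻¹ * ψ u = u⁻¹ * (ψ u * ψ t) * (ψ t)⁻¹ := by group
          _ = u⁻¹ * (u * t) * (ψ t)⁻¹ := by rw [hwψ]
          _ = t * (ψ t)⁻¹ := by group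
      have h4 : u⁻¹ * ψ u = 1 := hdisj _ (P.mul_mem (P.inv_mem hu) (hPψ u hu)) (by
        rw [h3]
        exact S.mul_mem ht (S.inv_mem (hSψ t ht)))
      have hψu : ψ u = u := (inv_mul_eq_one.mp h4).symm
      have hu1 : u = 1 := hPfpf u hu hψu
      have hψt : ψ t = t := by
        rw [h4] at h3
        exact (mul_inv_eq_one.mp h3.symm).symm
      have hwC : w ∈ C := by
        refine ⟨?_, ?_⟩
        · show (w : Γ) ∈ S
          rw [hwut, hu1, one_mul]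
          exact ht
        · intro u' hu'
          show (w : Γ) * u' = u' * (w : Γ)
          rw [hwut, hu1, one_mul]
          exact hSfix t ht hψt u' hu'
      rw [QuotientGroup.eq_one_iff]
      have e : g = w * (g⁻¹ * w)⁻¹ := by group
      rw [e]
      exact C.mul_mem hwC (C.inv_mem hw1)
  haveI hnil : Group.IsNilpotent (↥W ⧸ C) :=
    nilpotent_of_fpf_prime inferInstance hp ψQ hψQp hfpfQ
  intro t ht u hu
  obtain ⟨k, hk⟩ := (IsPGroup.iff_orderOf.mp hSs) ⟨t, ht⟩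
  obtain ⟨k', hk'⟩ := (IsPGroup.iff_orderOf.mp hPq) ⟨u, hu⟩
  rw [Subgroup.orderOf_mk] at hk hk'
  have h1 := commute_of_nilpotent hs hq (Ne.symm hqs)
    (((⟨t, hSW ht⟩ : ↥W) : ↥W ⧸ C)) (((⟨u, hPW hu⟩ : ↥W) : ↥W ⧸ C))
    ⟨k, by
      rw [← QuotientGroup.mk_pow, (show (⟨t, hSW ht⟩ : ↥W) ^ s ^ k = 1 from Subtype.ext (by
        rw [Subgroup.coe_pow]
        show t ^ s ^ k = 1
        rw [← hk]
        exact pow_orderOf_eq_one t)), QuotientGroup.mk_one]⟩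
    ⟨k', by
      rw [← QuotientGroup.mk_pow, (show (⟨u, hPW hu⟩ : ↥W) ^ q ^ k' = 1 from Subtype.ext (by
        rw [Subgroup.coe_pow]
        show u ^ q ^ k' = 1
        rw [← hk']
        exact pow_orderOf_eq_one u)), QuotientGroup.mk_one]⟩
  have h2 : (((⟨t, hSW ht⟩ * ⟨u, hPW hu⟩ : ↥W)) : ↥W ⧸ C) =
      (((⟨u, hPW hu⟩ * ⟨t, hSW ht⟩ : ↥W)) : ↥W ⧸ C) := by
    rw [QuotientGroup.mk_mul, QuotientGroup.mk_mul]
    exact h1
  have h3 := QuotientGroup.eq.mp h2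
  have h4 : (t * u)⁻¹ * (u * t) ∈ S := h3.1
  have h5 : (t * u)⁻¹ * (u * t) ∈ P := by
    have e : (t * u)⁻¹ * (u * t) = u⁻¹ * (t⁻¹ * u * t⁻¹⁻¹) := by group
    rw [e]
    exact P.mul_mem (P.inv_mem hu) (hPS t⁻¹ (S.inv_mem ht) u hu)
  have h6 := hdisj _ h5 h4
  exact inv_mul_eq_one.mp h6

/-- Powers of products modulo a central subgroup containing the commutators. -/
theorem pow_mul_mod (P Z : Subgroup Γ) (hZc : ∀ z ∈ Z, ∀ u ∈ P, u * z = z * u)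
    (hP'Z : ∀ u ∈ P, ∀ u' ∈ P, u * u' * u⁻¹ * u'⁻¹ ∈ Z) (w w' : Γ) (hw : w ∈ P)
    (hw' : w' ∈ P) (n : ℕ) : ∃ z ∈ Z, (w * w') ^ n = w ^ n * w' ^ n * z := by
  induction n with
  | zero => exact ⟨1, Z.one_mem, by simp⟩
  | succ n ih =>
    obtain ⟨z, hz, h⟩ := ih
    have hc := hP'Z ((w' ^ n)⁻¹) (P.inv_mem (P.pow_mem hw' n)) w⁻¹ (P.inv_mem hw)
    refine ⟨(w' ^ n)⁻¹ * w⁻¹ * (w' ^ n)⁻¹⁻¹ * w⁻¹⁻¹ * z, Z.mul_mem hc hz, ?_⟩
    have hzc : z * (w * w') = (w * w') * z := (hZc z hz (w * w') (P.mul_mem hw hw')).symm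
    have hcc : ((w' ^ n)⁻¹ * w⁻¹ * (w' ^ n)⁻¹⁻¹ * w⁻¹⁻¹) * w' =
        w' * ((w' ^ n)⁻¹ * w⁻¹ * (w' ^ n)⁻¹⁻¹ * w⁻¹⁻¹) := (hZc _ hc w' hw').symm
    rw [pow_succ (w * w'), h, pow_succ w, pow_succ w']
    obtain ⟨X, hX⟩ : ∃ X, X = w ^ n := ⟨_, rfl⟩
    obtain ⟨Y, hY⟩ : ∃ Y, Y = w' ^ n := ⟨_, rfl⟩
    rw [← hY] at hcc
    rw [← hX, ← hY]
    calc X * Y * z * (w * w') = X * Y * ((w * w') * z) := by rw [mul_assoc (X * Y), hzc]
      _ = X * w * Y * ((Y⁻¹ * w⁻¹ * Y⁻¹⁻¹ * w⁻¹⁻¹) * w') * z := by group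
      _ = X * w * Y * (w' * (Y⁻¹ * w⁻¹ * Y⁻¹⁻¹ * w⁻¹⁻¹)) * z := by rw [hcc]
      _ = X * w * (Y * w') * (Y⁻¹ * w⁻¹ * Y⁻¹⁻¹ * w⁻¹⁻¹ * z) := by group

/-- The subgroup of `P` of the elements `w ^ q * z`, `w ∈ P`, `z ∈ Z`. -/
def powSub (P Z : Subgroup Γ) (q : ℕ) (hZc : ∀ z ∈ Z, ∀ u ∈ P, u * z = z * u)
    (hP'Z : ∀ u ∈ P, ∀ u' ∈ P, u * u' * u⁻¹ * u'⁻¹ ∈ Z) : Subgroup Γ where
  carrier := {u | ∃ w ∈ P, ∃ z ∈ Z, u = w ^ q * z}
  one_mem' := ⟨1, P.one_mem, 1, Z.one_mem, by simp⟩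
  mul_mem' := by
    rintro _ _ ⟨w, hw, z, hz, rfl⟩ ⟨w', hw', z', hz', rfl⟩
    obtain ⟨z₀, hz₀, h⟩ := pow_mul_mod P Z hZc hP'Z w w' hw hw' q
    refine ⟨w * w', P.mul_mem hw hw', z₀⁻¹ * z * z',
      Z.mul_mem (Z.mul_mem (Z.inv_mem hz₀) hz) hz', ?_⟩
    rw [h]
    have h1 : z * w' ^ q = w' ^ q * z := (hZc z hz _ (P.pow_mem hw' q)).symm
    calc w ^ q * z * (w' ^ q * z') = w ^ q * (z * w' ^ q) * z' := by group
      _ = w ^ q * (w' ^ q * z) * z' := by rw [h1]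
      _ = w ^ q * w' ^ q * z₀ * (z₀⁻¹ * z * z') := by group
  inv_mem' := by
    rintro _ ⟨w, hw, z, hz, rfl⟩
    refine ⟨w⁻¹, P.inv_mem hw, z⁻¹, Z.inv_mem hz, ?_⟩
    have h1 : z⁻¹ * (w ^ q)⁻¹ = (w ^ q)⁻¹ * z⁻¹ :=
      (hZc z⁻¹ (Z.inv_mem hz) _ (P.inv_mem (P.pow_mem hw q))).symm
    rw [mul_inv_rev, h1, inv_pow]

theorem mem_powSub {P Z : Subgroup Γ} {q : ℕ} {hZc : ∀ z ∈ Z, ∀ u ∈ P, u * z = z * u}
    {hP'Z : ∀ u ∈ P, ∀ u' ∈ P, u * u' * u⁻¹ * u'⁻¹ ∈ Z} {u : Γ} :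
    u ∈ powSub P Z q hZc hP'Z ↔ ∃ w ∈ P, ∃ z ∈ Z, u = w ^ q * z := Iff.rfl

/-- If every element of the `q`-group `P` is a `q`-th power modulo `Z`, then `P ≤ Z`. -/
theorem le_of_powSub_eq [Finite Γ] {q : ℕ} [Fact q.Prime] (P Z : Subgroup Γ)
    (hZc : ∀ z ∈ Z, ∀ u ∈ P, u * z = z * u)
    (hP'Z : ∀ u ∈ P, ∀ u' ∈ P, u * u' * u⁻¹ * u'⁻¹ ∈ Z) (hPq : IsPGroup q P)
    (h : ∀ u ∈ P, u ∈ powSub P Z q hZc hP'Z) : P ≤ Z := by
  have hk : ∀ k : ℕ, ∀ u ∈ P, ∃ w ∈ P, ∃ z ∈ Z, u = w ^ q ^ k * z := by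
    intro k
    induction k with
    | zero =>
      intro u hu
      exact ⟨u, hu, 1, Z.one_mem, by simp⟩
    | succ k ih =>
      intro u hu
      obtain ⟨w, hw, z, hz, rfl⟩ := ih u hu
      obtain ⟨w₁, hw₁, z₁, hz₁, rfl⟩ := h w hw
      refine ⟨w₁, hw₁, z₁ ^ q ^ k * z, Z.mul_mem (Z.pow_mem hz₁ _) hz, ?_⟩
      have hc : Commute (w₁ ^ q) z₁ := hZc z₁ hz₁ _ (P.pow_mem hw₁ q)
      rw [hc.mul_pow, ← pow_mul, ← pow_succ', mul_assoc]
  obtain ⟨k, hk'⟩ := IsPGroup.iff_card.mp hPq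
  intro u hu
  obtain ⟨w, hw, z, hz, rfl⟩ := hk k u hu
  have h1 : w ^ q ^ k = 1 := by
    have h2 : (⟨w, hw⟩ : ↥P) ^ Nat.card ↥P = 1 := pow_card_eq_one'
    rw [hk'] at h2
    exact congrArg Subtype.val h2
  rw [h1, one_mul]
  exact hz

end Grp

end Cfsg.Agent.Helper63.Frob
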