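-- helper63 library: structure of a non-abelian group of order `p r` and of its coprime actions
-- (coset lemma, invariant Sylow subgroups, stabilizers of eigen-functions); add-only once
-- landed.
import Cfsg.Agent.Helper63.FrobAux

set_option autoImplicit false

namespace Cfsg.Agent.Helper63.Frob

open Module Cfsg.Agent.Helper63.Gross Cfsg.Agent.Helper63.Shult Cfsg.Agent.Helper63.ProjRep
  Cfsg.Agent.Helper63.Ward Cfsg.Agent.Helper63.Fpf4

open scoped Pointwise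

universe u v w w'

/-- Structure of a non-abelian group of order `p r`: a normal subgroup `F` generated by `f₀`
of prime order `p`, and an element `a₀ ∉ F` of prime order `r`. -/
structure FD {A : Type v} [Group A] (F : Subgroup A) (f₀ a₀ : A) (p r : ℕ) : Prop where
  hp : p.Prime
  hr : r.Prime
  conj_mem : ∀ f ∈ F, ∀ x : A, x * f * x⁻¹ ∈ F
  f₀_mem : f₀ ∈ F
  f₀_pow : f₀ ^ p = 1
  F_gen : ∀ f ∈ F, ∃ i : ℕ, f = f₀ ^ i
  F_prime : ∀ f ∈ F, f ≠ 1 → ∃ j : ℕ, f₀ = f ^ j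
  pow_mem : ∀ x : A, x ^ r ∈ F
  a₀_pow : a₀ ^ r = 1
  a₀_nmem : a₀ ∉ F
  gen : ∀ b, b ∉ F → ∀ x : A, ∃ f ∈ F, ∃ m : ℕ, x = f * b ^ m
  fermat : ∀ k : ℕ, p = 2 ^ k + 1 → r = 2

section Struct

variable {A : Type v} [Group A] [Finite A]

theorem exists_FD_aux {p r : ℕ} (hp : p.Prime) (hr : r.Prime) (hlt : r < p)
    (hA : Nat.card A = p * r) (hna : ∃ x y : A, x * y ≠ y * x) :
    ∃ (F : Subgroup A) (f₀ a₀ : A), FD F f₀ a₀ p r := by
  haveI : Fact p.Prime := ⟨hp⟩
  haveI : Fact r.Prime := ⟨hr⟩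
  obtain ⟨f₀, hf₀⟩ := exists_prime_orderOf_dvd_card' (G := A) p (by rw [hA]; exact dvd_mul_right p r)
  obtain ⟨a₀, ha₀⟩ := exists_prime_orderOf_dvd_card' (G := A) r (by rw [hA]; exact dvd_mul_left r p)
  obtain ⟨F, hF⟩ : ∃ F : Subgroup A, F = Subgroup.zpowers f₀ := ⟨_, rfl⟩
  have hFcard : Nat.card F = p := by rw [hF, Nat.card_zpowers, hf₀]
  have hFidx : F.index = r := by
    have h1 := Subgroup.index_mul_card F
    rw [hFcard, hA, mul_comm] at h1
    exact Nat.eq_of_mul_eq_mul_left hp.pos h1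
  have hmin : (Nat.card A).minFac = r := by
    rw [hA]
    have h1 : (p * r).minFac ∣ p * r := Nat.minFac_dvd _
    have h2 : (p * r).minFac.Prime := Nat.minFac_prime (by
      intro h
      have := Nat.eq_one_of_mul_eq_one_right h
      exact hp.one_lt.ne' this)
    have h3 : (p * r).minFac ≤ r := Nat.minFac_le_of_dvd hr.two_le (dvd_mul_left r p)
    rcases (Nat.Prime.dvd_mul h2).mp h1 with h4 | h4
    · have h5 := (Nat.prime_dvd_prime_iff_eq h2 hp).mp h4
      omega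
    · exact (Nat.prime_dvd_prime_iff_eq h2 hr).mp h4
  haveI hFn : F.Normal := Subgroup.normal_of_index_eq_minFac_card (by rw [hFidx, hmin])
  have hf₀F : f₀ ∈ F := by rw [hF]; exact Subgroup.mem_zpowers f₀
  have hf₀p : f₀ ^ p = 1 := by rw [← hf₀]; exact pow_orderOf_eq_one f₀
  have ha₀r : a₀ ^ r = 1 := by rw [← ha₀]; exact pow_orderOf_eq_one a₀
  have hFgen : ∀ f ∈ F, ∃ i : ℕ, f = f₀ ^ i := by
    intro f hf
    rw [hF] at hf
    obtain ⟨i, hi⟩ := ((isOfFinOrder_of_finite f₀).mem_powers_iff_mem_zpowers).mpr hf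
    exact ⟨i, hi.symm⟩
  have hordF : ∀ f ∈ F, orderOf f ∣ p := by
    intro f hf
    have h1 : orderOf (⟨f, hf⟩ : ↥F) ∣ Nat.card F := orderOf_dvd_natCard _
    rw [Subgroup.orderOf_mk, hFcard] at h1
    exact h1
  have hFprime : ∀ f ∈ F, f ≠ 1 → ∃ j : ℕ, f₀ = f ^ j := by
    intro f hf hf1
    have h1 : orderOf f = p := by
      rcases (Nat.dvd_prime hp).mp (hordF f hf) with h | h
      · exact absurd (orderOf_eq_one_iff.mp h) hf1
      · exact h
    have h2 : Subgroup.zpowers f ≤ F := by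
      rw [Subgroup.zpowers_le]
      exact hf
    have h3 : Subgroup.zpowers f = F := by
      apply Subgroup.eq_of_le_of_card_ge h2
      rw [Nat.card_zpowers, h1, hFcard]
    have h4 : f₀ ∈ Subgroup.zpowers f := by rw [h3]; exact hf₀F
    obtain ⟨j, hj⟩ := ((isOfFinOrder_of_finite f).mem_powers_iff_mem_zpowers).mpr h4
    exact ⟨j, hj.symm⟩
  have ha₀F : a₀ ∉ F := by
    intro h
    have h1 := hordF a₀ h
    rw [ha₀] at h1
    have h2 := (Nat.prime_dvd_prime_iff_eq hr hp).mp h1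
    omega
  have hpowF : ∀ x : A, x ^ r ∈ F := by
    intro x
    have h1 := Subgroup.pow_index_mem F x
    rwa [hFidx] at h1
  have hqcard : Nat.card (A ⧸ F) = r := by rw [← Subgroup.index_eq_card, hFidx]
  have hgen : ∀ b, b ∉ F → ∀ x : A, ∃ f ∈ F, ∃ m : ℕ, x = f * b ^ m := by
    intro b hb x
    have hb1 : (b : A ⧸ F) ≠ 1 := fun h => hb ((QuotientGroup.eq_one_iff b).mp h)
    have h1 := zpowers_eq_top_of_prime_card hqcard hb1
    have h2 : (x : A ⧸ F) ∈ Subgroup.zpowers (b : A ⧸ F) := by rw [h1]; exact Subgroup.mem_top _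
    obtain ⟨m, hm⟩ := ((isOfFinOrder_of_finite (b : A ⧸ F)).mem_powers_iff_mem_zpowers).mpr h2
    have hm' : ((b ^ m : A) : A ⧸ F) = (x : A ⧸ F) := by
      rw [QuotientGroup.mk_pow]
      exact hm
    have h3 : (b ^ m)⁻¹ * x ∈ F := QuotientGroup.eq.mp hm'
    have h4 := hFn.conj_mem _ h3 (b ^ m)
    refine ⟨b ^ m * ((b ^ m)⁻¹ * x) * (b ^ m)⁻¹, h4, m, ?_⟩
    group
  -- the arithmetic condition
  have hnc : a₀ * f₀ ≠ f₀ * a₀ := by
    intro hc
    obtain ⟨x, y, hxy⟩ := hna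
    apply hxy
    obtain ⟨f, hf, m, rfl⟩ := hgen a₀ ha₀F x
    obtain ⟨f', hf', m', rfl⟩ := hgen a₀ ha₀F y
    obtain ⟨i, rfl⟩ := hFgen f hf
    obtain ⟨i', rfl⟩ := hFgen f' hf'
    have hc' : Commute a₀ f₀ := hc
    have h1 : Commute (f₀ ^ i * a₀ ^ m) (f₀ ^ i' * a₀ ^ m') := by
      apply Commute.mul_left
      · apply Commute.mul_right
        · exact (Commute.refl f₀).pow_pow i i'
        · exact hc'.symm.pow_pow i m'
      · apply Commute.mul_right
        · exact hc'.pow_pow m i'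
        · exact (Commute.refl a₀).pow_pow m m'
    exact h1.eq
  obtain ⟨j, hj⟩ := hFgen _ (hFn.conj_mem f₀ hf₀F a₀)
  have hpow : ∀ i : ℕ, a₀ ^ i * f₀ * (a₀ ^ i)⁻¹ = f₀ ^ (j ^ i) := by
    intro i
    induction i with
    | zero => simp
    | succ i ih =>
      have e : a₀ ^ (i + 1) * f₀ * (a₀ ^ (i + 1))⁻¹ = a₀ * (a₀ ^ i * f₀ * (a₀ ^ i)⁻¹) * a₀⁻¹ := by
        rw [pow_succ']
        group
      rw [e, ih, ← conj_pow, hj, ← pow_mul, pow_succ']
  have h1 := hpow r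
  rw [ha₀r, one_mul, inv_one, mul_one] at h1
  have h2 : f₀ ^ (j ^ r) = f₀ ^ 1 := by rw [pow_one]; exact h1.symm
  have h3 : j ^ r ≡ 1 [MOD p] := by
    have := pow_eq_pow_iff_modEq.mp h2
    rwa [hf₀] at this
  have h4 : ((j : ℕ) : ZMod p) ^ r = 1 := by
    have := (ZMod.natCast_eq_natCast_iff _ _ _).mpr h3
    push_cast at this
    exact this
  have h5 : ((j : ℕ) : ZMod p) ≠ 1 := by
    intro h
    have h6 : j ≡ 1 [MOD p] := by
      apply (ZMod.natCast_eq_natCast_iff _ _ _).mp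
      rw [h]
      simp
    have h7 : f₀ ^ j = f₀ ^ 1 := by
      apply pow_eq_pow_iff_modEq.mpr
      rw [hf₀]
      exact h6
    rw [pow_one] at h7
    rw [h7] at hj
    apply hnc
    calc a₀ * f₀ = (a₀ * f₀ * a₀⁻¹) * a₀ := by group
      _ = f₀ * a₀ := by rw [hj]
  have h6 : orderOf ((j : ℕ) : ZMod p) = r := _root_.orderOf_eq_prime h4 h5
  have h7 : ((j : ℕ) : ZMod p) ≠ 0 := by
    intro h
    rw [h, zero_pow hr.ne_zero] at h4
    exact zero_ne_one h4
  have h8 : r ∣ p - 1 := by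
    rw [← h6]
    exact orderOf_dvd_of_pow_eq_one (ZMod.pow_card_sub_one_eq_one h7)
  refine ⟨F, f₀, a₀, ⟨hp, hr, fun f hf x => hFn.conj_mem f hf x, hf₀F, hf₀p, hFgen, hFprime,
    hpowF, ha₀r, ha₀F, hgen, ?_⟩⟩
  intro k hk
  rw [hk, Nat.add_sub_cancel] at h8
  have h9 := hr.dvd_of_dvd_pow h8
  exact (Nat.prime_dvd_prime_iff_eq hr Nat.prime_two).mp h9

theorem exists_FD {p q : ℕ} (hp : p.Prime) (hq : q.Prime) (hpq : p ≠ q)
    (hA : Nat.card A = p * q) (hna : ∃ x y : A, x * y ≠ y * x) :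
    ∃ (p₁ r : ℕ) (F : Subgroup A) (f₀ a₀ : A), p₁ * r = p * q ∧ FD F f₀ a₀ p₁ r := by
  rcases lt_or_gt_of_ne hpq with h | h
  · obtain ⟨F, f₀, a₀, hD⟩ := exists_FD_aux hq hp h (by rw [hA, mul_comm]) hna
    exact ⟨q, p, F, f₀, a₀, mul_comm q p, hD⟩
  · obtain ⟨F, f₀, a₀, hD⟩ := exists_FD_aux hp hq h hA hna
    exact ⟨p, q, F, f₀, a₀, rfl, hD⟩

end Struct

section Act

variable {A : Type v} [Group A] {Γ : Type u} [Group Γ] {F : Subgroup A} {f₀ a₀ : A} {p r : ℕ}

theorem FD.act_F (hD : FD F f₀ a₀ p r) (act : A →* MulAut Γ) {g : Γ} (hg : act f₀ g = g) :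
    ∀ f ∈ F, act f g = g := by
  intro f hf
  obtain ⟨i, rfl⟩ := hD.F_gen f hf
  exact act_eq_of_mem_zpowers act (Subgroup.npow_mem_zpowers f₀ i) hg

theorem FD.act_all (hD : FD F f₀ a₀ p r) (act : A →* MulAut Γ) {b : A} (hb : b ∉ F) {g : Γ}
    (h1 : act f₀ g = g) (h2 : act b g = g) : ∀ x, act x g = g := by
  intro x
  obtain ⟨f, hf, m, rfl⟩ := hD.gen b hb x
  rw [map_mul, MulAut.mul_apply, act_eq_of_mem_zpowers act (Subgroup.npow_mem_zpowers b m) h2,
    hD.act_F act h1 f hf]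

theorem FD.fix_inv (hD : FD F f₀ a₀ p r) (act : A →* MulAut Γ) {g : Γ} (hg : act f₀ g = g)
    (x : A) : act f₀ (act x g) = act x g := by
  have hf : x⁻¹ * f₀ * x ∈ F := by
    have := hD.conj_mem f₀ hD.f₀_mem x⁻¹
    rwa [inv_inv] at this
  have h1 : act (x⁻¹ * f₀ * x) g = g := hD.act_F act hg _ hf
  have e : f₀ * x = x * (x⁻¹ * f₀ * x) := by group
  rw [← MulAut.mul_apply, ← map_mul, e, map_mul, MulAut.mul_apply, h1]

/-- **Coset lemma** for the group `A`: an invariant coset of an invariant subgroup of order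
prime to `p r` contains a fixed point. -/
theorem FD.coset [Finite Γ] (hD : FD F f₀ a₀ p r) (act : A →* MulAut Γ) (N : Subgroup Γ)
    (hpN : ¬ p ∣ Nat.card N) (hrN : ¬ r ∣ Nat.card N) (hN : ∀ x, ∀ n ∈ N, act x n ∈ N) (g : Γ)
    (hg : ∀ x, g⁻¹ * act x g ∈ N) : ∃ w, g⁻¹ * w ∈ N ∧ ∀ x, act x w = w := by
  haveI : Fact p.Prime := ⟨hD.hp⟩
  haveI : Fact r.Prime := ⟨hD.hr⟩
  obtain ⟨w₁, hw1, hw2⟩ := exists_fixed_in_coset_single (act f₀)
    (by rw [← map_pow, hD.f₀_pow, map_one]) N hpN (hN f₀) g (hg f₀)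
  have hN₁a : ∀ n ∈ N ⊓ fixSub (act f₀), act a₀ n ∈ N ⊓ fixSub (act f₀) := by
    rintro n ⟨hn, hn'⟩
    exact ⟨hN a₀ n hn, hD.fix_inv act hn' a₀⟩
  have hw1a : w₁⁻¹ * act a₀ w₁ ∈ N ⊓ fixSub (act f₀) := by
    refine ⟨?_, ?_⟩
    · have e : w₁⁻¹ * act a₀ w₁ = (g⁻¹ * w₁)⁻¹ * (g⁻¹ * act a₀ g) * act a₀ (g⁻¹ * w₁) := by
        rw [map_mul, map_inv]
        group
      rw [e]
      exact N.mul_mem (N.mul_mem (N.inv_mem hw1) (hg a₀)) (hN a₀ _ hw1)
    · show act f₀ (w₁⁻¹ * act a₀ w₁) = w₁⁻¹ * act a₀ w₁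
      rw [map_mul, map_inv, hw2, hD.fix_inv act hw2 a₀]
  have hrN₁ : ¬ r ∣ Nat.card ↥(N ⊓ fixSub (act f₀)) :=
    fun h => hrN (h.trans (Subgroup.card_dvd_of_le inf_le_left))
  obtain ⟨w, hw3, hw4⟩ := exists_fixed_in_coset_single (act a₀)
    (by rw [← map_pow, hD.a₀_pow, map_one]) (N ⊓ fixSub (act f₀)) hrN₁ hN₁a w₁ hw1a
  refine ⟨w, ?_, ?_⟩
  · have e : g⁻¹ * w = (g⁻¹ * w₁) * (w₁⁻¹ * w) := by group
    rw [e]
    exact N.mul_mem hw1 hw3.1
  · have hwf : act f₀ w = w := by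
      have h5 : act f₀ (w₁⁻¹ * w) = w₁⁻¹ * w := hw3.2
      have e : w = w₁ * (w₁⁻¹ * w) := by group
      rw [e, map_mul, hw2, h5]
    exact hD.act_all act hD.a₀_nmem hwf hw4

theorem FD.quot_fpf [Finite Γ] (hD : FD F f₀ a₀ p r) (act : A →* MulAut Γ)
    (hcop : (Nat.card Γ).Coprime (p * r)) (hfpf : ∀ g, (∀ x, act x g = g) → g = 1)
    (N : Subgroup Γ) [N.Normal] (hN : ∀ x, ∀ g ∈ N, act x g ∈ N) :
    ∀ q : Γ ⧸ N, (∀ x, quotAct act N hN x q = q) → q = 1 := by
  have hpN : ¬ p ∣ Nat.card N := by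
    intro h
    have h1 := h.trans (Subgroup.card_subgroup_dvd_card N)
    have h2 := Nat.Coprime.coprime_dvd_right (dvd_mul_right p r) hcop
    exact hD.hp.one_lt.ne' (Nat.eq_one_of_dvd_coprimes h2 h1 dvd_rfl)
  have hrN : ¬ r ∣ Nat.card N := by
    intro h
    have h1 := h.trans (Subgroup.card_subgroup_dvd_card N)
    have h2 := Nat.Coprime.coprime_dvd_right (dvd_mul_left r p) hcop
    exact hD.hr.one_lt.ne' (Nat.eq_one_of_dvd_coprimes h2 h1 dvd_rfl)
  intro q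
  induction q using QuotientGroup.induction_on with
  | _ g =>
    intro hq
    obtain ⟨w, hw1, hw2⟩ := hD.coset act N hpN hrN hN g (fun x => by
      have h1 := hq x
      rw [quotAct_mk] at h1
      exact QuotientGroup.eq.mp h1.symm)
    have hw := hfpf w hw2
    rw [hw, mul_one] at hw1
    rw [QuotientGroup.eq_one_iff]
    have := N.inv_mem hw1
    rwa [inv_inv] at this

/-- Divisibility facts from coprimality. -/
theorem FD.not_dvd [Finite Γ] (hD : FD F f₀ a₀ p r) (hcop : (Nat.card Γ).Coprime (p * r))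
    (H : Subgroup Γ) : ¬ p ∣ Nat.card H ∧ ¬ r ∣ Nat.card H := by
  constructor
  · intro h
    have h1 := h.trans (Subgroup.card_subgroup_dvd_card H)
    have h2 := Nat.Coprime.coprime_dvd_right (dvd_mul_right p r) hcop
    exact hD.hp.one_lt.ne' (Nat.eq_one_of_dvd_coprimes h2 h1 dvd_rfl)
  · intro h
    have h1 := h.trans (Subgroup.card_subgroup_dvd_card H)
    have h2 := Nat.Coprime.coprime_dvd_right (dvd_mul_left r p) hcop
    exact hD.hr.one_lt.ne' (Nat.eq_one_of_dvd_coprimes h2 h1 dvd_rfl)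

end Act

section Lin

variable {K : Type u} [Field K] {V : Type v} [AddCommGroup V] [Module K V]
  {Γ : Type w} [Group Γ] {A : Type w'} [Group A]
  {act : A →* MulAut Γ} {ρ : Γ →* Module.End K V} {op : A →* Module.End K V}

theorem op_pow_fix (op : A →* Module.End K V) {b : A} {w : V} (h : op b w = w) (m : ℕ) :
    op (b ^ m) w = w := by
  induction m with
  | zero => rw [pow_zero, map_one, Module.End.one_apply]
  | succ m ih => rw [pow_succ, map_mul, Module.End.mul_apply, h, ih]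

/-- A vector of the eigenspace of `lam` fixed by the stabilizer of `lam` vanishes, if `A` has
no nonzero fixed vector. -/
theorem star [Finite A] (hequiv : ∀ (x : A) (g : Γ), op x * ρ g = ρ (act x g) * op x)
    (hVfix : ∀ v : V, (∀ x, op x v = v) → v = 0)
    (R : Subgroup Γ) (hRA : ∀ x, ∀ g ∈ R, act x g ∈ R) (lam : Γ → K) (v : V)
    (hv : v ∈ eig ρ R lam) (hfix : ∀ x ∈ stab act R hRA lam, op x v = v) : v = 0 := by
  classical
  obtain ⟨B, hB⟩ : ∃ B : Subgroup A, B = stab act R hRA lam := ⟨_, rfl⟩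
  rw [← hB] at hfix
  have hBmem : ∀ x, x ∈ B ↔ ∀ g ∈ R, lam (act x g) = lam g := by
    intro x
    rw [hB]
    rfl
  haveI : Fintype (A ⧸ B) := Fintype.ofFinite _
  obtain ⟨y, hy⟩ : ∃ y : A ⧸ B → V, y = fun k => op (Quotient.out k) v := ⟨_, rfl⟩
  have hyk : ∀ k, y k = op (Quotient.out k) v := fun k => by rw [hy]
  have hout : ∀ (z : A) (k : A ⧸ B), op (z * Quotient.out k) v = y (z • k) := by
    intro z k
    rw [hyk]
    have h1 : (Quotient.out (z • k))⁻¹ * (z * Quotient.out k) ∈ B := by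
      apply QuotientGroup.eq.mp
      rw [QuotientGroup.out_eq']
      have h2 : ((z * Quotient.out k : A) : A ⧸ B) = z • ((Quotient.out k : A) : A ⧸ B) := rfl
      rw [h2, QuotientGroup.out_eq']
    have e : z * Quotient.out k =
        Quotient.out (z • k) * ((Quotient.out (z • k))⁻¹ * (z * Quotient.out k)) := by group
    rw [e, map_mul, Module.End.mul_apply, hfix _ h1]
  have hfixsum : ∀ z : A, op z (∑ k, y k) = ∑ k, y k := by
    intro z
    rw [map_sum]
    have h1 : ∀ k, op z (y k) = y (z • k) := by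
      intro k
      rw [hyk, ← Module.End.mul_apply, ← map_mul, hout]
    rw [Finset.sum_congr rfl (fun k _ => h1 k)]
    exact Equiv.sum_comp (MulAction.toPerm z) y
  have h0 := hVfix _ hfixsum
  obtain ⟨k₀, hk₀⟩ : ∃ k₀ : A ⧸ B, k₀ = ((1 : A) : A ⧸ B) := ⟨_, rfl⟩
  have hk₀B : Quotient.out k₀ ∈ B := by
    have h1 : ((Quotient.out k₀ : A) : A ⧸ B) = ((1 : A) : A ⧸ B) := by
      rw [QuotientGroup.out_eq', hk₀]
    have h2 := QuotientGroup.eq.mp h1
    rw [mul_one] at h2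
    have := B.inv_mem h2
    rwa [inv_inv] at this
  have hyk₀ : y k₀ = v := by rw [hyk, hfix _ hk₀B]
  rw [← Finset.add_sum_erase Finset.univ y (Finset.mem_univ k₀), hyk₀] at h0
  exact sep' (fun g : ↥R => ρ (g : Γ)) (fun g => lam (g : Γ))
    (fun (k : A ⧸ B) (g : ↥R) => lam (act (Quotient.out k)⁻¹ (g : Γ))) (Finset.univ.erase k₀)
    (by
      intro k hk hθ
      have hkne : k ≠ k₀ := Finset.ne_of_mem_erase hk
      apply hkne
      have hinv : (Quotient.out k)⁻¹ ∈ B :=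
        (hBmem _).mpr (fun g hg => congrFun hθ ⟨g, hg⟩)
      calc k = ((Quotient.out k : A) : A ⧸ B) := (QuotientGroup.out_eq' k).symm
        _ = ((1 : A) : A ⧸ B) := QuotientGroup.eq.mpr (by rw [mul_one]; exact hinv)
        _ = k₀ := hk₀.symm)
    v hv y
    (fun k _ => by
      rw [hyk]
      exact op_mem_eig hequiv R hRA lam (Quotient.out k) v hv)
    h0

variable {F : Subgroup A} {f₀ a₀ : A} {p r : ℕ}

/-- A multiplicative function on an invariant subgroup without fixed points, invariant under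
`A`, is trivial. -/
theorem FD.char_one [Finite Γ] (hD : FD F f₀ a₀ p r)
    (R : Subgroup Γ) (hpR : ¬ p ∣ Nat.card R) (hrR : ¬ r ∣ Nat.card R)
    (hRA : ∀ x, ∀ g ∈ R, act x g ∈ R)
    (hRfpf : ∀ g ∈ R, (∀ x : A, act x g = g) → g = 1) (lam : Γ → K) (h1 : lam 1 = 1)
    (hmul : ∀ g ∈ R, ∀ g' ∈ R, lam (g * g') = lam g * lam g')
    (hinv : ∀ x : A, ∀ g ∈ R, lam (act x g) = lam g) : ∀ g ∈ R, lam g = 1 := by
  obtain ⟨N, hN⟩ : ∃ N : Subgroup Γ, N = kerSub R lam h1 hmul := ⟨_, rfl⟩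
  have hNmem : ∀ g, g ∈ N ↔ g ∈ R ∧ lam g = 1 := by
    intro g
    rw [hN]
    rfl
  have hNR : N ≤ R := fun g hg => ((hNmem g).mp hg).1
  have hpN : ¬ p ∣ Nat.card N := fun h => hpR (h.trans (Subgroup.card_dvd_of_le hNR))
  have hrN : ¬ r ∣ Nat.card N := fun h => hrR (h.trans (Subgroup.card_dvd_of_le hNR))
  intro g hg
  obtain ⟨w, hw1, hw2⟩ := hD.coset act N hpN hrN
    (fun x n hn => (hNmem _).mpr ⟨hRA x n ((hNmem n).mp hn).1, by
      rw [hinv x n ((hNmem n).mp hn).1]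
      exact ((hNmem n).mp hn).2⟩) g
    (fun x => (hNmem _).mpr ⟨R.mul_mem (R.inv_mem hg) (hRA x g hg), by
      rw [hmul _ (R.inv_mem hg) _ (hRA x g hg), hinv x g hg, ← hmul _ (R.inv_mem hg) _ hg,
        inv_mul_cancel, h1]⟩)
  have hw1' := (hNmem _).mp hw1
  have hwR : w ∈ R := by
    have e : w = g * (g⁻¹ * w) := by group
    rw [e]
    exact R.mul_mem hg hw1'.1
  have hw' := hRfpf w hwR hw2
  rw [hw', mul_one] at hw1'
  have h3 := hmul g hg g⁻¹ (R.inv_mem hg)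
  rw [mul_inv_cancel, h1, hw1'.2, mul_one] at h3
  exact h3.symm

/-- If `f₀` stabilizes a nontrivial eigen-function, `op f₀` has no fixed vector on the
eigenspace. -/
theorem FD.stab_F [Finite A] [Finite Γ] (hD : FD F f₀ a₀ p r)
    (hequiv : ∀ (x : A) (g : Γ), op x * ρ g = ρ (act x g) * op x)
    (hVfix : ∀ v : V, (∀ x, op x v = v) → v = 0)
    (R : Subgroup Γ) (hpR : ¬ p ∣ Nat.card R) (hrR : ¬ r ∣ Nat.card R)
    (hRA : ∀ x, ∀ g ∈ R, act x g ∈ R)
    (hRfpf : ∀ g ∈ R, (∀ x : A, act x g = g) → g = 1) (lam : Γ → K) (h1 : lam 1 = 1)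
    (hmul : ∀ g ∈ R, ∀ g' ∈ R, lam (g * g') = lam g * lam g')
    (hne : ∃ g ∈ R, lam g ≠ 1) (hf₀ : f₀ ∈ stab act R hRA lam) :
    ∀ w ∈ eig ρ R lam, op f₀ w = w → w = 0 := by
  intro w hw hfw
  apply star hequiv hVfix R hRA lam w hw
  intro x hx
  by_cases hxF : x ∈ F
  · obtain ⟨i, rfl⟩ := hD.F_gen x hxF
    exact op_pow_fix op hfw i
  · exfalso
    obtain ⟨g, hg, hg1⟩ := hne
    apply hg1
    apply hD.char_one R hpR hrR hRA hRfpf lam h1 hmul _ g hg
    intro y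
    obtain ⟨f, hf, m, rfl⟩ := hD.gen x hxF y
    obtain ⟨i, rfl⟩ := hD.F_gen f hf
    have hmem : f₀ ^ i * x ^ m ∈ stab act R hRA lam :=
      Subgroup.mul_mem _ (Subgroup.pow_mem _ hf₀ i) (Subgroup.pow_mem _ hx m)
    exact hmem

/-- If `f₀` does not stabilize an eigen-function with nonzero eigenspace, some `b ∉ F` of
order `r` does, and `op b` has no fixed vector on the eigenspace. -/
theorem FD.stab_b [Finite A] (hD : FD F f₀ a₀ p r)
    (hequiv : ∀ (x : A) (g : Γ), op x * ρ g = ρ (act x g) * op x)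
    (hVfix : ∀ v : V, (∀ x, op x v = v) → v = 0)
    (R : Subgroup Γ) (hRA : ∀ x, ∀ g ∈ R, act x g ∈ R) (lam : Γ → K)
    (hne : ∃ v ∈ eig ρ R lam, v ≠ 0) (hf₀ : f₀ ∉ stab act R hRA lam) :
    ∃ b ∈ stab act R hRA lam, b ∉ F ∧ b ^ r = 1 ∧
      ∀ w ∈ eig ρ R lam, op b w = w → w = 0 := by
  have hFstab : ∀ f ∈ F, f ∈ stab act R hRA lam → f = 1 := by
    intro f hf hfs
    by_contra hf1
    obtain ⟨j, hj⟩ := hD.F_prime f hf hf1
    apply hf₀
    rw [hj]
    exact Subgroup.pow_mem _ hfs j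
  have hex : ∃ b ∈ stab act R hRA lam, b ≠ 1 := by
    by_contra hcon
    push Not at hcon
    obtain ⟨v, hv, hv0⟩ := hne
    apply hv0
    apply star hequiv hVfix R hRA lam v hv
    intro x hx
    rw [hcon x hx, map_one, Module.End.one_apply]
  obtain ⟨b, hb, hb1⟩ := hex
  have hbF : b ∉ F := fun h => hb1 (hFstab b h hb)
  have hbr : b ^ r = 1 := hFstab _ (hD.pow_mem b) (Subgroup.pow_mem _ hb r)
  refine ⟨b, hb, hbF, hbr, ?_⟩
  intro w hw hbw
  apply star hequiv hVfix R hRA lam w hw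
  intro x hx
  obtain ⟨f, hf, m, rfl⟩ := hD.gen b hbF x
  have hfs : f ∈ stab act R hRA lam := by
    have h1 := Subgroup.mul_mem _ hx (Subgroup.inv_mem _ (Subgroup.pow_mem _ hb m))
    rwa [mul_inv_cancel_right] at h1
  rw [hFstab f hf hfs, one_mul]
  exact op_pow_fix op hbw m

end Lin

section Syl

variable {A : Type v} [Group A] {G : Type u} [Group G] [Finite G] {F : Subgroup A} {f₀ a₀ : A}
  {p r : ℕ}

omit [Finite G] in
theorem aut_smul_conj_smul {s : ℕ} (φ : MulAut G) (g : G) (S : Sylow s G) :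
    φ • (g • S) = (φ g) • (φ • S) := by
  rw [Sylow.smul_def, Sylow.smul_def, ← mul_smul, ← mul_smul]
  congr 1
  apply MulEquiv.ext
  intro x
  simp [MulAut.conj_apply]

/-- A group of order `p r` as in `FD` acting on a group of coprime order stabilizes a Sylow
subgroup. -/
theorem FD.exists_invariant_sylow (hD : FD F f₀ a₀ p r) (act : A →* MulAut G)
    (hcop : (Nat.card G).Coprime (p * r)) (s : ℕ) [Fact s.Prime] :
    ∃ S : Sylow s G, ∀ x, ∀ g ∈ (S : Subgroup G), act x g ∈ (S : Subgroup G) := by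
  classical
  haveI : Fact p.Prime := ⟨hD.hp⟩
  haveI : Fact r.Prime := ⟨hD.hr⟩
  have hpG : ¬ p ∣ Nat.card G := by
    have := (hD.not_dvd hcop (⊤ : Subgroup G)).1
    rwa [Subgroup.card_top] at this
  have hrG : ¬ r ∣ Nat.card G := by
    have := (hD.not_dvd hcop (⊤ : Subgroup G)).2
    rwa [Subgroup.card_top] at this
  have hZ : IsPGroup p (Subgroup.zpowers (act f₀)) := by
    rintro ⟨g, hg⟩
    obtain ⟨k, rfl⟩ := Subgroup.mem_zpowers_iff.mp hg
    refine ⟨1, ?_⟩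
    apply Subtype.ext
    show (act f₀ ^ k) ^ p ^ 1 = 1
    rw [pow_one, ← zpow_natCast, ← zpow_mul, mul_comm, zpow_mul, zpow_natCast, ← map_pow,
      hD.f₀_pow, map_one, one_zpow]
  have hZa : IsPGroup r (Subgroup.zpowers a₀) := by
    rintro ⟨g, hg⟩
    obtain ⟨k, rfl⟩ := Subgroup.mem_zpowers_iff.mp hg
    refine ⟨1, ?_⟩
    apply Subtype.ext
    show (a₀ ^ k) ^ r ^ 1 = 1
    rw [pow_one, ← zpow_natCast, ← zpow_mul, mul_comm, zpow_mul, zpow_natCast, hD.a₀_pow,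
      one_zpow]
  obtain ⟨P₀⟩ : Nonempty (Sylow s G) := inferInstance
  have hnd : ¬ p ∣ Nat.card (Sylow s G) := fun h =>
    hpG (dvd_trans h (dvd_trans (Sylow.card_dvd_index P₀) (Subgroup.index_dvd_card _)))
  obtain ⟨S₁, hS₁⟩ := hZ.nonempty_fixed_point_of_prime_not_dvd_card (Sylow s G) hnd
  have hS₁f : act f₀ • S₁ = S₁ := hS₁ ⟨act f₀, Subgroup.mem_zpowers _⟩
  have hFS : ∀ (S : Sylow s G), act f₀ • S = S → ∀ f ∈ F, act f • S = S := by
    intro S hS f hf
    obtain ⟨i, rfl⟩ := hD.F_gen f hf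
    rw [map_pow]
    have h1 : act f₀ ∈ MulAction.stabilizer (MulAut G) S := hS
    exact Subgroup.pow_mem _ h1 i
  have hΩa : ∀ (x : A) (S : Sylow s G), act f₀ • S = S → act f₀ • (act x • S) = act x • S := by
    intro x S hS
    have hf : x⁻¹ * f₀ * x ∈ F := by
      have := hD.conj_mem f₀ hD.f₀_mem x⁻¹
      rwa [inv_inv] at this
    have e : f₀ * x = x * (x⁻¹ * f₀ * x) := by group
    rw [← mul_smul, ← map_mul, e, map_mul, mul_smul, hFS S hS _ hf]
  letI : MulAction ↥(Subgroup.zpowers a₀) {S : Sylow s G // act f₀ • S = S} :=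
    { smul := fun b S => ⟨act (b : A) • S.1, hΩa b S.1 S.2⟩
      one_smul := fun S => Subtype.ext (by
        show act ((1 : ↥(Subgroup.zpowers a₀)) : A) • S.1 = S.1
        rw [Subgroup.coe_one, map_one, one_smul])
      mul_smul := fun b b' S => Subtype.ext (by
        show act ((b * b' : ↥(Subgroup.zpowers a₀)) : A) • S.1 =
          act (b : A) • (act (b' : A) • S.1)
        rw [Subgroup.coe_mul, map_mul, mul_smul]) }
  have hcardΩ : ¬ r ∣ Nat.card {S : Sylow s G // act f₀ • S = S} := by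
    letI : MulAction ↥(fixSub (act f₀)) {S : Sylow s G // act f₀ • S = S} :=
      { smul := fun c S => ⟨(c : G) • S.1, by
          rw [aut_smul_conj_smul, S.2]
          have h : act f₀ (c : G) = c := c.2
          rw [h]⟩
        one_smul := fun S => Subtype.ext (by
          show ((1 : ↥(fixSub (act f₀))) : G) • S.1 = S.1
          rw [Subgroup.coe_one, one_smul])
        mul_smul := fun c c' S => Subtype.ext (by
          show ((c * c' : ↥(fixSub (act f₀))) : G) • S.1 = (c : G) • ((c' : G) • S.1)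
          rw [Subgroup.coe_mul, mul_smul]) }
    haveI : MulAction.IsPretransitive ↥(fixSub (act f₀))
        {S : Sylow s G // act f₀ • S = S} := by
      constructor
      rintro ⟨S₁, h₁⟩ ⟨S₂, h₂⟩
      obtain ⟨g, hg⟩ := MulAction.exists_smul_eq G S₁ S₂
      have hNinv : ∀ n ∈ MulAction.stabilizer G S₁,
          act f₀ n ∈ MulAction.stabilizer G S₁ := by
        intro n hn
        rw [MulAction.mem_stabilizer_iff] at hn ⊢
        have h3 := aut_smul_conj_smul (act f₀) n S₁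
        rw [hn, h₁] at h3
        exact h3.symm
      have hgN : g⁻¹ * act f₀ g ∈ MulAction.stabilizer G S₁ := by
        rw [MulAction.mem_stabilizer_iff, mul_smul]
        have h3 := aut_smul_conj_smul (act f₀) g S₁
        rw [hg, h₂, h₁] at h3
        rw [← h3, ← hg, inv_smul_smul]
      have hpN : ¬ p ∣ Nat.card (MulAction.stabilizer G S₁) :=
        fun h => hpG (h.trans (Subgroup.card_subgroup_dvd_card _))
      obtain ⟨w, hw1, hw2⟩ := exists_fixed_in_coset_single (act f₀)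
        (by rw [← map_pow, hD.f₀_pow, map_one]) (MulAction.stabilizer G S₁) hpN hNinv g hgN
      refine ⟨⟨w, hw2⟩, Subtype.ext ?_⟩
      show w • S₁ = S₂
      have e : w = g * (g⁻¹ * w) := by group
      rw [e, mul_smul, MulAction.mem_stabilizer_iff.mp hw1, hg]
    have h1 := MulAction.index_stabilizer_of_transitive ↥(fixSub (act f₀))
      (⟨S₁, hS₁f⟩ : {S : Sylow s G // act f₀ • S = S})
    intro h
    apply hrG
    rw [← h1] at h
    exact h.trans ((Subgroup.index_dvd_card _).trans (Subgroup.card_subgroup_dvd_card _))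
  obtain ⟨⟨S, hSf⟩, hS⟩ := hZa.nonempty_fixed_point_of_prime_not_dvd_card
    {S : Sylow s G // act f₀ • S = S} hcardΩ
  have hSa : act a₀ • S = S := by
    have h1 : (⟨a₀, Subgroup.mem_zpowers a₀⟩ : ↥(Subgroup.zpowers a₀)) •
        (⟨S, hSf⟩ : {S : Sylow s G // act f₀ • S = S}) = ⟨S, hSf⟩ := hS _
    exact congrArg Subtype.val h1
  refine ⟨S, ?_⟩
  intro x g hg
  have hx : act x • S = S := by
    obtain ⟨f, hf, m, rfl⟩ := hD.gen a₀ hD.a₀_nmem x
    rw [map_mul, mul_smul, map_pow]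
    have h1 : act a₀ ∈ MulAction.stabilizer (MulAut G) S := hSa
    rw [MulAction.mem_stabilizer_iff.mp (Subgroup.pow_mem _ h1 m)]
    exact hFS S hSf f hf
  have h3 : (act x) • g ∈ (act x) • (S : Subgroup G) :=
    Subgroup.smul_mem_pointwise_smul g (act x) _ hg
  rw [← Sylow.pointwise_smul_def, hx] at h3
  exact h3

end Syl

end Cfsg.Agent.Helper63.Frob
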