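-- helper63 library: the key proposition for a non-abelian group of order `p r` acting without
-- fixed points (an invariant `s`-subgroup centralizes an invariant `q`-subgroup which it
-- normalizes and which acts faithfully on a module with the centralizer property); add-only
-- once landed.
import Cfsg.Agent.Helper63.FrobA

set_option autoImplicit false

namespace Cfsg.Agent.Helper63.Frob

open Module Cfsg.Agent.Helper63.Gross Cfsg.Agent.Helper63.Shult Cfsg.Agent.Helper63.ProjRep
  Cfsg.Agent.Helper63.Ward Cfsg.Agent.Helper63.Fpf4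

open scoped commutatorElement

universe u v w w'

section KP

variable {K : Type u} [Field K] {V : Type v} [AddCommGroup V] [Module K V]
  {Γ : Type w} [Group Γ] {A : Type w'} [Group A]
  {act : A →* MulAut Γ} {ρ : Γ →* Module.End K V} {op : A →* Module.End K V}
  {F : Subgroup A} {f₀ a₀ : A} {p r : ℕ}

/-- If `f₀` does not stabilize `lam`, an element fixed by `f₀`, preserving the eigenspace and
acting trivially on the fixed vectors of `f₀`, acts trivially on the eigenspace. -/
theorem FD.eig_triv [Finite A] (hD : FD F f₀ a₀ p r)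
    (hequiv : ∀ (x : A) (g : Γ), op x * ρ g = ρ (act x g) * op x)
    (R : Subgroup Γ) (hRA : ∀ x, ∀ g ∈ R, act x g ∈ R) (lam : Γ → K)
    (hf₀ : f₀ ∉ stab act R hRA lam) (u : Γ) (hu : act f₀ u = u)
    (hnil : ∀ v : V, op f₀ v = v → ρ u v = v)
    (hpres : ∀ v ∈ eig ρ R lam, ρ u v ∈ eig ρ R lam) : ∀ v ∈ eig ρ R lam, ρ u v = v := by
  obtain ⟨actF, hactF⟩ : ∃ actF : ↥F →* MulAut Γ, ∀ (x : ↥F) (g : Γ), actF x g = act (x : A) g :=
    ⟨act.comp F.subtype, fun _ _ => rfl⟩
  obtain ⟨opF, hopF⟩ : ∃ opF : ↥F →* Module.End K V, ∀ (x : ↥F), opF x = op (x : A) :=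
    ⟨op.comp F.subtype, fun _ => rfl⟩
  have hFexp : ∀ x : ↥F, x ^ p = 1 := by
    intro x
    obtain ⟨i, hi⟩ := hD.F_gen x x.2
    apply Subtype.ext
    rw [Subgroup.coe_pow, hi, ← pow_mul, mul_comm, pow_mul, hD.f₀_pow, one_pow]
    rfl
  have hRAF : ∀ (x : ↥F), ∀ g ∈ R, actF x g ∈ R := by
    intro x g hg
    rw [hactF]
    exact hRA x g hg
  exact Cfsg.Agent.Helper63.Ward.eig_triv (act := actF) (op := opF) hD.hp hFexp
    (by
      intro x g
      rw [hopF, hactF]
      exact hequiv x g)
    R hRAF lam ⟨f₀, hD.f₀_mem⟩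
    (by
      intro h
      apply hf₀
      intro g hg
      have h1 := h g hg
      rw [hactF] at h1
      exact h1)
    u (by rw [hactF]; exact hu)
    (by
      intro v hv
      rw [hopF] at hv
      exact hnil v hv)
    hpres

/-- Decomposition of the module in two layers: eigenspaces of `Z` for nontrivial
eigen-functions, and eigenspaces of `P` on the fixed space of `Z`. -/
theorem two_layers [IsAlgClosed K] [FiniteDimensional K V] [Finite Γ] {q : ℕ} [Fact q.Prime]
    (hqK : (q : K) ≠ 0) (ρ : Γ →* Module.End K V) (P Z : Subgroup Γ) (hPq : IsPGroup q P)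
    (hZP : Z ≤ P) (hZc : ∀ z ∈ Z, ∀ u ∈ P, u * z = z * u)
    (hP'Z : ∀ u ∈ P, ∀ u' ∈ P, u * u' * u⁻¹ * u'⁻¹ ∈ Z) (Cm : Submodule K V)
    (h1 : ∀ lam : Γ → K, (∃ z ∈ Z, lam z ≠ 1) → ∀ v ∈ eig ρ Z lam, v ≠ 0 → v ∈ Cm)
    (h2 : ∀ lam : Γ → K, (∀ z ∈ Z, lam z = 1) → ∀ w ∈ eig ρ P lam, w ≠ 0 → w ∈ Cm) :
    ∀ v : V, v ∈ Cm := by
  classical
  have hss : ∀ g ∈ P, (ρ g).IsSemisimple := by
    intro g hg
    obtain ⟨k, hk⟩ := (IsPGroup.iff_orderOf.mp hPq) ⟨g, hg⟩
    rw [Subgroup.orderOf_mk] at hk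
    apply isSemisimple_of_pow_eq_one (ρ g) (q ^ k)
    · rw [← map_pow, ← hk, pow_orderOf_eq_one, map_one]
    · rw [Nat.cast_pow]
      exact pow_ne_zero k hqK
  have hZcomm : ∀ i j : ↥Z, ρ (i : Γ) * ρ (j : Γ) = ρ (j : Γ) * ρ (i : Γ) := by
    intro i j
    rw [← map_mul, ← map_mul, hZc j j.2 i (hZP i.2)]
  have hdec := iSup_simEig_eq_top (fun z : ↥Z => ρ (z : Γ)) hZcomm (fun i => hss _ (hZP i.2))
  have htop : (⊤ : Submodule K V) ≤ Cm := by
    rw [← hdec]
    apply iSup_le
    intro θ v hv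
    by_cases hv0 : v = 0
    · rw [hv0]
      exact Cm.zero_mem
    obtain ⟨lam, hlam⟩ : ∃ lam : Γ → K,
        lam = fun g => if h : g ∈ Z then θ ⟨g, h⟩ else 0 := ⟨_, rfl⟩
    have hlamZ : ∀ z : ↥Z, lam (z : Γ) = θ z := by
      intro z
      rw [hlam]
      show (if h : (z : Γ) ∈ Z then θ ⟨(z : Γ), h⟩ else 0) = θ z
      rw [dif_pos z.2]
    have hvE : v ∈ eig ρ Z lam := by
      rw [mem_eig]
      intro r hr
      have h1 := (mem_simEig _ _ _).mp hv ⟨r, hr⟩
      rw [hlamZ ⟨r, hr⟩]
      exact h1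
    by_cases hone : ∀ z ∈ Z, lam z = 1
    · have hWP : ∀ g : ↥P, ∀ w ∈ eig ρ Z lam, (ρ.comp P.subtype) g w ∈ eig ρ Z lam := by
        intro g w hw
        rw [mem_eig] at hw ⊢
        intro z hz
        show ρ z (ρ (g : Γ) w) = lam z • ρ (g : Γ) w
        rw [← Module.End.mul_apply, ← map_mul, ← hZc z hz g g.2, map_mul,
          Module.End.mul_apply, hw z hz, map_smul]
      obtain ⟨ρW, hρW⟩ : ∃ ρW : ↥P →* Module.End K ↥(eig ρ Z lam),
          ρW = resHom (ρ.comp P.subtype) (eig ρ Z lam) hWP := ⟨_, rfl⟩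
      have hρWval : ∀ (g : ↥P) (w : ↥(eig ρ Z lam)),
          ((ρW g w : ↥(eig ρ Z lam)) : V) = ρ (g : Γ) (w : V) := by
        intro g w
        rw [hρW]
        rfl
      have hWcomm : ∀ i j : ↥P, ρW i * ρW j = ρW j * ρW i := by
        intro i j
        apply LinearMap.ext
        intro w
        apply Subtype.ext
        rw [Module.End.mul_apply, Module.End.mul_apply, hρWval, hρWval, hρWval, hρWval]
        have hc : (i : Γ) * j = ((i : Γ) * j * (i : Γ)⁻¹ * (j : Γ)⁻¹) * (j * i) := by group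
        have hcz : (i : Γ) * j * (i : Γ)⁻¹ * (j : Γ)⁻¹ ∈ Z := hP'Z i i.2 j j.2
        have hjw : ρ ((j : Γ) * i) (w : V) ∈ eig ρ Z lam := hWP (j * i) w w.2
        rw [← Module.End.mul_apply, ← map_mul, hc, map_mul, Module.End.mul_apply,
          ((mem_eig ρ).mp hjw) _ hcz, hone _ hcz, one_smul, map_mul, Module.End.mul_apply]
      have hWss : ∀ i : ↥P, (ρW i).IsSemisimple := by
        intro i
        obtain ⟨k, hk⟩ := (IsPGroup.iff_orderOf.mp hPq) i
        apply isSemisimple_of_pow_eq_one (ρW i) (q ^ k)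
        · rw [← map_pow, ← hk, pow_orderOf_eq_one, map_one]
        · rw [Nat.cast_pow]
          exact pow_ne_zero k hqK
      have hdecW := iSup_simEig_eq_top (fun u : ↥P => ρW u) hWcomm hWss
      have htopW : (⊤ : Submodule K ↥(eig ρ Z lam)) ≤ Cm.comap (eig ρ Z lam).subtype := by
        rw [← hdecW]
        apply iSup_le
        intro χ w hw
        rw [Submodule.mem_comap]
        show (w : V) ∈ Cm
        by_cases hw0 : w = 0
        · rw [hw0]
          exact Cm.zero_mem
        have hw0' : (w : V) ≠ 0 := fun h => hw0 (Subtype.ext h)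
        obtain ⟨lamχ, hlamχ⟩ : ∃ lamχ : Γ → K,
            lamχ = fun g => if h : g ∈ P then χ ⟨g, h⟩ else 0 := ⟨_, rfl⟩
        have hlamχP : ∀ u : ↥P, lamχ (u : Γ) = χ u := by
          intro u
          rw [hlamχ]
          show (if h : (u : Γ) ∈ P then χ ⟨(u : Γ), h⟩ else 0) = χ u
          rw [dif_pos u.2]
        have hwE : (w : V) ∈ eig ρ P lamχ := by
          rw [mem_eig]
          intro r hr
          have h1 := (mem_simEig _ _ _).mp hw ⟨r, hr⟩
          have h2 := congrArg Subtype.val h1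
          rw [hρWval] at h2
          rw [hlamχP ⟨r, hr⟩]
          exact h2
        have hlamχZ : ∀ z ∈ Z, lamχ z = 1 := by
          intro z hz
          have h1 := ((mem_eig ρ).mp hwE) z (hZP hz)
          have h2 := ((mem_eig ρ).mp w.2) z hz
          rw [hone z hz, one_smul] at h2
          rw [h2] at h1
          exact (smul_left_injective K hw0' (by
            show lamχ z • (w : V) = (1 : K) • (w : V)
            rw [one_smul]
            exact h1.symm))
        exact h2 lamχ hlamχZ _ hwE hw0'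
      exact htopW (Submodule.mem_top : (⟨v, hvE⟩ : ↥(eig ρ Z lam)) ∈ ⊤)
    · push Not at hone
      exact h1 lam hone v hvE hv0
  intro v
  exact htop Submodule.mem_top

/-- **Key proposition.**  `A` a non-abelian group of order `p r` as in `FD` acting on `Γ`
(solvable, of order prime to `p r`) and compatibly on the module `V` without nonzero fixed
vectors.  Let `S` be an invariant `s`-subgroup and `P` an invariant `q`-subgroup normalized
by `S`, acting faithfully on `V`, both without nontrivial fixed points of `A`, such that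
`C_P(f₀)` acts trivially on `C_V(f₀)`.  Then `S` centralizes `P`. -/
theorem frob_key [IsAlgClosed K] [FiniteDimensional K V] [Finite Γ] [Finite A] {q s : ℕ}
    (hD : FD F f₀ a₀ p r) (hq : q.Prime) (hs : s.Prime) (hqs : q ≠ s)
    (hqK : (q : K) ≠ 0) (hpK : (p : K) ≠ 0) (hrK : (r : K) ≠ 0)
    (hsol : Group.IsSolvable Γ) (hcop : (Nat.card Γ).Coprime (p * r))
    (hequiv : ∀ (x : A) (g : Γ), op x * ρ g = ρ (act x g) * op x)
    (hVfix : ∀ v : V, (∀ x, op x v = v) → v = 0) :
    ∀ n, ∀ S P : Subgroup Γ, Nat.card S + Nat.card P = n → IsPGroup s S → IsPGroup q P →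
      (∀ x, ∀ t ∈ S, act x t ∈ S) → (∀ x, ∀ u ∈ P, act x u ∈ P) →
      (∀ t ∈ S, ∀ u ∈ P, t * u * t⁻¹ ∈ P) → (∀ t ∈ S, (∀ x, act x t = t) → t = 1) →
      (∀ u ∈ P, (∀ x, act x u = u) → u = 1) →
      (∀ u ∈ P, act f₀ u = u → ∀ v : V, op f₀ v = v → ρ u v = v) →
      (∀ u ∈ P, ρ u = 1 → u = 1) → ∀ t ∈ S, ∀ u ∈ P, t * u = u * t := by
  classical
  haveI : Fact q.Prime := ⟨hq⟩
  haveI : Fact s.Prime := ⟨hs⟩
  have hp := hD.hp
  have hr := hD.hr
  haveI : Fact p.Prime := ⟨hp⟩
  haveI : Fact r.Prime := ⟨hr⟩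
  have hρmul : ∀ g h v, ρ (g * h) v = ρ g (ρ h v) := by
    intro g h v
    rw [map_mul, Module.End.mul_apply]
  have hρinj : ∀ g v, ρ g v = 0 → v = 0 := by
    intro g v h
    have h1 : ρ g⁻¹ (ρ g v) = v := by
      rw [← hρmul, inv_mul_cancel, map_one, Module.End.one_apply]
    rw [h, map_zero] at h1
    exact h1.symm
  have hfp : act f₀ ^ p = 1 := by rw [← map_pow, hD.f₀_pow, map_one]
  have hofp : op f₀ ^ p = 1 := by rw [← map_pow, hD.f₀_pow, map_one]
  intro n
  induction n using Nat.strong_induction_on with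
  | _ n IH =>
  intro S P hn hSs hPq hSA hPA hPS hSfpf hPfpf hnil hfaith
  by_contra hcon
  push Not at hcon
  obtain ⟨t₀, ht₀, u₀, hu₀, hne₀⟩ := hcon
  have hndP := hD.not_dvd hcop P
  have hndS := hD.not_dvd hcop S
  have hu₀1 : u₀ ≠ 1 := by
    rintro rfl
    exact hne₀ (by rw [mul_one, one_mul])
  have ht₀1 : t₀ ≠ 1 := by
    rintro rfl
    exact hne₀ (by rw [mul_one, one_mul])
  have hPne : P ≠ ⊥ := by
    intro h
    rw [h, Subgroup.mem_bot] at hu₀
    exact hu₀1 hu₀
  obtain ⟨kP, hkP⟩ := IsPGroup.iff_card.mp hPq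
  have hqdvd : q ∣ Nat.card P := by
    have hkP0 : kP ≠ 0 := by
      rintro rfl
      rw [pow_zero] at hkP
      exact hPne (Subgroup.card_eq_one.mp hkP)
    rw [hkP]
    exact dvd_pow_self q hkP0
  have hqp : q ≠ p := by
    rintro rfl
    exact hndP.1 hqdvd
  have hqr : q ≠ r := by
    rintro rfl
    exact hndP.2 hqdvd
  obtain ⟨kS, hkS⟩ := IsPGroup.iff_card.mp hSs
  have hSq : (Nat.card S).Coprime q := by
    rw [hkS]
    exact Nat.Coprime.pow_left kS ((Nat.coprime_primes hs hq).mpr (Ne.symm hqs))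
  have hSp : (Nat.card S).Coprime p :=
    ((Nat.Prime.coprime_iff_not_dvd hp).mpr hndS.1).symm
  have hSr : (Nat.card S).Coprime r :=
    ((Nat.Prime.coprime_iff_not_dvd hr).mpr hndS.2).symm
  have hSq' : ∀ t ∈ S, (orderOf t).Coprime q := by
    intro t ht
    obtain ⟨k, hk⟩ := (IsPGroup.iff_orderOf.mp hSs) ⟨t, ht⟩
    rw [Subgroup.orderOf_mk] at hk
    rw [hk]
    exact Nat.Coprime.pow_left k ((Nat.coprime_primes hs hq).mpr (Ne.symm hqs))
  have hsmallS : ∀ S' : Subgroup Γ, S' ≤ S → S' ≠ S → (∀ x, ∀ t ∈ S', act x t ∈ S') →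
      ∀ t ∈ S', ∀ u ∈ P, t * u = u * t := by
    intro S' hS'S hS'ne hS'A
    have hlt : Nat.card S' + Nat.card P < n := by
      rw [← hn]
      have : Nat.card S' < Nat.card S := by
        by_contra hge
        push Not at hge
        exact hS'ne (Subgroup.eq_of_le_of_card_ge hS'S hge)
      omega
    exact IH _ hlt S' P rfl (hSs.to_le hS'S) hPq hS'A hPA (fun t ht => hPS t (hS'S ht))
      (fun t ht => hSfpf t (hS'S ht)) hPfpf hnil hfaith
  have hsmall : ∀ Q : Subgroup Γ, Q ≤ P → Q ≠ P → (∀ x, ∀ u ∈ Q, act x u ∈ Q) →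
      (∀ t ∈ S, ∀ u ∈ Q, t * u * t⁻¹ ∈ Q) → ∀ u ∈ Q, ∀ t ∈ S, t * u = u * t := by
    intro Q hQP hQne hQA hQS
    have hlt : Nat.card S + Nat.card Q < n := by
      rw [← hn]
      have : Nat.card Q < Nat.card P := by
        by_contra hge
        push Not at hge
        exact hQne (Subgroup.eq_of_le_of_card_ge hQP hge)
      omega
    intro u hu t ht
    exact IH _ hlt S Q rfl hSs (hPq.to_le hQP) hSA hQA hQS hSfpf
      (fun u hu => hPfpf u (hQP hu)) (fun u hu => hnil u (hQP hu))
      (fun u hu => hfaith u (hQP hu)) t ht u hu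
  have hPS' : ∀ t ∈ S, ∀ u ∈ P, t⁻¹ * u * t ∈ P := by
    intro t ht u hu
    have := hPS t⁻¹ (S.inv_mem ht) u hu
    rwa [inv_inv] at this
  -- `⁅P, S⁆ = P`
  have hDP : ⁅P, S⁆ ≤ P := by
    rw [Subgroup.commutator_le]
    intro u hu t ht
    have e : ⁅u, t⁆ = u * (t * u⁻¹ * t⁻¹) := by
      rw [commutatorElement_def]
      group
    rw [e]
    exact P.mul_mem hu (hPS t ht _ (P.inv_mem hu))
  have hcommA : ∀ (H₁ H₂ : Subgroup Γ), (∀ x, ∀ u ∈ H₁, act x u ∈ H₁) →
      (∀ x, ∀ u ∈ H₂, act x u ∈ H₂) → ∀ x, ∀ u ∈ ⁅H₁, H₂⁆, act x u ∈ ⁅H₁, H₂⁆ := by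
    intro H₁ H₂ h₁ h₂ x u hu
    have h1 : (⁅H₁, H₂⁆).map (act x).toMonoidHom ≤ ⁅H₁, H₂⁆ := by
      rw [Subgroup.map_commutator]
      apply Subgroup.commutator_mono
      · rintro _ ⟨g, hg, rfl⟩
        exact h₁ x g hg
      · rintro _ ⟨g, hg, rfl⟩
        exact h₂ x g hg
    exact h1 ⟨u, hu, rfl⟩
  have hcommS : ∀ (H₁ H₂ : Subgroup Γ), (∀ t ∈ S, ∀ u ∈ H₁, t * u * t⁻¹ ∈ H₁) →
      (∀ t ∈ S, ∀ u ∈ H₂, t * u * t⁻¹ ∈ H₂) →
      ∀ t ∈ S, ∀ u ∈ ⁅H₁, H₂⁆, t * u * t⁻¹ ∈ ⁅H₁, H₂⁆ := by
    intro H₁ H₂ h₁ h₂ t ht u hu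
    have h1 : (⁅H₁, H₂⁆).map (MulAut.conj t).toMonoidHom ≤ ⁅H₁, H₂⁆ := by
      rw [Subgroup.map_commutator]
      apply Subgroup.commutator_mono
      · rintro _ ⟨g, hg, rfl⟩
        exact h₁ t ht g hg
      · rintro _ ⟨g, hg, rfl⟩
        exact h₂ t ht g hg
    exact h1 ⟨u, hu, rfl⟩
  have hSS : ∀ t ∈ S, ∀ u ∈ S, t * u * t⁻¹ ∈ S :=
    fun t ht u hu => S.mul_mem (S.mul_mem ht hu) (S.inv_mem ht)
  have hDeq : ⁅P, S⁆ = P := by
    by_contra hDne
    have hcent := hsmall ⁅P, S⁆ hDP hDne (hcommA P S hPA hSA) (hcommS P S hPS hSS)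
    apply hne₀
    have hmem : t₀ * u₀ * t₀⁻¹ * u₀⁻¹ ∈ ⁅P, S⁆ := by
      rw [Subgroup.commutator_comm]
      exact Subgroup.commutator_mem_commutator ht₀ hu₀
    apply commute_of_commute_commutator t₀ u₀ (hcent _ hmem t₀ ht₀)
    have hmemP := hDP hmem
    obtain ⟨k, hk⟩ := (IsPGroup.iff_orderOf.mp hPq) ⟨_, hmemP⟩
    rw [Subgroup.orderOf_mk] at hk
    rw [hk]
    exact Nat.Coprime.pow_left k ((hSq' t₀ ht₀).symm)
  have hP'P : ⁅P, P⁆ ≤ P := by
    rw [Subgroup.commutator_le]
    intro g₁ h₁ g₂ h₂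
    exact P.mul_mem (P.mul_mem (P.mul_mem h₁ h₂) (P.inv_mem h₁)) (P.inv_mem h₂)
  have hP'ne : ⁅P, P⁆ ≠ P := by
    intro heq
    haveI : Nontrivial ↥P := by
      refine ⟨⟨⟨u₀, hu₀⟩, 1, ?_⟩⟩
      intro h
      exact hu₀1 (congrArg Subtype.val h)
    haveI : Group.IsNilpotent ↥P := hPq.isNilpotent
    have hlt := Group.IsSolvable.commutator_lt_top_of_nontrivial ↥P
    apply ne_of_lt hlt
    have h2 : (commutator ↥P).map P.subtype = ⁅P, P⁆ := by
      rw [commutator_def, Subgroup.map_commutator, ← MonoidHom.range_eq_map,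
        Subgroup.range_subtype]
    have h3 : (commutator ↥P).map P.subtype = (⊤ : Subgroup ↥P).map P.subtype := by
      rw [h2, heq, ← MonoidHom.range_eq_map, Subgroup.range_subtype]
    exact Subgroup.map_injective P.subtype_injective h3
  have hP'cent := hsmall ⁅P, P⁆ hP'P hP'ne (hcommA P P hPA hPA) (hcommS P P hPS hPS)
  -- the subgroup `Z = C_P(S)`
  obtain ⟨Z, hZdef⟩ : ∃ Z : Subgroup Γ, Z = P ⊓ Subgroup.centralizer (S : Set Γ) := ⟨_, rfl⟩
  have hZmem : ∀ g, g ∈ Z ↔ g ∈ P ∧ ∀ t ∈ S, t * g = g * t := by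
    intro g
    rw [hZdef, Subgroup.mem_inf, Subgroup.mem_centralizer_iff]
    rfl
  have hZP : Z ≤ P := fun g hg => ((hZmem g).mp hg).1
  have hZS : ∀ z ∈ Z, ∀ t ∈ S, t * z = z * t := fun z hz => ((hZmem z).mp hz).2
  have hP'Z₀ : ⁅P, P⁆ ≤ Z := fun g hg => (hZmem g).mpr ⟨hP'P hg, hP'cent g hg⟩
  have hP'Z : ∀ u ∈ P, ∀ u' ∈ P, u * u' * u⁻¹ * u'⁻¹ ∈ Z :=
    fun u hu u' hu' => hP'Z₀ (Subgroup.commutator_mem_commutator hu hu')
  have hZA : ∀ x, ∀ z ∈ Z, act x z ∈ Z := by
    intro x z hz
    rw [hZmem]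
    refine ⟨hPA x z (hZP hz), ?_⟩
    intro t ht
    have h1 := hZS z hz (act x⁻¹ t) (hSA x⁻¹ t ht)
    have h2 := congrArg (act x) h1
    rw [map_mul, map_mul, act_inv_act] at h2
    exact h2
  have hZc : ∀ z ∈ Z, ∀ u ∈ P, u * z = z * u := by
    have h1 : ⁅⁅P, Z⁆, S⁆ = ⊥ := by
      rw [Subgroup.commutator_eq_bot_iff_le_centralizer]
      refine le_trans (Subgroup.commutator_mono le_rfl hZP) ?_
      intro g hg
      rw [Subgroup.mem_centralizer_iff]
      intro t ht
      exact hP'cent g hg t ht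
    have h2 : ⁅⁅Z, S⁆, P⁆ = ⊥ := by
      have h3 : ⁅Z, S⁆ = ⊥ := by
        rw [Subgroup.commutator_eq_bot_iff_le_centralizer]
        intro g hg
        rw [Subgroup.mem_centralizer_iff]
        intro t ht
        exact hZS g hg t ht
      rw [h3, Subgroup.commutator_bot_left]
    have h4 := Subgroup.commutator_commutator_eq_bot_of_rotate h1 h2
    rw [Subgroup.commutator_comm S P, hDeq,
      Subgroup.commutator_eq_bot_iff_le_centralizer] at h4
    intro z hz u hu
    have h5 := h4 hu
    rw [Subgroup.mem_centralizer_iff] at h5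
    exact (h5 z hz).symm
  have hndZ := hD.not_dvd hcop Z
  have hZfpf : ∀ z ∈ Z, (∀ x, act x z = z) → z = 1 := fun z hz h => hPfpf z (hZP hz) h
  -- `q`-th powers lie in `Z`
  have hqZ : ∀ u ∈ P, u ^ q ∈ Z := by
    obtain ⟨Q, hQ⟩ : ∃ Q : Subgroup Γ, Q = powSub P Z q hZc hP'Z := ⟨_, rfl⟩
    have hQmem : ∀ g, g ∈ Q ↔ ∃ w ∈ P, ∃ z ∈ Z, g = w ^ q * z := by
      intro g
      rw [hQ]
      rfl
    have hQP : Q ≤ P := by
      intro g hg
      obtain ⟨w, hw, z, hz, rfl⟩ := (hQmem g).mp hg
      exact P.mul_mem (P.pow_mem hw q) (hZP hz)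
    have hQne : Q ≠ P := by
      intro heq
      have h1 := le_of_powSub_eq P Z hZc hP'Z hPq (fun u hu => by
        rw [← hQ, heq]
        exact hu)
      exact hne₀ (hZS u₀ (h1 hu₀) t₀ ht₀)
    have hQA : ∀ x, ∀ u ∈ Q, act x u ∈ Q := by
      intro x u hu
      obtain ⟨w, hw, z, hz, rfl⟩ := (hQmem u).mp hu
      exact (hQmem _).mpr ⟨act x w, hPA x w hw, act x z, hZA x z hz, by rw [map_mul, map_pow]⟩
    have hQS : ∀ t ∈ S, ∀ u ∈ Q, t * u * t⁻¹ ∈ Q := by
      intro t ht u hu
      obtain ⟨w, hw, z, hz, rfl⟩ := (hQmem u).mp hu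
      refine (hQmem _).mpr ⟨t * w * t⁻¹, hPS t ht w hw, z, hz, ?_⟩
      rw [conj_pow]
      have h1 := hZS z hz t ht
      have e : t * z * t⁻¹ = z := by
        rw [h1]
        group
      calc t * (w ^ q * z) * t⁻¹ = (t * w ^ q * t⁻¹) * (t * z * t⁻¹) := by group
        _ = t * w ^ q * t⁻¹ * z := by rw [e]
    have hcent := hsmall Q hQP hQne hQA hQS
    intro u hu
    have huQ : u ^ q ∈ Q := (hQmem _).mpr ⟨u, hu, 1, Z.one_mem, by rw [mul_one]⟩
    exact (hZmem _).mpr ⟨P.pow_mem hu q, hcent _ huQ⟩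
  -- `⁅S, S⁆` centralizes `P`
  have hS'cent : ∀ c ∈ ⁅S, S⁆, ∀ u ∈ P, c * u = u * c := by
    have hS'S : ⁅S, S⁆ ≤ S := by
      rw [Subgroup.commutator_le]
      intro g₁ h₁ g₂ h₂
      exact S.mul_mem (S.mul_mem (S.mul_mem h₁ h₂) (S.inv_mem h₁)) (S.inv_mem h₂)
    have hS'ne : ⁅S, S⁆ ≠ S := by
      intro heq
      haveI : Nontrivial ↥S := by
        refine ⟨⟨⟨t₀, ht₀⟩, 1, ?_⟩⟩
        intro h
        exact ht₀1 (congrArg Subtype.val h)
      haveI : Group.IsNilpotent ↥S := hSs.isNilpotent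
      have hlt := Group.IsSolvable.commutator_lt_top_of_nontrivial ↥S
      apply ne_of_lt hlt
      have h2 : (commutator ↥S).map S.subtype = ⁅S, S⁆ := by
        rw [commutator_def, Subgroup.map_commutator, ← MonoidHom.range_eq_map,
          Subgroup.range_subtype]
      have h3 : (commutator ↥S).map S.subtype = (⊤ : Subgroup ↥S).map S.subtype := by
        rw [h2, heq, ← MonoidHom.range_eq_map, Subgroup.range_subtype]
      exact Subgroup.map_injective S.subtype_injective h3
    exact hsmallS ⁅S, S⁆ hS'S hS'ne (hcommA S S hSA hSA)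
  have hS'P : ∀ t ∈ S, ∀ t' ∈ S, ∀ u ∈ P,
      t * t' * u * (t * t')⁻¹ = t' * t * u * (t' * t)⁻¹ := by
    intro t ht t' ht' u hu
    have hc : t * t' * t⁻¹ * t'⁻¹ ∈ ⁅S, S⁆ := Subgroup.commutator_mem_commutator ht ht'
    have hy : t' * t * u * (t' * t)⁻¹ ∈ P := hPS _ (S.mul_mem ht' ht) u hu
    have h1 := hS'cent _ hc _ hy
    calc t * t' * u * (t * t')⁻¹
        = (t * t' * t⁻¹ * t'⁻¹) * (t' * t * u * (t' * t)⁻¹) * (t * t' * t⁻¹ * t'⁻¹)⁻¹ := by
          group
      _ = (t' * t * u * (t' * t)⁻¹) * (t * t' * t⁻¹ * t'⁻¹) * (t * t' * t⁻¹ * t'⁻¹)⁻¹ := by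
          rw [h1]
      _ = t' * t * u * (t' * t)⁻¹ := by group
  have hgenP : ∀ N : Subgroup Γ, (∀ t ∈ S, ∀ u ∈ P, t * u * t⁻¹ * u⁻¹ ∈ N) → P ≤ N := by
    intro N hN
    have h1 : ⁅S, P⁆ ≤ N := by
      rw [Subgroup.commutator_le]
      intro t ht u hu
      exact hN t ht u hu
    rw [Subgroup.commutator_comm, hDeq] at h1
    exact h1
  -- invariance of the eigenspaces of `Z`
  have hXP : ∀ (lam : Γ → K), ∀ u ∈ P, ∀ v ∈ eig ρ Z lam, ρ u v ∈ eig ρ Z lam := by
    intro lam u hu v hv
    rw [mem_eig] at hv ⊢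
    intro z hz
    rw [← Module.End.mul_apply, ← map_mul, ← hZc z hz u hu, map_mul, Module.End.mul_apply,
      hv z hz, map_smul]
  have hXS : ∀ (lam : Γ → K), ∀ t ∈ S, ∀ v ∈ eig ρ Z lam, ρ t v ∈ eig ρ Z lam := by
    intro lam t ht v hv
    rw [mem_eig] at hv ⊢
    intro z hz
    rw [← Module.End.mul_apply, ← map_mul, ← hZS z hz t ht, map_mul, Module.End.mul_apply,
      hv z hz, map_smul]
  -- twisted eigenvectors
  have htw : ∀ (lam' : Γ → K) (w : V), w ∈ eig ρ P lam' → ∀ t ∈ S,
      ρ t w ∈ eig ρ P (fun g => lam' (t⁻¹ * g * t)) := by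
    intro lam' w hw t ht
    rw [mem_eig]
    intro u hu
    have e : u * t = t * (t⁻¹ * u * t) := by group
    rw [← hρmul, e, hρmul, (mem_eig ρ).mp hw _ (hPS' t ht u hu), map_smul]
  -- the stabilizer in `S` of an eigen-function of `P`
  have hS₁ex : ∀ lam' : Γ → K, ∃ S₁ : Subgroup Γ,
      ∀ g, g ∈ S₁ ↔ g ∈ S ∧ ∀ u ∈ P, lam' (g⁻¹ * u * g) = lam' u := by
    intro lam'
    refine ⟨{ carrier := {g | g ∈ S ∧ ∀ u ∈ P, lam' (g⁻¹ * u * g) = lam' u}
              one_mem' := ⟨S.one_mem, fun u _ => by rw [inv_one, one_mul, mul_one]⟩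
              mul_mem' := by
                rintro g g' ⟨hg, hg'⟩ ⟨hg2, hg2'⟩
                refine ⟨S.mul_mem hg hg2, fun u hu => ?_⟩
                have e : (g * g')⁻¹ * u * (g * g') = g'⁻¹ * (g⁻¹ * u * g) * g' := by group
                rw [e, hg2' _ (hPS' g hg u hu), hg' u hu]
              inv_mem' := by
                rintro g ⟨hg, hg'⟩
                refine ⟨S.inv_mem hg, fun u hu => ?_⟩
                have h1 := hg' _ (hPS g hg u hu)
                have e : g⁻¹ * (g * u * g⁻¹) * g = u := by group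
                rw [e] at h1
                rw [inv_inv]
                exact h1.symm }, fun g => Iff.rfl⟩
  -- if `S` fixes a nontrivial eigen-function of `P`, contradiction
  have hSfix : ∀ (lam' : Γ → K), lam' 1 = 1 →
      (∀ g ∈ P, ∀ g' ∈ P, lam' (g * g') = lam' g * lam' g') →
      (∀ t ∈ S, ∀ u ∈ P, lam' (t⁻¹ * u * t) = lam' u) → ∀ u ∈ P, lam' u = 1 := by
    intro lam' h1' hmul' hall u₁ hu₁
    have hPN := hgenP (kerSub P lam' h1' hmul') (by
      intro t ht u hu
      show t * u * t⁻¹ * u⁻¹ ∈ P ∧ lam' (t * u * t⁻¹ * u⁻¹) = 1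
      refine ⟨P.mul_mem (hPS t ht u hu) (P.inv_mem hu), ?_⟩
      rw [hmul' _ (hPS t ht u hu) _ (P.inv_mem hu)]
      have h3 := hall t⁻¹ (S.inv_mem ht) u hu
      rw [inv_inv] at h3
      rw [h3, ← hmul' u hu _ (P.inv_mem hu), mul_inv_cancel, h1'])
    exact (hPN hu₁).2
  -- the subgroup `T = C_S(f₀)`
  obtain ⟨T, hTdef⟩ : ∃ T : Subgroup Γ, T = S ⊓ fixSub (act f₀) := ⟨_, rfl⟩
  have hTmem : ∀ t, t ∈ T ↔ t ∈ S ∧ act f₀ t = t := by
    intro t
    rw [hTdef]
    rfl
  have hTS : T ≤ S := fun t ht => ((hTmem t).mp ht).1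
  have hTA : ∀ x, ∀ t ∈ T, act x t ∈ T := by
    intro x t ht
    rw [hTmem] at ht ⊢
    exact ⟨hSA x t ht.1, hD.fix_inv act ht.2 x⟩
  by_cases hT : T = S
  · -- type I: `f₀` centralizes `S`
    have hSF : ∀ t ∈ S, act f₀ t = t := by
      intro t ht
      rw [← hT] at ht
      exact ((hTmem t).mp ht).2
    have hSfpfb : ∀ b, b ∉ F → ∀ t ∈ S, act b t = t → t = 1 :=
      fun b hb t ht hbt => hSfpf t ht (hD.act_all act hb (hSF t ht) hbt)
    obtain ⟨Cm, hCm⟩ : ∃ Cm : Submodule K V, ∀ v, v ∈ Cm ↔ ∀ u ∈ P, ρ (act f₀ u) v = ρ u v :=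
      ⟨{ carrier := {v | ∀ u ∈ P, ρ (act f₀ u) v = ρ u v}
         add_mem' := by
           intro a b ha hb u hu
           rw [map_add, map_add, ha u hu, hb u hu]
         zero_mem' := by
           intro u hu
           rw [map_zero, map_zero]
         smul_mem' := by
           intro c a ha u hu
           rw [map_smul, map_smul, ha u hu] }, fun v => Iff.rfl⟩
    have htop := two_layers hqK ρ P Z hPq hZP hZc hP'Z Cm
      (by
        intro lam hne v hv hv0
        rw [hCm]
        by_cases hf₀ : f₀ ∈ stab act Z hZA lam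
        · have hfix := hD.stab_F hequiv hVfix Z hndZ.1 hndZ.2 hZA hZfpf lam
            (eig_lam_one hv hv0) (eig_lam_mul hv hv0) hne hf₀
          have hsh := shult_sub (q := q) (r := p) hp hqp hqK hpK ρ (act f₀) (op f₀) hofp
            (hequiv f₀) P hPq (hPA f₀)
            (by
              rintro ⟨hq2, k, hk⟩
              exact hqr (by rw [hq2, hD.fermat k hk]))
            (eig ρ Z lam) (hXP lam)
            (fun v hv => op_mem_eig_of_stab hequiv Z hZA lam hf₀ v hv) hfix
          exact fun u hu => hsh u hu v hv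
        · exfalso
          obtain ⟨b, hb, hbF, hbr, hbfix⟩ :=
            hD.stab_b hequiv hVfix Z hZA lam ⟨v, hv, hv0⟩ hf₀
          have htriv := fc_triv (q := q) (r := r) hr hqr hqK hrK ρ (act b)
            (by rw [← map_pow, hbr, map_one]) (op b) (by rw [← map_pow, hbr, map_one])
            (hequiv b) P S Z hPq hSq hSr (hPA b) (hSA b) hPS hZP hZc hP'Z hqZ hS'P
            (fun t ht hbt u hu => by rw [hSfpfb b hbF t ht hbt, one_mul, mul_one]) hgenP
            (eig ρ Z lam) (hXP lam) (hXS lam)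
            (fun v hv => op_mem_eig_of_stab hequiv Z hZA lam hb v hv) hbfix
          obtain ⟨z, hz, hz1⟩ := hne
          apply hz1
          have h1 := htriv z (hZP hz) v hv
          have h2 := (mem_eig ρ).mp hv z hz
          rw [h1] at h2
          exact smul_left_injective K hv0 (by
            show lam z • v = (1 : K) • v
            rw [one_smul]
            exact h2.symm))
      (by
        intro lam' hlamZ w hw hw0
        rw [hCm]
        by_cases hf₀ : f₀ ∈ stab act P hPA lam'
        · intro u hu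
          rw [(mem_eig ρ).mp hw _ (hPA f₀ u hu), (mem_eig ρ).mp hw u hu, hf₀ u hu]
        · exfalso
          have h1' := eig_lam_one hw hw0
          have hmul' := eig_lam_mul hw hw0
          have hone : ∃ u₁ ∈ P, lam' u₁ ≠ 1 := by
            by_contra hcon
            push Not at hcon
            apply hf₀
            intro u hu
            rw [hcon _ (hPA f₀ u hu), hcon u hu]
          obtain ⟨b, hb, hbF, hbr, -⟩ := hD.stab_b hequiv hVfix P hPA lam' ⟨w, hw, hw0⟩ hf₀
          have hFstab : ∀ f ∈ F, f ∈ stab act P hPA lam' → f = 1 := by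
            intro f hf hfs
            by_contra hf1
            obtain ⟨j, hj⟩ := hD.F_prime f hf hf1
            apply hf₀
            rw [hj]
            exact Subgroup.pow_mem _ hfs j
          obtain ⟨S₁, hS₁mem⟩ := hS₁ex lam'
          have hS₁S : S₁ ≤ S := fun g hg => ((hS₁mem g).mp hg).1
          have hrS₁ : ¬ r ∣ Nat.card S₁ :=
            fun h => hndS.2 (h.trans (Subgroup.card_dvd_of_le hS₁S))
          have hS₁stab : ∀ y ∈ stab act P hPA lam', ∀ g ∈ S₁, act y g ∈ S₁ := by
            intro y hy g hg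
            rw [hS₁mem] at hg ⊢
            refine ⟨hSA y g hg.1, fun u hu => ?_⟩
            have hyinv : ∀ u ∈ P, lam' (act y⁻¹ u) = lam' u := Subgroup.inv_mem _ hy
            have e : (act y g)⁻¹ * u * act y g = act y (g⁻¹ * act y⁻¹ u * g) := by
              rw [map_mul, map_mul, map_inv, act_inv_act]
            rw [e, hy _ (hPS' g hg.1 _ (hPA y⁻¹ u hu)), hg.2 _ (hPA y⁻¹ u hu), hyinv u hu]
          have hall : ∀ t ∈ S, t ∈ S₁ := by
            intro t ht
            obtain ⟨μ, hμ⟩ : ∃ μ : Γ → K, μ = fun g => lam' (t⁻¹ * g * t) := ⟨_, rfl⟩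
            have hμapp : ∀ g, μ g = lam' (t⁻¹ * g * t) := fun g => by rw [hμ]
            have hf₀μ : f₀ ∉ stab act P hPA μ := by
              intro h
              apply hf₀
              intro u hu
              have h1 := h _ (hPS t ht u hu)
              rw [hμapp, hμapp, map_mul, map_mul, map_inv, hSF t ht] at h1
              have e1 : t⁻¹ * (t * act f₀ u * t⁻¹) * t = act f₀ u := by group
              have e2 : t⁻¹ * (t * u * t⁻¹) * t = u := by group
              rw [e1, e2] at h1
              exact h1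
            obtain ⟨b', hb', hb'F, -, -⟩ := hD.stab_b hequiv hVfix P hPA μ
              ⟨ρ t w, by rw [hμ]; exact htw lam' w hw t ht, fun h => hw0 (hρinj t w h)⟩ hf₀μ
            obtain ⟨f, hf, m, hb'eq⟩ := hD.gen b hbF b'
            obtain ⟨c, hc⟩ : ∃ c : A, c = b ^ m := ⟨_, rfl⟩
            rw [← hc] at hb'eq
            have hcF : c ∉ F := by
              intro h
              apply hb'F
              rw [hb'eq]
              exact F.mul_mem hf h
            have hcs : c ∈ stab act P hPA lam' := by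
              rw [hc]
              exact Subgroup.pow_mem _ hb m
            have hcr : c ^ r = 1 := by rw [hc, ← pow_mul, mul_comm, pow_mul, hbr, one_pow]
            have ht₂ : act c⁻¹ t ∈ S := hSA c⁻¹ t ht
            obtain ⟨t₃, ht₃def⟩ : ∃ t₃ : Γ, t₃ = (act c⁻¹ t)⁻¹ * t := ⟨_, rfl⟩
            have ht₃ : t₃ ∈ S := by
              rw [ht₃def]
              exact S.mul_mem (S.inv_mem ht₂) ht
            obtain ⟨f', hf'def⟩ : ∃ f' : A, f' = c⁻¹ * f * c := ⟨_, rfl⟩
            have hf' : f' ∈ F := by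
              rw [hf'def]
              have := hD.conj_mem f hf c⁻¹
              rwa [inv_inv] at this
            have hE2 : ∀ u ∈ P, lam' (act f' u) = lam' (t₃⁻¹ * u * t₃) := by
              intro u hu
              have hu' : act c⁻¹ t * u * (act c⁻¹ t)⁻¹ ∈ P := hPS _ ht₂ u hu
              have h1 := hb' _ hu'
              rw [hμapp, hμapp, hb'eq] at h1
              have e0 : act (f * c) (act c⁻¹ t * u * (act c⁻¹ t)⁻¹) =
                  t * act f (act c u) * t⁻¹ := by
                have ea : act (f * c) = act f * act c := map_mul act f c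
                rw [ea, MulAut.mul_apply, map_mul (act c), map_mul (act c), map_inv (act c),
                  act_inv_act, map_mul (act f), map_mul (act f), map_inv (act f),
                  hD.act_F act (hSF t ht) f hf]
              rw [e0] at h1
              have e1 : t⁻¹ * (t * act f (act c u) * t⁻¹) * t = act f (act c u) := by group
              have e2 : t⁻¹ * (act c⁻¹ t * u * (act c⁻¹ t)⁻¹) * t = t₃⁻¹ * u * t₃ := by
                rw [ht₃def]
                group
              rw [e1, e2] at h1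
              have e3 : act f (act c u) = act c (act f' u) := by
                have e : f * c = c * f' := by
                  rw [hf'def]
                  group
                rw [← MulAut.mul_apply, ← map_mul, e, map_mul, MulAut.mul_apply]
              rw [e3, hcs _ (hPA _ u hu)] at h1
              exact h1
            have hpowarg : ∀ k : ℕ, ∀ u ∈ P,
                lam' (act (f' ^ k) u) = lam' ((t₃ ^ k)⁻¹ * u * t₃ ^ k) := by
              intro k
              induction k with
              | zero =>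
                intro u hu
                simp
              | succ k ih =>
                intro u hu
                have e : act (f' ^ (k + 1)) u = act f' (act (f' ^ k) u) := by
                  rw [pow_succ', map_mul, MulAut.mul_apply]
                have hu2 : act (f' ^ k) u ∈ P := hPA _ u hu
                have hfk : act (f' ^ k) t₃ = t₃ :=
                  hD.act_F act (hSF t₃ ht₃) _ (F.pow_mem hf' k)
                have e2 : t₃⁻¹ * act (f' ^ k) u * t₃ = act (f' ^ k) (t₃⁻¹ * u * t₃) := by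
                  rw [map_mul, map_mul, map_inv, hfk]
                rw [e, hE2 _ hu2, e2, ih _ (hPS' t₃ ht₃ u hu)]
                congr 1
                rw [pow_succ]
                group
            have hf'1 : f' = 1 := by
              have h1 : f' ^ orderOf t₃ ∈ stab act P hPA lam' := by
                intro u hu
                rw [hpowarg _ u hu, pow_orderOf_eq_one, inv_one, one_mul, mul_one]
              have h2 := hFstab _ (F.pow_mem hf' _) h1
              have h3 : f' ^ p = 1 := by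
                obtain ⟨i, hi⟩ := hD.F_gen f' hf'
                rw [hi, ← pow_mul, mul_comm, pow_mul, hD.f₀_pow, one_pow]
              have h4 : (orderOf t₃).Coprime p :=
                Nat.Coprime.coprime_dvd_left (orderOf_dvd_natCard t₃)
                  (Nat.Coprime.coprime_dvd_right (dvd_mul_right p r) hcop)
              have h5 : f' ^ Nat.gcd (orderOf t₃) p = 1 := pow_gcd_eq_one.mpr ⟨h2, h3⟩
              rw [Nat.Coprime.gcd_eq_one h4, pow_one] at h5
              exact h5
            have ht₃S₁ : t₃ ∈ S₁ := by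
              rw [hS₁mem]
              refine ⟨ht₃, fun u hu => ?_⟩
              rw [← hE2 u hu, hf'1, map_one, MulAut.one_apply]
            have hd : t⁻¹ * act c⁻¹ t ∈ S₁ := by
              have e : t⁻¹ * act c⁻¹ t = t₃⁻¹ := by
                rw [ht₃def]
                group
              rw [e]
              exact S₁.inv_mem ht₃S₁
            obtain ⟨w', hw1, hw2⟩ := exists_fixed_in_coset_single (act c⁻¹)
              (by rw [← map_pow, inv_pow, hcr, inv_one, map_one]) S₁ hrS₁
              (hS₁stab c⁻¹ (Subgroup.inv_mem _ hcs)) t hd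
            have hw'S : w' ∈ S := by
              have e : w' = t * (t⁻¹ * w') := by group
              rw [e]
              exact S.mul_mem ht (hS₁S hw1)
            have hw'1 : w' = 1 := hSfpfb c⁻¹ (fun h => hcF (by
              have := F.inv_mem h
              rwa [inv_inv] at this)) w' hw'S hw2
            rw [hw'1, mul_one] at hw1
            have := S₁.inv_mem hw1
            rwa [inv_inv] at this
          obtain ⟨u₁, hu₁, hu₁1⟩ := hone
          exact hu₁1 (hSfix lam' h1' hmul'
            (fun t ht u hu => ((hS₁mem t).mp (hall t ht)).2 u hu) u₁ hu₁))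
    have hFP : ∀ u ∈ P, act f₀ u = u := by
      intro u hu
      have h1 : ρ (act f₀ u * u⁻¹) = 1 := by
        apply LinearMap.ext
        intro v
        rw [map_mul, Module.End.mul_apply, (hCm _).mp (htop (ρ u⁻¹ v)) u hu,
          ← Module.End.mul_apply, ← map_mul, mul_inv_cancel, map_one]
      have h2 := hfaith _ (P.mul_mem (hPA f₀ u hu) (P.inv_mem hu)) h1
      exact mul_inv_eq_one.mp h2
    exact hne₀ (thompson_quot hsol hr hq hs hqs (act a₀)
      (by rw [← map_pow, hD.a₀_pow, map_one]) P S hPq hSs hndS.2 (hPA a₀) (hSA a₀) hPS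
      (fun u hu h => hPfpf u hu (hD.act_all act hD.a₀_nmem (hFP u hu) h))
      (fun t ht h u hu => by rw [hSfpfb a₀ hD.a₀_nmem t ht h, one_mul, mul_one]) t₀ ht₀ u₀ hu₀)
  · -- type II: `C_S(f₀)` is proper, hence centralizes `P`
    have hTcent := hsmallS T hTS hT hTA
    obtain ⟨Cm, hCm⟩ : ∃ Cm : Submodule K V,
        ∀ v, v ∈ Cm ↔ ∀ u ∈ P, act f₀ u = u → ρ u v = v :=
      ⟨{ carrier := {v | ∀ u ∈ P, act f₀ u = u → ρ u v = v}
         add_mem' := by
           intro a b ha hb u hu hfu
           rw [map_add, ha u hu hfu, hb u hu hfu]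
         zero_mem' := by
           intro u hu _
           rw [map_zero]
         smul_mem' := by
           intro c a ha u hu hfu
           rw [map_smul, ha u hu hfu] }, fun v => Iff.rfl⟩
    have htop := two_layers hqK ρ P Z hPq hZP hZc hP'Z Cm
      (by
        intro lam hne v hv hv0
        rw [hCm]
        by_cases hf₀ : f₀ ∈ stab act Z hZA lam
        · exfalso
          have hfix := hD.stab_F hequiv hVfix Z hndZ.1 hndZ.2 hZA hZfpf lam
            (eig_lam_one hv hv0) (eig_lam_mul hv hv0) hne hf₀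
          have htriv := fc_triv (q := q) (r := p) hp hqp hqK hpK ρ (act f₀) hfp (op f₀) hofp
            (hequiv f₀) P S Z hPq hSq hSp (hPA f₀) (hSA f₀) hPS hZP hZc hP'Z hqZ hS'P
            (fun t ht hft u hu => hTcent t ((hTmem t).mpr ⟨ht, hft⟩) u hu) hgenP
            (eig ρ Z lam) (hXP lam) (hXS lam)
            (fun v hv => op_mem_eig_of_stab hequiv Z hZA lam hf₀ v hv) hfix
          obtain ⟨z, hz, hz1⟩ := hne
          apply hz1
          have h1 := htriv z (hZP hz) v hv
          have h2 := (mem_eig ρ).mp hv z hz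
          rw [h1] at h2
          exact smul_left_injective K hv0 (by
            show lam z • v = (1 : K) • v
            rw [one_smul]
            exact h2.symm)
        · intro u hu hfu
          exact hD.eig_triv hequiv Z hZA lam hf₀ u hfu (hnil u hu hfu) (hXP lam u hu) v hv)
      (by
        intro lam' hlamZ w hw hw0
        rw [hCm]
        by_cases hone : ∀ u ∈ P, lam' u = 1
        · intro u hu _
          rw [(mem_eig ρ).mp hw u hu, hone u hu, one_smul]
        by_cases hf₀ : f₀ ∈ stab act P hPA lam'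
        · exfalso
          push Not at hone
          have h1' := eig_lam_one hw hw0
          have hmul' := eig_lam_mul hw hw0
          have hf₀inv : ∀ u ∈ P, lam' (act f₀⁻¹ u) = lam' u := Subgroup.inv_mem _ hf₀
          obtain ⟨S₁, hS₁mem⟩ := hS₁ex lam'
          have hS₁S : S₁ ≤ S := fun g hg => ((hS₁mem g).mp hg).1
          have hpS₁ : ¬ p ∣ Nat.card S₁ :=
            fun h => hndS.1 (h.trans (Subgroup.card_dvd_of_le hS₁S))
          have hS₁f : ∀ g ∈ S₁, act f₀ g ∈ S₁ := by
            intro g hg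
            rw [hS₁mem] at hg ⊢
            refine ⟨hSA f₀ g hg.1, fun u hu => ?_⟩
            have e : (act f₀ g)⁻¹ * u * act f₀ g = act f₀ (g⁻¹ * act f₀⁻¹ u * g) := by
              rw [map_mul, map_mul, map_inv, act_inv_act]
            rw [e, hf₀ _ (hPS' g hg.1 _ (hPA f₀⁻¹ u hu)), hg.2 _ (hPA f₀⁻¹ u hu),
              hf₀inv u hu]
          have hsubA : ∀ t ∈ S,
              (∀ u ∈ P, lam' (t⁻¹ * act f₀ u * t) = lam' (t⁻¹ * u * t)) → t ∈ S₁ := by
            intro t ht hinv
            have hd : t⁻¹ * act f₀ t ∈ S₁ := by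
              rw [hS₁mem]
              refine ⟨S.mul_mem (S.inv_mem ht) (hSA f₀ t ht), fun u hu => ?_⟩
              have e : (t⁻¹ * act f₀ t)⁻¹ * u * (t⁻¹ * act f₀ t) =
                  act f₀ (t⁻¹ * act f₀⁻¹ (t * u * t⁻¹) * t) := by
                rw [map_mul, map_mul, map_inv, act_inv_act]
                group
              have hy : t * u * t⁻¹ ∈ P := hPS t ht u hu
              have hy' : act f₀⁻¹ (t * u * t⁻¹) ∈ P := hPA f₀⁻¹ _ hy
              rw [e, hf₀ _ (hPS' t ht _ hy')]
              have h2 := hinv _ hy'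
              rw [act_inv_act] at h2
              rw [← h2]
              congr 1
              group
            obtain ⟨w', hw1, hw2⟩ := exists_fixed_in_coset_single (act f₀) hfp S₁ hpS₁ hS₁f
              t hd
            have hw'S : w' ∈ S := by
              have e : w' = t * (t⁻¹ * w') := by group
              rw [e]
              exact S.mul_mem ht (hS₁S hw1)
            have hw'c := hTcent w' ((hTmem w').mpr ⟨hw'S, hw2⟩)
            have hw'S₁ : w' ∈ S₁ := by
              rw [hS₁mem]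
              refine ⟨hw'S, fun u hu => ?_⟩
              have e : w'⁻¹ * u * w' = u := by
                rw [mul_assoc, ← hw'c u hu]
                group
              rw [e]
            have e : t = w' * (t⁻¹ * w')⁻¹ := by group
            rw [e]
            exact S₁.mul_mem hw'S₁ (S₁.inv_mem hw1)
          have hall : ∀ t ∈ S, t ∈ S₁ := by
            intro t ht
            by_contra htS₁
            obtain ⟨μ, hμ⟩ : ∃ μ : Γ → K, μ = fun g => lam' (t⁻¹ * g * t) := ⟨_, rfl⟩
            have hμapp : ∀ g, μ g = lam' (t⁻¹ * g * t) := fun g => by rw [hμ]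
            have hf₀μ : f₀ ∉ stab act P hPA μ := by
              intro h
              apply htS₁
              apply hsubA t ht
              intro u hu
              have h1 := h u hu
              rw [hμapp, hμapp] at h1
              exact h1
            obtain ⟨b, hb, hbF, -, -⟩ := hD.stab_b hequiv hVfix P hPA μ
              ⟨ρ t w, by rw [hμ]; exact htw lam' w hw t ht, fun h => hw0 (hρinj t w h)⟩ hf₀μ
            have ht' : act b⁻¹ t ∈ S := hSA b⁻¹ t ht
            obtain ⟨t₁, ht₁def⟩ : ∃ t₁ : Γ, t₁ = (act b⁻¹ t)⁻¹ * t := ⟨_, rfl⟩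
            have ht₁ : t₁ ∈ S := by
              rw [ht₁def]
              exact S.mul_mem (S.inv_mem ht') ht
            have hν : ∀ u ∈ P, lam' (act b u) = lam' (t₁⁻¹ * u * t₁) := by
              intro u hu
              have hu' : act b⁻¹ t * u * (act b⁻¹ t)⁻¹ ∈ P := hPS _ ht' u hu
              have h1 := hb _ hu'
              rw [hμapp, hμapp, map_mul (act b), map_mul (act b), map_inv (act b),
                act_inv_act] at h1
              have e1 : t⁻¹ * (t * act b u * t⁻¹) * t = act b u := by group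
              have e2 : t⁻¹ * (act b⁻¹ t * u * (act b⁻¹ t)⁻¹) * t = t₁⁻¹ * u * t₁ := by
                rw [ht₁def]
                group
              rw [e1, e2] at h1
              exact h1
            have ht₁S₁ : t₁ ∈ S₁ := by
              apply hsubA _ ht₁
              intro u hu
              rw [← hν _ (hPA f₀ u hu), ← hν u hu]
              have hf : b * f₀ * b⁻¹ ∈ F := hD.conj_mem f₀ hD.f₀_mem b
              have hfs : b * f₀ * b⁻¹ ∈ stab act P hPA lam' := by
                obtain ⟨i, hi⟩ := hD.F_gen _ hf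
                rw [hi]
                exact Subgroup.pow_mem _ hf₀ i
              have e : act b (act f₀ u) = act (b * f₀ * b⁻¹) (act b u) := by
                rw [← MulAut.mul_apply, ← MulAut.mul_apply, ← map_mul, ← map_mul,
                  inv_mul_cancel_right]
              rw [e]
              exact hfs _ (hPA b u hu)
            have hbs : b ∈ stab act P hPA lam' := by
              intro u hu
              rw [hν u hu]
              exact ((hS₁mem t₁).mp ht₁S₁).2 u hu
            obtain ⟨u₁, hu₁, hu₁1⟩ := hone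
            apply hu₁1
            apply hD.char_one P hndP.1 hndP.2 hPA hPfpf lam' h1' hmul' _ u₁ hu₁
            intro x
            obtain ⟨f, hf, m, rfl⟩ := hD.gen b hbF x
            obtain ⟨i, rfl⟩ := hD.F_gen f hf
            have hmem : f₀ ^ i * b ^ m ∈ stab act P hPA lam' :=
              Subgroup.mul_mem _ (Subgroup.pow_mem _ hf₀ i) (Subgroup.pow_mem _ hbs m)
            exact hmem
          obtain ⟨u₁, hu₁, hu₁1⟩ := hone
          exact hu₁1 (hSfix lam' h1' hmul'
            (fun t ht u hu => ((hS₁mem t).mp (hall t ht)).2 u hu) u₁ hu₁)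
        · intro u hu hfu
          exact hD.eig_triv hequiv P hPA lam' hf₀ u hfu (hnil u hu hfu)
            (fun v hv => by
              rw [(mem_eig ρ).mp hv u hu]
              exact Submodule.smul_mem _ _ hv) w hw)
    have hCPF : ∀ u ∈ P, act f₀ u = u → u = 1 := fun u hu hfu =>
      hfaith u hu (LinearMap.ext (fun v => (hCm v).mp (htop v) u hu hfu))
    exact hne₀ (thompson_quot hsol hp hq hs hqs (act f₀) hfp P S hPq hSs hndS.1 (hPA f₀)
      (hSA f₀) hPS hCPF (fun t ht h u hu => hTcent t ((hTmem t).mpr ⟨ht, h⟩) u hu)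
      t₀ ht₀ u₀ hu₀)

end KP

end Cfsg.Agent.Helper63.Frob
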