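-- helper63 library: a finite solvable group with a fixed-point-free coprime action of a
-- non-abelian group of order `p r` has a nilpotent normal subgroup with nilpotent quotient;
-- add-only once landed.
import Cfsg.Agent.Helper63.FrobKP

set_option autoImplicit false
set_option maxHeartbeats 1000000

namespace Cfsg.Agent.Helper63.Frob

open Cfsg.Agent.Helper63.Gross Cfsg.Agent.Helper63.Fpf4 Cfsg.Agent.Helper63.Shult
  Cfsg.Agent.Helper63.AddCharRep Cfsg.Agent.Helper63.Ward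

open scoped commutatorElement Pointwise

universe u v w w'

section Fix

variable {G : Type u} [Group G] {A : Type v} [Group A] {F : Subgroup A} {f₀ a₀ : A} {p r : ℕ}

/-- The fixed points of `f₀` form a nilpotent group. -/
theorem FD.fix_nilpotent [Finite G] (hD : FD F f₀ a₀ p r) (hsol : Group.IsSolvable G)
    (act : A →* MulAut G) (hfpf : ∀ g, (∀ x, act x g = g) → g = 1) :
    Group.IsNilpotent ↥(fixSub (act f₀)) := by
  have h1 : ∀ g ∈ fixSub (act f₀), act a₀ g ∈ fixSub (act f₀) :=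
    fun g hg => hD.fix_inv act hg a₀
  have h2 : ∀ g ∈ fixSub (act f₀), (act a₀).symm g ∈ fixSub (act f₀) :=
    symm_mem_of_finite (act a₀) _ h1
  haveI : Group.IsSolvable ↥(fixSub (act f₀)) := inferInstance
  apply nilpotent_of_fpf_prime inferInstance hD.hr (resAut (act a₀) (fixSub (act f₀)) h1 h2)
  · apply MulEquiv.ext
    intro g
    apply Subtype.ext
    rw [resAut_pow_coe, ← map_pow, hD.a₀_pow, map_one]
    rfl
  · intro g hg
    have hga : act f₀ (g : G) = g := g.2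
    have hgd : act a₀ (g : G) = g := congrArg Subtype.val hg
    exact Subtype.ext (hfpf _ (hD.act_all act hD.a₀_nmem hga hgd))

end Fix

section LinSetup2

variable {G : Type u} [Group G] {A : Type v} [Group A] (M : Subgroup G) [hMn : M.Normal]
  (K : Type w) [Field K] {F : Subgroup A} {f₀ a₀ : A} {p r : ℕ}

/-- Elements of `q`-power order of `G ⧸ C` fixed by `f₀` act trivially on the additive
functions fixed by `f₀`. -/
theorem FD.hnil_lemma [Finite G] (hD : FD F f₀ a₀ p r) (hsol : Group.IsSolvable G)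
    (hcop : (Nat.card G).Coprime (p * r)) {ℓ q : ℕ}
    (hℓ : ℓ.Prime) (hq : q.Prime) (hqℓ : q ≠ ℓ) (act : A →* MulAut G)
    (hfpf : ∀ g, (∀ x, act x g = g) → g = 1)
    (hMab : ∀ x ∈ M, ∀ y ∈ M, x * y = y * x) (hMℓ : ∀ x ∈ M, x ^ ℓ = 1)
    (hMA : ∀ x, ∀ g ∈ M, act x g ∈ M) (C : Subgroup G) [C.Normal]
    (hC : ∀ c ∈ C, ∀ a ∈ M, a * c = c * a) (hCA : ∀ x, ∀ g ∈ C, act x g ∈ C)
    (hpK : (p : K) ≠ 0) (u : G ⧸ C) (j : ℕ) (huq : u ^ q ^ j = 1)
    (hu : quotAct act C hCA f₀ u = u) (f : ↥(addChar M K))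
    (hf : opA M K act hMA f₀ f = f) : rhoQ M K C hC u f = f := by
  classical
  haveI : Fact p.Prime := ⟨hD.hp⟩
  have hpC : ¬ p ∣ Nat.card C := (hD.not_dvd hcop C).1
  have hfp : act f₀ ^ p = 1 := by rw [← map_pow, hD.f₀_pow, map_one]
  induction u using QuotientGroup.induction_on with
  | _ g₀ =>
  rw [quotAct_mk] at hu
  obtain ⟨g, hg1, hg2⟩ := exists_fixed_in_coset_single (act f₀) hfp C hpC (hCA f₀) g₀
    (QuotientGroup.eq.mp hu.symm)
  have hgu : (g : G ⧸ C) = (g₀ : G ⧸ C) := (QuotientGroup.eq.mpr hg1).symm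
  obtain ⟨z, y, i, hz1, hz2⟩ := exists_zpow_qpart g hq j
  have hg'u : ((g ^ z : G) : G ⧸ C) = (g₀ : G ⧸ C) := by
    rw [QuotientGroup.mk_zpow, hgu]
    have h1 : (g₀ : G ⧸ C) ^ (y * (q : ℤ) ^ j) = 1 := by
      rw [mul_comm, zpow_mul, ← Nat.cast_pow, zpow_natCast, huq, one_zpow]
    calc (g₀ : G ⧸ C) ^ z
        = (g₀ : G ⧸ C) ^ (z + y * (q : ℤ) ^ j) * ((g₀ : G ⧸ C) ^ (y * (q : ℤ) ^ j))⁻¹ := by
          rw [zpow_add, mul_inv_cancel_right]
      _ = (g₀ : G ⧸ C) := by rw [hz2, zpow_one, h1, inv_one, mul_one]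
  have hg'c : act f₀ (g ^ z) = g ^ z := by rw [map_zpow, hg2]
  haveI hnilD : Group.IsNilpotent ↥(fixSub (act f₀)) := hD.fix_nilpotent hsol act hfpf
  have hcent : ∀ m ∈ M, act f₀ m = m → g ^ z * m = m * g ^ z := by
    intro m hm hcm
    have h1 := commute_of_nilpotent hq hℓ hqℓ (⟨g ^ z, hg'c⟩ : ↥(fixSub (act f₀))) ⟨m, hcm⟩
      ⟨i, Subtype.ext (by
        rw [Subgroup.coe_pow]
        exact hz1)⟩
      ⟨1, Subtype.ext (by
        rw [Subgroup.coe_pow, pow_one]
        exact hMℓ m hm)⟩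
    exact congrArg Subtype.val h1
  rw [← hg'u]
  apply Subtype.ext
  funext a
  show (f : ↥M → K) (conjV (toNorm M (g ^ z)) a) = (f : ↥M → K) a
  obtain ⟨Ff, hFf⟩ : ∃ Ff : G → K,
      Ff = fun x => if h : x ∈ M then (f : ↥M → K) ⟨x, h⟩ else 0 := ⟨_, rfl⟩
  have hFM : ∀ x (h : x ∈ M), Ff x = (f : ↥M → K) ⟨x, h⟩ := by
    intro x h
    rw [hFf]
    show (if h : x ∈ M then (f : ↥M → K) ⟨x, h⟩ else 0) = _
    rw [dif_pos h]
  have hFmul : ∀ x ∈ M, ∀ y ∈ M, Ff (x * y) = Ff x + Ff y := by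
    intro x hx y hy
    rw [hFM _ (M.mul_mem hx hy), hFM x hx, hFM y hy]
    exact f.2 ⟨x, hx⟩ ⟨y, hy⟩
  have hFψ : ∀ x ∈ M, Ff (act f₀ x) = Ff x := by
    intro x hx
    rw [hFM _ (hMA f₀ x hx), hFM x hx]
    have h1 := congrArg
      (fun f' : ↥(addChar M K) => (f' : ↥M → K) ⟨act f₀ x, hMA f₀ x hx⟩) hf
    have h2 : (⟨act f₀⁻¹ (act f₀ x), hMA f₀⁻¹ _ (hMA f₀ x hx)⟩ : ↥M) = ⟨x, hx⟩ :=
      Subtype.ext (act_act_inv act f₀ x)
    have h3 : (f : ↥M → K) ⟨act f₀⁻¹ (act f₀ x), hMA f₀⁻¹ _ (hMA f₀ x hx)⟩ =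
        (f : ↥M → K) ⟨act f₀ x, hMA f₀ x hx⟩ := h1
    rw [← h3, h2]
  have h4 := norm_argument hpK M hMab (act f₀) hfp (hMA f₀) Ff
    hFmul hFψ (g ^ z) hg'c hcent a a.2
  have hmem : (g ^ z)⁻¹ * (a : G) * g ^ z ∈ M := (conjV (toNorm M (g ^ z)) a).2
  rw [hFM _ hmem, hFM _ a.2] at h4
  exact h4

omit hMn in
/-- An additive function on `M` invariant under `A` vanishes, if `A` has no nontrivial fixed
point on `M`. -/
theorem FD.addChar_fix [Finite G] (hD : FD F f₀ a₀ p r) (hcop : (Nat.card G).Coprime (p * r))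
    (act : A →* MulAut G) (hfpf : ∀ g, (∀ x, act x g = g) → g = 1)
    (hMA : ∀ x, ∀ g ∈ M, act x g ∈ M) (f : ↥(addChar M K))
    (hf : ∀ x, opA M K act hMA x f = f) : f = 0 := by
  classical
  have hinv : ∀ (x : A) (m : G) (hm : m ∈ M),
      (f : ↥M → K) ⟨act x m, hMA x m hm⟩ = (f : ↥M → K) ⟨m, hm⟩ := by
    intro x m hm
    have h1 := congrArg (fun f' : ↥(addChar M K) => (f' : ↥M → K) ⟨m, hm⟩) (hf x⁻¹)
    have h3 : (f : ↥M → K) ⟨act x⁻¹⁻¹ m, hMA x⁻¹⁻¹ m hm⟩ = (f : ↥M → K) ⟨m, hm⟩ := h1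
    have h2 : (⟨act x⁻¹⁻¹ m, hMA x⁻¹⁻¹ m hm⟩ : ↥M) = ⟨act x m, hMA x m hm⟩ :=
      Subtype.ext (by rw [inv_inv])
    rw [← h2]
    exact h3
  let N : Subgroup G :=
    { carrier := {m | ∃ hm : m ∈ M, (f : ↥M → K) ⟨m, hm⟩ = 0}
      one_mem' := ⟨M.one_mem, addChar_one f⟩
      mul_mem' := by
        rintro a b ⟨ha, ha'⟩ ⟨hb, hb'⟩
        refine ⟨M.mul_mem ha hb, ?_⟩
        have h1 := f.2 ⟨a, ha⟩ ⟨b, hb⟩
        rw [ha', hb', add_zero] at h1
        exact h1
      inv_mem' := by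
        rintro a ⟨ha, ha'⟩
        refine ⟨M.inv_mem ha, ?_⟩
        have h1 := addChar_inv f ⟨a, ha⟩
        rw [ha', neg_zero] at h1
        exact h1 }
  have hNmem : ∀ m, m ∈ N ↔ ∃ hm : m ∈ M, (f : ↥M → K) ⟨m, hm⟩ = 0 := fun m => Iff.rfl
  have hNA : ∀ x, ∀ n ∈ N, act x n ∈ N := by
    rintro x n ⟨hn, hn'⟩
    exact ⟨hMA x n hn, by rw [hinv x n hn, hn']⟩
  apply Subtype.ext
  funext a
  show (f : ↥M → K) a = 0
  obtain ⟨w, hw1, hw2⟩ := hD.coset act N (hD.not_dvd hcop N).1 (hD.not_dvd hcop N).2 hNA (a : G)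
    (by
      intro x
      refine ⟨M.mul_mem (M.inv_mem a.2) (hMA x a a.2), ?_⟩
      have h1 := f.2 ⟨(a : G)⁻¹, M.inv_mem a.2⟩ ⟨act x a, hMA x a a.2⟩
      have h2 := addChar_inv f a
      have h3 : (f : ↥M → K) ⟨(a : G)⁻¹, M.inv_mem a.2⟩ = - (f : ↥M → K) a := h2
      rw [h3, hinv x a a.2] at h1
      have h4 : (f : ↥M → K) ⟨(a : G), a.2⟩ = (f : ↥M → K) a := rfl
      rw [h4, neg_add_cancel] at h1
      exact h1)
  have hw := hfpf w hw2
  rw [hw, mul_one] at hw1
  obtain ⟨hm, hm'⟩ := hw1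
  have h2 := addChar_inv f a
  have h3 : (f : ↥M → K) ⟨(a : G)⁻¹, hm⟩ = - (f : ↥M → K) a := h2
  rw [hm'] at h3
  exact neg_eq_zero.mp h3.symm

end LinSetup2

/-- **Main theorem**, inductive form: a finite solvable group with a non-abelian group of
automorphisms of order `p r` (as in `FD`), of coprime order and without nontrivial common
fixed points, has a nilpotent normal invariant subgroup with nilpotent quotient. -/
theorem frob_main {A : Type v} [Group A] [Finite A] {F : Subgroup A} {f₀ a₀ : A} {p r : ℕ}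
    (hD : FD F f₀ a₀ p r) :
    ∀ m : ℕ, ∀ (G : Type u) [Group G] [Finite G], Nat.card G = m → Group.IsSolvable G →
    (Nat.card G).Coprime (p * r) →
    ∀ act : A →* MulAut G, (∀ g, (∀ x, act x g = g) → g = 1) →
    ∃ N : Subgroup G, N.Normal ∧ Group.IsNilpotent ↥N ∧ (∀ x, ∀ g ∈ N, act x g ∈ N) ∧
      ∃ k : ℕ, (⊤ : Subgroup G).lowerCentralSeries k ≤ N := by
  have hp := hD.hp
  have hr := hD.hr
  haveI : Fact p.Prime := ⟨hp⟩
  haveI : Fact r.Prime := ⟨hr⟩
  intro m
  induction m using Nat.strong_induction_on with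
  | _ m ih =>
  intro G _ _ hm hsol hcop act hfpf
  by_cases htriv : Subsingleton G
  · refine ⟨⊥, inferInstance, inferInstance, ?_, 0, ?_⟩
    · intro x g hg
      rw [Subgroup.mem_bot] at hg ⊢
      rw [hg, map_one]
    · intro g _
      rw [Subgroup.mem_bot]
      exact Subsingleton.elim _ _
  haveI : Nontrivial G := not_subsingleton_iff_nontrivial.mp htriv
  have hpG : ¬ p ∣ Nat.card G := by
    have := (hD.not_dvd hcop (⊤ : Subgroup G)).1
    rwa [Subgroup.card_top] at this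
  have hrG : ¬ r ∣ Nat.card G := by
    have := (hD.not_dvd hcop (⊤ : Subgroup G)).2
    rwa [Subgroup.card_top] at this
  have hcopQ : ∀ (N : Subgroup G) [N.Normal], (Nat.card (G ⧸ N)).Coprime (p * r) :=
    fun N _ => Nat.Coprime.coprime_dvd_left (Subgroup.card_quotient_dvd_card N) hcop
  -- a minimal invariant normal subgroup
  obtain ⟨M, ⟨hMn, hMne, hMA⟩, hmin⟩ := wellFounded_lt.has_min
    {N : Subgroup G | N.Normal ∧ N ≠ ⊥ ∧ ∀ x, ∀ g ∈ N, act x g ∈ N}
    ⟨⊤, inferInstance, top_ne_bot, fun _ _ _ => Subgroup.mem_top _⟩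
  have hMmin : ∀ N : Subgroup G, N.Normal → N ≠ ⊥ → (∀ x, ∀ g ∈ N, act x g ∈ N) → N ≤ M →
      N = M :=
    fun N h1 h2 h3 h4 => (lt_or_eq_of_le h4).resolve_left (hmin N ⟨h1, h2, h3⟩)
  haveI := hMn
  have hMab : ∀ x ∈ M, ∀ y ∈ M, x * y = y * x := by
    have hcomm_ne : ⁅M, M⁆ ≠ M := by
      intro heq
      haveI : Nontrivial M := (Subgroup.nontrivial_iff_ne_bot M).mpr hMne
      have h1 := Group.IsSolvable.commutator_lt_top_of_nontrivial M
      have h2 : (commutator M).map M.subtype = M := by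
        rw [Subgroup.map_subtype_commutator, heq]
      have h3 : commutator M = ⊤ := by
        apply Subgroup.map_injective M.subtype_injective
        rw [h2, ← MonoidHom.range_eq_map, Subgroup.range_subtype]
      exact h1.ne h3
    have hbot : ⁅M, M⁆ = ⊥ := by
      by_contra hne
      refine hcomm_ne (hMmin ⁅M, M⁆ inferInstance hne ?_ (Subgroup.commutator_le_right M M))
      intro x g hg
      have h1 : act x g ∈ (⁅M, M⁆).map (act x).toMonoidHom := Subgroup.mem_map_of_mem _ hg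
      rw [Subgroup.map_commutator] at h1
      have h2 : M.map (act x).toMonoidHom ≤ M := by
        rintro _ ⟨y, hy, rfl⟩
        exact hMA x y hy
      exact Subgroup.commutator_mono h2 h2 h1
    intro x hx y hy
    have : ⁅x, y⁆ ∈ ⁅M, M⁆ := Subgroup.commutator_mem_commutator hx hy
    rw [hbot, Subgroup.mem_bot, commutatorElement_eq_one_iff_commute] at this
    exact this.eq
  have hcard1 : Nat.card M ≠ 1 := fun h => hMne (Subgroup.card_eq_one.mp h)
  obtain ⟨ℓ, hℓ, hℓM⟩ : ∃ ℓ, ℓ.Prime ∧ ℓ ∣ Nat.card M :=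
    ⟨(Nat.card M).minFac, Nat.minFac_prime hcard1, Nat.minFac_dvd _⟩
  haveI : Fact ℓ.Prime := ⟨hℓ⟩
  have hMp : ∀ x ∈ M, x ^ ℓ = 1 := by
    let Ω : Subgroup G :=
      { carrier := {x | x ∈ M ∧ x ^ ℓ = 1}
        one_mem' := ⟨M.one_mem, one_pow _⟩
        mul_mem' := by
          rintro a b ⟨ha, ha'⟩ ⟨hb, hb'⟩
          refine ⟨M.mul_mem ha hb, ?_⟩
          rw [(show Commute a b from hMab a ha b hb).mul_pow, ha', hb', one_mul]
        inv_mem' := by
          rintro a ⟨ha, ha'⟩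
          exact ⟨M.inv_mem ha, by rw [inv_pow, ha', inv_one]⟩ }
    have hΩM : Ω ≤ M := fun x hx => hx.1
    have hΩn : Ω.Normal :=
      ⟨fun x hx g => ⟨hMn.conj_mem x hx.1 g, by rw [conj_pow, hx.2, mul_one, mul_inv_cancel]⟩⟩
    have hΩne : Ω ≠ ⊥ := by
      obtain ⟨x, hx⟩ := exists_prime_orderOf_dvd_card' (G := M) ℓ hℓM
      intro hbot
      have hxΩ : (x : G) ∈ Ω := by
        refine ⟨x.2, ?_⟩
        rw [← Subgroup.coe_pow, ← hx, pow_orderOf_eq_one]
        rfl
      rw [hbot, Subgroup.mem_bot] at hxΩ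
      have hx1 : x = 1 := Subtype.ext hxΩ
      rw [hx1, orderOf_one] at hx
      exact hℓ.one_lt.ne hx
    have hΩA : ∀ x, ∀ g ∈ Ω, act x g ∈ Ω := fun x g hg =>
      ⟨hMA x g hg.1, by rw [← map_pow, hg.2, map_one]⟩
    have hΩeq := hMmin Ω hΩn hΩne hΩA hΩM
    intro x hx
    have : x ∈ Ω := by
      rw [hΩeq]
      exact hx
    exact this.2
  have hℓp : ℓ ≠ p := by
    intro h
    apply hpG
    rw [← h]
    exact hℓM.trans (Subgroup.card_subgroup_dvd_card M)
  have hℓr : ℓ ≠ r := by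
    intro h
    apply hrG
    rw [← h]
    exact hℓM.trans (Subgroup.card_subgroup_dvd_card M)
  -- the centralizer of `M`
  obtain ⟨C, hCdef⟩ : ∃ C : Subgroup G, C = Subgroup.centralizer (M : Set G) := ⟨_, rfl⟩
  have hCmem : ∀ c, c ∈ C ↔ ∀ x ∈ M, x * c = c * x := by
    intro c
    rw [hCdef, Subgroup.mem_centralizer_iff]
    rfl
  have hCn : C.Normal := by
    rw [hCdef]
    infer_instance
  haveI := hCn
  have hMC : M ≤ C := by
    intro x hx
    rw [hCmem]
    intro y hy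
    exact hMab y hy x hx
  have hCA : ∀ x, ∀ c ∈ C, act x c ∈ C := by
    intro x c hc
    rw [hCmem] at hc ⊢
    intro y hy
    have h1 := congrArg (act x) (hc _ (hMA x⁻¹ y hy))
    rwa [map_mul, map_mul, act_inv_act] at h1
  have hCne : C ≠ ⊥ := ne_bot_of_le_ne_bot hMne hMC
  -- induction hypothesis for `G ⧸ M`
  obtain ⟨N₁, hN₁n, hN₁nil, hN₁A, k₁, hk₁⟩ := ih (Nat.card (G ⧸ M)) (hm ▸ card_quot_lt M hMne)
    (G ⧸ M) rfl inferInstance (hcopQ M) (quotAct act M hMA)
    (hD.quot_fpf act hcop hfpf M hMA)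
  -- key claim: `G ⧸ C` is nilpotent
  have hKC : ∃ k₂ : ℕ, (⊤ : Subgroup G).lowerCentralSeries k₂ ≤ C := by
    apply lcs_le_of_quot_nilpotent C
    obtain ⟨actC, hactCdef⟩ : ∃ actC : A →* MulAut (G ⧸ C), actC = quotAct act C hCA :=
      ⟨_, rfl⟩
    have hactCmk : ∀ (x : A) (g : G), actC x (g : G ⧸ C) = ((act x g : G) : G ⧸ C) := by
      intro x g
      rw [hactCdef]
      exact quotAct_mk act C hCA x g
    have hfpfC : ∀ q : G ⧸ C, (∀ x, actC x q = q) → q = 1 := by
      rw [hactCdef]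
      exact hD.quot_fpf act hcop hfpf C hCA
    obtain ⟨Mb, hMbn, hMbnil, hMbA, k₂, hk₂⟩ := ih (Nat.card (G ⧸ C))
      (hm ▸ card_quot_lt C hCne) (G ⧸ C) rfl inferInstance (hcopQ C) actC hfpfC
    haveI := hMbn
    haveI := hMbnil
    have hcopC : (Nat.card (G ⧸ C)).Coprime (p * r) := hcopQ C
    -- no normal invariant `ℓ`-subgroup in `G ⧸ C`
    have hOp : ∀ P : Subgroup (G ⧸ C), P.Normal → IsPGroup ℓ P →
        (∀ x, ∀ y ∈ P, actC x y ∈ P) → P = ⊥ := by
      intro P hPn hPp hPA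
      let D : Subgroup G :=
        { carrier := {x | x ∈ M ∧ ∀ g : G, (g : G ⧸ C) ∈ P → g * x * g⁻¹ = x}
          one_mem' := ⟨M.one_mem, fun g _ => by group⟩
          mul_mem' := by
            rintro a b ⟨ha, ha'⟩ ⟨hb, hb'⟩
            refine ⟨M.mul_mem ha hb, fun g hg => ?_⟩
            calc g * (a * b) * g⁻¹ = (g * a * g⁻¹) * (g * b * g⁻¹) := by group
              _ = a * b := by rw [ha' g hg, hb' g hg]
          inv_mem' := by
            rintro a ⟨ha, ha'⟩
            refine ⟨M.inv_mem ha, fun g hg => ?_⟩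
            calc g * a⁻¹ * g⁻¹ = (g * a * g⁻¹)⁻¹ := by group
              _ = a⁻¹ := by rw [ha' g hg] }
      have hDM : D ≤ M := fun x hx => hx.1
      have hDn : D.Normal := by
        constructor
        intro x hx y
        refine ⟨hMn.conj_mem x hx.1 y, fun g hg => ?_⟩
        have hg' : ((y⁻¹ * g * y : G) : G ⧸ C) ∈ P := by
          have := hPn.conj_mem _ hg ((y⁻¹ : G) : G ⧸ C)
          simpa using this
        have := hx.2 _ hg'
        calc g * (y * x * y⁻¹) * g⁻¹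
            = y * ((y⁻¹ * g * y) * x * (y⁻¹ * g * y)⁻¹) * y⁻¹ := by group
          _ = y * x * y⁻¹ := by rw [this]
      have hDA : ∀ x, ∀ d ∈ D, act x d ∈ D := by
        intro x d hd
        refine ⟨hMA x d hd.1, fun g hg => ?_⟩
        have hg' : ((act x⁻¹ g : G) : G ⧸ C) ∈ P := by
          rw [← hactCmk]
          exact hPA x⁻¹ _ hg
        have h3 := congrArg (act x) (hd.2 _ hg')
        rwa [map_mul (act x), map_mul (act x), map_inv (act x), act_inv_act] at h3
      have hDne : D ≠ ⊥ := by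
        let ρM : (G ⧸ C) →* MulAut M :=
          QuotientGroup.lift _ (MulAut.conjNormal (H := M)) (by
            intro g hg
            rw [MonoidHom.mem_ker]
            ext x
            rw [MulAut.conjNormal_apply]
            have := (hCmem g).mp hg x x.2
            rw [← this]
            simp)
        letI : MulAction P M := MulAction.compHom M (ρM.comp P.subtype)
        have hfix1 : (1 : M) ∈ MulAction.fixedPoints P M := by
          intro x
          show (ρM.comp P.subtype) x • (1 : M) = 1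
          rw [MulAut.smul_def, map_one]
        obtain ⟨b, hb, hb1⟩ :=
          hPp.exists_fixed_point_of_prime_dvd_card_of_fixed_point (α := M) hℓM hfix1
        intro hbot
        have hbD : (b : G) ∈ D := by
          refine ⟨b.2, fun g hg => ?_⟩
          have h1 : (⟨(g : G ⧸ C), hg⟩ : P) • b = b := hb ⟨_, hg⟩
          have h2 : ((ρM (g : G ⧸ C)) b : G) = g * b * g⁻¹ := by
            rw [show ρM (g : G ⧸ C) = MulAut.conjNormal g from rfl, MulAut.conjNormal_apply]
          rw [← h2]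
          exact congrArg Subtype.val h1
        rw [hbot, Subgroup.mem_bot] at hbD
        exact hb1 (Subtype.ext hbD.symm)
      have hDeq : D = M := hMmin D hDn hDne hDA hDM
      rw [Subgroup.eq_bot_iff_forall]
      intro q hq
      induction q using QuotientGroup.induction_on with
      | _ g =>
        rw [QuotientGroup.eq_one_iff, hCmem]
        intro x hx
        have hxD : x ∈ D := hDeq ▸ hx
        have := hxD.2 g hq
        exact (mul_inv_eq_iff_eq_mul.mp this).symm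
    -- `ℓ` does not divide the order of `Mb`
    have hℓMb : ¬ ℓ ∣ Nat.card ↥Mb := by
      obtain ⟨S⟩ : Nonempty (Sylow ℓ ↥Mb) := inferInstance
      have hSn : (S : Subgroup ↥Mb).Normal :=
        Sylow.normal_of_normalizerCondition Group.normalizerCondition_of_isNilpotent S
      haveI hSchar : (S : Subgroup ↥Mb).Characteristic := Sylow.characteristic_of_normal S hSn
      have hPn : ((S : Subgroup ↥Mb).map Mb.subtype).Normal :=
        ConjAct.normal_of_characteristic_of_normal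
      have hPp : IsPGroup ℓ ↥((S : Subgroup ↥Mb).map Mb.subtype) := S.isPGroup'.map _
      have hbot := hOp _ hPn hPp
        (fun x => char_map_invariant (actC x) Mb (hMbA x) (S : Subgroup ↥Mb))
      have hSbot : (S : Subgroup ↥Mb) = ⊥ := by
        apply Subgroup.map_injective Mb.subtype_injective
        rw [hbot, Subgroup.map_bot]
      intro hdvd
      have h1 := S.not_dvd_index
      rw [hSbot, Subgroup.index_bot] at h1
      exact h1 hdvd
    -- the linear data
    obtain ⟨K, _, _, _, hK⟩ : ∃ (K : Type) (_ : Field K) (_ : IsAlgClosed K) (_ : CharP K ℓ),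
        True := ⟨AlgebraicClosure (ZMod ℓ), inferInstance, inferInstance, inferInstance, trivial⟩
    have hpK : (p : K) ≠ 0 := by
      intro h
      have h1 := (CharP.cast_eq_zero_iff K ℓ p).mp h
      exact hℓp ((Nat.prime_dvd_prime_iff_eq hℓ hp).mp h1)
    have hrK : (r : K) ≠ 0 := by
      intro h
      have h1 := (CharP.cast_eq_zero_iff K ℓ r).mp h
      exact hℓr ((Nat.prime_dvd_prime_iff_eq hℓ hr).mp h1)
    have hC : ∀ c ∈ C, ∀ a ∈ M, a * c = c * a := fun c hc => (hCmem c).mp hc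
    have hequiv : ∀ (x : A) (γ : G ⧸ C), opA M K act hMA x * rhoQ M K C hC γ =
        rhoQ M K C hC (actC x γ) * opA M K act hMA x := by
      intro x γ
      rw [hactCdef]
      exact opA_equiv M K C hC act hMA hCA x γ
    have hfaith : ∀ γ : G ⧸ C, rhoQ M K C hC γ = 1 → γ = 1 := fun γ hγ =>
      rhoQ_faithful M K C hC (fun c hc => (hCmem c).mpr hc) hMab hMp γ hγ
    have hVfix : ∀ v : ↥(addChar M K), (∀ x, opA M K act hMA x v = v) → v = 0 :=
      fun v hv => hD.addChar_fix M K hcop act hfpf hMA v hv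
    apply nilpotent_of_centralizing Mb k₂ hk₂
    intro s hs
    haveI : Fact s.Prime := ⟨hs⟩
    obtain ⟨S₀, hS₀A⟩ := hD.exists_invariant_sylow actC hcopC s
    refine ⟨S₀, ?_⟩
    intro q hqF hqs Q t ht u hu
    have hq : q.Prime := hqF.out
    have hQtriv : ¬ q ∣ Nat.card ↥Mb → t * u = u * t := by
      intro hnd
      have h1 : Nat.card (Q : Subgroup ↥Mb) = 1 := by
        obtain ⟨j, hj⟩ := (IsPGroup.iff_card).mp Q.isPGroup'
        have h2 : Nat.card (Q : Subgroup ↥Mb) ∣ Nat.card ↥Mb := Subgroup.card_subgroup_dvd_card _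
        by_contra hne
        have hj0 : j ≠ 0 := by
          rintro rfl
          exact hne (by rw [hj, pow_zero])
        apply hnd
        exact dvd_trans (dvd_pow_self q hj0) (hj ▸ h2)
      have hQbot : (Q : Subgroup ↥Mb) = ⊥ := Subgroup.card_eq_one.mp h1
      rw [hQbot, Subgroup.map_bot, Subgroup.mem_bot] at hu
      rw [hu, mul_one, one_mul]
    by_cases hqℓ : q = ℓ
    · exact hQtriv (hqℓ ▸ hℓMb)
    have hqK : (q : K) ≠ 0 := by
      intro h
      have h1 := (CharP.cast_eq_zero_iff K ℓ q).mp h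
      exact hqℓ ((Nat.prime_dvd_prime_iff_eq hℓ hq).mp h1).symm
    have hQn : (Q : Subgroup ↥Mb).Normal :=
      Sylow.normal_of_normalizerCondition Group.normalizerCondition_of_isNilpotent Q
    haveI hQchar : (Q : Subgroup ↥Mb).Characteristic := Sylow.characteristic_of_normal Q hQn
    haveI hPn : ((Q : Subgroup ↥Mb).map Mb.subtype).Normal :=
      ConjAct.normal_of_characteristic_of_normal
    have hPq : IsPGroup q ↥((Q : Subgroup ↥Mb).map Mb.subtype) := Q.isPGroup'.map _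
    have hnil : ∀ u ∈ (Q : Subgroup ↥Mb).map Mb.subtype, actC f₀ u = u →
        ∀ v : ↥(addChar M K), opA M K act hMA f₀ v = v → rhoQ M K C hC u v = v := by
      intro u hu hcu v hv
      obtain ⟨j, hj⟩ := (IsPGroup.iff_orderOf.mp hPq) ⟨u, hu⟩
      rw [Subgroup.orderOf_mk] at hj
      have huq : u ^ q ^ j = 1 := by
        rw [← hj]
        exact pow_orderOf_eq_one u
      rw [hactCdef] at hcu
      exact hD.hnil_lemma M K hsol hcop hℓ hq hqℓ act hfpf hMab hMp hMA C hC
        hCA hpK u j huq hcu v hv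
    exact frob_key (act := actC) (ρ := rhoQ M K C hC) (op := opA M K act hMA) hD hq hs hqs
      hqK hpK hrK (inferInstance : Group.IsSolvable (G ⧸ C)) hcopC hequiv hVfix _
      (S₀ : Subgroup (G ⧸ C)) ((Q : Subgroup ↥Mb).map Mb.subtype) rfl S₀.isPGroup' hPq hS₀A
      (fun x => char_map_invariant (actC x) Mb (hMbA x) (Q : Subgroup ↥Mb))
      (fun t _ u hu => hPn.conj_mem u hu t) (fun t _ h => hfpfC t h) (fun u _ h => hfpfC u h)
      hnil (fun u _ h => hfaith u h) t ht u hu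
  obtain ⟨k₂, hk₂⟩ := hKC
  -- the subgroup
  obtain ⟨N, hNdef⟩ : ∃ N : Subgroup G, N = N₁.comap (QuotientGroup.mk' M) ⊓ C := ⟨_, rfl⟩
  have hNmem : ∀ g, g ∈ N ↔ (g : G ⧸ M) ∈ N₁ ∧ g ∈ C := by
    intro g
    rw [hNdef]
    rfl
  haveI := hN₁n
  haveI := hN₁nil
  refine ⟨N, ?_, ?_, ?_, max k₁ k₂, ?_⟩
  · rw [hNdef]
    infer_instance
  · let f : ↥N →* ↥N₁ :=
      ((QuotientGroup.mk' M).comp N.subtype).codRestrict N₁ (fun x => ((hNmem x).mp x.2).1)
    apply Subgroup.isNilpotent_of_ker_le_center f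
    intro x hx
    rw [MonoidHom.mem_ker] at hx
    have hxM : (x : G) ∈ M := by
      have h1 := congrArg Subtype.val hx
      exact (QuotientGroup.eq_one_iff _).mp h1
    rw [Subgroup.mem_center_iff]
    intro y
    have hyC : (y : G) ∈ C := ((hNmem y).mp y.2).2
    have h2 := (hCmem _).mp hyC _ hxM
    exact Subtype.ext h2.symm
  · intro x g hg
    rw [hNmem] at hg ⊢
    refine ⟨?_, hCA x g hg.2⟩
    rw [← quotAct_mk act M hMA]
    exact hN₁A x _ hg.1
  · intro g hg
    rw [hNmem]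
    constructor
    · have h1 : g ∈ (⊤ : Subgroup G).lowerCentralSeries k₁ :=
        Subgroup.lowerCentralSeries_antitone _ (le_max_left k₁ k₂) hg
      have h2 := Subgroup.map_lowerCentralSeries (S := (⊤ : Subgroup G)) (QuotientGroup.mk' M) k₁
      rw [← MonoidHom.range_eq_map,
        MonoidHom.range_eq_top.mpr (QuotientGroup.mk'_surjective M)] at h2
      apply hk₁
      rw [← h2]
      exact Subgroup.mem_map_of_mem _ h1
    · exact hk₂ (Subgroup.lowerCentralSeries_antitone _ (le_max_right k₁ k₂) hg)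

end Cfsg.Agent.Helper63.Frob
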