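-- helper63 library: the representation core of S3795 from the two-layer structure and the
-- dual action statement; add-only once landed.
import Cfsg.Agent.Helper63.Gross2Defs2

set_option autoImplicit false

namespace Cfsg.Agent.Helper63.Gross2

open Module Cfsg.Agent.Helper63.ProjRep

universe u

/-- The representation core follows from the two-layer structure theorem and the dual action
statement. -/
theorem rep_core_of (HT : TwoLayerStmt.{u}) (HD : DualStmt.{u}) : RepCoreStmt.{u} := by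
  intro K _ _ W _ _ _ P _ _ q r hq hr hq2 hr2 hqr hqK h2K hP ρ hcc hsc hqc j hj ξ ξi hξ hξ' hξN
    hfix ψ hint S hS hψS hSc α hα g
  classical
  obtain ⟨xu, hxuval, hxuinv⟩ : ∃ xu : (Module.End K W)ˣ, (xu : Module.End K W) = ξ ∧
      ((xu⁻¹ : (Module.End K W)ˣ) : Module.End K W) = ξi := ⟨⟨ξ, ξi, hξ, hξ'⟩, rfl, rfl⟩
  obtain ⟨ρu, hρudef⟩ : ∃ ρu : P →* (Module.End K W)ˣ, ρu = ρ.toHomUnits := ⟨_, rfl⟩
  have hρuval : ∀ g, ((ρu g : (Module.End K W)ˣ) : Module.End K W) = ρ g := by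
    intro g
    rw [hρudef]
    rfl
  have hρu_eq : ∀ a b, ρu a = ρu b ↔ ρ a = ρ b := by
    intro a b
    constructor
    · intro h
      rw [← hρuval, ← hρuval, h]
    · intro h
      apply Units.ext
      rw [hρuval, hρuval, h]
  have hρu_one : ∀ a, ρu a = 1 ↔ ρ a = 1 := by
    intro a
    have h := hρu_eq a 1
    rw [map_one, map_one] at h
    exact h
  have hconj : ∀ g, xu * ρu g * xu⁻¹ = ρu (ψ g) := by
    intro g
    apply Units.ext
    rw [Units.val_mul, Units.val_mul, hxuval, hxuinv, hρuval, hρuval, hint, mul_assoc, hξ,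
      mul_one]
  have hconjk : ∀ (k : ℕ) g, xu ^ k * ρu g * (xu ^ k)⁻¹ = ρu ((ψ ^ k) g) := by
    intro k
    induction k with
    | zero =>
      intro g
      simp
    | succ k ih =>
      intro g
      rw [pow_succ' ψ, MulAut.mul_apply, ← hconj, ← ih, pow_succ' xu]
      group
  have hxuN : xu ^ 2 ^ j = 1 := by
    apply Units.ext
    rw [Units.val_pow_eq_pow_val, hxuval, hξN, Units.val_one]
  have hfix' : ∀ v : W, (xu : Module.End K W) v = v → v = 0 := by
    intro v hv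
    rw [hxuval] at hv
    exact hfix v hv
  obtain ⟨τ, hτdef⟩ : ∃ τ : MulAut P, τ = ψ ^ 2 ^ (j - 1) := ⟨_, rfl⟩
  have hτ : ∀ g, xu ^ 2 ^ (j - 1) * ρu g * (xu ^ 2 ^ (j - 1))⁻¹ = ρu (τ g) := by
    intro g
    rw [hτdef]
    exact hconjk _ g
  rw [← hτdef]
  -- the subgroup of the elements central in the image
  obtain ⟨CZ, hCZdef⟩ : ∃ CZ : Subgroup P,
      CZ = (Subgroup.centralizer (ρu.range : Set (Module.End K W)ˣ)).comap ρu := ⟨_, rfl⟩
  have hCZ_range : ∀ g, g ∈ CZ ↔ ∀ h ∈ ρu.range, ρu g * h = h * ρu g := by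
    intro g
    rw [hCZdef, Subgroup.mem_comap, Subgroup.mem_centralizer_iff]
    constructor
    · intro h1 h hh
      exact (h1 h hh).symm
    · intro h1 h hh
      exact (h1 h hh).symm
  have hCZ : ∀ g, g ∈ CZ ↔ ∀ h, ρ g * ρ h = ρ h * ρ g := by
    intro g
    rw [hCZ_range]
    constructor
    · intro h1 h
      have h2 := h1 (ρu h) ⟨h, rfl⟩
      have h3 := congrArg (fun u : (Module.End K W)ˣ => (u : Module.End K W)) h2
      simp only [Units.val_mul, hρuval] at h3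
      exact h3
    · rintro h1 _ ⟨h, rfl⟩
      apply Units.ext
      rw [Units.val_mul, Units.val_mul, hρuval, hρuval]
      exact h1 h
  have hCZ_congr : ∀ a b, ρ a = ρ b → a ∈ CZ → b ∈ CZ := by
    intro a b hab ha
    rw [hCZ] at ha ⊢
    intro h
    rw [← hab]
    exact ha h
  have hCZ_ker : ∀ k, ρ k = 1 → k ∈ CZ := by
    intro k hk
    rw [hCZ]
    intro h
    rw [hk, one_mul, mul_one]
  have hCZ_center : ∀ z ∈ Subgroup.center P, z ∈ CZ := by
    intro z hz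
    rw [hCZ]
    intro h
    rw [← map_mul, ← map_mul, Subgroup.mem_center_iff.mp hz h]
  -- automorphisms in `S` respect equality of images
  have hSker : ∀ β ∈ S, ∀ a b, ρ a = ρ b → ρ (β a) = ρ (β b) := by
    intro β hβ a b hab
    have h1 : ρ (b⁻¹ * a) = 1 := by
      rw [map_mul, hab, ← map_mul, inv_mul_cancel, map_one]
    have h2 : ρ (β (b⁻¹ * a)) = 1 := by
      rw [hSc β hβ _ ((hCZ _).mp (hCZ_ker _ h1)), h1]
    have h3 : β a = β b * β (b⁻¹ * a) := by
      rw [← map_mul, mul_inv_cancel_left]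
    rw [h3, map_mul, h2, mul_one]
  have hψk : ∀ k : ℕ, ∀ β ∈ S, ψ ^ k * β * (ψ ^ k)⁻¹ ∈ S := by
    intro k
    induction k with
    | zero =>
      intro β hβ
      simpa using hβ
    | succ k ih =>
      intro β hβ
      have h1 := hψS _ (ih β hβ)
      have h2 : ψ ^ (k + 1) * β * (ψ ^ (k + 1))⁻¹ = ψ * (ψ ^ k * β * (ψ ^ k)⁻¹) * ψ⁻¹ := by
        rw [pow_succ']
        group
      rw [h2]
      exact h1
  have hκS : α⁻¹ * (τ * α * τ⁻¹) ∈ S := by
    rw [hτdef]
    exact S.mul_mem (S.inv_mem hα) (hψk _ α hα)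
  haveI hfinQ : Finite ↥ρu.range := Finite.of_surjective ρu.rangeRestrict
    ρu.rangeRestrict_surjective
  have hQp : IsPGroup q ↥ρu.range := hP.of_surjective ρu.rangeRestrict
    ρu.rangeRestrict_surjective
  have hxQ : ∀ g ∈ ρu.range, xu * g * xu⁻¹ ∈ ρu.range := by
    rintro _ ⟨a, rfl⟩
    rw [hconj]
    exact ⟨ψ a, rfl⟩
  have hclass : ∀ g ∈ ρu.range, ∀ h ∈ ρu.range, ∀ k ∈ ρu.range,
      (g * h * g⁻¹ * h⁻¹) * k = k * (g * h * g⁻¹ * h⁻¹) := by
    rintro _ ⟨a, rfl⟩ _ ⟨b, rfl⟩ _ ⟨c, rfl⟩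
    have h1 : ρu a * ρu b * (ρu a)⁻¹ * (ρu b)⁻¹ = ρu (cm a b) := by
      rw [cm_def, map_mul, map_mul, map_mul, map_inv, map_inv]
    rw [h1, ← map_mul, ← map_mul, Subgroup.mem_center_iff.mp (hcc a b) c]
  have hscal : ∀ g ∈ ρu.range, (∀ h ∈ ρu.range, g * h = h * g) →
      ∃ μ : K, (g : Module.End K W) = μ • (1 : Module.End K W) := by
    rintro _ ⟨a, rfl⟩ h1
    rw [hρuval]
    exact hsc a ((hCZ a).mp ((hCZ_range a).mpr h1))
  rcases HT K W q hq hq2 hqK h2K j hj xu hxuN hfix' ρu.range hfinQ hQp hxQ hclass hscal with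
    hD1 | ⟨hj2, hqj, hD2a, a', ha', b', hb', hD2b⟩
  · -- `τ` centralizes the image
    have h1 : ∀ g, ρ (τ g) = ρ g := by
      intro g
      rw [← hρu_eq, ← hτ]
      exact hD1 _ ⟨g, rfl⟩
    have h2 : (α⁻¹ * (τ * α * τ⁻¹)) g = α⁻¹ (τ (α (τ⁻¹ g))) := by
      simp only [MulAut.mul_apply]
    rw [h2, hSker α⁻¹ (S.inv_mem hα) _ _ (h1 (α (τ⁻¹ g)))]
    have h3 : α⁻¹ (α (τ⁻¹ g)) = τ⁻¹ g := by
      rw [← MulAut.mul_apply, inv_mul_cancel, MulAut.one_apply]
    rw [h3, ← h1 (τ⁻¹ g)]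
    have h4 : τ (τ⁻¹ g) = g := by
      rw [← MulAut.mul_apply, mul_inv_cancel, MulAut.one_apply]
    rw [h4]
  · -- the exceptional case
    have hρψ : ∀ a, ρ (ψ a) = ξ * ρ a * ξi := by
      intro a
      rw [hint, mul_assoc, hξ, mul_one]
    have hN1 : ∀ g h : P, g * h * g⁻¹ * h⁻¹ ∈ CZ := fun g h => hCZ_center _ (hcc g h)
    have hN2 : ∀ g : P, g ^ q ∈ CZ := fun g => hCZ_center _ (hqc g)
    have hψN : ∀ g, ψ g ∈ CZ ↔ g ∈ CZ := by
      intro g
      rw [hCZ, hCZ]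
      constructor
      · intro h1 h
        have h2 := h1 (ψ h)
        rw [hρψ, hρψ] at h2
        have h3 : ξi * (ξ * ρ g * ξi * (ξ * ρ h * ξi)) * ξ =
            ξi * (ξ * ρ h * ξi * (ξ * ρ g * ξi)) * ξ := by rw [h2]
        have e1 : ∀ A B : Module.End K W, ξi * (ξ * A * ξi * (ξ * B * ξi)) * ξ = A * B := by
          intro A B
          calc ξi * (ξ * A * ξi * (ξ * B * ξi)) * ξ
              = (ξi * ξ) * A * (ξi * ξ) * B * (ξi * ξ) := by simp only [mul_assoc]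
            _ = A * B := by rw [hξ', one_mul, mul_one, mul_one]
        rw [e1, e1] at h3
        exact h3
      · intro h1 h
        have h2 : h = ψ (ψ⁻¹ h) := by
          rw [← MulAut.mul_apply, mul_inv_cancel, MulAut.one_apply]
        rw [h2, ← map_mul, ← map_mul, ← map_mul, ← map_mul, hρψ, hρψ, map_mul, map_mul,
          h1 (ψ⁻¹ h)]
    have hψpow : ∀ g, (ψ ^ 2 ^ j) g * g⁻¹ ∈ CZ := by
      intro g
      apply hCZ_ker
      have h1 : ρ ((ψ ^ 2 ^ j) g) = ρ g := by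
        rw [← hρu_eq, ← hconjk, hxuN]
        group
      rw [map_mul, h1, ← map_mul, mul_inv_cancel, map_one]
    have hτelt : ∀ g, ρu (τ g) = xu ^ 2 ^ (j - 1) * ρu g * (xu ^ 2 ^ (j - 1))⁻¹ :=
      fun g => (hτ g).symm
    have h1' : ∀ g, τ g * g⁻¹ ∈ CZ → ψ g * g⁻¹ ∈ CZ := by
      intro g hg
      apply hCZ_ker
      have h1 : xu * ρu g = ρu g * xu := by
        apply hD2a _ ⟨g, rfl⟩
        intro h hh
        have h2 := (hCZ_range _).mp hg h hh
        rw [map_mul, map_inv, hτelt] at h2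
        exact h2
      have h3 : ρ (ψ g) = ρ g := by
        rw [← hρu_eq, ← hconj, h1]
        group
      rw [map_mul, h3, ← map_mul, mul_inv_cancel, map_one]
    obtain ⟨a, rfl⟩ := ha'
    obtain ⟨b, rfl⟩ := hb'
    have h2' : ∃ a b : P, ∀ L : Subgroup P, CZ ≤ L → a ∈ L → b ∈ L →
        ∀ g, τ g * g ∈ CZ → g ∈ L := by
      refine ⟨a, b, ?_⟩
      intro L hL haL hbL g hg
      have h1 : ρu g ∈ L.map ρu := by
        apply hD2b (L.map ρu) (Subgroup.mem_map_of_mem ρu haL) (Subgroup.mem_map_of_mem ρu hbL)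
          _ (ρu g) ⟨g, rfl⟩
        · intro h hh
          have h2 := (hCZ_range _).mp hg h hh
          rw [map_mul, hτelt] at h2
          exact h2
        · rintro _ ⟨z, rfl⟩ hz
          apply Subgroup.mem_map_of_mem
          apply hL
          rw [hCZ_range]
          exact hz
      obtain ⟨g', hg'L, hg'⟩ := h1
      have h3 : g = g' * (g'⁻¹ * g) := by group
      rw [h3]
      apply L.mul_mem hg'L
      apply hL
      apply hCZ_ker
      rw [map_mul, ← (hρu_eq g' g).mp hg', ← map_mul, inv_mul_cancel, map_one]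
    have hSN : ∀ β ∈ S, ∀ g, β g ∈ CZ ↔ g ∈ CZ := by
      intro β hβ g
      constructor
      · intro h1
        have h2 := hSc β⁻¹ (S.inv_mem hβ) (β g) ((hCZ _).mp h1)
        have h3 : β⁻¹ (β g) = g := by
          rw [← MulAut.mul_apply, inv_mul_cancel, MulAut.one_apply]
        rw [h3] at h2
        exact hCZ_congr _ _ h2.symm h1
      · intro h1
        exact hCZ_congr _ _ (hSc β hβ g ((hCZ _).mp h1)).symm h1
    rw [hτdef] at h1' h2'
    have hmain := HD P q r hq hr hr2 hqr j hj2 hqj CZ hN1 hN2 ψ hψN hψpow h1' h2' S hS hψS hSN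
      α hα g
    rw [← hτdef] at hmain
    obtain ⟨κ, hκdef⟩ : ∃ κ : MulAut P, κ = α⁻¹ * (τ * α * τ⁻¹) := ⟨_, rfl⟩
    rw [← hκdef] at hmain hκS ⊢
    obtain ⟨z, hzdef⟩ : ∃ z : P, z = κ g * g⁻¹ := ⟨_, rfl⟩
    rw [← hzdef] at hmain
    have hκg : κ g = z * g := by
      rw [hzdef]
      group
    have hκm : ∀ m : ℕ, κ ^ m ∈ S := fun m => S.pow_mem hκS m
    have hpow : ∀ m : ℕ, ρ ((κ ^ m) g) = ρ z ^ m * ρ g := by
      intro m
      induction m with
      | zero => simp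
      | succ m ih =>
        have h1 : (κ ^ (m + 1)) g = (κ ^ m) z * (κ ^ m) g := by
          rw [pow_succ, MulAut.mul_apply, hκg, map_mul]
        rw [h1, map_mul, ih, hSc _ (hκm m) z ((hCZ z).mp hmain), pow_succ', mul_assoc]
    obtain ⟨e, he⟩ := hS ⟨κ, hκS⟩
    have he' : κ ^ r ^ e = 1 := by
      have h1 := congrArg Subtype.val he
      exact h1
    have h5 : ρ z ^ r ^ e = 1 := by
      have h1 := hpow (r ^ e)
      rw [he', MulAut.one_apply] at h1
      have h2 : ρ g * ρ g⁻¹ = 1 := by rw [← map_mul, mul_inv_cancel, map_one]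
      calc ρ z ^ r ^ e = ρ z ^ r ^ e * (ρ g * ρ g⁻¹) := by rw [h2, mul_one]
        _ = (ρ z ^ r ^ e * ρ g) * ρ g⁻¹ := by rw [mul_assoc]
        _ = ρ g * ρ g⁻¹ := by rw [← h1]
        _ = 1 := h2
    obtain ⟨f, hf⟩ := hP z
    have h6 : ρu z ^ r ^ e = 1 := by
      apply Units.ext
      rw [Units.val_pow_eq_pow_val, hρuval, h5, Units.val_one]
    have h7 : ρu z ^ q ^ f = 1 := by
      rw [← map_pow, hf, map_one]
    have h8 : orderOf (ρu z) ∣ r ^ e := orderOf_dvd_of_pow_eq_one h6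
    have h9 : orderOf (ρu z) ∣ q ^ f := orderOf_dvd_of_pow_eq_one h7
    have h10 : Nat.Coprime (r ^ e) (q ^ f) :=
      Nat.Coprime.pow _ _ ((Nat.coprime_primes hr hq).mpr (Ne.symm hqr))
    have h11 := Nat.dvd_gcd h8 h9
    rw [Nat.Coprime.gcd_eq_one h10, Nat.dvd_one, orderOf_eq_one_iff] at h11
    rw [hκg, map_mul, (hρu_one z).mp h11, one_mul]

end Cfsg.Agent.Helper63.Gross2
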