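-- helper63 library: the two-layer structure theorem for S3795; add-only once landed.
import Cfsg.Agent.Helper63.Gross2Defs2
import Cfsg.Agent.Helper63.ProjRepGroup2
import Cfsg.Agent.Helper61.Gross2NT

set_option autoImplicit false

namespace Cfsg.Agent.Helper63.Gross2

open Module Cfsg.Agent.Helper63.ProjRep Cfsg.Agent.Helper63.Shult

universe u

/-- A subgroup of index `q²` together with two suitable elements generates the group. -/
theorem exists_two_gen {G : Type*} [Group G] [Finite G] {q : ℕ} (hq : q.Prime) (H : Subgroup G)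
    (hH : H.index = q ^ 2) : ∃ a b : G, ∀ L : Subgroup G, H ≤ L → a ∈ L → b ∈ L → L = ⊤ := by
  have hq2 := hq.two_le
  have hHtop : H ≠ ⊤ := by
    intro h
    rw [h, Subgroup.index_top] at hH
    nlinarith
  obtain ⟨a, ha⟩ : ∃ a, a ∉ H := by
    by_contra hcon
    push Not at hcon
    exact hHtop (eq_top_iff.mpr fun g _ => hcon g)
  obtain ⟨L₁, hL₁def⟩ : ∃ L₁ : Subgroup G, L₁ = H ⊔ Subgroup.zpowers a := ⟨_, rfl⟩
  have hHL₁ : H ≤ L₁ := by
    rw [hL₁def]
    exact le_sup_left
  have haL₁ : a ∈ L₁ := by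
    rw [hL₁def]
    exact (le_sup_right : Subgroup.zpowers a ≤ H ⊔ Subgroup.zpowers a) (Subgroup.mem_zpowers a)
  have hL₁le : ∀ L : Subgroup G, H ≤ L → a ∈ L → L₁ ≤ L := by
    intro L hHL haL
    rw [hL₁def]
    exact sup_le hHL ((Subgroup.zpowers_le).mpr haL)
  by_cases hL₁ : L₁ = ⊤
  · refine ⟨a, a, fun L hHL haL _ => ?_⟩
    rw [eq_top_iff, ← hL₁]
    exact hL₁le L hHL haL
  · obtain ⟨b, hb⟩ : ∃ b, b ∉ L₁ := by
      by_contra hcon
      push Not at hcon
      exact hL₁ (eq_top_iff.mpr fun g _ => hcon g)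
    refine ⟨a, b, fun L hHL haL hbL => ?_⟩
    have hL₁L : L₁ ≤ L := hL₁le L hHL haL
    have h1 : L₁.index ∣ q ^ 2 := by
      rw [← hH]
      exact Subgroup.index_dvd_of_le hHL₁
    obtain ⟨i, hi, hidx⟩ := (Nat.dvd_prime_pow hq).mp h1
    have hi0 : i ≠ 0 := by
      intro h0
      rw [h0, pow_zero] at hidx
      exact hL₁ (Subgroup.index_eq_one.mp hidx)
    have hi2 : i ≠ 2 := by
      intro h2
      rw [h2] at hidx
      have h3 := Subgroup.relIndex_mul_index hHL₁
      rw [hidx, hH] at h3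
      have h4 : H.relIndex L₁ = 1 := by
        have hpos : 0 < q ^ 2 := Nat.pow_pos hq.pos
        exact Nat.eq_of_mul_eq_mul_right hpos (by rw [h3, one_mul])
      exact ha (Subgroup.relIndex_eq_one.mp h4 haL₁)
    have hi1 : i = 1 := by omega
    rw [hi1, pow_one] at hidx
    have h5 : L.index ∣ q := by
      rw [← hidx]
      exact Subgroup.index_dvd_of_le hL₁L
    rcases (Nat.dvd_prime hq).mp h5 with h6 | h6
    · exact Subgroup.index_eq_one.mp h6
    · exfalso
      have h3 := Subgroup.relIndex_mul_index hL₁L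
      rw [hidx, h6] at h3
      have h4 : L₁.relIndex L = 1 :=
        Nat.eq_of_mul_eq_mul_right hq.pos (by rw [h3, one_mul])
      exact hb (Subgroup.relIndex_eq_one.mp h4 hbL)

/-- In a group with an endomorphism `T`, if `T g = e g` and `T h = c h⁻¹` with `e`, `c` and the
commutator `d` of `g` and `h` central and `T d = d`, then `d² = 1`. -/
theorem sq_one_of_plus_minus {G : Type*} [Group G] (T : G →* G) (g h e c d : G)
    (he : ∀ y, e * y = y * e) (hc : ∀ y, c * y = y * c) (hd : ∀ y, d * y = y * d)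
    (hTg : T g = e * g) (hTh : T h = c * h⁻¹) (hTd : T d = d)
    (hdef : d = g * h * g⁻¹ * h⁻¹) : d * d = 1 := by
  have E0 : g * h = d * (h * g) := by
    rw [hdef]
    group
  have E2 : T g * T h = T d * (T h * T g) := by
    have h1 := congrArg T E0
    rwa [map_mul, map_mul, map_mul] at h1
  rw [hTd, hTg, hTh] at E2
  have L : (e * g) * (c * h⁻¹) = (e * c) * (g * h⁻¹) := by
    calc (e * g) * (c * h⁻¹) = e * ((g * c) * h⁻¹) := by group
      _ = e * ((c * g) * h⁻¹) := by rw [← hc g]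
      _ = (e * c) * (g * h⁻¹) := by group
  have R : d * ((c * h⁻¹) * (e * g)) = (e * c) * (d * (h⁻¹ * g)) := by
    calc d * ((c * h⁻¹) * (e * g)) = d * (c * ((h⁻¹ * e) * g)) := by group
      _ = d * (c * ((e * h⁻¹) * g)) := by rw [← he h⁻¹]
      _ = (d * (c * e)) * (h⁻¹ * g) := by group
      _ = ((c * e) * d) * (h⁻¹ * g) := by rw [hd (c * e)]
      _ = ((e * c) * d) * (h⁻¹ * g) := by rw [← he c]
      _ = (e * c) * (d * (h⁻¹ * g)) := by group
  rw [L, R] at E2
  have E4 : g * h⁻¹ = d * (h⁻¹ * g) := mul_left_cancel E2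
  have E5 : h * g = d * (g * h) := by
    calc h * g = h * (g * h⁻¹) * h := by group
      _ = h * (d * (h⁻¹ * g)) * h := by rw [E4]
      _ = (h * d) * (h⁻¹ * (g * h)) := by group
      _ = (d * h) * (h⁻¹ * (g * h)) := by rw [← hd h]
      _ = d * (g * h) := by group
  have E7 : g * h = d * d * (g * h) := by
    calc g * h = d * (h * g) := E0
      _ = d * (d * (g * h)) := by rw [E5]
      _ = d * d * (g * h) := by rw [mul_assoc]
  exact right_eq_mul.mp E7

/-- **Two layers.** -/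
theorem two_layer : TwoLayerStmt.{u} := by
  intro K _ _ W _ _ _ q hq hq2 hqK h2K j hj x hxN hfix Q hQfin hQ hxQ hclass hscal
  classical
  haveI := hQfin
  haveI : Fact q.Prime := ⟨hq⟩
  by_cases hW : Nontrivial W
  swap
  · left
    intro g _
    rw [not_nontrivial_iff_subsingleton] at hW
    apply Units.ext
    apply LinearMap.ext
    intro v
    exact Subsingleton.elim _ _
  haveI := hW
  have hN0 : 0 < 2 ^ j := Nat.pow_pos (by norm_num)
  have hxk : ∀ k : ℕ, ∀ g ∈ Q, x ^ k * g * (x ^ k)⁻¹ ∈ Q := by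
    intro k
    induction k with
    | zero =>
      intro g hg
      simpa using hg
    | succ k ih =>
      intro g hg
      have h1 := hxQ _ (ih g hg)
      have h2 : x ^ (k + 1) * g * (x ^ (k + 1))⁻¹ = x * (x ^ k * g * (x ^ k)⁻¹) * x⁻¹ := by
        rw [pow_succ']
        group
      rw [h2]
      exact h1
  obtain ⟨t, htdef⟩ : ∃ t : (Module.End K W)ˣ, t = x ^ 2 ^ (j - 1) := ⟨_, rfl⟩
  rw [← htdef]
  have htt : t * t = 1 := by
    rw [htdef, ← pow_add, ← two_mul, ← pow_succ', Nat.sub_add_cancel hj, hxN]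
  have htx : t * x = x * t := by rw [htdef, ← pow_succ, ← pow_succ']
  obtain ⟨T, hTdef⟩ : ∃ T : (Module.End K W)ˣ →* (Module.End K W)ˣ,
      T = (MulAut.conj t).toMonoidHom := ⟨_, rfl⟩
  have hTapp : ∀ g, T g = t * g * t⁻¹ := by
    intro g
    rw [hTdef]
    rfl
  have hTT : ∀ g, T (T g) = g := by
    intro g
    rw [hTapp, hTapp]
    have h1 : t * (t * g * t⁻¹) * t⁻¹ = (t * t) * g * (t * t)⁻¹ := by group
    rw [h1, htt]
    group
  have hTQ : ∀ g ∈ Q, T g ∈ Q := by
    intro g hg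
    rw [hTapp, htdef]
    exact hxk _ g hg
  have hTx : ∀ g, T (x * g * x⁻¹) = x * T g * x⁻¹ := by
    intro g
    rw [hTapp, hTapp]
    calc t * (x * g * x⁻¹) * t⁻¹ = (t * x) * g * (t * x)⁻¹ := by group
      _ = (x * t) * g * (x * t)⁻¹ := by rw [htx]
      _ = x * (t * g * t⁻¹) * x⁻¹ := by group
  -- the central elements
  obtain ⟨Zc, hZcdef⟩ : ∃ Zc : Subgroup (Module.End K W)ˣ,
      Zc = Q ⊓ Subgroup.centralizer (Q : Set (Module.End K W)ˣ) := ⟨_, rfl⟩
  have hZc : ∀ z, z ∈ Zc ↔ z ∈ Q ∧ ∀ h ∈ Q, z * h = h * z := by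
    intro z
    rw [hZcdef, Subgroup.mem_inf, Subgroup.mem_centralizer_iff]
    constructor
    · rintro ⟨h1, h2⟩
      exact ⟨h1, fun h hh => (h2 h hh).symm⟩
    · rintro ⟨h1, h2⟩
      exact ⟨h1, fun h hh => (h2 h hh).symm⟩
  have hZcQ : Zc ≤ Q := fun z hz => ((hZc z).mp hz).1
  have hF1 : ∀ c ∈ Zc, ∀ y : (Module.End K W)ˣ, c * y = y * c := by
    intro c hc y
    obtain ⟨hcQ, hcc⟩ := (hZc c).mp hc
    obtain ⟨μ, hμ⟩ := hscal c hcQ hcc
    apply Units.ext
    rw [Units.val_mul, Units.val_mul, hμ, smul_mul_assoc, one_mul, mul_smul_comm, mul_one]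
  have hF1T : ∀ c ∈ Zc, T c = c := by
    intro c hc
    rw [hTapp, ← hF1 c hc t, mul_assoc, mul_inv_cancel, mul_one]
  have hF1x : ∀ c ∈ Zc, x * c * x⁻¹ = c := by
    intro c hc
    rw [← hF1 c hc x, mul_assoc, mul_inv_cancel, mul_one]
  have hF2 : ∀ g ∈ Q, ∀ h ∈ Q, g * h * g⁻¹ * h⁻¹ ∈ Zc := by
    intro g hg h hh
    rw [hZc]
    exact ⟨Q.mul_mem (Q.mul_mem (Q.mul_mem hg hh) (Q.inv_mem hg)) (Q.inv_mem hh),
      fun k hk => hclass g hg h hh k hk⟩
  have hoddq : ∀ d ∈ Q, ∃ m : ℕ, d ^ (2 * m + 1) = 1 := by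
    intro d hd
    obtain ⟨k, hk⟩ := hQ ⟨d, hd⟩
    have hk' : d ^ q ^ k = 1 := congrArg Subtype.val hk
    have hodd : Odd (q ^ k) := (hq.odd_of_ne_two hq2).pow
    obtain ⟨m, hm⟩ := hodd
    exact ⟨m, by rw [← hm]; exact hk'⟩
  have hF3 : ∀ d ∈ Q, d * d = 1 → d = 1 := by
    intro d hd hdd
    obtain ⟨m, hm⟩ := hoddq d hd
    rw [pow_succ, pow_mul, pow_two, hdd, one_pow, one_mul] at hm
    exact hm
  -- the subgroup of the elements inverted modulo the centre
  obtain ⟨Qm, hQm⟩ : ∃ Qm : Subgroup (Module.End K W)ˣ,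
      ∀ g, g ∈ Qm ↔ g ∈ Q ∧ T g * g ∈ Zc := by
    refine ⟨{ carrier := {g | g ∈ Q ∧ T g * g ∈ Zc}
              one_mem' := ?one
              mul_mem' := ?mul
              inv_mem' := ?inv }, fun g => Iff.rfl⟩
    case one =>
      refine ⟨Q.one_mem, ?_⟩
      rw [map_one, mul_one]
      exact Zc.one_mem
    case mul =>
      intro a b
      rintro ⟨haQ, ha⟩ ⟨hbQ, hb⟩
      refine ⟨Q.mul_mem haQ hbQ, ?_⟩
      obtain ⟨d, hd⟩ : ∃ d, d = T b * a * (T b)⁻¹ * a⁻¹ := ⟨_, rfl⟩
      have hdZ : d ∈ Zc := by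
        rw [hd]
        exact hF2 _ (hTQ b hbQ) a haQ
      have e1 : T (a * b) * (a * b) = d * (T a * a) * (T b * b) := by
        calc T (a * b) * (a * b) = (T a * d) * a * (T b * b) := by
              rw [map_mul, hd]
              group
          _ = (d * T a) * a * (T b * b) := by rw [← hF1 d hdZ (T a)]
          _ = d * (T a * a) * (T b * b) := by group
      rw [e1]
      exact Zc.mul_mem (Zc.mul_mem hdZ ha) hb
    case inv =>
      intro a
      rintro ⟨haQ, ha⟩
      refine ⟨Q.inv_mem haQ, ?_⟩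
      obtain ⟨c, hc⟩ : ∃ c, c = T a * a := ⟨_, rfl⟩
      rw [← hc] at ha
      have e1 : T a⁻¹ * a⁻¹ = c⁻¹ := by
        calc T a⁻¹ * a⁻¹ = a * c⁻¹ * a⁻¹ := by
              rw [map_inv, hc]
              group
          _ = c⁻¹ * a * a⁻¹ := by rw [← hF1 c⁻¹ (Zc.inv_mem ha) a]
          _ = c⁻¹ := by group
      rw [e1]
      exact Zc.inv_mem ha
  have hQmQ : Qm ≤ Q := fun g hg => ((hQm g).mp hg).1
  have hZcQm : Zc ≤ Qm := by
    intro z hz
    rw [hQm]
    refine ⟨hZcQ hz, ?_⟩
    rw [hF1T z hz]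
    exact Zc.mul_mem hz hz
  have hu : ∀ h ∈ Q, h * (T h)⁻¹ ∈ Qm := by
    intro h hh
    rw [hQm]
    refine ⟨Q.mul_mem hh (Q.inv_mem (hTQ h hh)), ?_⟩
    have e1 : T (h * (T h)⁻¹) * (h * (T h)⁻¹) = 1 := by
      rw [map_mul, map_inv, hTT]
      group
    rw [e1]
    exact Zc.one_mem
  -- elements centralized modulo the centre commute with the inverted ones
  have hPM : ∀ g ∈ Q, T g * g⁻¹ ∈ Zc → ∀ h ∈ Qm, g * h = h * g := by
    intro g hg hge h hh
    obtain ⟨hhQ, hhc⟩ := (hQm h).mp hh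
    obtain ⟨d, hd⟩ : ∃ d, d = g * h * g⁻¹ * h⁻¹ := ⟨_, rfl⟩
    have hdZ : d ∈ Zc := by
      rw [hd]
      exact hF2 g hg h hhQ
    have h1 := sq_one_of_plus_minus T g h (T g * g⁻¹) (T h * h) d (hF1 _ hge) (hF1 _ hhc)
      (hF1 _ hdZ) (by group) (by group) (hF1T d hdZ) hd
    have h2 := hF3 d (hZcQ hdZ) h1
    calc g * h = d * (h * g) := by
          rw [hd]
          group
      _ = h * g := by rw [h2, one_mul]
  -- an element of `Qm` commuting with `Qm` is central in `Q`
  have hcenter : ∀ z ∈ Qm, (∀ g ∈ Qm, z * g = g * z) → z ∈ Zc := by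
    intro z hz hzc
    rw [hZc]
    refine ⟨hQmQ hz, ?_⟩
    intro h hh
    obtain ⟨w, hw⟩ : ∃ w, w = h * T h := ⟨_, rfl⟩
    have hwQ : w ∈ Q := by
      rw [hw]
      exact Q.mul_mem hh (hTQ h hh)
    have hwe : T w * w⁻¹ ∈ Zc := by
      have e1 : T w * w⁻¹ = T h * h * (T h)⁻¹ * h⁻¹ := by
        rw [hw, map_mul, hTT]
        group
      rw [e1]
      exact hF2 _ (hTQ h hh) h hh
    have h1 : w * z = z * w := hPM w hwQ hwe z hz
    have h2 : z * (h * (T h)⁻¹) = (h * (T h)⁻¹) * z := hzc _ (hu h hh)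
    obtain ⟨d', hd'⟩ : ∃ d', d' = T h * h * (T h)⁻¹ * h⁻¹ := ⟨_, rfl⟩
    have hd'Z : d' ∈ Zc := by
      rw [hd']
      exact hF2 _ (hTQ h hh) h hh
    have h3 : w * (h * (T h)⁻¹) = d' * (h * h) := by
      calc w * (h * (T h)⁻¹) = (h * d') * h := by
            rw [hw, hd']
            group
        _ = (d' * h) * h := by rw [← hF1 d' hd'Z h]
        _ = d' * (h * h) := by group
    have h4 : z * (d' * (h * h)) = (d' * (h * h)) * z := by
      rw [← h3]
      calc z * (w * (h * (T h)⁻¹)) = (z * w) * (h * (T h)⁻¹) := by group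
        _ = (w * z) * (h * (T h)⁻¹) := by rw [h1]
        _ = w * (z * (h * (T h)⁻¹)) := by group
        _ = w * ((h * (T h)⁻¹) * z) := by rw [h2]
        _ = (w * (h * (T h)⁻¹)) * z := by group
    have h5 : z * (h * h) = (h * h) * z := by
      have e1 : d' * (z * (h * h)) = d' * ((h * h) * z) := by
        calc d' * (z * (h * h)) = (d' * z) * (h * h) := by group
          _ = (z * d') * (h * h) := by rw [hF1 d' hd'Z z]
          _ = z * (d' * (h * h)) := by group
          _ = (d' * (h * h)) * z := h4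
          _ = d' * ((h * h) * z) := by group
      exact mul_left_cancel e1
    obtain ⟨m, hm⟩ := hoddq h hh
    have h6 : (h * h) ^ (m + 1) = h := by
      have e1 : (h * h) ^ (m + 1) = h ^ (2 * m + 1) * h := by
        rw [← pow_two, ← pow_mul, ← pow_succ]
        congr 1
      rw [e1, hm, one_mul]
    have h7 : Commute z ((h * h) ^ (m + 1)) := Commute.pow_right h5 _
    rw [h6] at h7
    exact h7
  -- the representation of `Qm`
  haveI : Finite ↥Qm := Finite.of_injective _ (Subgroup.inclusion_injective hQmQ)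
  have hQmp : IsPGroup q ↥Qm := hQ.to_le hQmQ
  have hcen_iff : ∀ z : ↥Qm, z ∈ Subgroup.center ↥Qm ↔ (z : (Module.End K W)ˣ) ∈ Zc := by
    intro z
    rw [Subgroup.mem_center_iff]
    constructor
    · intro h1
      apply hcenter _ z.2
      intro g hg
      have h2 := h1 ⟨g, hg⟩
      have h3 := congrArg Subtype.val h2
      exact h3.symm
    · intro h1 g
      apply Subtype.ext
      exact (hF1 _ h1 g).symm
  let lam' : ↥Qm → K := fun z =>
    if h : ∃ c : K, unitsRep Qm z = c • (1 : Module.End K W) then h.choose else 0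
  have H : Hyp (unitsRep Qm) lam' := by
    refine ⟨?_, ?_, ?_, ?_⟩
    · intro g h
      rw [hcen_iff]
      have h1 : ((cm g h : ↥Qm) : (Module.End K W)ˣ) =
          (g : (Module.End K W)ˣ) * h * (g : (Module.End K W)ˣ)⁻¹ *
            (h : (Module.End K W)ˣ)⁻¹ := rfl
      rw [h1]
      exact hF2 _ (hQmQ g.2) _ (hQmQ h.2)
    · intro z hz
      have h : ∃ c : K, unitsRep Qm z = c • (1 : Module.End K W) := by
        rw [unitsRep_apply]
        obtain ⟨hzQ, hzc⟩ := (hZc _).mp ((hcen_iff z).mp hz)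
        exact hscal _ hzQ hzc
      have h1 : lam' z = h.choose := dif_pos h
      rw [h1]
      exact h.choose_spec
    · intro g hg
      by_contra hcon
      push Not at hcon
      apply hg
      rw [Subgroup.mem_center_iff]
      intro h
      have h1 := hcon h
      rw [← map_one (unitsRep Qm)] at h1
      have h2 := unitsRep_injective Qm h1
      rw [cm_def] at h2
      have h3 : g * h = h * g := by
        calc g * h = (g * h * g⁻¹ * h⁻¹) * (h * g) := by group
          _ = h * g := by rw [h2, one_mul]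
      exact h3.symm
    · obtain ⟨kQ, hkQ⟩ := IsPGroup.iff_card.mp hQmp
      have h1 : (Subgroup.center ↥Qm).index ∣ q ^ kQ := by
        rw [← hkQ]
        exact Subgroup.index_dvd_card _
      obtain ⟨j', -, hj'⟩ := (Nat.dvd_prime_pow hq).mp h1
      rw [hj', Nat.cast_pow]
      exact pow_ne_zero _ hqK
  -- the automorphism
  have hxQm : ∀ g ∈ Qm, x * g * x⁻¹ ∈ Qm := by
    intro g hg
    obtain ⟨hgQ, hgc⟩ := (hQm g).mp hg
    rw [hQm]
    refine ⟨hxQ g hgQ, ?_⟩
    have e1 : T (x * g * x⁻¹) * (x * g * x⁻¹) = x * (T g * g) * x⁻¹ := by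
      rw [hTx]
      group
    rw [e1, hF1x _ hgc]
    exact hgc
  have hxNm := mem_normalizer_of_pow Qm x hN0 hxN hxQm
  obtain ⟨φ', hφ'def⟩ : ∃ φ' : MulAut ↥Qm, φ' = conjAut Qm x hxNm := ⟨_, rfl⟩
  have hφ'N : φ' ^ 2 ^ j = 1 := by
    rw [hφ'def]
    exact conjAut_pow_eq_one Qm x hxNm hxN
  have hequiv' : ∀ g : ↥Qm, (x : Module.End K W) * unitsRep Qm g *
      ((x⁻¹ : (Module.End K W)ˣ) : Module.End K W) = unitsRep Qm (φ' g) := by
    intro g
    rw [hφ'def]
    exact unitsRep_equiv Qm x hxNm g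
  have hinv : ∀ g : ↥Qm, (φ' ^ 2 ^ (j - 1)) g * g ∈ Subgroup.center ↥Qm := by
    intro g
    rw [hcen_iff]
    have h1 : (((φ' ^ 2 ^ (j - 1)) g * g : ↥Qm) : (Module.End K W)ˣ) =
        T (g : (Module.End K W)ˣ) * g := by
      rw [Subgroup.coe_mul, hφ'def, conjAut_pow_apply, hTapp, htdef]
    rw [h1]
    exact ((hQm _).mp g.2).2
  have hodd : ∀ g : ↥Qm, g * g ∈ Subgroup.center ↥Qm → g ∈ Subgroup.center ↥Qm := by
    intro g hg
    obtain ⟨m, hm⟩ := hoddq (g : (Module.End K W)ˣ) (hQmQ g.2)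
    have h6 : (g * g) ^ (m + 1) = g := by
      apply Subtype.ext
      have e1 : ((g : (Module.End K W)ˣ) * g) ^ (m + 1) =
          (g : (Module.End K W)ˣ) ^ (2 * m + 1) * g := by
        rw [← pow_two, ← pow_mul, ← pow_succ]
        congr 1
      rw [Subgroup.coe_pow, Subgroup.coe_mul, e1, hm, one_mul]
    rw [← h6]
    exact Subgroup.pow_mem _ hg _
  have hξ1 : (x : Module.End K W) * ((x⁻¹ : (Module.End K W)ˣ) : Module.End K W) = 1 := by
    rw [← Units.val_mul, mul_inv_cancel, Units.val_one]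
  have hξ2 : ((x⁻¹ : (Module.End K W)ˣ) : Module.End K W) * (x : Module.End K W) = 1 := by
    rw [← Units.val_mul, inv_mul_cancel, Units.val_one]
  have hξN : (x : Module.End K W) ^ 2 ^ j = 1 := by
    rw [← Units.val_pow_eq_pow_val, hxN, Units.val_one]
  have htwo := H.two_pow φ' (x : Module.End K W) _ hξ1 hξ2 hequiv' j hj hφ'N hinv hodd hξN h2K
    hfix
  -- the statement in terms of `T`
  have key : (∀ g ∈ Q, T g = g) ∨
      (2 ≤ j ∧ 2 ^ j - 1 = q ∧
        (∀ g ∈ Q, (∀ h ∈ Q, (T g * g⁻¹) * h = h * (T g * g⁻¹)) → x * g = g * x) ∧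
        ∃ a ∈ Q, ∃ b ∈ Q, ∀ L : Subgroup (Module.End K W)ˣ, a ∈ L → b ∈ L →
          (∀ z ∈ Q, (∀ h ∈ Q, z * h = h * z) → z ∈ L) →
          ∀ g ∈ Q, (∀ h ∈ Q, (T g * g) * h = h * (T g * g)) → g ∈ L) := by
    have hcase1 : (Subgroup.center ↥Qm).index = 1 → ∀ g ∈ Q, T g = g := by
      intro hidx g hg
      have htop := Subgroup.index_eq_one.mp hidx
      obtain ⟨u, hu'⟩ : ∃ u, u = g * (T g)⁻¹ := ⟨_, rfl⟩
      have huQm : u ∈ Qm := by
        rw [hu']
        exact hu g hg
      have huZ : u ∈ Zc := by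
        have h0 : (⟨u, huQm⟩ : ↥Qm) ∈ Subgroup.center ↥Qm := by
          rw [htop]
          exact Subgroup.mem_top _
        exact (hcen_iff _).mp h0
      have h1 : T g = u⁻¹ * g := by
        rw [hu']
        group
      have h2 : g = u⁻¹ * (u⁻¹ * g) := by
        have h3 := hTT g
        rw [h1, map_mul, map_inv, hF1T u huZ, h1] at h3
        exact h3.symm
      have h4 : u * u = 1 := by
        have h5 : g = u * u * g := by
          calc g = u * u * (u⁻¹ * (u⁻¹ * g)) := by group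
            _ = u * u * g := by rw [← h2]
        exact right_eq_mul.mp h5
      have h6 := hF3 u (hZcQ huZ) h4
      rw [h1, h6, inv_one, one_mul]
    rcases htwo with hidx | ⟨hidx, hcomm⟩
    · left
      exact hcase1 hidx
    · by_cases hidx1 : (Subgroup.center ↥Qm).index = 1
      · left
        exact hcase1 hidx1
      · right
        obtain ⟨kQ, hkQ⟩ := IsPGroup.iff_card.mp hQmp
        have h1 : (Subgroup.center ↥Qm).index ∣ q ^ kQ := by
          rw [← hkQ]
          exact Subgroup.index_dvd_card _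
        have h2 : 2 ^ j - 1 ∣ q ^ kQ := by
          refine dvd_trans ?_ h1
          rw [hidx]
          exact dvd_pow_self _ two_ne_zero
        obtain ⟨m, -, hm⟩ := (Nat.dvd_prime_pow hq).mp h2
        have hm0 : 0 < m := by
          rcases Nat.eq_zero_or_pos m with h0 | h0
          · exfalso
            rw [h0, pow_zero] at hm
            rw [hm, one_pow] at hidx
            exact hidx1 hidx
          · exact h0
        obtain ⟨hm1, hj2⟩ := Cfsg.Agent.Helper61.mersenne_exponent hq hq2 hm0 hm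
        rw [hm1, pow_one] at hm
        rw [hm] at hidx
        refine ⟨hj2, hm, ?_, ?_⟩
        · intro g hg hge
          have hgeZ : T g * g⁻¹ ∈ Zc := by
            rw [hZc]
            exact ⟨Q.mul_mem (hTQ g hg) (Q.inv_mem hg), hge⟩
          have h3 : (x : Module.End K W) * (g : Module.End K W) =
              (g : Module.End K W) * (x : Module.End K W) := by
            apply hcomm
            intro h
            rw [unitsRep_apply, ← Units.val_mul, ← Units.val_mul, hPM g hg hgeZ h h.2]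
          apply Units.ext
          rw [Units.val_mul, Units.val_mul]
          exact h3
        · obtain ⟨a₀, b₀, hab⟩ := exists_two_gen hq (Subgroup.center ↥Qm) hidx
          refine ⟨a₀, hQmQ a₀.2, b₀, hQmQ b₀.2, ?_⟩
          intro L haL hbL hzL g hg hgc
          have hgQm : g ∈ Qm := by
            rw [hQm]
            refine ⟨hg, ?_⟩
            rw [hZc]
            exact ⟨Q.mul_mem (hTQ g hg) hg, hgc⟩
          have h3 : L.comap Qm.subtype = ⊤ := by
            apply hab (L.comap Qm.subtype) _ haL hbL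
            intro z hz
            rw [Subgroup.mem_comap]
            obtain ⟨hzQ, hzc⟩ := (hZc _).mp ((hcen_iff z).mp hz)
            exact hzL _ hzQ hzc
          have h4 : (⟨g, hgQm⟩ : ↥Qm) ∈ L.comap Qm.subtype := by
            rw [h3]
            exact Subgroup.mem_top _
          exact h4
  simp only [hTapp] at key
  exact key

end Cfsg.Agent.Helper63.Gross2
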