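import Mathlib
import Cfsg.Agent.Helper43.OrthEven

set_option autoImplicit false

/-!
# Sub-CALL S88OE (helper43) of CALL S88 (row S5988): piece ISO (helper63)
-/

namespace Cfsg.Agent.Helper63.S88OE

open Module Cfsg.Agent.Helper43 Cfsg.Agent.Helper43.OrthEven

variable {F : Type*} [Field F] {Va Vb : Type*} [AddCommGroup Va] [Module F Va] [AddCommGroup Vb]
  [Module F Vb]

/-- ISO [S, generic]: an isometric linear equivalence transports nondegeneracy and totally singular
subspaces.  (`U.map e`, `U.map e.symm`; `LinearEquiv.finrank_map_eq`; cf. `OrthEven.hasTS_equiv`.) -/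
theorem oe_iso (Qa : QuadraticForm F Va) (Qb : QuadraticForm F Vb) (e : Va ≃ₗ[F] Vb)
    (he : ∀ v, Qb (e v) = Qa v) :
    (PolarNondeg Qa ↔ PolarNondeg Qb) ∧ ∀ d, HasTS Qa d ↔ HasTS Qb d := by
  have hpol : ∀ u v, QuadraticMap.polar Qb (e u) (e v) = QuadraticMap.polar Qa u v := by
    intro u v
    simp only [QuadraticMap.polar, ← map_add, he]
  have he' : ∀ w, Qa (e.symm w) = Qb w := by
    intro w; rw [← he, e.apply_symm_apply]
  refine ⟨⟨?_, ?_⟩, fun d => ⟨?_, ?_⟩⟩
  · intro h w hw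
    have h0 : e.symm w = 0 := h (e.symm w) (fun v => by
      rw [← hpol, e.apply_symm_apply]; exact hw (e v))
    rw [← e.apply_symm_apply w, h0, map_zero]
  · intro h v hv
    have h0 : e v = 0 := h (e v) (fun w => by
      rw [← e.apply_symm_apply w, hpol]; exact hv _)
    exact e.map_eq_zero_iff.mp h0
  · rintro ⟨U, hU, h0⟩
    refine ⟨U.map (e : Va →ₗ[F] Vb), by rw [LinearEquiv.finrank_map_eq]; exact hU, ?_⟩
    rintro _ ⟨z, hz, rfl⟩
    show Qb (e z) = 0
    rw [he]; exact h0 z hz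
  · rintro ⟨U, hU, h0⟩
    refine ⟨U.map (e.symm : Vb →ₗ[F] Va), by rw [LinearEquiv.finrank_map_eq]; exact hU, ?_⟩
    rintro _ ⟨z, hz, rfl⟩
    show Qa (e.symm z) = 0
    rw [he']; exact h0 z hz

end Cfsg.Agent.Helper63.S88OE
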