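import Mathlib
import Cfsg.Agent.Helper43.OrthEven

set_option autoImplicit false

/-!
# Sub-CALL S88OE (helper43) of CALL S88 (row S5988): piece PSND (helper63)
-/

namespace Cfsg.Agent.Helper63.S88OE

open Module Cfsg.Agent.Helper43 Cfsg.Agent.Helper43.OrthEven

variable {F : Type*} [Field F] {Va Vb : Type*} [AddCommGroup Va] [Module F Va] [AddCommGroup Vb]
  [Module F Vb]

theorem psnd63_polar_prod (Qa : QuadraticForm F Va) (Qb : QuadraticForm F Vb)
    (Ua : Submodule F Va) (Ub : Submodule F Vb) (v w : ↥(Ua.prod Ub)) :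
    QuadraticMap.polar ((Qa.prod Qb).comp (Ua.prod Ub).subtype) v w =
      QuadraticMap.polar Qa (v : Va × Vb).1 (w : Va × Vb).1 +
        QuadraticMap.polar Qb (v : Va × Vb).2 (w : Va × Vb).2 := by
  simp only [QuadraticMap.polar, QuadraticMap.comp_apply, QuadraticMap.prod_apply, map_add,
    Submodule.subtype_apply, Prod.fst_add, Prod.snd_add]
  ring

theorem psnd63_polar_sub (Qa : QuadraticForm F Va) (Ua : Submodule F Va) (v w : Ua) :
    QuadraticMap.polar (Qa.comp Ua.subtype) v w = QuadraticMap.polar Qa (v : Va) (w : Va) := by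
  simp only [QuadraticMap.polar, QuadraticMap.comp_apply, map_add, Submodule.subtype_apply]

/-- PSND [S-M, generic]: a product subspace is nondegenerate iff both factors are.  (The polar form
of `Qa.prod Qb` on `(a, b), (a', b')` is `polar Qa a a' + polar Qb b b'`; test against `(a', 0)`
and `(0, b')`.) -/
theorem oe_prod_sub_nd (Qa : QuadraticForm F Va) (Qb : QuadraticForm F Vb) (Ua : Submodule F Va)
    (Ub : Submodule F Vb) :
    PolarNondeg ((Qa.prod Qb).comp (Ua.prod Ub).subtype) ↔
      PolarNondeg (Qa.comp Ua.subtype) ∧ PolarNondeg (Qb.comp Ub.subtype) := by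
  constructor
  · intro h
    refine ⟨?_, ?_⟩
    · intro v hv
      have h0 := h ⟨((v : Va), 0), ⟨v.2, Ub.zero_mem⟩⟩ (fun w => by
        rw [psnd63_polar_prod]
        have h1 := hv ⟨(w : Va × Vb).1, w.2.1⟩
        rw [psnd63_polar_sub] at h1
        show QuadraticMap.polar Qa (v : Va) (w : Va × Vb).1 +
          QuadraticMap.polar Qb 0 (w : Va × Vb).2 = 0
        rw [QuadraticMap.polar_zero_left, add_zero]
        exact h1)
      have h2 := congrArg (fun x : ↥(Ua.prod Ub) => (x : Va × Vb).1) h0
      exact Subtype.ext h2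
    · intro v hv
      have h0 := h ⟨(0, (v : Vb)), ⟨Ua.zero_mem, v.2⟩⟩ (fun w => by
        rw [psnd63_polar_prod]
        have h1 := hv ⟨(w : Va × Vb).2, w.2.2⟩
        rw [psnd63_polar_sub] at h1
        show QuadraticMap.polar Qa 0 (w : Va × Vb).1 +
          QuadraticMap.polar Qb (v : Vb) (w : Va × Vb).2 = 0
        rw [QuadraticMap.polar_zero_left, zero_add]
        exact h1)
      have h2 := congrArg (fun x : ↥(Ua.prod Ub) => (x : Va × Vb).2) h0
      exact Subtype.ext h2
  · rintro ⟨ha, hb⟩ v hv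
    have h1 : (⟨(v : Va × Vb).1, v.2.1⟩ : Ua) = 0 := ha _ (fun w => by
      rw [psnd63_polar_sub]
      have h := hv ⟨((w : Va), 0), ⟨w.2, Ub.zero_mem⟩⟩
      rw [psnd63_polar_prod] at h
      have h' : QuadraticMap.polar Qa (v : Va × Vb).1 (w : Va) +
          QuadraticMap.polar Qb (v : Va × Vb).2 0 = 0 := h
      rw [QuadraticMap.polar_zero_right, add_zero] at h'
      exact h')
    have h2 : (⟨(v : Va × Vb).2, v.2.2⟩ : Ub) = 0 := hb _ (fun w => by
      rw [psnd63_polar_sub]
      have h := hv ⟨(0, (w : Vb)), ⟨Ua.zero_mem, w.2⟩⟩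
      rw [psnd63_polar_prod] at h
      have h' : QuadraticMap.polar Qa (v : Va × Vb).1 0 +
          QuadraticMap.polar Qb (v : Va × Vb).2 (w : Vb) = 0 := h
      rw [QuadraticMap.polar_zero_right, zero_add] at h'
      exact h')
    apply Subtype.ext
    apply Prod.ext
    · exact congrArg Subtype.val h1
    · exact congrArg Subtype.val h2

end Cfsg.Agent.Helper63.S88OE
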